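/-
Involutions whose centralizer is a double cover of an alternating group: the centralizer of a
three-cycle in small degree.
-/
import Cfsg.Agent.Lib.AnCov

set_option autoImplicit false
set_option linter.unusedSectionVars false

namespace Cfsg.Agent.Lib.AnCov

open Subgroup hiding card_le_of_le
open Equiv Equiv.Perm Cfsg.Agent.Lib.BsDefs Cfsg.Agent.Lib.PCoreConj Cfsg.Agent.Lib.PCore
  Cfsg.Agent.Lib.PCoreResidual Cfsg.Agent.Lib.FTDefs Cfsg.Agent.Lib.AltPres Cfsg.Agent.Lib.Bs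

variable {G : Type*} [Group G] {α : Type*} [Fintype α] [DecidableEq α]

section perm

variable {B : Subgroup (Perm α)} {k : ℕ} {τ u : Perm α} {p a b c : α}

theorem nd3 : [a, b, c].Nodup ↔ a ≠ b ∧ a ≠ c ∧ b ≠ c := by simp [and_assoc]

theorem nd4 {d : α} : [a, b, c, d].Nodup ↔ a ≠ b ∧ a ≠ c ∧ a ≠ d ∧ b ≠ c ∧ b ≠ d ∧ c ≠ d := by
  simp [and_assoc]

theorem orb {j : ℕ} (hU : Nat.card B = 3 ^ k) (p : α) (Z : Finset α) (hZ : ∀ u ∈ B, u p ∈ Z)
    (h : Z.card < 3 ^ (j + 1)) :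
    Nat.card B ≤ 3 ^ j * Nat.card ↥(B ⊓ MulAction.stabilizer (Perm α) p) := by
  have h1 := card_mul_relIndex (inf_le_left : B ⊓ MulAction.stabilizer (Perm α) p ≤ B)
  have h2 : (B ⊓ MulAction.stabilizer (Perm α) p).relIndex B ≤ Z.card := by
    rw [inf_relIndex_left, show (MulAction.stabilizer (Perm α) p).relIndex B =
      (MulAction.stabilizer B p).index from rfl, MulAction.index_stabilizer, ← Set.ncard_coe_finset]
    exact Set.ncard_le_ncard (by rintro _ ⟨u, rfl⟩; exact hZ u u.2)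
  obtain ⟨i, -, hi⟩ := (Nat.dvd_prime_pow Nat.prime_three).1 (hU ▸ Dvd.intro_left _ h1)
  rw [← h1, mul_comm, hi]
  exact Nat.mul_le_mul_right _ (Nat.pow_le_pow_right (by norm_num) (Nat.lt_succ_iff.1
    ((Nat.pow_lt_pow_iff_right (by norm_num : 1 < 3)).1 ((hi ▸ h2).trans_lt h))))

theorem zone (hB : Odd (Nat.card B)) (hτ : ∀ u ∈ B, τ * u * τ = u⁻¹) (hs : τ * τ = 1)
    (Z : Finset α) (h1 : ∀ u ∈ B, ∀ q ∈ Z, u q ∈ Z) (h2 : ∀ q ∈ Z, τ q ∈ Z) (hu : u ∈ B)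
    (hp : p ∈ Z) (hm : u p ≠ p) : 3 ≤ Z.card ∧ (6 ≤ Z.card ∨ ∃ q ∈ Z, τ q = q) := by
  have s2 := app2 hs
  have e1 : u (u p) ≠ p := fun e =>
    hm (mem_of_sq (N := MulAction.stabilizer (Perm α) p) (odd_order hB hu) e)
  have ui := u.injective
  have ti := τ.injective
  have k0 : ∀ a ∈ B, ∀ q, τ (a q) = a⁻¹ (τ q) := fun a ha q => by
    rw [← hτ a ha, mul_apply, mul_apply, s2]
  have m1 := h1 u hu p hp
  have m2 := h1 u hu _ m1
  have cnt : ∀ l : List α, l.Nodup → (∀ x ∈ l, x ∈ Z) → l.length ≤ Z.card := fun l h h' =>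
    (List.toFinset_card_of_nodup h).symm.trans_le
      (Finset.card_le_card fun x hx => h' x (List.mem_toFinset.1 hx))
  refine ⟨cnt [p, u p, u (u p)] (by grind) (by grind), or_iff_not_imp_right.2 fun e => ?_⟩
  have k1 : ∀ a ∈ B, ∀ b ∈ B, τ (a p) ≠ b p := fun a ha b hb e' => by
    obtain ⟨w, hw, ew⟩ := exists_sqrt (odd_order hB (mul_mem ha hb))
    have hw' : w ∈ B := zpowers_le.2 (mul_mem ha hb) hw
    refine e ⟨w p, h1 w hw' p hp, ?_⟩
    rw [k0 a ha, inv_eq_iff_eq, ← mul_apply, ← ew] at e'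
    rw [k0 w hw', e', mul_apply, inv_eq_iff_eq]
  have n1 := k1 1 (one_mem _) 1 (one_mem _)
  have n2 := k1 1 (one_mem _) u hu
  have n3 := k1 1 (one_mem _) _ (mul_mem hu hu)
  have n4 := k1 u hu u hu
  have n5 := k1 u hu _ (mul_mem hu hu)
  have n6 := k1 _ (mul_mem hu hu) _ (mul_mem hu hu)
  simp only [one_apply, mul_apply] at n1 n2 n3 n4 n5 n6
  refine cnt [p, u p, u (u p), τ p, τ (u p), τ (u (u p))] ?_ (by simp [hp, m1, m2, h2])
  simp only [List.nodup_cons, List.mem_cons, List.not_mem_nil, or_false, not_or]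
  grind

theorem ex_moved (h : 1 < Nat.card B) : ∃ u ∈ B, ∃ p, u p ≠ p := by
  haveI := Finite.one_lt_card_iff_nontrivial.1 h
  obtain ⟨⟨u, hu⟩, h1⟩ := exists_ne (1 : B)
  refine ⟨u, hu, by_contra fun e => h1 (Subtype.ext (Equiv.ext fun q => ?_))⟩
  exact by_contra fun e' => e ⟨q, e'⟩

theorem inv9 (hB : Nat.card B = 3 ^ k) (hτ : ∀ u ∈ B, τ * u * τ = u⁻¹) (hs : τ * τ = 1)
    (h10 : Fintype.card α ≤ 10)
    (hf : ∀ a b c, [a, b, c].Nodup → τ a = a → τ b = b → τ c = c → False) : Nat.card B ≤ 9 := by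
  by_contra h9
  have h27 : 27 ≤ Nat.card B := by
    rw [hB] at h9 ⊢
    exact Nat.pow_le_pow_right (n := 3) (i := 3) (by norm_num) (by
      by_contra e
      exact h9 (Nat.pow_le_pow_right (n := 3) (j := 2) (by norm_num) (by omega)))
  have od : Odd (Nat.card B) := hB ▸ Odd.pow (by decide)
  have s2 := app2 hs
  have ti : τ⁻¹ = τ := inv_eq_of_mul_eq_one_right hs
  have cm : ∀ u ∈ B, ∀ v ∈ B, ∀ q, u (v q) = v (u q) := fun u hu v hv q => by
    rw [← mul_apply, CoprimeInvert.commute_of_inverts (z := τ) (fun k hk => ti.symm ▸ hτ k hk) hu hv,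
      mul_apply]
  have f1 : ∀ u ∈ B, ∀ v ∈ B, ∀ q, u (v q) = v q ↔ u q = q := fun u hu v hv q => by
    rw [cm u hu v hv, v.apply_eq_iff_eq]
  have f2 : ∀ u ∈ B, ∀ q, u (τ q) = τ q ↔ u q = q := fun u hu q => by
    rw [← τ.apply_eq_iff_eq, s2, ← mul_apply, ← mul_apply, hτ u hu, inv_eq_iff_eq, eq_comm]
  have zn := fun (P : α → Prop) [DecidablePred P] (a : ∀ u ∈ B, ∀ q, P q → P (u q))
    (b : ∀ q, P q → P (τ q)) u (hu : u ∈ B) p (hp : P p) (hm : u p ≠ p) =>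
    zone od hτ hs (Finset.univ.filter P) (by simpa using a) (by simpa using b) hu (by simpa using hp) hm
  have sp := fun (P : α → Prop) [DecidablePred P] =>
    Finset.card_filter_add_card_filter_not (s := Finset.univ) P
  simp only [Finset.card_univ] at sp
  obtain ⟨u1, hu1, p1, m1⟩ := ex_moved (B := B) (by omega)
  have o1 := orb (j := 2) hB p1 Finset.univ (fun _ _ => Finset.mem_univ _) (by
    rw [Finset.card_univ]; omega)
  obtain ⟨u2, ⟨hu2, a2⟩, p2, m2⟩ := ex_moved (B := B ⊓ MulAction.stabilizer (Perm α) p1) (by omega)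
  replace a2 : u2 p1 = p1 := a2
  have z1 := (zn (fun q => u2 q = q) (fun u hu q => (f1 _ hu2 u hu q).2) (fun q => (f2 _ hu2 q).2)
    u1 hu1 p1 a2 m1).1
  have z2 := (zn (fun q => ¬ u2 q = q) (fun u hu q => mt (f1 _ hu2 u hu q).1)
    (fun q => mt (f2 _ hu2 q).1) u2 hu2 p2 m2 m2).1
  have s1 := sp fun q => u2 q = q
  have o2 := orb (j := 1) hB p1 (Finset.univ.filter fun q => u2 q = q)
    (fun u hu => by simpa using (f1 _ hu2 u hu p1).2 a2) (by omega)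
  obtain ⟨i, -, hi⟩ := (Nat.dvd_prime_pow Nat.prime_three).1
    (hB ▸ card_dvd_of_le (inf_le_left : B ⊓ MulAction.stabilizer (Perm α) p1 ≤ B))
  have o3 := orb (j := 1) hi p2 (Finset.univ.filter fun q => ¬ u2 q = q)
    (fun u hu => by simpa using mt (f1 _ hu2 u hu.1 p2).1 m2) (by omega)
  obtain ⟨u3, ⟨⟨hu3, a3⟩, a4⟩, p3, m3⟩ := ex_moved
    (B := B ⊓ MulAction.stabilizer (Perm α) p1 ⊓ MulAction.stabilizer (Perm α) p2) (by omega)
  have y1 := zn (fun q => u3 q = q ∧ u2 q = q)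
    (fun u hu q h => ⟨(f1 _ hu3 u hu q).2 h.1, (f1 _ hu2 u hu q).2 h.2⟩)
    (fun q h => ⟨(f2 _ hu3 q).2 h.1, (f2 _ hu2 q).2 h.2⟩) u1 hu1 p1 ⟨a3, a2⟩ m1
  have y2 := zn (fun q => u3 q = q ∧ ¬ u2 q = q)
    (fun u hu q h => ⟨(f1 _ hu3 u hu q).2 h.1, mt (f1 _ hu2 u hu q).1 h.2⟩)
    (fun q h => ⟨(f2 _ hu3 q).2 h.1, mt (f2 _ hu2 q).1 h.2⟩) u2 hu2 p2 ⟨a4, m2⟩ m2
  have y3 := zn (fun q => ¬ u3 q = q) (fun u hu q => mt (f1 _ hu3 u hu q).1)
    (fun q => mt (f2 _ hu3 q).1) u3 hu3 p3 m3 m3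
  have s3 := sp fun q => u3 q = q
  have s4 := Finset.card_filter_add_card_filter_not (s := Finset.univ.filter fun q => u3 q = q)
    fun q => u2 q = q
  rw [Finset.filter_filter, Finset.filter_filter] at s4
  obtain ⟨q1, b1, c1⟩ := y1.2.resolve_left (by omega)
  obtain ⟨q2, b2, c2⟩ := y2.2.resolve_left (by omega)
  obtain ⟨q3, b3, c3⟩ := y3.2.resolve_left (by omega)
  simp only [Finset.mem_filter, Finset.mem_univ, true_and] at b1 b2 b3
  exact hf q1 q2 q3 (nd3.2 ⟨fun e => b2.2 (e ▸ b1.2), fun e => b3 (e ▸ b1.1),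
    fun e => b3 (e ▸ b2.1)⟩) c1 c2 c3

theorem cyc_cases (hn : [a, b, c].Nodup) (h : τ * cyc a b c = cyc a b c * τ) :
    (τ a = a ∧ τ b = b ∧ τ c = c) ∨ (τ a = c ∧ τ b = a ∧ τ c = b) ∨ τ a = b ∧ τ b = c ∧ τ c = a := by
  have d := nd3.1 hn
  have e1 := cyc_apply_left d.2.1 d.2.2
  have e2 := cyc_apply_mid d.1 d.2.2
  have e3 := cyc_apply_right a b c
  have c1 := congrArg (· a) h
  have c2 := congrArg (· b) h
  have c3 := congrArg (· c) h
  simp only [mul_apply, e1, e2, e3] at c1 c2 c3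
  by_cases h1 : τ a = a
  · grind
  by_cases h2 : τ a = b
  · grind
  by_cases h3 : τ a = c
  · grind
  rw [cyc_apply_of_ne h1 h2 h3] at c1
  exact absurd (τ.injective c1) d.2.1.symm

end perm

section pure

variable [Finite G] {z u x y : G}

theorem not_four (hz : Invol z) (hu : z ∈ c[u])
    (h : ∀ t ∈ c[u], t * t = 1 → t * z = z * t → t = 1 ∨ t = z) : ¬ Four c[u] := by
  rintro ⟨a, ha, b, hb, ia, ib, ne, e⟩
  obtain ⟨T, hT, zT⟩ := exists_isSylowIn_ge (zpowers_le.2 hu) (two_group_zpowers hz)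
  replace zT := zpowers_le.1 zT
  obtain ⟨g, hg, h1⟩ := hT.exists_conj_le (V4_le ia ib e ha hb) (V4_two ia ib e)
  obtain ⟨s, ⟨s1, s2⟩, is⟩ := exists_invol (X := T ⊓ C[T]) fun o => center_ne_bot_of_nil
    (nil_of_isPGroup Nat.prime_two hT.isPGroup) (ne_bot_of_mem zT hz.ne) (by
      obtain ⟨k, hk⟩ := IsPGroup.iff_card.1 (hT.isPGroup.to_inf_left (K := C[T]))
      rw [hk] at o
      cases k with
      | zero => exact card_eq_one.1 hk
      | succ k => exact absurd o (Nat.not_odd_iff_even.2 (Nat.even_pow.2 ⟨even_two, by omega⟩)))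
  obtain rfl := (h s (hT.le s1) is.sq (mem_cent_iff.1 s2 z zT).symm).resolve_left is.ne
  have k : ∀ t ∈ V4 ia ib e, Invol t → g * t * g⁻¹ = s := fun t ht it =>
    have m := h1 (conj_mem_conj g ht)
    (h _ (hT.le m) (iconj it g).sq (mem_cent_iff.1 s2 _ m)).resolve_left (iconj it g).ne
  exact ne (by simpa using (k a (by simp [V4]) ia).trans (k b (by simp [V4]) ib).symm)

theorem syl {p : ℕ} {O : Subgroup G} (hp : p.Prime) (hO : Odd (Nat.card O)) (hz : Invol z)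
    (zO : z ∈ N[O]) (hc : O ⊓ c[z] ≤ C[O]) : ∃ S, IsSylowIn p S O ∧
      (∀ D ≤ O, IsPGroup p D → z ∈ N[D] → D ≤ S) ∧ ∀ g ∈ N[O], g * z = z * g → g ∈ N[S] := by
  obtain ⟨S, hS, zS⟩ := exists_inv_sylow0 hp hO hz zO
  have k : ∀ D ≤ O, IsPGroup p D → z ∈ N[D] → D ≤ S := fun D h1 h2 h3 => by
    obtain ⟨w, hw, h4⟩ := exists_conj_le_inv hp hO hz zO hS zS h1 h2 h3
    rwa [conj_eq_of_mem_centralizer (centralizer_anti h1 (hc hw))] at h4
  refine ⟨S, hS, k, fun g hg e => mem_normalizer_of_conj_le (k _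
    (hS.conj_of_mem_normalizer hg).le (hS.conj g).isPGroup ?_)⟩
  have := mem_norm_conj zS g
  rwa [e, mul_inv_cancel_right] at this

theorem card_le3 {S : Subgroup G} (hS : Odd (Nat.card S)) (hz : Invol z) (hy : Invol y) (ne : z ≠ y)
    (e : z * y = y * z) (zS : z ∈ N[S]) (yS : y ∈ N[S]) (hc : S ⊓ c[z] ≤ C[S]) :
    Nat.card S ≤ Nat.card ↥(S ⊓ c[z]) * (Nat.card ↥(S ⊓ c[y]) * Nat.card ↥(S ⊓ c[z * y])) := by
  have k1 : ∀ s ∈ S, z * s * z * s ∈ S ⊓ c[z] := fun s hs => by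
    obtain ⟨k, hk, w, hw, rfl⟩ := decomp hS hz zS hs
    have : z * (k * w) * z * (k * w) = w * w := by
      calc _ = z * k * (w * z) * (k * w) := by group
        _ = z * k * z * (w * k) * w := by rw [mem_cent1.1 hw.2]; group
        _ = _ := by rw [hk.2, ← mem_cent_iff.1 (hc hw) k hk.1]; group
    exact this ▸ mul_mem hw hw
  have k2 : ∀ s ∈ S, ∀ t ∈ S, s⁻¹ * t⁻¹ * s * t ∈ S ⊓ c[z] := fun s hs t ht => by
    have a := k1 s hs
    have b := k1 t ht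
    have := mul_mem (inv_mem (mul_mem a b)) (k1 _ (mul_mem hs ht))
    convert this using 1
    rw [eq_inv_mul_iff_mul_eq]
    calc _ = z * s * z * (s * (z * t * z * t)) * (s⁻¹ * t⁻¹ * s * t) := by group
      _ = z * s * (z * z) * t * z * (s * t) := by rw [mem_cent_iff.1 (hc b) s hs]; group
      _ = _ := by rw [hz.sq]; group
  have k3 : ∀ D ≤ S, S ⊓ c[z] ≤ D → S ≤ N[D] := fun D h1 h2 s hs =>
    mem_normalizer_of_conj_le (conj_le_iff.2 fun d hd => by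
      have := mul_mem (h2 (k2 _ (inv_mem hs) _ (inv_mem (h1 hd)))) hd
      simpa using this)
  have c1 : ∀ D ≤ S, Nat.card ↥(D ⊔ S ⊓ c[z]) ≤ Nat.card D * Nat.card ↥(S ⊓ c[z]) := fun D h =>
    (Nat.le_mul_of_pos_right _ Nat.card_pos).trans_eq
      (card_sup_mul_card_inf (h.trans (k3 _ inf_le_left le_rfl)))
  have c2 := card_sup_mul_card_inf (H := S ⊓ c[y] ⊔ S ⊓ c[z]) (N := S ⊓ c[z * y] ⊔ S ⊓ c[z])
    ((sup_le inf_le_left inf_le_left).trans (k3 _ (sup_le inf_le_left inf_le_left) le_sup_right))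
  have c3 := Subgroup.card_le_of_le (le_of_four (H := (S ⊓ c[y] ⊔ S ⊓ c[z]) ⊔
    (S ⊓ c[z * y] ⊔ S ⊓ c[z])) hS hz hy ne e zS yS (le_sup_of_le_left le_sup_right)
    (le_sup_of_le_left le_sup_left) (le_sup_of_le_right le_sup_left))
  have c4 := Subgroup.card_le_of_le (le_inf le_sup_right le_sup_right :
    S ⊓ c[z] ≤ (S ⊓ c[y] ⊔ S ⊓ c[z]) ⊓ (S ⊓ c[z * y] ⊔ S ⊓ c[z]))
  have c5 := (Nat.mul_le_mul c3 c4).trans (c2.trans_le
    (Nat.mul_le_mul (c1 _ inf_le_left) (c1 _ inf_le_left)))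
  refine Nat.le_of_mul_le_mul_right (c5.trans_eq (by ring)) Nat.card_pos

theorem le_cent_of_mod {p r m : ℕ} {S : Subgroup G} (hp : p.Prime) (hr : r.Prime) (hx : x ^ r = 1)
    (xS : x ∈ N[S]) (hS : IsPGroup p S) (hm : Nat.card S < p ^ m)
    (h : ∀ j < m, ∀ i < j, p ^ j % r ≠ p ^ i % r) : S ≤ c[x] := by
  haveI := Fact.mk hp
  have := card_modEq_card_cent hr (isPGroup_zpowers (k := 1) (by rwa [pow_one])) (zpowers_le.2 xS)
  obtain ⟨j, hj⟩ := IsPGroup.iff_card.1 hS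
  obtain ⟨i, hi, hi'⟩ := (Nat.dvd_prime_pow hp).1
    (hj ▸ card_dvd_of_le (inf_le_left : S ⊓ C[zpowers x] ≤ S))
  rw [hj, hi'] at this
  rcases hi.lt_or_eq with e | rfl
  · exact absurd this (h j ((Nat.pow_lt_pow_iff_right hp.one_lt).1 (hj ▸ hm)) i e)
  · exact (eq_of_le_of_card_eq inf_le_left (hi'.trans hj.symm)).ge.trans
      (inf_le_right.trans (cent_le_cent1 (mem_zpowers x)))

end pure

namespace Cov

variable [Finite G] {z g t x y : G} {L : G → Perm α → Prop} {a b c : α} {B : Subgroup G}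
  (C : Cov z L)
include C

theorem img (h1 : B ≤ c[z]) (h2 : z ∉ B) : ∃ B' : Subgroup (Perm α), Nat.card B' = Nat.card B ∧
    ∀ σ, σ ∈ B' ↔ ∃ g ∈ B, L g σ := by
  refine ⟨⟨⟨⟨{σ | ∃ g ∈ B, L g σ}, fun ⟨g, a, b⟩ ⟨h, c, d⟩ => ⟨_, mul_mem a c, C.mul b d⟩⟩,
    1, one_mem _, C.one⟩, fun ⟨g, a, b⟩ => ⟨_, inv_mem a, C.linv b⟩⟩, ?_, fun _ => Iff.rfl⟩
  refine Nat.card_congr (Equiv.ofBijective (fun σ => ⟨σ.2.choose, σ.2.choose_spec.1⟩)
    ⟨fun σ τ e => Subtype.ext (C.uniq σ.2.choose_spec.2 (by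
      rw [show σ.2.choose = τ.2.choose from congrArg Subtype.val e]
      exact τ.2.choose_spec.2)), fun g => ?_⟩)
  obtain ⟨σ, hσ⟩ := C.tot (mem_cent1.1 (h1 g.2))
  have h : ∃ g ∈ B, L g σ := ⟨g, g.2, hσ⟩
  refine ⟨⟨σ, h⟩, Subtype.ext ((C.eq_or h.choose_spec.2 hσ).resolve_right fun e => h2 ?_)⟩
  exact (mul_mem_cancel_right g.2).1 (e ▸ h.choose_spec.1)

theorem bound {p : ℕ} (h10 : Fintype.card α ≤ 10) (ht : Invol t) (h1 : t * z = z * t) (ne : t ≠ z)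
    (hB : B ≤ c[z]) (od : Odd (Nat.card B)) (hi : ∀ k ∈ B, t * k * t = k⁻¹) :
    Nat.card B ∣ Nat.factorial 10 ∧ (IsPGroup 3 B → Nat.card B ≤ 9) := by
  obtain ⟨B', e, hB'⟩ := C.img hB (not_mem_of_odd od C.inv)
  rw [← e]
  refine ⟨(card_subgroup_dvd_card B').trans ?_, fun h3 => ?_⟩
  · rw [Nat.card_perm, Nat.card_eq_fintype_card]
    exact Nat.factorial_dvd_factorial h10
  obtain ⟨k, hk⟩ := IsPGroup.iff_card.1 h3
  obtain ⟨τ, hτ⟩ := C.tot h1
  refine inv9 (τ := τ) (e.trans hk) (fun u hu => ?_) (C.sq_one hτ ht.sq) h10 fun a b c hn ha hb hc =>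
    (C.eq_one_of hτ ht.sq (l := [a, b, c]) (by simp only [List.length]; omega) hn
      (by grind)).elim ht.ne ne
  obtain ⟨g, hg, hu⟩ := (hB' u).1 hu
  exact C.uniq (C.mul (C.mul hτ hu) hτ) (hi g hg ▸ C.linv hu)

variable (hn : [a, b, c].Nodup) (hx : L x (cyc a b c)) (x3 : x ^ 3 = 1)
include hn hx

theorem only3 (h10 : Fintype.card α ≤ 10) : ∀ t ∈ c[x], t * t = 1 → t * z = z * t → t = 1 ∨ t = z :=
  fun t ht h2 h1 => by
  obtain ⟨τ, hτ⟩ := C.tot h1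
  have s := app2 (C.sq_one hτ h2)
  have := cyc_cases hn (C.comm_of hτ hx (mem_cent1.1 ht))
  exact C.eq_one_of hτ h2 (l := [a, b, c]) (by simp only [List.length]; omega) hn (by grind)

include x3

theorem core3 (h8 : 8 ≤ Fintype.card α) : pPrimeCoreOf 2 c[x] ⊓ c[z] ≤ zpowers x := by
  have d := nd3.1 hn
  have od := odd_core c[x]
  have xO : zpowers x ≤ pPrimeCoreOf 2 c[x] := le_pPrimeCoreOf (zpowers_le.2 (mem_cent1.2 rfl))
    ((centralizer_zpowers_eq x).ge.trans (centralizer_le_normalizer _)) (by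
      rw [Nat.card_zpowers]
      exact Nat.Coprime.coprime_dvd_left (orderOf_dvd_of_pow_eq_one x3) (by norm_num))
  let P : α → Prop := fun q => q ∉ [a, b, c]
  let N : Subgroup (alternatingGroup {q // P q}) :=
    ⟨⟨⟨{s | ∃ g ∈ pPrimeCoreOf 2 c[x], L g (ofSubtype s.1)}, by
      rintro _ _ ⟨g, a, b⟩ ⟨h, c, d⟩
      exact ⟨_, mul_mem a c, by simpa using C.mul b d⟩⟩, 1, one_mem _, by simpa using C.one⟩, by
      rintro _ ⟨g, a, b⟩
      exact ⟨_, inv_mem a, by simpa using C.linv b⟩⟩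
  have fx : ∀ (s : Perm {q // P q}), ∀ q ∈ [a, b, c], ofSubtype s q = q := fun s q hq =>
    ofSubtype_apply_of_not_mem s (not_not.2 hq)
  haveI : N.Normal := ⟨by
    rintro s ⟨g, hg, hs⟩ r
    obtain ⟨k, hk⟩ := C.surj ((sign_ofSubtype r.1).trans (mem_alternatingGroup.1 r.2))
    refine ⟨_, conj_mem_of_norm (le_normalizer_pPrimeCoreOf 2 _ (mem_cent1.2 (C.comm_odd (by decide)
      hk hx x3 (comm_cyc (fx _ _ (by simp)) (fx _ _ (by simp)) (fx _ _ (by simp)))))) hg, ?_⟩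
    simpa using C.conj hk hs⟩
  have c5 : 5 ≤ Fintype.card {q // P q} := by
    have := Fintype.card_subtype_compl (fun q => q ∈ [a, b, c])
    have h3 : Fintype.card {q // q ∈ [a, b, c]} ≤ 3 := by
      rw [Fintype.card_subtype]
      exact (Finset.card_le_card fun q hq => List.mem_toFinset.2 (by simpa using hq)).trans
        (List.toFinset_card_le [a, b, c])
    exact (by omega : 5 ≤ Fintype.card α - Fintype.card {q // q ∈ [a, b, c]}).trans_eq this.symm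
  haveI := alternatingGroup.isSimpleGroup (α := {q // P q}) (by rwa [Nat.card_eq_fintype_card])
  have hN : N = ⊥ := (IsSimpleGroup.eq_bot_or_eq_top_of_normal N inferInstance).resolve_right
    fun e => by
    rw [← Finset.card_univ] at c5
    obtain ⟨p, -, -⟩ := ex_notin (α := {q // P q}) Finset.univ [] (by simp only [List.length]; omega)
    obtain ⟨q, -, hq⟩ := ex_notin Finset.univ [p] (by simp only [List.length]; omega)
    obtain ⟨r, -, hr⟩ := ex_notin Finset.univ [p, q] (by simp only [List.length]; omega)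
    obtain ⟨s, -, hs⟩ := ex_notin Finset.univ [p, q, r] (by simp only [List.length]; omega)
    have n4 : [p, q, r, s].Nodup := nd4.2 (by simp at hq hr hs; grind)
    obtain ⟨g, hg, h⟩ : (⟨_, mem_alternatingGroup.2 (sign_dt n4)⟩ : alternatingGroup _) ∈ N :=
      e ▸ mem_top _
    rw [map_mul, ofSubtype_swap_eq, ofSubtype_swap_eq] at h
    exact not_mem_of_odd od C.inv (C.sq (n4.map Subtype.val_injective) h ▸ mul_mem hg hg)
  have key : ∀ g ∈ pPrimeCoreOf 2 c[x], ∀ σ, L g σ → σ a = a → σ b = b → σ c = c → g = 1 :=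
    fun g hg σ hσ ha hb hc => by
    have si := σ.injective
    have h1 : ∀ q, P (σ q) ↔ P q := fun q => by simp only [P]; grind
    have h2 : ∀ q, σ q ≠ q → P q := fun q => by simp only [P]; grind
    have : (⟨σ.subtypePerm h1, mem_alternatingGroup.2
        ((sign_subtypePerm σ h1 h2).trans (C.even hσ))⟩ : alternatingGroup _) ∈ N :=
      ⟨g, hg, (ofSubtype_subtypePerm h1 h2).symm ▸ hσ⟩
    rw [hN, mem_bot, Subtype.ext_iff] at this
    rw [← ofSubtype_subtypePerm h1 h2, show σ.subtypePerm h1 = 1 from this, map_one] at hσ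
    exact (C.ker hσ).resolve_right fun e => not_mem_of_odd od C.inv (e ▸ hg)
  rintro g ⟨hg, h1⟩
  obtain ⟨σ, hσ⟩ := C.tot (mem_cent1.1 h1)
  have e1 := cyc_apply_left d.2.1 d.2.2
  have e2 := cyc_apply_mid d.1 d.2.2
  have e3 := cyc_apply_right a b c
  have m := xO (mem_zpowers x)
  rcases cyc_cases hn (C.comm_of hσ hx (mem_cent1.1 (pPrimeCoreOf_le _ _ hg))) with h | h | h
  · exact key g hg σ hσ h.1 h.2.1 h.2.2 ▸ one_mem _
  · exact (mul_mem_cancel_left (mul_mem (mem_zpowers x) (mem_zpowers x))).1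
      (key _ (mul_mem (mul_mem m m) hg) _ (C.mul (C.mul hx hx) hσ)
      (by simp [*]) (by simp [*]) (by simp [*]) ▸ one_mem _)
  · exact (mul_mem_cancel_left (mem_zpowers x)).1 (key _ (mul_mem m hg) _ (C.mul hx hσ)
      (by simp [*]) (by simp [*]) (by simp [*]) ▸ one_mem _)

theorem core_cent (h8 : 8 ≤ Fintype.card α) :
    pPrimeCoreOf 2 c[x] ⊓ c[z] ≤ C[pPrimeCoreOf 2 c[x]] :=
  (C.core3 hn hx x3 h8).trans (zpowers_le.2 (le_cent1_iff.1 (pPrimeCoreOf_le _ _)))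

theorem sylB {p : ℕ} (hp : p.Prime) (h8 : 8 ≤ Fintype.card α) (h10 : Fintype.card α ≤ 10)
    (hy : Invol y) (h1 : y * z = z * y) (ne : y ≠ z) (c1 : IsConj z y) (c2 : IsConj z (z * y))
    (hi : y * x * y = x⁻¹) : ∃ S, IsSylowIn p S (pPrimeCoreOf 2 c[x]) ∧
      (∀ D ≤ pPrimeCoreOf 2 c[x], IsPGroup p D → z ∈ N[D] → D ≤ S) ∧
      (∀ g ∈ N[pPrimeCoreOf 2 c[x]], g * z = z * g → g ∈ N[S]) ∧ (p = 3 → Nat.card S ≤ 243) ∧
      (p ≠ 3 → ∃ i j, Nat.card S ≤ p ^ i * p ^ j ∧ p ^ i ∣ Nat.factorial 10 ∧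
        p ^ j ∣ Nat.factorial 10) := by
  haveI := Fact.mk hp
  have od := odd_core c[x]
  have zx : z ∈ c[x] := mem_cent1.2 (C.mem hx).symm
  have zO := le_normalizer_pPrimeCoreOf 2 _ zx
  obtain ⟨S, hS, s1, s2⟩ := syl hp od C.inv zO (C.core_cent hn hx x3 h8)
  have oS : Odd (Nat.card S) := od.of_dvd_nat (card_dvd_of_le hS.le)
  have zS := s2 z zO rfl
  have le := (inf_le_inf_right _ hS.le).trans (C.core3 hn hx x3 h8)
  have key : ∀ v, Invol v → v * z = z * v → v ≠ z → IsConj z v → v * x * v = x⁻¹ →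
      Nat.card ↥(S ⊓ c[v]) ∣ Nat.factorial 10 ∧ (p = 3 → Nat.card ↥(S ⊓ c[v]) ≤ 9) :=
    fun v hv e ne c hi => by
    obtain ⟨u, rfl⟩ := isConj_iff.1 c
    have oB : Odd (Nat.card ↥(S ⊓ c[u * z * u⁻¹])) := oS.of_dvd_nat (card_dvd_of_le inf_le_left)
    have := (C.gconj u).bound (p := p) h10 C.inv e.symm ne.symm inf_le_right oB fun k hk => by
      have := CoprimeInvert.inverts_of_inf_centralizer_eq_bot (mem_norm_inf zS
        (mem_norm_cent1 e.symm)) (by rw [pow_two, C.inv.sq]) (eq_bot_iff.2 fun w hw =>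
          eq_one_of_inv_comm hv (odd_order oB hw.1) (inv_zpow hv hi (le ⟨hw.1.1, hw.2⟩))
            (mem_cent1.1 hw.1.2).symm) hk
      rwa [inv_eq C.inv] at this
    exact ⟨this.1, fun e => this.2 (e ▸ hS.isPGroup.to_inf_left)⟩
  have yO : y ∈ N[pPrimeCoreOf 2 c[x]] := normalizer_le_normalizer_pPrimeCoreOf _ _
    (centralizer_zpowers_eq x ▸ mem_norm_cent (norm_zpowers_of_inv hy hi))
  have c3 := card_le3 oS C.inv hy ne.symm h1.symm zS (s2 y yO h1)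
    (((inf_le_inf_right _ hS.le).trans (C.core_cent hn hx x3 h8)).trans (centralizer_anti hS.le))
  obtain ⟨k1, k2⟩ := key y hy h1 ne c1 hi
  obtain ⟨k3, k4⟩ := key (z * y) (imul C.inv hy ne.symm h1.symm) (by rw [mul_assoc, h1])
    (by simpa using hy.ne) c2 (by
      rw [← h1, mul_assoc y z, ← C.mem hx, ← hi]
      simp only [mul_assoc]
      rw [← mul_assoc z, ← h1, mul_assoc, C.inv.sq, mul_one])
  have d3 : Nat.card ↥(S ⊓ c[z]) ∣ 3 :=
    (card_dvd_of_le le).trans (Nat.card_zpowers x ▸ orderOf_dvd_of_pow_eq_one x3)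
  refine ⟨S, hS, s1, s2, fun e => c3.trans ((Nat.mul_le_mul (Nat.le_of_dvd (by norm_num) d3)
    (Nat.mul_le_mul (k2 e) (k4 e)))), fun e => ?_⟩
  obtain ⟨i, hi⟩ := IsPGroup.iff_card.1 (hS.isPGroup.to_inf_left (K := c[y]))
  obtain ⟨j, hj⟩ := IsPGroup.iff_card.1 (hS.isPGroup.to_inf_left (K := c[z * y]))
  obtain ⟨l, hl⟩ := IsPGroup.iff_card.1 (hS.isPGroup.to_inf_left (K := c[z]))
  rw [hl] at d3 c3
  rw [(((Nat.coprime_primes hp Nat.prime_three).2 e).pow_left l).eq_one_of_dvd d3] at c3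
  exact ⟨i, j, by rwa [one_mul, hi, hj] at c3, hi ▸ k1, hj ▸ k3⟩

end Cov

end Cfsg.Agent.Lib.AnCov
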