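/-
Involutions whose centralizer is a double cover of an alternating group: degrees 9 and 10, common part.
-/
import Cfsg.Agent.Lib.AnCov2

set_option autoImplicit false
set_option linter.unusedSectionVars false
set_option maxRecDepth 100000

namespace Cfsg.Agent.Lib.AnCov

open Subgroup hiding card_le_of_le
open Equiv Equiv.Perm Cfsg.Agent.Lib.BsDefs Cfsg.Agent.Lib.PCoreConj Cfsg.Agent.Lib.PCore
  Cfsg.Agent.Lib.PCoreResidual Cfsg.Agent.Lib.FTDefs Cfsg.Agent.Lib.AltPres Cfsg.Agent.Lib.Bs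

/-- the points -/
abbrev F (m : ℕ) := Fin (m + 9)
/-- first three-cycle -/
def X1 (m : ℕ) : Perm (F m) := cyc 0 1 2
/-- second three-cycle -/
def X2 (m : ℕ) : Perm (F m) := cyc 3 4 5
/-- third three-cycle -/
def X3 (m : ℕ) : Perm (F m) := cyc 6 7 8
/-- the image of the second involution -/
def Y (m : ℕ) : Perm (F m) := swap 0 3 * swap 1 4 * swap 2 5 * swap 6 7
/-- the elements of the elementary abelian group of order 27 -/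
def EP (m : ℕ) (i j k : Fin 3) : Perm (F m) := X1 m ^ i.1 * X2 m ^ j.1 * X3 m ^ k.1

section perm

variable {α : Type*} [Fintype α] [DecidableEq α] {σ τ ξ : Perm α} {p a b c : α}

theorem ag (h1 : σ * ξ = ξ * σ) (h2 : τ * ξ = ξ * τ) (e : σ p = τ p) : σ (ξ p) = τ (ξ p) := by
  rw [← mul_apply, h1, ← mul_apply τ, h2, mul_apply, mul_apply, e]

theorem fix_iff (h1 : σ * ξ = ξ * σ) : ξ (σ p) = σ p ↔ ξ p = p := by
  rw [← mul_apply, ← h1, mul_apply, σ.apply_eq_iff_eq]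

theorem fix3 (h1 : τ * ξ = ξ * τ) (h2 : τ * τ = 1) (h3 : ∀ q, ξ (ξ (ξ q)) = q)
    (hn : [a, ξ a, ξ (ξ a), b, ξ b, ξ (ξ b), c, ξ c, ξ (ξ c)].Nodup)
    (h4 : ∀ q, ξ q ≠ q → q ∈ [a, ξ a, ξ (ξ a), b, ξ b, ξ (ξ b), c, ξ c, ξ (ξ c)]) :
    τ a = a ∨ τ b = b ∨ τ c = c := by
  have s := app2 h2
  have k : ∀ q, τ (ξ q) = ξ (τ q) := fun q => by rw [← mul_apply, h1, mul_apply]
  simp only [List.nodup_cons, List.mem_cons, List.not_mem_nil, or_false, not_or] at hn h4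
  have a1 := h4 (τ a) (mt (fix_iff h1).1 (by grind))
  have a2 := h4 (τ c) (mt (fix_iff h1).1 (by grind))
  have a3 := h4 (τ b) (mt (fix_iff h1).1 (by grind))
  clear h4
  rcases a1 with e | e | e | e | e | e | e | e | e <;>
    rcases a2 with e' | e' | e' | e' | e' | e' | e' | e' | e' <;> grind

variable {m : ℕ} (hm : m ≤ 1) {σ τ : Perm (F m)}
include hm

theorem perm_ext (h : ∀ i : F m, i.1 < 9 → σ i = τ i) : σ = τ := by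
  ext i
  congr 1
  by_cases hi : i.1 < 9
  · exact h i hi
  obtain ⟨j, hj⟩ := τ.surjective (σ i)
  by_cases hj' : j.1 < 9
  · exact absurd (σ.injective ((h j hj').trans hj) ▸ hj') hi
  · rw [← hj, show i = j from Fin.ext (by omega)]

theorem pCA (h1 : σ * X1 m = X1 m * σ) (h2 : σ * X2 m = X2 m * σ) (h3 : σ * X3 m = X3 m * σ) :
    ∃ i j k, σ = EP m i j k := by
  have d1 : ∀ a b c : F m, X1 m a ≠ a → X2 m b ≠ b → X3 m c ≠ c →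
      ∃ i j k, a = EP m i j k 0 ∧ b = EP m i j k 3 ∧ c = EP m i j k 6 := by
    interval_cases m <;> decide +kernel
  have d2 : ∀ i j k, EP m i j k * X1 m = X1 m * EP m i j k ∧ EP m i j k * X2 m = X2 m * EP m i j k ∧
      EP m i j k * X3 m = X3 m * EP m i j k := by interval_cases m <;> decide +kernel
  have d3 : (X1 m 0 ≠ 0 ∧ X2 m 3 ≠ 3 ∧ X3 m 6 ≠ 6) ∧ ∀ q : F m, q.1 < 9 → q = 0 ∨ q = X1 m 0 ∨
      q = X1 m (X1 m 0) ∨ q = 3 ∨ q = X2 m 3 ∨ q = X2 m (X2 m 3) ∨ q = 6 ∨ q = X3 m 6 ∨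
      q = X3 m (X3 m 6) := by interval_cases m <;> decide +kernel
  obtain ⟨i, j, k, e1, e2, e3⟩ := d1 _ _ _ (mt (fix_iff h1).1 d3.1.1) (mt (fix_iff h2).1 d3.1.2.1)
    (mt (fix_iff h3).1 d3.1.2.2)
  obtain ⟨f1, f2, f3⟩ := d2 i j k
  refine ⟨i, j, k, perm_ext hm fun q hq => ?_⟩
  rcases d3.2 q hq with rfl | rfl | rfl | rfl | rfl | rfl | rfl | rfl | rfl
  exacts [e1, ag h1 f1 e1, ag h1 f1 (ag h1 f1 e1), e2, ag h2 f2 e2, ag h2 f2 (ag h2 f2 e2), e3,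
    ag h3 f3 e3, ag h3 f3 (ag h3 f3 e3)]

theorem pCX (h : σ * (X1 m * X2 m) = X1 m * X2 m * σ) :
    (σ * X1 m * σ⁻¹ = X1 m ∧ σ * X2 m * σ⁻¹ = X2 m) ∨
      σ * X1 m * σ⁻¹ = X2 m ∧ σ * X2 m * σ⁻¹ = X1 m := by
  obtain ⟨ξ, hξ⟩ : ∃ ξ, ξ = X1 m * X2 m := ⟨_, rfl⟩
  have d1 : ∀ a b : F m, ξ a ≠ a → ξ b ≠ b → b ≠ a → b ≠ ξ a → b ≠ ξ (ξ a) →
      (cyc a (ξ (ξ a)) (ξ a) = X1 m ∧ cyc b (ξ (ξ b)) (ξ b) = X2 m) ∨
      cyc a (ξ (ξ a)) (ξ a) = X2 m ∧ cyc b (ξ (ξ b)) (ξ b) = X1 m := by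
    subst hξ; interval_cases m <;> decide +kernel
  have d2 : X1 m = cyc 0 (ξ (ξ 0)) (ξ 0) ∧ X2 m = cyc 3 (ξ (ξ 3)) (ξ 3) ∧ ξ 0 ≠ 0 ∧ ξ 3 ≠ 3 ∧
      (3 : F m) ≠ 0 ∧ 3 ≠ ξ 0 ∧ 3 ≠ ξ (ξ 0) := by subst hξ; interval_cases m <;> decide +kernel
  rw [← hξ] at h
  have k : ∀ q, σ (ξ q) = ξ (σ q) := fun q => by rw [← mul_apply, h, mul_apply]
  obtain ⟨e1, e2, e3, e4, e5, e6, e7⟩ := d2
  have := d1 (σ 0) (σ 3) (mt (fix_iff h).1 e3) (mt (fix_iff h).1 e4) (σ.injective.ne e5)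
    (k _ ▸ σ.injective.ne e6) (by rw [← k, ← k]; exact σ.injective.ne e7)
  simp only [← k, ← conj_cyc] at this
  rwa [← e1, ← e2] at this

theorem pC3 (h1 : σ * X1 m = X1 m * σ) (h2 : σ * X2 m = X2 m * σ) (h3 : sign σ = 1)
    (h : m = 0 ∨ ∃ i j k, σ * X3 m * σ⁻¹ = EP m i j k) : σ * X3 m = X3 m * σ := by
  have d1 : ∀ a b c : F m, X1 m a = a → X1 m b = b → X1 m c = c → X2 m a = a → X2 m b = b →
      X2 m c = c → a ≠ b → a ≠ c → b ≠ c → (m = 0 ∨ ∃ i j k, cyc a b c = EP m i j k) →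
      cyc a b c = X3 m ∨ cyc a b c = (X3 m)⁻¹ := by interval_cases m <;> decide +kernel
  have d2 : (X1 m 6 = 6 ∧ X1 m 7 = 7 ∧ X1 m 8 = 8 ∧ X2 m 6 = 6 ∧ X2 m 7 = 7 ∧ X2 m 8 = 8) ∧
      ((6 : F m) ≠ 7 ∧ (6 : F m) ≠ 8 ∧ (7 : F m) ≠ 8) ∧ (∀ i j k, sign (EP m i j k) = 1) ∧
      swap 7 8 * X1 m = X1 m * swap 7 8 ∧ swap 7 8 * X2 m = X2 m * swap 7 8 ∧
      swap 7 8 * X3 m = (X3 m)⁻¹ * swap 7 8 := by interval_cases m <;> decide +kernel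
  obtain ⟨⟨a1, a2, a3, a4, a5, a6⟩, ⟨b1, b2, b3⟩, c1, c2, c3, c4⟩ := d2
  rw [X3, conj_cyc] at h
  have := d1 _ _ _ ((fix_iff h1).2 a1) ((fix_iff h1).2 a2) ((fix_iff h1).2 a3) ((fix_iff h2).2 a4)
    ((fix_iff h2).2 a5) ((fix_iff h2).2 a6) (σ.injective.ne b1) (σ.injective.ne b2)
    (σ.injective.ne b3) h
  rw [← conj_cyc, ← X3] at this
  refine mul_inv_eq_iff_eq_mul.1 (this.resolve_right fun e => ?_)
  obtain ⟨i, j, k, e'⟩ := pCA hm (σ := σ * swap 7 8) (by rw [mul_assoc, c2, ← mul_assoc, h1, mul_assoc])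
    (by rw [mul_assoc, c3, ← mul_assoc, h2, mul_assoc]) (by
      rw [mul_assoc, c4, ← mul_assoc, show σ * (X3 m)⁻¹ = (σ * X3 m * σ⁻¹)⁻¹ * σ by group, e,
        inv_inv, mul_assoc])
  have := c1 i j k
  rw [← e', Perm.sign_mul, h3, sign_swap b3] at this
  exact absurd this (by decide)

theorem pCK (h1 : σ * (X1 m * X2 m) = X1 m * X2 m * σ) (h2 : σ * Y m = Y m * σ) (h3 : sign σ = 1) :
    ∃ (i : Fin 3) (l : Fin 2), σ = (X1 m * X2 m) ^ i.1 * Y m ^ l.1 ∨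
      m = 1 ∧ σ = (X1 m * X2 m) ^ i.1 * Y m ^ l.1 * (swap 6 7 * swap 8 9) := by
  obtain ⟨ξ, hξ⟩ : ∃ ξ, ξ = X1 m * X2 m := ⟨_, rfl⟩
  obtain ⟨T, hT⟩ : ∃ T : Fin 3 → Fin 2 → Fin 2 → Fin 2 → Perm (F m), T = fun i l r s =>
    ξ ^ i.1 * Y m ^ l.1 * (swap 6 7 ^ r.1 * swap 8 (Fin.last _) ^ s.1) := ⟨_, rfl⟩
  have d1 : ∀ a b c : F m, ξ a ≠ a → ξ b = b → Y m b ≠ b → Y m c = c →
      ∃ i l r s, a = T i l r s 0 ∧ b = T i l r s 6 ∧ c = T i l r s 8 := by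
    subst hT hξ; interval_cases m <;> decide +kernel
  have d2 : ∀ i l r s, (T i l r s * ξ = ξ * T i l r s ∧ T i l r s * Y m = Y m * T i l r s) ∧
      (sign (T i l r s) = 1 → T i l r s = ξ ^ i.1 * Y m ^ l.1 ∨
        m = 1 ∧ T i l r s = ξ ^ i.1 * Y m ^ l.1 * (swap 6 7 * swap 8 9)) := by
    subst hT hξ; interval_cases m <;> decide +kernel
  have d3 : (ξ 0 ≠ 0 ∧ ξ 6 = 6 ∧ Y m 6 ≠ 6 ∧ Y m 8 = 8) ∧ ∀ q : F m, q.1 < 9 → q = 0 ∨ q = ξ 0 ∨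
      q = ξ (ξ 0) ∨ q = Y m 0 ∨ q = Y m (ξ 0) ∨ q = Y m (ξ (ξ 0)) ∨ q = 6 ∨ q = Y m 6 ∨ q = 8 := by
    subst hξ; interval_cases m <;> decide +kernel
  rw [← hξ] at h1 ⊢
  obtain ⟨i, l, r, s, e1, e2, e3⟩ := d1 _ _ _ (mt (fix_iff h1).1 d3.1.1) ((fix_iff h1).2 d3.1.2.1)
    (mt (fix_iff h2).1 d3.1.2.2.1) ((fix_iff h2).2 d3.1.2.2.2)
  obtain ⟨⟨f1, f2⟩, f3⟩ := d2 i l r s
  obtain rfl : σ = T i l r s := perm_ext hm fun q hq => by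
    rcases d3.2 q hq with rfl | rfl | rfl | rfl | rfl | rfl | rfl | rfl | rfl
    exacts [e1, ag h1 f1 e1, ag h1 f1 (ag h1 f1 e1), ag h2 f2 e1, ag h2 f2 (ag h1 f1 e1),
      ag h2 f2 (ag h1 f1 (ag h1 f1 e1)), e2, ag h2 f2 e2, e3]
  exact ⟨i, l, f3 h3⟩

end perm

end Cfsg.Agent.Lib.AnCov
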