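/-
Involutions whose centralizer is a double cover of an alternating group: degrees 9 and 10, the standard configuration.
-/
import Cfsg.Agent.Lib.AnCov3

set_option autoImplicit false
set_option linter.unusedSectionVars false
set_option maxRecDepth 100000

namespace Cfsg.Agent.Lib.AnCov

open Subgroup hiding card_le_of_le
open Equiv Equiv.Perm Cfsg.Agent.Lib.BsDefs Cfsg.Agent.Lib.PCoreConj Cfsg.Agent.Lib.PCore
  Cfsg.Agent.Lib.PCoreResidual Cfsg.Agent.Lib.FTDefs Cfsg.Agent.Lib.AltPres Cfsg.Agent.Lib.Bs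

/-- The standard configuration. -/
structure St {G : Type*} [Group G] (m : ℕ) (L : G → Perm (F m) → Prop) (z y h x1 x2 x3 d : G) :
    Prop where
  hm : m ≤ 1
  cov : Cov z L
  iy : Invol y
  ly : L y (Y m)
  hz : h * z * h⁻¹ = y
  hy : h * y * h⁻¹ = z * y
  l1 : L x1 (X1 m)
  l2 : L x2 (X2 m)
  l3 : L x3 (X3 m)
  c1 : x1 ^ 3 = 1
  c2 : x2 ^ 3 = 1
  c3 : x3 ^ 3 = 1
  ld : L d (swap 1 2 * swap 4 5)

variable {G : Type*} [Group G]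

/-- The elementary abelian group of order 27. -/
def A (x1 x2 x3 : G) : Subgroup G := closure {x1, x2, x3}

theorem exists_st {m : ℕ} (hm : m ≤ 1) {L : G → Perm (F m) → Prop} {z y : G} (C : Cov z L)
    (hy : Invol y) (h1 : y * z = z * y) (h2 : y ≠ z) (h3 : IsConj z y) :
    ∃ L' h x1 x2 x3 d, St m L' z y h x1 x2 x3 d := by
  obtain ⟨σ, a, b, c, d, h, hσ, hn, hf, -, e1, e2⟩ := C.main hy h1 h2 h3
  have d1 : [(0 : F m), 3, 1, 4, 2, 5, 6, 7].Nodup ∧ (Y m 0 = 3 ∧ Y m 3 = 0 ∧ Y m 1 = 4 ∧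
      Y m 4 = 1 ∧ Y m 2 = 5 ∧ Y m 5 = 2 ∧ Y m 6 = 7 ∧ Y m 7 = 6) ∧
      (∀ q, q ∉ [(0 : F m), 3, 1, 4, 2, 5, 6, 7] → Y m q = q) ∧ [(0 : F m), 1, 2].Nodup ∧
      [(3 : F m), 4, 5].Nodup ∧ [(6 : F m), 7, 8].Nodup ∧ [(1 : F m), 2, 4, 5].Nodup := by
    interval_cases m <;> decide +kernel
  obtain ⟨n0, ⟨y0, y3, y1, y4, y2, y5, y6, y7⟩, yf, n1, n2, n3, n4⟩ := d1
  obtain ⟨κ, hκ⟩ := Perm.exists_extending_pair (α := Fin 8)
    (f := [a, σ a, b, σ b, c, σ c, d, σ d].get) (g := [(0 : F m), 3, 1, 4, 2, 5, 6, 7].get)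
    (List.nodup_iff_injective_get.1 hn) (List.nodup_iff_injective_get.1 n0)
  have k0 : κ a = 0 := hκ 0
  have k1 : κ (σ a) = 3 := hκ 1
  have k2 : κ b = 1 := hκ 2
  have k3 : κ (σ b) = 4 := hκ 3
  have k4 : κ c = 2 := hκ 4
  have k5 : κ (σ c) = 5 := hκ 5
  have k6 : κ d = 6 := hκ 6
  have k7 : κ (σ d) = 7 := hκ 7
  have s := app2 (C.sq_one hσ hy.sq)
  have e : κ⁻¹ * Y m * κ = σ := by
    ext1 q
    rw [mul_apply, mul_apply, inv_eq_iff_eq]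
    by_cases hq : q ∈ [a, σ a, b, σ b, c, σ c, d, σ d]
    · simp only [List.mem_cons, List.not_mem_nil, or_false] at hq
      rcases hq with rfl | rfl | rfl | rfl | rfl | rfl | rfl | rfl <;> simp only [*]
    · rw [hf q hq, yf]
      rw [← k0, ← k1, ← k2, ← k3, ← k4, ← k5, ← k6, ← k7]
      simpa using hq
  have D := C.pconj κ
  rw [nd3] at n1 n2 n3
  obtain ⟨x1, l1, c1⟩ := D.exists_cyc n1.1 n1.2.1 n1.2.2
  obtain ⟨x2, l2, c2⟩ := D.exists_cyc n2.1 n2.2.1 n2.2.2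
  obtain ⟨x3, l3, c3⟩ := D.exists_cyc n3.1 n3.2.1 n3.2.2
  obtain ⟨d, ld⟩ := D.surj (sign_dt n4)
  exact ⟨_, h, x1, x2, x3, d, hm, D, hy, e.symm ▸ hσ, e1, e2, l1, l2, l3, c1, c2, c3, ld⟩

theorem x1_mem {x1 x2 x3 : G} : x1 ∈ A x1 x2 x3 := subset_closure (by simp)
theorem x2_mem {x1 x2 x3 : G} : x2 ∈ A x1 x2 x3 := subset_closure (by simp)
theorem x3_mem {x1 x2 x3 : G} : x3 ∈ A x1 x2 x3 := subset_closure (by simp)

theorem A_le {x1 x2 x3 : G} {K : Subgroup G} : A x1 x2 x3 ≤ K ↔ x1 ∈ K ∧ x2 ∈ K ∧ x3 ∈ K := by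
  simp [A, Set.insert_subset_iff]

theorem mem_cent_A {x1 x2 x3 g : G} :
    g ∈ C[A x1 x2 x3] ↔ g * x1 = x1 * g ∧ g * x2 = x2 * g ∧ g * x3 = x3 * g := by
  rw [← le_cent1_iff, A_le, mem_cent1, mem_cent1, mem_cent1, eq_comm, eq_comm (a := x2 * g),
    eq_comm (a := x3 * g)]

namespace St

variable [Finite G] {m : ℕ} {L : G → Perm (F m) → Prop} {z y h x1 x2 x3 d g a : G}
  {σ : Perm (F m)} (S : St m L z y h x1 x2 x3 d)
include S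

theorem facts : (X1 m * X2 m = X2 m * X1 m ∧ X1 m * X3 m = X3 m * X1 m ∧ X2 m * X3 m = X3 m * X2 m) ∧
    (Y m * X1 m * (Y m)⁻¹ = X2 m ∧ Y m * X2 m * (Y m)⁻¹ = X1 m ∧ Y m * X3 m * (Y m)⁻¹ = (X3 m)⁻¹) ∧
    (∀ i j k i' j' k', EP m i j k * EP m i' j' k' = EP m (i + i') (j + j') (k + k')) ∧
    (X1 m = EP m 1 0 0 ∧ X2 m = EP m 0 1 0 ∧ X3 m = EP m 0 0 1 ∧ 1 = EP m 0 0 0) ∧
    (∀ i j k, (EP m i j k)⁻¹ = EP m (-i) (-j) (-k)) ∧ Y m ≠ 1 ∧ X1 m * X2 m ≠ 1 ∧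
    (∀ i j k, swap 1 2 * swap 4 5 * EP m i j k * (swap 1 2 * swap 4 5)⁻¹ = EP m (-i) (-j) k) ∧
    swap 1 2 * swap 4 5 * Y m * (swap 1 2 * swap 4 5)⁻¹ = Y m ∧
    swap 1 2 * swap 4 5 * (X1 m * X2 m) * (swap 1 2 * swap 4 5)⁻¹ = (X1 m * X2 m)⁻¹ := by
  have := S.hm
  clear S
  interval_cases m <;> decide +kernel

theorem yz : y * z = z * y := S.cov.mem S.ly

theorem ne : y ≠ z := fun e => S.facts.2.2.2.2.2.1 (S.cov.uniq S.ly (e ▸ S.cov.z1))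

theorem A_comm : A x1 x2 x3 ≤ C[A x1 x2 x3] := by
  obtain ⟨a, b, c⟩ := S.facts.1
  have a := S.cov.comm_odd (by decide) S.l1 S.l2 S.c2 a
  have b := S.cov.comm_odd (by decide) S.l1 S.l3 S.c3 b
  have c := S.cov.comm_odd (by decide) S.l2 S.l3 S.c3 c
  simp only [A_le, mem_cent_A]
  exact ⟨⟨trivial, a, b⟩, ⟨a.symm, trivial, c⟩, b.symm, c.symm, trivial⟩

theorem comm {b : G} (ha : a ∈ A x1 x2 x3) (hb : b ∈ A x1 x2 x3) : a * b = b * a :=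
  mem_cent_iff.1 (S.A_comm hb) a ha

theorem memA (ha : a ∈ A x1 x2 x3) : a ^ 3 = 1 ∧ ∃ i j k, L a (EP m i j k) := by
  obtain ⟨-, -, f1, ⟨f2, f3, f4, f5⟩, f6, -⟩ := S.facts
  induction ha using closure_induction with
  | mem x hx =>
    rcases hx with rfl | rfl | rfl
    exacts [⟨S.c1, _, _, _, f2 ▸ S.l1⟩, ⟨S.c2, _, _, _, f3 ▸ S.l2⟩, ⟨S.c3, _, _, _, f4 ▸ S.l3⟩]
  | one => exact ⟨one_pow _, _, _, _, f5 ▸ S.cov.one⟩
  | mul u v hu hv h1 h2 =>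
    obtain ⟨a1, _, _, _, a2⟩ := h1
    obtain ⟨b1, _, _, _, b2⟩ := h2
    exact ⟨by rw [Commute.mul_pow (S.comm hu hv), a1, b1, one_mul], _, _, _, f1 .. ▸ S.cov.mul a2 b2⟩
  | inv u hu h1 =>
    obtain ⟨a1, _, _, _, a2⟩ := h1
    exact ⟨by rw [inv_pow, a1, inv_one], _, _, _, f6 .. ▸ S.cov.linv a2⟩

theorem A_le_z : A x1 x2 x3 ≤ c[z] := fun _ ha =>
  let ⟨_, _, _, h⟩ := (S.memA ha).2; mem_cent1.2 (S.cov.mem h)

theorem A_pg : IsPGroup 3 (A x1 x2 x3) :=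
  isPGroup_iff_forall_mem.2 fun _ ha => ⟨1, (S.memA ha).1⟩

theorem eq_of (h1 : L g σ) (h2 : L a σ) (o1 : Odd (orderOf g)) (o2 : a ^ 3 = 1) : g = a :=
  S.cov.eq_of_odd (n := orderOf g * 3) (o1.mul (by decide)) h1 h2
    (by rw [pow_mul, pow_orderOf_eq_one, one_pow]) (by rw [mul_comm, pow_mul, o2, one_pow])

theorem eqA (h0 : g ∈ A x1 x2 x3) (h1 : L g σ) (h2 : L a σ) (o2 : a ^ 3 = 1) : g = a :=
  S.cov.eq_of_odd (by decide) h1 h2 (S.memA h0).1 o2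

theorem lE (i j k : Fin 3) : L (x1 ^ i.1 * x2 ^ j.1 * x3 ^ k.1) (EP m i j k) :=
  S.cov.mul (S.cov.mul (S.cov.pow S.l1 _) (S.cov.pow S.l2 _)) (S.cov.pow S.l3 _)

omit S in
theorem E_mem (i j k : ℕ) : x1 ^ i * x2 ^ j * x3 ^ k ∈ A x1 x2 x3 :=
  mul_mem (mul_mem (pow_mem x1_mem _) (pow_mem x2_mem _)) (pow_mem x3_mem _)

theorem mem_A_of (h1 : g * z = z * g) (h2 : g ∈ C[A x1 x2 x3]) (o : Odd (orderOf g)) :
    g ∈ A x1 x2 x3 := by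
  obtain ⟨σ, hσ⟩ := S.cov.tot h1
  obtain ⟨a, b, c⟩ := mem_cent_A.1 h2
  obtain ⟨i, j, k, rfl⟩ := pCA S.hm (S.cov.comm_of hσ S.l1 a) (S.cov.comm_of hσ S.l2 b)
    (S.cov.comm_of hσ S.l3 c)
  exact S.eq_of hσ (S.lE i j k) o (S.memA (E_mem _ _ _)).1 ▸ E_mem _ _ _

theorem lx : L (x1 * x2) (X1 m * X2 m) := S.cov.mul S.l1 S.l2

omit S in
theorem x_mem : x1 * x2 ∈ A x1 x2 x3 := mul_mem x1_mem x2_mem

theorem x3' : (x1 * x2) ^ 3 = 1 := (S.memA x_mem).1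

theorem x_ne : x1 * x2 ≠ 1 := fun e => S.facts.2.2.2.2.2.2.1 (S.cov.uniq S.lx (e ▸ S.cov.one))

theorem y1 : y * x1 * y⁻¹ = x2 := S.cov.conj_odd (by decide) S.ly S.l1 S.l2 S.c1 S.c2 S.facts.2.1.1

theorem y2 : y * x2 * y⁻¹ = x1 :=
  S.cov.conj_odd (by decide) S.ly S.l2 S.l1 S.c2 S.c1 S.facts.2.1.2.1

theorem y3 : y * x3 * y⁻¹ = x3⁻¹ := S.cov.conj_odd (by decide) S.ly S.l3 (S.cov.linv S.l3) S.c3
  (by rw [inv_pow, S.c3, inv_one]) S.facts.2.1.2.2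

theorem yx : y * (x1 * x2) = x1 * x2 * y := by
  rw [← mul_inv_eq_iff_eq_mul, ← conj_mul, S.y1, S.y2, S.comm x1_mem x2_mem]

theorem yA : y ∈ N[A x1 x2 x3] := mem_normalizer_of_conj_le (by
  rw [conj_le_iff_le_conj_inv, A_le]
  simp only [mem_conj_iff, inv_inv, S.y1, S.y2, S.y3]
  exact ⟨x2_mem, x1_mem, inv_mem x3_mem⟩)

theorem y_inv (ha : a ∈ A x1 x2 x3) : y * a * y⁻¹ * a ∈ zpowers (x1 * x2) := by
  have d : ∀ i j k, Y m * EP m i j k * (Y m)⁻¹ * EP m i j k = (X1 m * X2 m) ^ (i + j).1 := by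
    have := S.hm
    clear S
    interval_cases m <;> decide +kernel
  obtain ⟨-, i, j, k, h⟩ := S.memA ha
  rw [S.eqA (mul_mem (conj_mem_of_norm S.yA ha) ha) (d .. ▸ S.cov.mul (S.cov.conj S.ly h) h)
    (S.cov.pow S.lx _) (S.memA (pow_mem x_mem _)).1]
  exact pow_mem (mem_zpowers _) _

theorem normA (h1 : g * z = z * g) (h2 : g ∈ c[x1 * x2]) (h3 : m = 0 ∨ g ∈ N[A x1 x2 x3]) :
    g ∈ C[A x1 x2 x3] ∨ g * y ∈ C[A x1 x2 x3] := by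
  have key : ∀ g σ, L g σ → (m = 0 ∨ g ∈ N[A x1 x2 x3]) → σ * X1 m * σ⁻¹ = X1 m →
      σ * X2 m * σ⁻¹ = X2 m → g ∈ C[A x1 x2 x3] := fun g σ hσ h3 e1 e2 => by
    rw [mul_inv_eq_iff_eq_mul] at e1 e2
    refine mem_cent_A.2 ⟨S.cov.comm_odd (by decide) hσ S.l1 S.c1 e1,
      S.cov.comm_odd (by decide) hσ S.l2 S.c2 e2, S.cov.comm_odd (by decide) hσ S.l3 S.c3
      (pC3 S.hm e1 e2 (S.cov.even hσ) (h3.imp id fun h => ?_))⟩
    obtain ⟨-, i, j, k, h⟩ := S.memA (conj_mem_of_norm h x3_mem)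
    exact ⟨i, j, k, S.cov.uniq (S.cov.conj hσ S.l3) h⟩
  obtain ⟨σ, hσ⟩ := S.cov.tot h1
  obtain ⟨-, ⟨f1, f2, -⟩, -⟩ := S.facts
  refine (pCX S.hm (S.cov.comm_of hσ S.lx (mem_cent1.1 h2))).imp (fun e => key g σ hσ h3 e.1 e.2)
    fun e => key _ _ (S.cov.mul hσ S.ly) (h3.imp id fun h => mul_mem h S.yA) ?_ ?_
  · rw [show σ * Y m * X1 m * (σ * Y m)⁻¹ = σ * (Y m * X1 m * (Y m)⁻¹) * σ⁻¹ by group, f1, e.2]
  · rw [show σ * Y m * X2 m * (σ * Y m)⁻¹ = σ * (Y m * X2 m * (Y m)⁻¹) * σ⁻¹ by group, f2, e.1]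

theorem mem_A_of3 (h1 : g * z = z * g) (h2 : g ∈ c[x1 * x2]) (h3 : m = 0 ∨ g ∈ N[A x1 x2 x3])
    (o : Odd (orderOf g)) : g ∈ A x1 x2 x3 := by
  refine S.mem_A_of h1 (mem_of_sq o ((S.normA h1 h2 h3).elim (fun h => mul_mem h h) fun h => ?_)) o
  have := mul_mem h (conj_mem_of_norm (mem_norm_cent S.yA) h)
  rwa [show g * y * (y * (g * y) * y⁻¹) = g * (y * y) * g by group, S.iy.sq, mul_one] at this

theorem CK (h1 : g * z = z * g) (h2 : g * y = y * g) (h3 : g ∈ c[x1 * x2]) :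
    ∃ w ∈ zpowers (x1 * x2), g = w ∨ g = z * w ∨ g = w * y ∨ g = z * (w * y) := by
  obtain ⟨σ, hσ⟩ := S.cov.tot h1
  obtain ⟨i, l, e⟩ := pCK S.hm (S.cov.comm_of hσ S.lx (mem_cent1.1 h3)) (S.cov.comm_of hσ S.ly h2)
    (S.cov.even hσ)
  have w := S.cov.mul (S.cov.pow S.lx i) (S.cov.pow S.ly l)
  rcases e with rfl | ⟨rfl, rfl⟩
  · refine ⟨_, pow_mem (mem_zpowers _) i, ?_⟩
    have := S.cov.eq_or hσ w
    fin_cases l <;> simp at this <;> tauto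
  exfalso
  have lf := S.cov.mul (S.cov.linv w) hσ
  rw [inv_mul_cancel_left] at lf
  obtain ⟨k, hk⟩ := S.cov.surj (sign_dt (α := F 1) (a := 6) (b := 8) (c := 7) (d := 9) (by decide))
  have f2 := S.cov.sq (by decide) lf
  have c : Commute (((x1 * x2) ^ i.1 * y ^ l.1)⁻¹ * g) y := Commute.mul_left
    (Commute.inv_left (Commute.mul_left (Commute.pow_left S.yx.symm _) (Commute.pow_self _ _).symm.symm)) h2
  have e : swap 6 7 * swap 8 9 * Y 1 = swap 6 8 * swap 7 9 * Y 1 * (swap 6 8 * swap 7 9)⁻¹ := by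
    decide +kernel
  have f3 := S.cov.mul lf S.ly
  have f4 : k * y * k⁻¹ * (k * y * k⁻¹) = 1 := by rw [conj_mul, S.iy.sq]; simp
  have f5 := c.mul_pow 2
  rw [pow_two, pow_two, pow_two, f2, S.iy.sq, mul_one] at f5
  rcases S.cov.eq_or (e ▸ f3) (S.cov.conj hk S.ly) with e | e <;> rw [e] at f5
  · exact S.cov.inv.ne (f5.symm.trans f4)
  · rw [mul_assoc, ← mul_assoc _ z, S.cov.mem (S.cov.conj hk S.ly), mul_assoc z, f4, mul_one,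
      S.cov.inv.sq] at f5
    exact S.cov.inv.ne f5.symm

theorem CK' (h1 : g * z = z * g) (h2 : g * y = y * g) (h3 : g ∈ c[x1 * x2]) :
    ∃ w ∈ zpowers (x1 * x2), g * g = w * w ∧ (w = 1 → g = 1 ∨ g = z ∨ g = y ∨ g = z * y) := by
  obtain ⟨w, hw, e⟩ := S.CK h1 h2 h3
  have wz : Commute w z := mem_cent1.1 (S.A_le_z (zpowers_le.2 x_mem hw))
  have wy : Commute w y := mem_cent1.1 ((zpowers_le.2 (mem_cent1.2 S.yx.symm) : _ ≤ c[y]) hw)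
  have zy : Commute z y := S.yz.symm
  refine ⟨w, hw, ?_, fun e' => by simpa [e'] using e⟩
  have k : w * y * (w * y) = w * w := by rw [wy.symm.mul_mul_mul_comm, S.iy.sq, mul_one]
  rcases e with rfl | rfl | rfl | rfl
  · rfl
  · rw [wz.mul_mul_mul_comm, S.cov.inv.sq, one_mul]
  · exact k
  · rw [(wz.mul_left zy.symm).mul_mul_mul_comm, S.cov.inv.sq, one_mul, k]

theorem CK3 (h1 : g * z = z * g) (h2 : g * y = y * g) (h3 : g ∈ c[x1 * x2]) (o : Odd (orderOf g)) :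
    g ∈ zpowers (x1 * x2) :=
  let ⟨_, hw, e, _⟩ := S.CK' h1 h2 h3; mem_of_sq o (e ▸ mul_mem hw hw)

theorem CK2 {k : ℕ} (h1 : g * z = z * g) (h2 : g * y = y * g) (h3 : g ∈ c[x1 * x2])
    (o : g ^ 2 ^ k = 1) : g = 1 ∨ g = z ∨ g = y ∨ g = z * y := by
  obtain ⟨w, hw, e, e'⟩ := S.CK' h1 h2 h3
  refine e' (orderOf_eq_one_iff.1 (Nat.eq_one_of_dvd_coprimes (a := 3) (b := 2 * 2 ^ k)
    ((Nat.Coprime.pow_right (k + 1) (by norm_num : Nat.Coprime 3 2)).coprime_dvd_right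
      (by rw [pow_succ']))
    (orderOf_dvd_of_pow_eq_one (S.memA (zpowers_le.2 x_mem hw)).1) (orderOf_dvd_of_pow_eq_one ?_)))
  rw [pow_mul, pow_two, ← e, ← pow_two, ← pow_mul, mul_comm, pow_mul, o, one_pow]

omit S in
theorem odd_of_pg {Q : Subgroup G} (hQ : IsPGroup 3 Q) (hg : g ∈ Q) : Odd (orderOf g) :=
  odd_order (odd_of_pgroup Nat.prime_three (by norm_num) hQ) hg

theorem x_pg : IsPGroup 3 (zpowers (x1 * x2)) := isPGroup_zpowers (k := 1) S.x3'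

theorem card_x : Nat.card (zpowers (x1 * x2)) = 3 := by
  haveI := Fact.mk Nat.prime_three
  rw [Nat.card_zpowers, orderOf_eq_prime S.x3' S.x_ne]

theorem sylx : IsSylowIn 3 (zpowers (x1 * x2)) (c[z] ⊓ c[y]) := by
  haveI := Fact.mk Nat.prime_three
  refine ⟨zpowers_le.2 ⟨S.A_le_z x_mem, mem_cent1.2 S.yx.symm⟩, S.x_pg, fun Q h1 h2 h3 => ?_⟩
  have k : Q ⊓ c[x1 * x2] ≤ zpowers (x1 * x2) := fun g hg =>
    S.CK3 (mem_cent1.1 (h1 hg.1).1) (mem_cent1.1 (h1 hg.1).2) hg.2 (odd_of_pg h2 hg.1)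
  have k1 : Q ⊓ C[Q] ≤ zpowers (x1 * x2) :=
    (inf_le_inf_left _ (cent_le_cent1 (h3 (mem_zpowers _)))).trans k
  have k2 : Q ⊓ C[Q] = zpowers (x1 * x2) := eq_of_le_of_card_eq k1 (by
    rw [S.card_x]
    refine ((Nat.dvd_prime Nat.prime_three).1 (S.card_x ▸ card_dvd_of_le k1)).resolve_left fun e =>
      center_ne_bot h2 (ne_bot_of_mem (h3 (mem_zpowers _)) S.x_ne) (card_eq_one.1 e))
  exact le_antisymm ((le_inf le_rfl (le_cent1_iff.2 (k2.ge (mem_zpowers _)).2)).trans k) h3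

omit S in
theorem cyc_norm (hz : Invol z) (e : y * z = z * y) (h1 : g * z * g⁻¹ = y) (h2 : g * y * g⁻¹ = z * y) :
    g * (z * y) * g⁻¹ = z ∧ g ∈ N[c[z] ⊓ c[y]] := by
  have iy : y * y = 1 := h1 ▸ (iconj hz g).sq
  have h3 : g * (z * y) * g⁻¹ = z := by rw [← conj_mul, h1, h2, ← e, ← mul_assoc, iy, one_mul]
  refine ⟨h3, mem_normalizer_of_conj_le (le_inf ?_ ?_)⟩
  · conv_rhs => rw [← h3, ← conj_cent1]
    exact conj_le_conj_iff.2 fun k hk => mem_cent1.2 (Commute.mul_right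
      (mem_cent1.1 hk.1 : Commute k z) (mem_cent1.1 hk.2))
  · conv_rhs => rw [← h1, ← conj_cent1]
    exact conj_le_conj_iff.2 inf_le_left

theorem exists_b : ∃ b ∈ c[x1 * x2], b * z * b⁻¹ = y ∧ b * y * b⁻¹ = z * y ∧ ∃ k, b ^ 3 ^ k = 1 := by
  classical
  haveI := Fact.mk Nat.prime_three
  obtain ⟨g, hg, k, hk, e⟩ := S.sylx.frattini' (cyc_norm S.cov.inv S.yz S.hz S.hy).2
  have cj : ∀ g k : G, k ∈ c[z] ⊓ c[y] → ∀ u, u = z ∨ u = y → g * k * u * (g * k)⁻¹ = g * u * g⁻¹ := by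
    rintro g k hk u (rfl | rfl)
    · rw [mul_assoc g, mem_cent1.1 hk.1]; group
    · rw [mul_assoc g, mem_cent1.1 hk.2]; group
  have g1 : g * z * g⁻¹ = y := by rw [← cj g k hk z (Or.inl rfl), ← e, S.hz]
  have g2 : g * y * g⁻¹ = z * y := by rw [← cj g k hk y (Or.inr rfl), ← e, S.hy]
  have g3 := (cyc_norm S.cov.inv S.yz g1 g2).1
  have g4 : g ^ 3 ∈ c[z] ⊓ c[y] := by
    constructor <;> refine mem_cent1.2 (mul_inv_eq_iff_eq_mul.1 ?_)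
    · calc _ = g * (g * (g * z * g⁻¹) * g⁻¹) * g⁻¹ := by rw [pow_three]; group
        _ = _ := by rw [g1, g2, g3]
    · calc _ = g * (g * (g * y * g⁻¹) * g⁻¹) * g⁻¹ := by rw [pow_three]; group
        _ = _ := by rw [g2, g3, g1]
  obtain ⟨b, hb, c, hc, ⟨n, hn⟩, hc', e'⟩ := exists_pPart (p := 3) (isOfFinOrder_of_finite g)
  have c1 : c ∈ c[z] ⊓ c[y] := mem_of_pow_mem_of_coprime hc' (by
    obtain ⟨i, rfl⟩ := hc
    rw [← zpow_natCast, ← zpow_mul, mul_comm, zpow_mul, zpow_natCast]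
    exact zpow_mem g4 i)
  have b3 : b ^ 3 ^ n = 1 := by rw [← hn, pow_orderOf_eq_one]
  refine ⟨b, mem_of_sq (hn ▸ Odd.pow (by decide)) (mem_cent1.2 (mul_inv_eq_iff_eq_mul.1 ?_)),
    by rw [← cj b c c1 z (Or.inl rfl), ← e', g1], by rw [← cj b c c1 y (Or.inr rfl), ← e', g2], n, b3⟩
  have hb' : b ∈ N[zpowers (x1 * x2)] := zpowers_le.2 hg hb
  have m := conj_mem_of_norm hb' (mem_zpowers _)
  rw [mem_zpowers_iff_mem_range_orderOf, orderOf_eq_prime S.x3' S.x_ne] at m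
  obtain ⟨i, hi, e⟩ := Finset.mem_image.1 m
  have : b * b * (x1 * x2) * (b * b)⁻¹ = (x1 * x2) ^ (i * i) := by
    calc _ = b * (b * (x1 * x2) * b⁻¹) * b⁻¹ := by group
      _ = (b * (x1 * x2) * b⁻¹) ^ i := by rw [← e, ← conj_pow, e]
      _ = _ := by rw [← e, pow_mul]
  rw [this]
  have := Finset.mem_range.1 hi
  interval_cases i
  · exact absurd (conj_eq_one_iff.1 (e.symm.trans (pow_zero _))) S.x_ne
  · simp
  · rw [show 2 * 2 = 3 + 1 from rfl, pow_succ, S.x3', one_mul]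

theorem dz : d * z = z * d := S.cov.mem S.ld

theorem dx : d * (x1 * x2) * d⁻¹ = (x1 * x2)⁻¹ := S.cov.conj_odd (by decide) S.ld S.lx
  (S.cov.linv S.lx) S.x3' (by rw [inv_pow, S.x3', inv_one]) S.facts.2.2.2.2.2.2.2.2.2

theorem dy : d * y * d⁻¹ = y ∨ d * y * d⁻¹ = z * y :=
  S.cov.eq_or (S.facts.2.2.2.2.2.2.2.2.1 ▸ S.cov.conj S.ld S.ly) S.ly

theorem dA : d ∈ N[A x1 x2 x3] := mem_normalizer_of_conj_le (conj_le_iff.2 fun a ha => by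
  obtain ⟨a3, i, j, k, h⟩ := S.memA ha
  rw [S.cov.conj_odd (by decide) S.ld h (S.lE _ _ _) a3 (S.memA (E_mem _ _ _)).1
    (S.facts.2.2.2.2.2.2.2.1 i j k)]
  exact E_mem _ _ _)

theorem dX : d ∈ N[zpowers (x1 * x2)] := mem_normalizer_of_conj_le (by
  rw [conj_zpowers, S.dx]
  exact zpowers_le.2 (inv_mem (mem_zpowers _)))

theorem plane {P : Subgroup G} (hx : x1 * x2 ∈ P) (ha : a ∈ P) (hA : a ∈ A x1 x2 x3)
    (hd : d * a * d⁻¹ ∈ P) (hn : a ∉ zpowers (x1 * x2)) : x1 ∈ P ∨ x3 ∈ P := by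
  have e : ∀ i j k, (∃ r : Fin 3, EP m i j k = (X1 m * X2 m) ^ r.1) ∨ ∃ p q r : Fin 3,
      EP m i j k ^ p.1 * EP m (-i) (-j) k ^ q.1 * (X1 m * X2 m) ^ r.1 = X1 m ∨
      EP m i j k ^ p.1 * EP m (-i) (-j) k ^ q.1 * (X1 m * X2 m) ^ r.1 = X3 m := by
    have := S.hm
    clear hn hd hA ha hx S
    interval_cases m <;> decide +kernel
  obtain ⟨a3, i, j, k, h⟩ := S.memA hA
  rcases e i j k with ⟨r, e⟩ | ⟨p, q, r, e⟩
  · exact absurd (S.eqA hA h (e ▸ S.cov.pow S.lx _) (S.memA (pow_mem x_mem _)).1 ▸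
      pow_mem (mem_zpowers _) _) hn
  have l := S.cov.mul (S.cov.mul (S.cov.pow h p) (S.cov.pow
    (S.facts.2.2.2.2.2.2.2.1 i j k ▸ S.cov.conj S.ld h) q)) (S.cov.pow S.lx r)
  have m1 := mul_mem (mul_mem (pow_mem hA p) (pow_mem (conj_mem_of_norm S.dA hA) q))
    (pow_mem x_mem r)
  have m2 := mul_mem (mul_mem (pow_mem ha p) (pow_mem hd q)) (pow_mem hx r)
  rcases e with e | e <;> rw [e] at l
  · exact Or.inl (S.eqA m1 l S.l1 S.c1 ▸ m2)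
  · exact Or.inr (S.eqA m1 l S.l3 S.c3 ▸ m2)

end St

end Cfsg.Agent.Lib.AnCov
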