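/-
Involutions whose centralizer is a double cover of an alternating group: degree 10, first part.
-/
import Cfsg.Agent.Lib.AnCov4

set_option autoImplicit false
set_option linter.unusedSectionVars false
set_option maxRecDepth 100000

namespace Cfsg.Agent.Lib.AnCov

open Subgroup hiding card_le_of_le
open Equiv Equiv.Perm Cfsg.Agent.Lib.BsDefs Cfsg.Agent.Lib.PCoreConj Cfsg.Agent.Lib.PCore
  Cfsg.Agent.Lib.PCoreResidual Cfsg.Agent.Lib.FTDefs Cfsg.Agent.Lib.AltPres Cfsg.Agent.Lib.Bs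

variable {G : Type*} [Group G] [Finite G]

theorem burn {p : ℕ} [Fact p.Prime] {P X : Subgroup G} (hP : IsSylowIn p P X) {g x : G} (hg : g ∈ X)
    (h1 : P ≤ c[x]) (h2 : P ≤ c[g * x * g⁻¹]) : ∃ n ∈ X ⊓ N[P], n * x * n⁻¹ = g * x * g⁻¹ := by
  have s1 : IsSylowIn p P (X ⊓ c[g * x * g⁻¹]) := hP.of_le (le_inf hP.le h2) inf_le_left
  have s2 : IsSylowIn p (P ^ᶜ g) (X ⊓ c[g * x * g⁻¹]) := (hP.conj_of_mem hg).of_le
    (le_inf (hP.conj_of_mem hg).le (by rw [← conj_cent1]; exact conj_le_conj_iff.2 h1)) inf_le_left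
  obtain ⟨c, hc, e⟩ := s2.exists_conj_eq s1
  rw [conj_conj] at e
  refine ⟨c * g, ⟨X.mul_mem hc.1 hg, mem_normalizer_iff_conj_eq.2 e⟩, ?_⟩
  calc _ = c * (g * x * g⁻¹) * c⁻¹ := by group
    _ = _ := mul_inv_eq_iff_eq_mul.2 (mem_cent1.1 hc.2)

theorem small_prime (p : ℕ) (h : p ≤ 10) (h2 : p ≠ 2) (h3 : p ≠ 3) (h5 : p ≠ 5) (h7 : p ≠ 7) :
    ¬ p.Prime := by
  interval_cases p <;> first | contradiction | norm_num

omit [Finite G] in
theorem mem3 {x v : G} (hx : x ^ 3 = 1) (hv : v ∈ zpowers x) : ∃ i : Fin 3, v = x ^ i.1 := by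
  obtain ⟨i, rfl⟩ := hv
  refine ⟨⟨(i % 3).toNat, by omega⟩, ?_⟩
  have : x ^ (3 : ℤ) = 1 := by exact_mod_cast hx
  rw [← zpow_natCast, Int.toNat_of_nonneg (by omega)]
  conv_lhs => rw [← Int.mul_ediv_add_emod i 3]
  simp only [zpow_add, zpow_mul, this, one_zpow, one_mul]

omit [Finite G] in
theorem cent_sq_le {x : G} (hx : x ^ 3 = 1) : c[x ^ 2] ≤ c[x] := fun g hg => by
  have : Commute g (x ^ 2) := mem_cent1.1 hg
  have := this.pow_right 2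
  rw [← pow_mul, show 2 * 2 = 3 + 1 from rfl, pow_succ, hx, one_mul] at this
  exact mem_cent1.2 this

omit [Finite G] in
theorem four_conj {u : G} (g : G) (h : Four c[g * u * g⁻¹]) : Four c[u] := by
  obtain ⟨a, ha, b, hb, ia, ib, ne, e⟩ := h
  rw [← conj_cent1, mem_conj_iff] at ha hb
  refine ⟨_, ha, _, hb, by simpa using iconj ia g⁻¹, by simpa using iconj ib g⁻¹, by simpa using ne, ?_⟩
  calc _ = g⁻¹ * (a * b) * g := by group
    _ = _ := by rw [e]; group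

theorem Cov.cent_z {α : Type*} [Fintype α] [DecidableEq α] {z r k : G} {L : G → Perm α → Prop}
    (C : Cov z L) {S : Subgroup G} {ρ κ : Perm α} {a b c d : α} (hr : L r ρ) (hk : L k κ)
    (h1 : S ≤ c[r]) (h2 : k ∈ N[S]) (hn : [a, b, c, d].Nodup)
    (e : ρ * (κ * ρ⁻¹ * κ⁻¹) = swap a b * swap c d) : S ≤ c[z] := by
  have h3 := le_cent1_iff.1 h1
  have h4 := mul_mem h3 (conj_mem_of_norm (mem_norm_cent h2) (inv_mem h3))
  exact le_cent1_iff.2 (C.sq hn (e ▸ C.mul hr (C.conj hk (C.linv hr))) ▸ mul_mem h4 h4)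

/-- weight one or three -/
def Wt {m : ℕ} (ξ : Perm (F m)) : Prop :=
  (∃ a ∈ [(0 : F m), 3, 6], [a, ξ (ξ a), ξ a].Nodup ∧ ξ = cyc a (ξ (ξ a)) (ξ a)) ∨
  ((∀ q, ξ (ξ (ξ q)) = q) ∧ [0, ξ 0, ξ (ξ 0), 3, ξ 3, ξ (ξ 3), 6, ξ 6, ξ (ξ 6)].Nodup ∧
  (∀ q, ξ q ≠ q → q ∈ [0, ξ 0, ξ (ξ 0), 3, ξ 3, ξ (ξ 3), 6, ξ 6, ξ (ξ 6)]) ∧
  ∀ a ∈ [(0 : F m), 3, 6], [a, ξ a, ξ (ξ a)].Nodup)

instance decWt {m : ℕ} (ξ : Perm (F m)) : Decidable (Wt ξ) := by unfold Wt; infer_instance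

namespace St

variable {m : ℕ} {L : G → Perm (F m) → Prop} {z y h x1 x2 x3 d g a : G}
  {σ : Perm (F m)} (S : St m L z y h x1 x2 x3 d)
include S

theorem cj1 : IsConj z y := isConj_iff.2 ⟨h, S.hz⟩

theorem cj2 : IsConj z (z * y) := S.cj1.trans (isConj_iff.2 ⟨h, S.hy⟩)

theorem cards : 8 ≤ Fintype.card (F m) ∧ Fintype.card (F m) ≤ 10 := by
  have := S.hm
  simp only [Fintype.card_fin]
  omega

theorem nds : [(0 : F m), 1, 2].Nodup ∧ [(6 : F m), 7, 8].Nodup := by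
  have := S.hm
  clear S
  interval_cases m <;> decide +kernel

theorem exists_y1 : ∃ v, Invol v ∧ v * z = z * v ∧ v ≠ z ∧ IsConj z v ∧ IsConj z (z * v) ∧
    v * x1 * v = x1⁻¹ := by
  have e : ∀ T : Perm (F m), T = swap 0 2 * swap 0 4 * swap 2 6 * swap 6 8 → sign T = 1 ∧
      T * Y m * T⁻¹ * X1 m * (T * Y m * T⁻¹)⁻¹ = (X1 m)⁻¹ := by
    rintro _ rfl
    have := S.hm
    clear S
    interval_cases m <;> decide +kernel
  obtain ⟨e1, e2⟩ := e _ rfl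
  obtain ⟨k, hk⟩ := S.cov.surj e1
  have l := S.cov.conj hk S.ly
  have kz : k * z * k⁻¹ = z := mul_inv_eq_iff_eq_mul.2 (S.cov.mem hk)
  refine ⟨_, iconj S.iy k, S.cov.mem l, fun e => S.ne (by simpa using e.trans kz.symm),
    S.cj1.trans (isConj_iff.2 ⟨k, rfl⟩), S.cj2.trans (isConj_iff.2 ⟨k, by rw [← conj_mul, kz]⟩), ?_⟩
  have := S.cov.conj_odd (by decide) l S.l1 (S.cov.linv S.l1) S.c1 (by rw [inv_pow, S.c1, inv_one]) e2
  rwa [inv_eq (iconj S.iy k)] at this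

theorem nf1 : ¬ Four c[x1] := not_four S.cov.inv (mem_cent1.2 (S.cov.mem S.l1).symm)
  (S.cov.only3 S.nds.1 S.l1 S.cards.2)

theorem nf {c : G} (hc : c = x1 ∨ c = x3) (i j : Fin 3) (hj : j ≠ 0) (hi : i ≠ j) :
    ¬ Four c[(x1 * x2) ^ i.1 * c ^ j.1] := by
  have e : ∀ i j : Fin 3, j ≠ 0 → i ≠ j → Wt ((X1 m * X2 m) ^ i.1 * X1 m ^ j.1) ∧
      Wt ((X1 m * X2 m) ^ i.1 * X3 m ^ j.1) := by
    have := S.hm
    clear hc S
    interval_cases m <;> decide +kernel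
  obtain ⟨C, hC, l⟩ : ∃ C, Wt ((X1 m * X2 m) ^ i.1 * C ^ j.1) ∧ L c C := by
    rcases hc with rfl | rfl
    exacts [⟨_, (e i j hj hi).1, S.l1⟩, ⟨_, (e i j hj hi).2, S.l3⟩]
  have l := S.cov.mul (S.cov.pow S.lx i) (S.cov.pow l j)
  refine not_four S.cov.inv (mem_cent1.2 (S.cov.mem l).symm) ?_
  rcases hC with ⟨a, -, h1, h2⟩ | ⟨h1, h2, h3, h4⟩
  · exact S.cov.only3 h1 (h2 ▸ l) S.cards.2
  intro t ht t2 tz
  obtain ⟨τ, hτ⟩ := S.cov.tot tz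
  have cm := S.cov.comm_of hτ l (mem_cent1.1 ht)
  obtain ⟨a, ha, fa⟩ : ∃ a ∈ [(0 : F m), 3, 6], τ a = a := by
    simpa using fix3 cm (S.cov.sq_one hτ t2) h1 h2 h3
  have f1 := ag cm (τ := 1) (by simp) fa
  have f2 := ag cm (τ := 1) (by simp) f1
  refine S.cov.eq_one_of hτ t2 (by have := S.cards.2; simp only [List.length]; omega) (h4 a ha) ?_
  simp only [List.mem_cons, List.not_mem_nil, or_false]
  rintro _ (rfl | rfl | rfl)
  exacts [fa, f1, f2]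

end St

namespace St

variable {L : G → Perm (F 1) → Prop} {z y h x1 x2 x3 d g a : G} (S : St 1 L z y h x1 x2 x3 d)
include S

theorem T1 : c[x1] ≤ c[z] := by
  obtain ⟨v, iv, v1, v2, v3, v4, v5⟩ := S.exists_y1
  have key : ∀ (ρ κ : Perm (F 1)) (r : ℕ), Odd r → (sign ρ = 1 ∧ ρ ^ r = 1 ∧ sign κ = 1 ∧
      ρ * X1 1 = X1 1 * ρ ∧ κ * X1 1 = X1 1 * κ ∧ ∃ a b c d, [a, b, c, d].Nodup ∧
      ρ * (κ * ρ⁻¹ * κ⁻¹) = swap a b * swap c d) → ∀ P : Subgroup G,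
      (∀ g ∈ N[pPrimeCoreOf 2 c[x1]], g * z = z * g → g ∈ N[P]) →
      (∀ g ∈ N[P], g ^ r = 1 → P ≤ c[g]) → P ≤ c[z] := by
    rintro ρ κ r hr ⟨e1, e2, e3, e4, e5, a, b, c, d, e6, e7⟩ P h1 h2
    obtain ⟨u, hu, u1⟩ := S.cov.exists_odd hr e1 e2
    obtain ⟨k, hk⟩ := S.cov.surj e3
    have n : ∀ g σ, L g σ → σ * X1 1 = X1 1 * σ → g ∈ N[P] := fun g σ hg e =>
      h1 g (le_normalizer_pPrimeCoreOf 2 _ (mem_cent1.2 (S.cov.comm_odd (by decide) hg S.l1 S.c1 e)))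
        (S.cov.mem hg)
    exact S.cov.cent_z hu hk (h2 u (n _ _ hu e4) u1) (n _ _ hk e5) e6 e7
  have k7 := key (swap 3 9 * swap 3 8 * swap 3 6 * swap 3 4 * swap 3 7 * swap 3 5)
    (swap 3 4 * swap 5 6) 7 (by decide) (by
      refine ⟨?_, ?_, ?_, ?_, ?_, 3, 4, 7, 8, ?_, ?_⟩ <;> decide +kernel)
  have k5 := key (swap 3 7 * swap 3 6 * swap 3 5 * swap 3 4) (swap 3 5 * swap 8 9) 5 (by decide) (by
      refine ⟨?_, ?_, ?_, ?_, ?_, 3, 5, 4, 6, ?_, ?_⟩ <;> decide +kernel)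
  have hO : pPrimeCoreOf 2 c[x1] ≤ c[z] := le_of_forall_sylow fun p hp hd => by
    obtain ⟨P, hP, -, s2, s3, s4⟩ :=
      S.cov.sylB S.nds.1 S.l1 S.c1 hp S.cards.1 S.cards.2 iv v1 v2 v3 v4 v5
    refine ⟨P, hP, ?_⟩
    by_cases h3 : p = 3
    · exact k7 P s2 fun g hg e => le_cent_of_mod (m := 6) hp (by norm_num) e hg hP.isPGroup
        ((s3 h3).trans_lt (by norm_num [h3])) (by subst h3; decide)
    obtain ⟨i, j, h4, hi, hj⟩ := s4 h3
    have bd : ∀ n, ¬ p ^ (n + 1) ∣ Nat.factorial 10 → Nat.card P ≤ p ^ (n + n) := fun n hn => by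
      have : ∀ i, p ^ i ∣ Nat.factorial 10 → p ^ i ≤ p ^ n := fun i hi =>
        Nat.pow_le_pow_right hp.pos (not_lt.1 fun e => hn ((pow_dvd_pow p e).trans hi))
      exact h4.trans ((Nat.mul_le_mul (this i hi) (this j hj)).trans_eq (pow_add _ _ _).symm)
    by_cases h5 : p = 5
    · subst h5
      exact k7 P s2 fun g hg e => le_cent_of_mod (m := 5) hp (by norm_num) e hg hP.isPGroup
        ((bd 2 (by decide)).trans_lt (by norm_num)) (by decide)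
    by_cases h7 : p = 7
    · subst h7
      exact k5 P s2 fun g hg e => le_cent_of_mod (m := 3) hp (by norm_num) e hg hP.isPGroup
        ((bd 1 (by decide)).trans_lt (by norm_num)) (by decide)
    have := bd 0 fun e => by
      have h2 : p ≠ 2 := by
        rintro rfl
        exact absurd ((odd_core _).of_dvd_nat hd) (by decide)
      have h10 : p ≤ 10 := hp.dvd_factorial.1 (by rwa [zero_add, pow_one] at e)
      exact small_prime p h10 h2 h3 h5 h7 hp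
    exact (card_eq_one.1 (le_antisymm this Nat.card_pos)).le.trans bot_le
  intro g hg
  obtain ⟨c, hc, w, hw, rfl⟩ := rank_one S.cov.inv (mem_cent1.2 (S.cov.mem S.l1).symm) S.nf1 hg
  exact mul_mem (hO hc) hw.2

theorem T2 (hg : g ∈ N[A x1 x2 x3]) : g * z = z * g := by
  have h1 : g * z * g⁻¹ ∈ c[x1] := cent_le_cent1 x1_mem
    (conj_mem_of_norm (mem_norm_cent hg) (le_cent1_iff.1 S.A_le_z))
  refine mul_inv_eq_iff_eq_mul.1 ((S.cov.only3 S.nds.1 S.l1 S.cards.2 _ h1 (iconj S.cov.inv g).sq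
    (mem_cent1.1 (S.T1 h1))).resolve_left (iconj S.cov.inv g).ne)

theorem sylA : IsSylowIn 3 (A x1 x2 x3) c[x1 * x2] := by
  haveI := Fact.mk Nat.prime_three
  refine ⟨S.A_comm.trans (cent_le_cent1 x_mem), S.A_pg, fun Q h1 h2 h3 => ?_⟩
  by_contra e
  refine (lt_inf_normalizer h2 (lt_of_le_of_ne h3 (Ne.symm e))).2 fun g hg => ?_
  exact S.mem_A_of3 (S.T2 hg.2) (h1 hg.1) (Or.inr hg.2) (odd_of_pg h2 hg.1)

end St

end Cfsg.Agent.Lib.AnCov
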