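/-
Involutions whose centralizer is a double cover of an alternating group: degree 10 is impossible.
-/
import Cfsg.Agent.Lib.AnCov5

set_option autoImplicit false
set_option linter.unusedSectionVars false
set_option maxRecDepth 100000

namespace Cfsg.Agent.Lib.AnCov

open Subgroup hiding card_le_of_le
open Equiv Equiv.Perm Cfsg.Agent.Lib.BsDefs Cfsg.Agent.Lib.PCoreConj Cfsg.Agent.Lib.PCore
  Cfsg.Agent.Lib.PCoreResidual Cfsg.Agent.Lib.FTDefs Cfsg.Agent.Lib.AltPres Cfsg.Agent.Lib.Bs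

variable {G : Type*} [Group G] [Finite G]

omit [Finite G] in
theorem cjv {g a b : G} (h : g * a * g⁻¹ = b) : g⁻¹ * b * g = a := by rw [← h]; group

theorem twist {z y b v : G} {X : Subgroup G} (hz : Invol z) (e : y * z = z * y)
    (h1 : b * z * b⁻¹ = y) (h2 : b * y * b⁻¹ = z * y) (zX : z ∈ X) (yX : y ∈ X)
    (hv : v = 1 ∨ v = z ∨ v = y ∨ v = z * y) : ∃ u ∈ X, v * b = u * b * u⁻¹ := by
  have h3 := (St.cyc_norm hz e h1 h2).1
  have iy : Invol y := h1 ▸ iconj hz b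
  have k : ∀ u : G, u * u = 1 → u * b * u⁻¹ = u * (b * u * b⁻¹) * b := fun u hu => by
    rw [inv_eq_of_mul_eq_one_right hu]; group
  rcases hv with rfl | rfl | rfl | rfl
  · exact ⟨1, one_mem _, by simp⟩
  · exact ⟨y, yX, by rw [k y iy.sq, h2, ← e, sq_mul iy]⟩
  · exact ⟨_, mul_mem zX yX, by
      rw [k _ (by rw [← e, mul_assoc, e, sq_mul hz, iy.sq]), h3, ← e, mul_sq hz]⟩
  · exact ⟨z, zX, by rw [k z hz.sq, h1]⟩

namespace St

variable {m : ℕ} {L : G → Perm (F m) → Prop} {z y h x1 x2 x3 d g a : G}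
  {σ : Perm (F m)} (S : St m L z y h x1 x2 x3 d)
include S

theorem zX : z ∈ c[x1 * x2] := mem_cent1.2 (S.cov.mem S.lx).symm

theorem yX : y ∈ c[x1 * x2] := mem_cent1.2 S.yx

theorem CKv (h1 : g * z = z * g) (h2 : g * y = y * g) (h3 : g ∈ c[x1 * x2]) :
    ∃ w ∈ zpowers (x1 * x2), ∃ v, (v = 1 ∨ v = z ∨ v = y ∨ v = z * y) ∧ g = w * v := by
  obtain ⟨w, hw, e⟩ := S.CK h1 h2 h3
  have wz : w * z = z * w := mem_cent1.1 (S.A_le_z (zpowers_le.2 x_mem hw))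
  refine ⟨w, hw, ?_⟩
  rcases e with rfl | rfl | rfl | rfl
  exacts [⟨1, by simp, by simp⟩, ⟨z, by simp, wz.symm⟩, ⟨y, by simp, rfl⟩,
    ⟨z * y, by simp, by rw [← mul_assoc, ← wz, mul_assoc]⟩]

theorem dN : d ∈ N[c[x1 * x2]] := centralizer_zpowers_eq (x1 * x2) ▸ mem_norm_cent S.dX

theorem dconj {b : G} (hb : b ∈ c[x1 * x2]) (h1 : b * z * b⁻¹ = y) (h2 : b * y * b⁻¹ = z * y) :
    ∃ u ∈ c[x1 * x2], ∃ c ∈ zpowers (x1 * x2) ⊔ zpowers b, d * b * d⁻¹ = u * c * u⁻¹ := by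
  have key : ∀ b₁ y', b₁ ∈ zpowers b → (y' = y ∨ y' = z * y) → b₁ * z * b₁⁻¹ = y' →
      b₁ * y' * b₁⁻¹ = z * y' → d * y * d⁻¹ = y' →
      ∃ u ∈ c[x1 * x2], ∃ c ∈ zpowers (x1 * x2) ⊔ zpowers b, d * b * d⁻¹ = u * c * u⁻¹ := by
    intro b₁ y' m hy e1 e2 e3
    have dz : d * z * d⁻¹ = z := mul_inv_eq_iff_eq_mul.2 S.dz
    have iy : Invol y' := e3 ▸ iconj S.iy d
    have yz : y' * z = z * y' := by rw [← e3, ← dz, conj_mul, conj_mul, S.yz]
    have e4 := (cyc_norm S.cov.inv yz e1 e2).1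
    have h3 := (cyc_norm S.cov.inv S.yz h1 h2).1
    have t1 : d * b * d⁻¹ * b₁⁻¹ * z = z * (d * b * d⁻¹ * b₁⁻¹) := mul_inv_eq_iff_eq_mul.1 (by
      calc _ = d * (b * (d⁻¹ * (b₁⁻¹ * z * b₁) * d) * b⁻¹) * d⁻¹ := by group
        _ = _ := by
          rw [cjv e4, cjv (show d * (z * y) * d⁻¹ = z * y' by rw [← conj_mul, dz, e3]), h3, dz])
    have t2 : d * b * d⁻¹ * b₁⁻¹ * y' = y' * (d * b * d⁻¹ * b₁⁻¹) := mul_inv_eq_iff_eq_mul.1 (by
      calc _ = d * (b * (d⁻¹ * (b₁⁻¹ * y' * b₁) * d) * b⁻¹) * d⁻¹ := by group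
        _ = _ := by
          rw [cjv e1, cjv dz, h1, e3])
    have bX := zpowers_le.2 hb m
    have y'X : y' ∈ c[x1 * x2] := by
      rcases hy with rfl | rfl
      exacts [S.yX, mul_mem S.zX S.yX]
    obtain ⟨w, hw, v, hv, e⟩ := S.CKv t1 (by
      rcases hy with rfl | rfl
      · exact t2
      · have := Commute.mul_right (t1 : Commute _ z) (t2 : Commute _ (z * y))
        rwa [sq_mul S.cov.inv] at this) (mul_mem (conj_mem_of_norm S.dN hb) (inv_mem bX))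
    obtain ⟨u, hu, e'⟩ := twist (v := v) S.cov.inv yz e1 e2 S.zX y'X (by
      rcases hy with rfl | rfl
      · exact hv
      · rw [sq_mul S.cov.inv]; tauto)
    refine ⟨u, hu, w * b₁, mul_mem_sup hw m, ?_⟩
    have : w * u = u * w := mem_cent_iff.1 ((centralizer_zpowers_eq _).ge hu) w hw
    rw [mul_inv_eq_iff_eq_mul.1 e, mul_assoc w, e', ← mul_assoc, ← mul_assoc, this, mul_assoc u]
  have h3 := (cyc_norm S.cov.inv S.yz h1 h2).1
  rcases S.dy with e | e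
  · exact key b y (mem_zpowers b) (Or.inl rfl) h1 h2 e
  · exact key b⁻¹ (z * y) (inv_mem (mem_zpowers b)) (Or.inr rfl) (by rw [inv_inv, cjv h3])
      (by rw [sq_mul S.cov.inv, inv_inv, cjv h2]) e

theorem exists_e : ∃ e ∈ pCoreOf 2 (c[z] ⊓ c[y]), e * e = z := by
  have n4 : [(0 : F m), Y m 0, 1, Y m 1].Nodup := by
    have := S.hm
    clear S
    interval_cases m <;> decide +kernel
  have s := S.cov.sq_one S.ly S.iy.sq
  have cm : ∀ k ∈ c[z] ⊓ c[y], ∀ σ, L k σ → ∀ p, σ (Y m p) = Y m (σ p) := fun k hk σ hσ p => by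
    rw [← mul_apply, S.cov.comm_of hσ S.ly (mem_cent1.1 hk.2), mul_apply]
  let R : Subgroup G := ⟨⟨⟨{k | k ∈ c[z] ⊓ c[y] ∧ ∃ σ, L k σ ∧ ∀ p, σ p = p ∨ σ p = Y m p}, by
      rintro u v ⟨a1, σ, a2, a3⟩ ⟨b1, τ, b2, b3⟩
      refine ⟨mul_mem a1 b1, _, S.cov.mul a2 b2, fun p => ?_⟩
      rcases b3 p with e | e <;> rw [mul_apply, e]
      · exact a3 p
      · rw [cm u a1 σ a2]
        rcases a3 p with e | e <;> rw [e]
        exacts [Or.inr rfl, Or.inl (app2 s p)]⟩, one_mem _, 1, S.cov.one, fun p => Or.inl rfl⟩, by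
      rintro u ⟨a1, σ, a2, a3⟩
      refine ⟨inv_mem a1, _, S.cov.linv a2, fun p => ?_⟩
      rw [inv_eq_iff_eq, inv_eq_iff_eq, cm u a1 σ a2]
      rcases a3 p with e | e <;> rw [e]
      exacts [Or.inl rfl, Or.inr (app2 s p).symm]⟩
  obtain ⟨e, he⟩ := S.cov.surj (sign_dt n4)
  refine ⟨e, le_pCoreOf (N := R) (fun k hk => hk.1) (fun k hk => mem_normalizer_of_conj_le
    (conj_le_iff.2 ?_)) (isPGroup_iff_forall_mem.2 ?_) ⟨⟨mem_cent1.2 (S.cov.mem he),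
      mem_cent1.2 ((S.cov.swapV S.ly s n4).1 e he)⟩, _, he, fun p => ?_⟩, S.cov.sq n4 he⟩
  · rintro u ⟨a1, σ, a2, a3⟩
    obtain ⟨κ, hκ⟩ := S.cov.tot (mem_cent1.1 hk.1)
    refine ⟨mul_mem (mul_mem hk a1) (inv_mem hk), _, S.cov.conj hκ a2, fun p => ?_⟩
    rcases a3 (κ⁻¹ p) with e | e <;> rw [mul_apply, mul_apply, e]
    · simp
    · simp [cm k hk κ hκ]
  · rintro u ⟨a1, σ, a2, a3⟩
    have : σ * σ = 1 := by
      ext1 p
      rcases a3 p with e | e <;> rw [mul_apply, e]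
      · exact e
      · rw [cm u a1 σ a2, e, app2 s, one_apply]
    refine ⟨2, ?_⟩
    rw [show 2 ^ 2 = 2 * 2 from rfl, pow_mul, pow_two u]
    rcases S.cov.ker (this ▸ S.cov.mul a2 a2) with e | e <;> rw [e]
    exacts [one_pow _, by rw [pow_two, S.cov.inv.sq]]
  · obtain ⟨a1, a2, a3, a4, a5⟩ := dt_apply n4
    by_cases hp : p ∈ [(0 : F m), Y m 0, 1, Y m 1]
    · simp only [List.mem_cons, List.not_mem_nil, or_false] at hp
      rcases hp with rfl | rfl | rfl | rfl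
      exacts [Or.inr a1, Or.inr (a2.trans (app2 s _).symm), Or.inr a3,
        Or.inr (a4.trans (app2 s _).symm)]
    · exact Or.inl (a5 p hp)

end St

namespace St

variable {L : G → Perm (F 1) → Prop} {z y h x1 x2 x3 d g a : G} (S : St 1 L z y h x1 x2 x3 d)
include S

theorem T3 {b : G} (hb : b ∈ c[x1 * x2]) (h1 : b * z * b⁻¹ = y) (h2 : b * y * b⁻¹ = z * y)
    (hg : g ∈ c[x1 * x2]) (ha : g * b * g⁻¹ ∈ A x1 x2 x3) :
    x1 ∈ (zpowers (x1 * x2) ⊔ zpowers b) ^ᶜ g ∨ x3 ∈ (zpowers (x1 * x2) ⊔ zpowers b) ^ᶜ g := by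
  haveI := Fact.mk Nat.prime_three
  have gx : g * (x1 * x2) * g⁻¹ = x1 * x2 := mul_inv_eq_iff_eq_mul.2 (mem_cent1.1 hg)
  have hx : x1 * x2 ∈ (zpowers (x1 * x2) ⊔ zpowers b) ^ᶜ g :=
    mem_conj_iff'.2 ⟨_, mem_sup_left (mem_zpowers _), gx⟩
  have hP : (zpowers (x1 * x2) ⊔ zpowers b) ^ᶜ g ≤ A x1 x2 x3 := by
    rw [conj_sup, conj_zpowers, conj_zpowers, gx]
    exact sup_le (zpowers_le.2 x_mem) (zpowers_le.2 ha)
  refine S.plane hx (conj_mem_conj g (mem_sup_right (mem_zpowers b))) ha ?_ fun e => S.ne ?_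
  · obtain ⟨u, hu, c, hc, e⟩ := S.dconj hb h1 h2
    have c1 := conj_mem_conj g hc
    have e1 : d * (g * b * g⁻¹) * d⁻¹ =
        d * g * d⁻¹ * u * g⁻¹ * (g * c * g⁻¹) * (d * g * d⁻¹ * u * g⁻¹)⁻¹ := by
      calc _ = d * g * d⁻¹ * (d * b * d⁻¹) * (d * g * d⁻¹)⁻¹ := by group
        _ = _ := by rw [e]; group
    obtain ⟨n, hn, e2⟩ := burn S.sylA (mul_mem (mul_mem (conj_mem_of_norm S.dN hg) hu) (inv_mem hg))
      (S.A_comm.trans (cent_le_cent1 (hP c1)))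
      (e1 ▸ S.A_comm.trans (cent_le_cent1 (conj_mem_of_norm S.dA ha)))
    rw [e1, ← e2]
    rcases S.normA (S.T2 hn.2) hn.1 (Or.inr hn.2) with e3 | e3
    · rwa [← mem_cent_iff.1 e3 _ (hP c1), mul_inv_cancel_right]
    · have := mem_cent_iff.1 e3 _ (conj_mem_of_norm S.yA (hP c1))
      rw [show n * (g * c * g⁻¹) * n⁻¹ = n * y * (y * (g * c * g⁻¹) * y⁻¹) * (n * y)⁻¹ by
        rw [mul_inv_rev, inv_eq S.iy]; simp only [mul_assoc, sq_mul S.iy], ← this,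
        mul_inv_cancel_right]
      exact (mul_mem_cancel_right c1).1 (zpowers_le.2 hx (S.y_inv (hP c1)))
  · rw [← gx, ← conj_zpowers, mem_conj_iff] at e
    have := mem_cent1.1 (S.A_le_z (zpowers_le.2 x_mem e))
    rw [show g⁻¹ * (g * b * g⁻¹) * g = b by group] at this
    rw [← h1, this, mul_inv_cancel_right]

theorem ten : False := by
  haveI := Fact.mk Nat.prime_three
  obtain ⟨b, hb, h1, h2, k, hk⟩ := S.exists_b
  obtain ⟨g, hg, ha⟩ := S.sylA.exists_conj_mem hb hk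
  obtain ⟨c, hc, hcP⟩ : ∃ c, (c = x1 ∨ c = x3) ∧ c ∈ (zpowers (x1 * x2) ⊔ zpowers b) ^ᶜ g :=
    (S.T3 hb h1 h2 hg ha).elim (fun e => ⟨_, Or.inl rfl, e⟩) fun e => ⟨_, Or.inr rfl, e⟩
  obtain ⟨h3, bK⟩ := cyc_norm S.cov.inv S.yz h1 h2
  rw [mem_conj_iff] at hcP
  have cA : c ∈ A x1 x2 x3 := by rcases hc with rfl | rfl; exacts [x1_mem, x3_mem]
  have gx : g⁻¹ * (x1 * x2) * g = x1 * x2 := by rw [mul_assoc, ← mem_cent1.1 hg]; group
  have mB : ∀ u ∈ A x1 x2 x3, g⁻¹ * u * g ∈ A x1 x2 x3 ^ᶜ g⁻¹ := fun u hu => by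
    simpa using conj_mem_conj g⁻¹ hu
  have BB : A x1 x2 x3 ^ᶜ g⁻¹ ≤ C[A x1 x2 x3 ^ᶜ g⁻¹] := by
    rw [← conj_centralizer]
    exact conj_le_conj_iff.2 S.A_comm
  have B3 : ∀ u ∈ A x1 x2 x3 ^ᶜ g⁻¹, u ^ 3 = 1 := fun u hu => by
    obtain ⟨v, hv, rfl⟩ := mem_conj_iff'.1 hu
    rw [conj_pow, (S.memA hv).1, mul_one, mul_inv_cancel]
  have xB := gx ▸ mB _ x_mem
  have cB := mB c cA
  have bB : b ∈ A x1 x2 x3 ^ᶜ g⁻¹ := by rwa [mem_conj_iff, inv_inv]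
  have mv : ∀ u ∈ A x1 x2 x3 ^ᶜ g⁻¹, ∀ t, (t = z ∨ t = y ∨ t = z * y) → u * t = t * u →
      u ∈ zpowers (x1 * x2) := fun u hu t ht e => by
    have ub : b * u * b⁻¹ = u := mul_inv_eq_iff_eq_mul.2 (mem_cent_iff.1 (BB hu) b bB)
    have st : ∀ t, u * t = t * u → u * (b * t * b⁻¹) = b * t * b⁻¹ * u := fun t e => by
      rw [← ub, conj_mul, conj_mul, e]
    have : u * z = z * u ∧ u * y = y * u := by
      rcases ht with rfl | rfl | rfl
      · exact ⟨e, h1 ▸ st _ e⟩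
      · exact ⟨h3 ▸ st _ (h2 ▸ st _ e), e⟩
      · exact ⟨h3 ▸ st _ e, h1 ▸ st _ (h3 ▸ st _ e)⟩
    exact S.CK3 this.1 this.2 (cent_le_cent1 xB (BB hu))
      ((by decide : Odd 3).of_dvd_nat (orderOf_dvd_of_pow_eq_one (B3 u hu)))
  have cx : g⁻¹ * c * g ∉ zpowers (x1 * x2) := fun e => by
    refine S.nf hc 0 1 (by decide) (by decide) (four_conj g⁻¹ (Four.mono
      ⟨z, S.zX, y, S.yX, S.cov.inv, S.iy, S.ne.symm, S.yz.symm⟩ ?_))
    simpa using (centralizer_zpowers_eq _).ge.trans (cent_le_cent1 e)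
  have PB : zpowers (x1 * x2) ⊔ zpowers (g⁻¹ * c * g) ≤ A x1 x2 x3 ^ᶜ g⁻¹ :=
    sup_le (zpowers_le.2 xB) (zpowers_le.2 cB)
  have xK : zpowers (x1 * x2) ≤ N[c[z] ⊓ c[y]] := le_normalizer_of_le S.sylx.le
  have PN : zpowers (x1 * x2) ⊔ zpowers (g⁻¹ * c * g) ≤ N[pCoreOf 2 (c[z] ⊓ c[y])] :=
    le_normalizer_pCoreOf_of (sup_le xK (zpowers_le.2 (sup_le xK (zpowers_le.2 bK) hcP)))
  have R2 := pCoreOf_isPGroup 2 (c[z] ⊓ c[y])
  have RK := pCoreOf_le 2 (c[z] ⊓ c[y])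
  have CV : ∀ t ∈ pCoreOf 2 (c[z] ⊓ c[y]), t ∈ c[x1 * x2] → t = 1 ∨ t = z ∨ t = y ∨ t = z * y :=
    fun t ht h => let ⟨_, hn⟩ := isPGroup_iff_forall_mem.1 R2 t ht
      S.CK2 (mem_cent1.1 (RK ht).1) (mem_cent1.1 (RK ht).2) h hn
  obtain ⟨e, he, e2⟩ := S.exists_e
  have := CoprimeSylow.le_of_centralizer_elt_le (H := V4 S.cov.inv S.iy S.yz.symm ⊔
    (c[z] ⊓ c[y] ⊓ c[x1 * x2 * (g⁻¹ * c * g)])) ⟨⟨fun u v => Subtype.ext
      (mem_cent_iff.1 (BB (PB v.2)) u (PB u.2))⟩⟩ (fun hc => ?_) PN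
    (cop_two R2 (odd_of_pgroup Nat.prime_three (by decide) (isPGroup_iff_forall_mem.2 fun u hu =>
      ⟨1, B3 u (PB hu)⟩))).symm (fun u hu u1 => ?_) he
  · have KV : c[z] ⊓ c[y] ≤ C[V4 S.cov.inv S.iy S.yz.symm] := le_centralizer_iff.1
      (V4_le _ _ _ (le_cent1_iff.1 inf_le_left) (le_cent1_iff.1 inf_le_right))
    obtain ⟨v, hv, k, hk, rfl⟩ := (mem_sup_iff_of_le_normalizer'
      (le_normalizer_of_le_centralizer (inf_le_left.trans KV))).1 this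
    rw [Commute.mul_mul_mul_comm (mem_cent_iff.1 (KV hk.1) v hv).symm, V4_sq _ _ _ hv, one_mul] at e2
    exact cx ((mul_mem_cancel_left (mem_zpowers _)).1 (mv _ (mul_mem xB cB) z (Or.inl rfl)
      (mem_cent1.1 (e2 ▸ mul_mem hk.2 hk.2)).symm))
  · obtain ⟨⟨s, hs⟩, h⟩ := hc.exists_generator
    have k : ∀ u ∈ zpowers (x1 * x2) ⊔ zpowers (g⁻¹ * c * g), u ∈ zpowers s := fun u hu => by
      obtain ⟨i, hi⟩ := h ⟨u, hu⟩
      exact ⟨i, by simpa using congrArg Subtype.val hi⟩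
    refine cx (zpowers_le.2 ?_ (k _ (mem_sup_right (mem_zpowers _))))
    obtain ⟨i, hi⟩ := mem3 (B3 s (PB hs)) (k _ (mem_sup_left (mem_zpowers _)))
    fin_cases i
    · exact absurd (hi.trans (pow_zero _)) S.x_ne
    · exact (hi.trans (pow_one _)) ▸ mem_zpowers _
    · have : s = (s ^ 2) ^ 2 := by
        rw [← pow_mul, show 2 * 2 = 3 + 1 from rfl, pow_succ, B3 s (PB hs), one_mul]
      rw [this]
      exact pow_mem (hi ▸ mem_zpowers _) 2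
  obtain ⟨v, hv, w, hw, rfl⟩ := (mem_sup_iff_of_le_normalizer (le_normalizer_of_le_centralizer
    ((zpowers_le.2 xB).trans (BB.trans (centralizer_anti (zpowers_le.2 cB)))))).1 hu
  obtain ⟨i, rfl⟩ := mem3 S.x3' hv
  obtain ⟨j, rfl⟩ := mem3 (B3 _ cB) hw
  by_cases hj : j = 0
  · subst hj
    refine fun t ht => mem_sup_left (CV t ht.1 ?_)
    have := ht.2
    fin_cases i
    · simp at u1
    · simpa using this
    · exact cent_sq_le S.x3' (by simpa using this)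
  by_cases hi : i = j
  · subst hi
    refine fun t ht => mem_sup_right ⟨RK ht.1, ?_⟩
    have := ht.2
    rw [← Commute.mul_pow (mem_cent_iff.1 (BB cB) _ xB)] at this
    fin_cases i
    · exact absurd rfl hj
    · simpa using this
    · exact cent_sq_le (B3 _ (mul_mem xB cB)) this
  have nf : ¬ Four c[(x1 * x2) ^ i.1 * (g⁻¹ * c * g) ^ j.1] := fun e => by
    refine S.nf hc i j hj hi (four_conj g⁻¹ ?_)
    rwa [← conj_mul, ← conj_pow, ← conj_pow, inv_inv, gx]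
  refine (eq_bot_iff.1 (by_contra fun ne => ?_)).trans bot_le
  haveI := Fact.mk Nat.prime_two
  obtain ⟨t, ht, it⟩ := exists_invol fun o => center_ne_bot R2.to_inf_left ne (card_eq_one.1
    ((Nat.coprime_self _).1 (cop_two R2.to_inf_left.to_inf_left o)))
  have m := conj_mem_of_norm (mem_norm_inf (PN (mem_sup_left (mem_zpowers _)))
    (mem_norm_cent1 (mem_cent_iff.1 (BB (PB hu)) _ xB))) ht.1
  have tx : x1 * x2 * t * (x1 * x2)⁻¹ = t := by_contra fun e =>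
    nf ⟨_, m.2, t, ht.1.2, iconj it _, it, e, mem_cent_iff.1 ht.2 _ m⟩
  have := mv _ (PB hu) t ((CV t ht.1.1 (mem_cent1.2 (mul_inv_eq_iff_eq_mul.1 tx).symm)).resolve_left
    it.ne) (mem_cent1.1 ht.1.2).symm
  rw [mul_mem_cancel_left (pow_mem (mem_zpowers _) _)] at this
  refine cx ?_
  fin_cases j
  · exact absurd rfl hj
  · simpa using this
  · exact mem_of_sq ((by decide : Odd 3).of_dvd_nat (orderOf_dvd_of_pow_eq_one (B3 _ cB)))
      (by simpa [pow_two] using this)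

end St

end Cfsg.Agent.Lib.AnCov
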