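import Mathlib
import Cfsg.Agent.Lib.AutSymp

/-!
The graph automorphism of `Sp₄` in characteristic two.
-/

set_option autoImplicit false

namespace Cfsg.Agent.Lib.AutSp4

open Matrix Cfsg.Agent.Lib.AutLift Cfsg.Agent.Lib.AutSemi Cfsg.Agent.Lib.AutForm
  Cfsg.Agent.Lib.AutPhi Cfsg.Agent.Lib.AutSymp Cfsg.Agent.Lib.FormMatrix Cfsg.Agent.Lib.FormSymp

variable {F : Type*} [Field F]

/-- The index set. -/
abbrev I4 := Fin 2 ⊕ Fin 2

/-- First members of the four pairs of indices. -/
def pa : I4 → I4 := Sum.elim (fun _ => Sum.inl 0) ![Sum.inr 0, Sum.inl 1]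

/-- Second members of the four pairs of indices. -/
def pb : I4 → I4 := Sum.elim ![Sum.inl 1, Sum.inr 1] ![Sum.inr 1, Sum.inr 0]

/-- The matrix of the sixteen minors. -/
def minors (M : Matrix I4 I4 F) : Matrix I4 I4 F :=
  of fun i j => M (pa i) (pa j) * M (pb i) (pb j) - M (pa i) (pb j) * M (pb i) (pa j)

theorem J_pa_pb (i : I4) : J (Fin 2) F (pa i) (pb i) = 0 := by
  rcases i with i | i <;> fin_cases i <;> simp [pa, pb, J]

theorem minors_one : minors (1 : Matrix I4 I4 F) = 1 := by
  ext i j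
  rcases i with i | i <;> rcases j with j | j <;> fin_cases i <;> fin_cases j <;>
    simp [minors, pa, pb, one_apply]

theorem minors_mul (h2 : (2 : F) = 0) (A B : symplecticGroup (Fin 2) F) :
    minors (A.1 * B.1) = minors A.1 * minors B.1 := by
  ext i j
  have hR := congrFun (congrFun (SymplecticGroup.mem_iff.mp A.2) (pa i)) (pb i)
  have hC := congrFun (congrFun (SymplecticGroup.mem_iff'.mp B.2) (pa j)) (pb j)
  rw [J_pa_pb] at hR hC
  simp only [minors, of_apply, Matrix.mul_apply, transpose_apply] at hR hC ⊢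
  generalize pa i = a at *
  generalize pb i = b at *
  generalize pa j = c at *
  generalize pb j = d at *
  simp [Fintype.sum_sum_type, Fin.sum_univ_two, J, pa, pb] at hR hC ⊢
  linear_combination
    (-(B.1 (.inl 1) c * B.1 (.inr 1) d - B.1 (.inl 1) d * B.1 (.inr 1) c)) * hR +
    (A.1 a (.inl 0) * A.1 b (.inr 0) - A.1 a (.inr 0) * A.1 b (.inl 0)) * hC +
    (A.1 a (.inl 0) * A.1 b (.inr 0) - A.1 a (.inr 0) * A.1 b (.inl 0)) *
      (B.1 (.inl 0) c * B.1 (.inr 0) d - B.1 (.inl 0) d * B.1 (.inr 0) c) * h2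

theorem minors_tv_mem (h2 : (2 : F) = 0) (w : I4 → F) (c : F) :
    minors (sympTransvection 2 w c) ∈ symplecticGroup (Fin 2) F := by
  rw [SymplecticGroup.mem_iff]
  ext i j
  rcases i with i | i <;> rcases j with j | j <;> fin_cases i <;> fin_cases j <;>
    simp [minors, pa, pb, Matrix.mul_apply, Fintype.sum_sum_type, Fin.sum_univ_two, J, sympTransvection,
      vecMulVec_apply, mulVec, dotProduct, one_apply] <;> grind

theorem minors_mem [Finite F] (h2 : (2 : F) = 0) (A : symplecticGroup (Fin 2) F) :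
    minors A.1 ∈ symplecticGroup (Fin 2) F := by
  have hA : A ∈ (Subgroup.closure _).toSubmonoid := (closure_sympTransvection (F := F) 2).ge trivial
  rw [Subgroup.closure_toSubmonoid_of_finite] at hA
  induction hA using Submonoid.closure_induction with
  | one => rw [OneMemClass.coe_one, minors_one]; exact one_mem _
  | mem A hA =>
    obtain ⟨w, c, h⟩ := hA
    exact h ▸ minors_tv_mem h2 w c
  | mul A B _ _ h1 h3 => exact minors_mul h2 A B ▸ mul_mem h1 h3

/-- The graph endomorphism. -/
noncomputable def rho [Finite F] (h2 : (2 : F) = 0) :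
    symplecticGroup (Fin 2) F →* symplecticGroup (Fin 2) F :=
  MonoidHom.mk' (fun A => ⟨minors A.1, minors_mem h2 A⟩) fun A B => Subtype.ext (minors_mul h2 A B)

theorem exists_tv (w : I4 → F) :
    ∃ T : symplecticGroup (Fin 2) F, T.1 = sympTransvection 2 w 1 := by
  obtain ⟨g, hg⟩ := exists_sympTv (sympB_nondegenerate (F := F) 2).1 (sympB_isAlt 2) w 1
  obtain ⟨T, rfl⟩ := (spEquiv 2 F).surjective g
  exact ⟨T, matrix_ext fun x => by rw [← spEquiv_apply, hg, sympTransvection_mulVec, sympB_apply]⟩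

theorem eq_of_minors_tv (h2 : (2 : F) = 0) {v w : I4 → F}
    (h : minors (sympTransvection 2 v 1) = minors (sympTransvection 2 w 1)) : v = w := by
  have key : ∀ {a b : F}, a * a = b * b → a = b := fun {a b} hab =>
    (mul_self_eq_mul_self_iff.mp hab).elim id fun h => by linear_combination h - b * h2
  have h1 := congrFun (congrFun h (.inl 0)) (.inr 1)
  have h3 := congrFun (congrFun h (.inl 0)) (.inl 1)
  have h4 := congrFun (congrFun h (.inr 1)) (.inl 0)
  have h5 := congrFun (congrFun h (.inl 1)) (.inl 0)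
  simp [minors, pa, pb, Fintype.sum_sum_type, Fin.sum_univ_two, J, sympTransvection,
    vecMulVec_apply, mulVec, dotProduct, one_apply] at h1 h3 h4 h5
  ext i
  rcases i with i | i <;> fin_cases i
  · exact key (a := v (.inl 0)) (b := w (.inl 0)) (by linear_combination -h1)
  · exact key (a := v (.inl 1)) (b := w (.inl 1)) (by linear_combination h3)
  · exact key (a := v (.inr 0)) (b := w (.inr 0)) (by linear_combination h4)
  · exact key (a := v (.inr 1)) (b := w (.inr 1)) (by linear_combination -h5)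

theorem rho_injective [Finite F] (h2 : (2 : F) = 0) : Function.Injective (rho h2) := by
  rw [injective_iff_map_eq_one]
  intro g hg
  refine Subtype.ext (matrix_ext fun v => ?_)
  obtain ⟨T, hT⟩ := exists_tv v
  obtain ⟨T', hT'⟩ := exists_tv (g.1 *ᵥ v)
  have h1 : g * T = T' * g := Subtype.ext (matrix_ext fun x => by
    rw [Submonoid.coe_mul, Submonoid.coe_mul, ← mulVec_mulVec, ← mulVec_mulVec, hT, hT',
      sympTransvection_mulVec, sympTransvection_mulVec, (mem_symplecticGroup_iff 2 g.1).mp g.2,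
      mulVec_add, mulVec_smul])
  have h3 := congrArg (rho h2) h1
  rw [map_mul, map_mul, hg, one_mul, mul_one] at h3
  have h4 : minors T.1 = minors T'.1 := congrArg Subtype.val h3
  rw [hT, hT'] at h4
  rw [← eq_of_minors_tv h2 h4, OneMemClass.coe_one, one_mulVec]

theorem index_sp4 [Finite F] [CharP F 2] : (good_sympB (F := F) le_rfl).Phi.range.index = 2 := by
  have h2 : (2 : F) = 0 := CharTwo.two_eq_zero
  have h := good_sympB (F := F) (le_refl 2)
  let ρ : MulAut (symplecticGroup (Fin 2) F) :=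
    MulEquiv.ofBijective (rho h2) (Finite.injective_iff_bijective.mp (rho_injective h2))
  obtain ⟨T, hT⟩ := exists_tv (F := F) (Pi.single (.inl 0) 1)
  have he : (Pi.single (.inl 0) 1 : I4 → F) ≠ 0 := by simp
  have hTg : (spXX le_rfl T).1 ∈ Tg (sympB 2 F) (NU _) (Pi.single (.inl 0) 1) :=
    ⟨iso _, fun x => by
      rw [show (spXX le_rfl T).1 x = T.1 *ᵥ x from rfl, hT, sympTransvection_mulVec,
        add_sub_cancel_left]
      exact smul_mem_span _ _⟩
  refine index_eq_two h (by simp) (pqEquiv (((spXX le_rfl).symm.trans ρ).trans (spXX le_rfl))) he hTg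
    fun e' he' => ?_
  rw [lift_pqEquiv h.cenP _ (h.isP (pt_of_ne he) (Tg_le_Qg h.fs (nu _) hTg))] at he'
  have h3 : ∀ x, minors T.1 *ᵥ x - x ∈ F ∙ e' := fun x => by
    have := he'.2 x
    rw [MulEquiv.trans_apply, MulEquiv.trans_apply, MulEquiv.symm_apply_apply] at this
    exact this
  obtain ⟨a, ha⟩ := Submodule.mem_span_singleton.mp (h3 (Pi.single (.inr 0) 1))
  obtain ⟨b, hb⟩ := Submodule.mem_span_singleton.mp (h3 (Pi.single (.inr 1) 1))
  have h4 := congrFun ha (.inl 0)
  have h5 := congrFun ha (.inl 1)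
  have h6 := congrFun hb (.inl 0)
  simp [hT, minors, pa, pb, Fintype.sum_sum_type, Fin.sum_univ_two, J, sympTransvection,
    vecMulVec_apply, mulVec, dotProduct, one_apply, Pi.single_apply] at h4 h5 h6
  rcases h4 with h4 | h4
  · simp [h4] at h5
  · simp [h4] at h6

end Cfsg.Agent.Lib.AutSp4
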