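import Cfsg.Agent.Lib.BT6

/-! Extending a conjugation map generator by generator. -/

set_option autoImplicit false

namespace Cfsg.Agent.Lib.BTStep

open Cfsg.Agent.Lib.PermNet Cfsg.Agent.Lib.Words Cfsg.Agent.Lib.PermGroup Cfsg.Agent.Lib.DCE
  Cfsg.Agent.Lib.PermModel Cfsg.Agent.Lib.BT

variable {G : Type*} [Group G] {F : ℕ → G} {t : G} {us vs : List (List ℕ)}

theorem cj_symm (h : Cj t F us vs) : Cj t⁻¹ F vs us := fun i => by
  rw [inv_mul_eq_iff_eq_mul, ← mul_assoc, h i, mul_inv_cancel_right]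

theorem cj_left (h : Cj t F us vs) {g : G} (hg : ∀ v ∈ vs, g * wval F v = wval F v * g) :
    Cj (g * t) F us vs := fun i => by
  rw [mul_assoc, h i, ← mul_assoc, ← mul_assoc, ← getW_eq]
  rcases getW_mem_or vs i with e | e
  · rw [hg _ e]
  · rw [e]; simp

theorem cj_of_comm (h : ∀ v ∈ vs, t * wval F v = wval F v * t) : Cj t F vs vs := by
  simpa using cj_left (t := 1) (us := vs) (fun _ => by simp) h

theorem cj_conj (h : Cj t F us vs) (p : List ℕ) :
    t * wval F (subst us p) * t⁻¹ = wval F (subst vs p) := mul_inv_eq_iff_eq_mul.2 (conj_subst h p)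

theorem cj_rel (h : Cj t F us vs) (r p : List ℕ) (h1 : wval F (subst (r :: us) p) = 1) :
    wval (fun i => ((t * wval F r * t⁻¹) :: vs.map (wval F)).getD i 1) p = 1 := by
  have := congrArg (MulAut.conj t).toMonoidHom h1
  rw [map_one, wval_subst, map_wval] at this
  refine Eq.trans ?_ this
  congr 1
  funext i
  cases i with
  | zero => rfl
  | succ i =>
    rw [List.getD_cons_succ, List.getD_cons_succ, ← wval_nil F, List.getD_map]
    exact eq_mul_inv_of_mul_eq (h i).symm

variable (wb mask : ℕ) (tt : TT) (B : List ℕ)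

/-- The two words commute. -/
noncomputable def comB (u v : List ℕ) : Bool := fixW wb mask tt B ((u ++ v) ++ invW (v ++ u))

/-- The conjugating word commutes with the words `vs`. -/
noncomputable def okC (vs : List (List ℕ)) (u : List ℕ) : Bool :=
  band (Nat.beq (u.headD 0) 0) (allL (comB wb mask tt B u.tail) vs)

noncomputable def stepB (nv : ℕ) (us vs : List (List ℕ)) (r : List ℕ) (pa pb ps : List (List ℕ))
    (p0 z : List ℕ) : Bool :=
  band (vs.all (lt2 nv) && (pa.map (subst vs) ++ pb.map (subst vs)).all (lt2 nv) &&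
      pa.length == pb.length && subst vs p0 == z)
    (band (comB wb mask tt B r (subst us p0))
    (band (allL (fun p => fixW wb mask tt B ((r ++ subst us p.1 ++ invW r) ++ invW (subst us p.2)))
      (pa.zip pb)) (allL (fixW wb mask tt B) (ps.map (subst (r :: us))))))

noncomputable def chainB (us vs cs : List (List ℕ)) (h : List ℕ)
    (L : List (List ℕ × List ℕ × List (List ℕ × List ℕ))) : Bool :=
  allL (fun e => band (eqLL (e.2.2.map Prod.fst) cs) (tchain wb mask tt B us vs e.1 e.2.2 fun k =>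
    fixW wb mask tt B ((h ++ k ++ invW h) ++ invW e.2.1))) L

variable {wb mask tt B} {H : Subgroup G} {N T : ℕ} (M : Model F H ⊥ N wb mask tt B T)
include M

theorem find0 {ch : List Lv} (hch : M.Ch H ch) {nv : ℕ} {xs ys eqs : List (List ℕ)}
    {okU : List ℕ → Bool} {mk : List ℕ → List ℕ} {ts : List Tst} {ct : CT}
    (h : solveB wb mask tt N nv B (fun _ => true) ch 0 [] xs ys (eqs ++ prEq nv xs ys) [] [] okU mk
      ts ct = true) (h0 : (xs ++ ys).all (lt2 nv) = true) {c : G} (hc : c ∈ H)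
    (h1 : List.Forall₂ (fun x y => c * wval F x * c⁻¹ * (wval F y)⁻¹ ∈ (⊥ : Subgroup G)) xs ys)
    (h2 : ∀ u ∈ eqs, wval (Function.update F nv c) u ∈ (⊥ : Subgroup G)) :
    ∃ u, okU u = true ∧ c = wval F (mk u) := by
  obtain ⟨g, hg, u, hu, z, hz, e⟩ := M.solve' hch (fun l _ => M.lmem _) h hc hc (by simp) h1
    (List.forall_mem_append.2 ⟨h2, prEq_mem h1 h0⟩) (by simp)
  rw [show g = 1 by simpa [sl, gp_nil] using hg, one_mul, Subgroup.mem_bot.1 hz, mul_one] at e
  exact ⟨u, hu, e⟩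

theorem step {ch : List Lv} (hch : M.Ch H ch) (C : Cj t F us vs) {r s p0 z : List ℕ}
    {pa pb ps : List (List ℕ)} (hH : ∀ g, g * wval F z = wval F z * g → g ∈ H) {nv : ℕ}
    {ts : List Tst} {ct : CT}
    (h : solveB wb mask tt N nv B (fun _ => true) ch 0 [] (pa.map (subst vs)) (pb.map (subst vs))
      (ps.map (subst ([2 * nv] :: vs)) ++ prEq nv (pa.map (subst vs)) (pb.map (subst vs))) [] []
      (okC wb mask tt B vs) (mkC [s]) ts ct = true)
    (hb : stepB wb mask tt B nv us vs r pa pb ps p0 z = true) :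
    ∃ t', Cj t' F (r :: us) (s :: vs) := by
  obtain ⟨b1, hb⟩ := band_eq hb
  obtain ⟨b2, hb⟩ := band_eq hb
  obtain ⟨b3, b4⟩ := band_eq hb
  simp only [Bool.and_eq_true, beq_iff_eq] at b1
  obtain ⟨⟨⟨a1, a2⟩, a3⟩, rfl⟩ := b1
  obtain ⟨u, hu, e⟩ := find0 M hch h a2 (hH _ (C.comm p0 (M.comm _ _ b2)))
    (List.forall₂_map_left_iff.2 (List.forall₂_map_right_iff.2 (List.forall₂_iff_zip.2
      ⟨a3, fun {a b} hp => by
        rw [← cj_conj C a, ← cj_conj C b, ← M.cj _ _ _ (allL_all b3 _ hp), Subgroup.mem_bot]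
        group⟩))) (C.transport r nv ps (M.rels _ b4) a1)
  obtain ⟨c1, c2⟩ := band_eq hu
  rw [wval_mkC, beq_eq c1, List.getD_cons_zero] at e
  refine ⟨(wval F u.tail)⁻¹ * t, .cons ?_ (cj_left C fun v hv =>
    (Commute.inv_left (M.comm _ _ (allL_all c2 v hv))).eq)⟩
  rw [mul_assoc, mul_inv_eq_iff_eq_mul.1 e]
  group

theorem cj_chain (C : Cj t F us vs) (cs : List (List ℕ)) (h : List ℕ)
    (L : List (List ℕ × List ℕ × List (List ℕ × List ℕ)))
    (hb : chainB wb mask tt B us vs cs h L = true) :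
    Cj (wval F h * tv t F cs) F (L.map (·.1)) (L.map (·.2.1)) := by
  induction L with
  | nil => exact .nil
  | cons e L ih =>
    obtain ⟨b1, b2⟩ := band_eq hb
    obtain ⟨k, e1, e2⟩ := M.tchain_sound C _ _ _ (band_eq b1).2
    refine .cons ?_ (ih b2)
    rw [eqLL_eq (band_eq b1).1] at e1
    rw [mul_assoc, e1, ← M.cj _ _ _ e2]
    group

theorem cj_new (C : Cj t F us vs) (L : List (List ℕ × List ℕ × List ℕ))
    (h : allL (fun e => band (fixW wb mask tt B (e.2.1 ++ invW (subst us e.1)))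
      (fixW wb mask tt B (e.2.2 ++ invW (subst vs e.1)))) L = true) :
    Cj t F (L.map (·.2.1)) (L.map (·.2.2)) := by
  induction L with
  | nil => exact .nil
  | cons e L ih =>
    obtain ⟨b1, b2⟩ := band_eq h
    exact .cons (by rw [M.eq _ _ (band_eq b1).1, M.eq _ _ (band_eq b1).2]; exact conj_subst C _)
      (ih b2)

end Cfsg.Agent.Lib.BTStep
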