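/-
Pure lemmas for the second stage of the reduction: field automorphisms, minimal invariant subgroups, transfer.
-/
import Cfsg.Agent.Lib.BsA2
import Cfsg.Agent.Lib.ZassRecog
import Cfsg.Agent.Lib.TransferFrobenius
import Cfsg.Agent.Lib.FusionControl

set_option autoImplicit false
set_option linter.unusedSectionVars false
set_option linter.style.haveILetI false
set_option linter.unusedVariables false

namespace Cfsg.Agent.Lib.Bs

open Subgroup Cfsg.Agent.Lib.BsDefs Cfsg.Agent.Lib.PCoreConj Cfsg.Agent.Lib.PCore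
  Cfsg.Agent.Lib.PCoreResidual Cfsg.Agent.Lib.FTDefs
open scoped commutatorElement

variable {G : Type*} [Group G] [Finite G] {t x y : G} {E K X B M D P : Subgroup G} {p : ℕ}

theorem ringAut_mem_powers {F : Type*} [Field F] [Finite F] (σ τ : RingAut F) (h : ∀ u, σ u = u → τ u = u) :
    ∃ i : ℕ, τ = σ ^ i := by
  haveI : Finite (RingAut F) := Finite.of_injective (fun f : RingAut F => (f : F → F)) DFunLike.coe_injective
  obtain ⟨⟨g, hg⟩, e⟩ := FixedPoints.toAlgAut_surjective (zpowers σ) F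
    (AlgEquiv.ofRingEquiv (f := τ) fun u => h u (u.2 ⟨σ, mem_zpowers σ⟩))
  obtain ⟨i, rfl⟩ := (mem_powers_iff_mem_zpowers.2 hg : g ∈ Submonoid.powers σ)
  exact ⟨i, RingEquiv.ext fun u => (AlgEquiv.congr_fun e u).symm⟩

/-- An abelian group regular on the nonidentity elements of an abelian group: it is cyclic, and its normalizer acts
on it by field automorphisms. -/
theorem g2' (hE : ∀ a ∈ E, ∀ b ∈ E, a * b = b * a) (hK : ∀ a ∈ K, ∀ b ∈ K, a * b = b * a) (hn : K ≤ N[E])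
    (hne : E ≠ ⊥) (tr : ∀ a ∈ E, ∀ b ∈ E, a ≠ 1 → b ≠ 1 → ∃ k ∈ K, k * a * k⁻¹ = b)
    (free : ∀ k ∈ K, ∀ a ∈ E, a ≠ 1 → k * a * k⁻¹ = a → k = 1) :
    IsCyclic K ∧ ∀ x ∈ N[E] ⊓ N[K], ∀ y ∈ N[E] ⊓ N[K], (∀ k ∈ K, k * x = x * k → k = 1) →
      ∃ i : ℕ, ∀ k ∈ K, y * k * y⁻¹ = x ^ i * k * (x ^ i)⁻¹ := by
  obtain ⟨F, _, _, e, δ, e1, e2, e3, e4, e5⟩ := ZassRecog.exists_field hE hK hn hne fun U hU h => by
    refine or_iff_not_imp_left.2 fun ne => le_antisymm hU fun b hb => ?_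
    obtain ⟨⟨a, a1⟩, a2⟩ := ne_bot_iff_exists_ne_one.1 ne
    by_cases b1 : b = 1
    · exact b1 ▸ one_mem U
    · obtain ⟨k, k1, rfl⟩ := tr a (hU a1) b hb (by simpa using a2) b1
      exact h k k1 a a1
  have e0 : e 0 = 1 := by simpa using e4 0 0
  have en : ∀ u, u ≠ 0 → e u ≠ 1 := fun u h k => h (e1 (k.trans e0.symm))
  have d1 : ∀ k ∈ K, k * e 1 * k⁻¹ = e (δ k) := fun k hk => by rw [e5 k hk, mul_one]
  have dn : ∀ k ∈ K, δ k ≠ 0 := fun k hk h => en 1 one_ne_zero (by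
    have := d1 k hk
    rw [h, e0] at this
    simpa using this)
  have dm : ∀ k ∈ K, ∀ k' ∈ K, δ (k * k') = δ k * δ k' := fun k hk k' hk' => e1 (by
    rw [← d1 _ (mul_mem hk hk'), ← e5 k hk, ← d1 k' hk']; group)
  have di : ∀ k ∈ K, ∀ k' ∈ K, δ k = δ k' → k = k' := fun k hk k' hk' h => by
    have := free _ (mul_mem (inv_mem hk') hk) _ (e2 1) (en 1 one_ne_zero) (by
      rw [show k'⁻¹ * k * e 1 * (k'⁻¹ * k)⁻¹ = k'⁻¹ * (k * e 1 * k⁻¹) * k' by group, d1 k hk, h, ← d1 k' hk']; group)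
    exact (inv_mul_eq_one.1 this).symm
  have ds : ∀ u, u ≠ 0 → ∃ k ∈ K, δ k = u := fun u h => by
    obtain ⟨k, k1, k2⟩ := tr _ (e2 1) _ (e2 u) (en 1 one_ne_zero) (en u h)
    exact ⟨k, k1, e1 ((d1 k k1).symm.trans k2)⟩
  have key : ∀ g ∈ N[E] ⊓ N[K], ∃ σ : RingAut F, ∀ k ∈ K, σ (δ k) = δ (g * k * g⁻¹) := fun g hg => by
    choose τ hτ using fun u => e3 _ (conj_mem_of_norm hg.1 (e2 u))
    have t0 : τ 0 = 0 := e1 (by rw [hτ, e0]; group)
    have ta : ∀ u v, τ (u + v) = τ u + τ v := fun u v => e1 (by rw [e4, hτ, hτ, hτ, e4]; group)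
    have t1 : τ 1 ≠ 0 := fun h => en 1 one_ne_zero (by
      have := hτ 1
      rw [h, e0] at this
      simpa using this.symm)
    have tm : ∀ k ∈ K, ∀ u, τ (δ k * u) = δ (g * k * g⁻¹) * τ u := fun k hk u => e1 (by
      rw [← e5 _ (conj_mem_of_norm hg.2 hk), hτ, hτ, ← e5 k hk]; group)
    have ts : ∀ k ∈ K, τ (δ k) / τ 1 = δ (g * k * g⁻¹) := fun k hk => by
      rw [← mul_one (δ k), tm k hk, mul_div_assoc, div_self t1, mul_one]
    let f : F →+* F :=
      { toFun := fun u => τ u / τ 1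
        map_one' := div_self t1
        map_zero' := by rw [t0, zero_div]
        map_add' := fun u v => by rw [ta, add_div]
        map_mul' := fun u v => by
          by_cases h : u = 0
          · simp [h, t0]
          · obtain ⟨k, k1, rfl⟩ := ds u h
            rw [tm k k1, ts k k1, mul_div_assoc] }
    exact ⟨RingEquiv.ofBijective f (Finite.injective_iff_bijective.1 f.injective), ts⟩
  refine ⟨?_, fun x hx y hy fpf => ?_⟩
  · let f : K →* F :=
      { toFun := fun k => δ k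
        map_one' := e1 (by rw [← d1 _ (1 : K).2]; simp)
        map_mul' := fun a b => dm _ a.2 _ b.2 }
    exact isCyclic_of_injective_ringHom f fun a b h => Subtype.ext (di _ a.2 _ b.2 h)
  · obtain ⟨σ, hσ⟩ := key x hx
    obtain ⟨τ, hτ⟩ := key y hy
    obtain ⟨i, rfl⟩ := ringAut_mem_powers σ τ fun u hu => by
      by_cases h : u = 0
      · simp [h]
      · obtain ⟨k, k1, rfl⟩ := ds u h
        rw [hσ k k1] at hu
        have := di _ (conj_mem_of_norm hx.2 k1) _ k1 hu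
        rw [fpf k k1 (mul_inv_eq_iff_eq_mul.1 this).symm, hτ 1 (one_mem _)]
        simp
    have : ∀ j : ℕ, ∀ k ∈ K, (σ ^ j) (δ k) = δ (x ^ j * k * (x ^ j)⁻¹) := fun j => by
      induction j with
      | zero => simp
      | succ j ih =>
        intro k hk
        rw [pow_succ', RingAut.mul_apply, ih k hk, hσ _ (conj_mem_of_norm (pow_mem hx.2 j) hk), pow_succ']
        congr 1
        group
    exact ⟨i, fun k hk => di _ (conj_mem_of_norm hy.2 hk) _ (conj_mem_of_norm (pow_mem hx.2 i) hk)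
      ((hτ k hk).symm.trans (this i k hk))⟩

/-- A minimal invariant subgroup not centralized by the involution has prime power order. -/
theorem minK (hX : Odd (Nat.card X)) (ht : Invol t) (hn : t ∈ N[X]) (hB : B ≤ N[X]) (hBt : B ≤ c[t])
    (h : ¬ X ≤ c[t]) : ∃ (r : ℕ) (R : Subgroup G), r.Prime ∧ IsPGroup r R ∧ R ≤ X ∧ B ≤ N[R] ∧ t ∈ N[R] ∧
      ¬ R ≤ c[t] := by
  obtain ⟨R, ⟨r1, r2, r3⟩, r4, r5⟩ := exists_minimal_le (P := fun R => B ≤ N[R] ∧ t ∈ N[R] ∧ ¬ R ≤ c[t]) ⟨hB, hn, h⟩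
  have o := odd_of_le hX r4
  have Bt : B ≤ N[zpowers t] := le_normalizer_of_le_centralizer (hBt.trans (centralizer_zpowers_eq t).ge)
  have e₁ : ⁅R, zpowers t⁆ = R := r5 _ ⟨le_normalizer_commutator r1 Bt,
    normalizer_commutator_ge_right _ _ (mem_zpowers t), fun l => r3 (by
      rw [← centralizer_zpowers_eq, le_cent_comm, ← commutator_eq_bot_iff_le_centralizer'] at l ⊢
      exact CoprimeBasic.commutator_eq_bot_of_commutator_commutator_eq_bot (zpowers_le.2 r2)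
        (cop_two (two_group_zpowers ht) o) l)⟩ (commutator_le_left_of_le_normalizer (zpowers_le.2 r2))
  have ne : R ≠ ⊥ := fun e => r3 (e ▸ bot_le)
  have l₁ : ⁅R, R⁆ ≤ c[t] := by
    by_contra l
    exact (der_lt_of_solv (solv o) ne).ne (r5 _ ⟨le_normalizer_commutator r1 r1, mem_norm_comm r2 r2, l⟩ (der_le R))
  have l₂ : R ≤ C[⁅R, R⁆] := by
    nth_rw 1 [← e₁]
    refine commutator_le.2 fun a ha v hv => ?_
    have := zpowers_le.2 (mem_cent_of_cent1 l₁) hv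
    rw [commutatorElement_def]
    exact mul_mem (conj_mem_of_norm (mem_norm_cent ((NormalIn.der R).2 ha)) this) (inv_mem this)
  have nil : Group.IsNilpotent R := nil_of_comm_lt fun N hN hne => by
    refine lt_of_le_of_ne (hN.comm_le le_rfl) fun e => hne (eq_bot_iff.2 ?_)
    rw [← e, ← commutator_eq_bot_iff_le_centralizer'.2 l₂]
    exact commutator_mono (e.ge.trans (commutator_mono hN.1 le_rfl)) le_rfl
  by_contra hc
  refine r3 (le_of_forall_sylow fun r hr _ => ⟨_, sylow_pCoreOf_of_nil nil r, by_contra fun l => hc ?_⟩)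
  exact ⟨r, _, hr, pCoreOf_isPGroup r R, (pCoreOf_le r R).trans r4, le_normalizer_pCoreOf_of r1,
    normalizer_le_normalizer_pCoreOf r R r2, l⟩

/-- The transfer argument. -/
theorem t2 (hp : p.Prime) (h2 : p ≠ 2) (hD : D ≤ M) (hP : IsSylowIn p P D) (hd : p ∣ ⁅D, D⁆.relIndex D)
    (good : ∀ U ≤ P, U = P ∨ ¬ IsCyclic U → ∃ T : Subgroup G, IsPGroup 2 T ∧ T ≤ M ⊓ C[U] ∧
      ∀ n ∈ M ⊓ N[U], ∃ s ∈ T, ∃ d ∈ D, n = s * d) :
    pResidualOf p M ≠ M ∧ pResidualOf p M ⊔ D = M := by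
  haveI := Fact.mk hp
  haveI := Fact.mk Nat.prime_two
  have s : IsSylowIn p P M := by
    obtain ⟨T, t1, t2, t3⟩ := good P le_rfl (Or.inl rfl)
    refine IsSylowIn.of_inf_normalizer ((hP.of_le (le_inf hP.le le_normalizer) inf_le_left).trans_of_not_dvd
      (inf_le_inf_right _ hD) fun hd => ?_)
    have l : T ≤ M ⊓ N[P] := t2.trans (inf_le_inf_left _ (centralizer_le_normalizer _))
    have dec : ∀ g ∈ M ⊓ N[P], ∃ s ∈ T, ∃ d ∈ D ⊓ N[P], g = s * d := fun g hg => by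
      obtain ⟨s, s1, d, d1, rfl⟩ := t3 g hg
      exact ⟨s, s1, d, ⟨d1, by simpa using N[P].mul_mem (N[P].inv_mem (l s1).2) hg.2⟩, rfl⟩
    have e : T ⊔ D ⊓ N[P] = M ⊓ N[P] := le_antisymm (sup_le l (inf_le_inf_right _ hD)) fun g hg => by
      obtain ⟨s, s1, d, d1, rfl⟩ := dec g hg
      exact mul_mem_sup s1 d1
    have c : Nat.card ↥(M ⊓ N[P]) ∣ Nat.card T * Nat.card ↥(D ⊓ N[P]) := by
      nth_rw 1 [← e]
      exact Permutes.card_dvd fun g hg => dec g (e ▸ hg)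
    rw [← card_mul_relIndex (inf_le_inf_right _ hD), mul_comm (Nat.card T)] at c
    obtain ⟨n, hn⟩ := t1.exists_card_eq
    have := hd.trans (Nat.dvd_of_mul_dvd_mul_left Nat.card_pos c)
    rw [hn] at this
    exact h2 ((Nat.prime_dvd_prime_iff_eq hp Nat.prime_two).1 (hp.dvd_of_dvd_pow this))
  refine ⟨fun e => ?_, le_antisymm (sup_le (pResidualOf_le p M) hD) ((s.sup_eq_of_pow_mem (pResidualOf_le p M)
    (le_normalizer_pResidualOf p M) fun x hx => exists_pow_mem_pResidualOf hx).ge.trans (sup_le_sup_left hP.le _))⟩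
  have loc : ∀ U : Subgroup M, U ≤ s.toSylow → (U = s.toSylow ∨ ¬ IsCyclic U) → ∀ n ∈ normalizer (U : Set M),
      TransferAlperin.InducedBy (D.subgroupOf M) U n := fun U hU h n hn => by
    obtain ⟨T, -, t2, t3⟩ := good (U.map M.subtype) ((map_mono hU).trans s.map_toSylow.le)
      (h.imp (fun e => by rw [e, s.map_toSylow]) fun h k => h
        ((MulEquiv.isCyclic (U.equivMapOfInjective M.subtype M.subtype_injective)).2 k))
    obtain ⟨w, w1, d, d1, e⟩ := t3 n (by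
      rw [← map_normalizer_subtype]; exact mem_map_of_mem _ hn)
    refine ⟨⟨d, hD d1⟩, d1, fun a ha => Subtype.ext ?_⟩
    have h1 : (n : G) * a * (n : G)⁻¹ ∈ U.map M.subtype := mem_map_of_mem M.subtype (conj_mem_of_norm hn ha)
    have h3 := mem_cent_iff.1 (t2 w1).2 _ h1
    change (n : G) * a * (n : G)⁻¹ = d * a * d⁻¹
    calc (n : G) * a * (n : G)⁻¹ = w⁻¹ * ((n : G) * a * (n : G)⁻¹ * w) := by rw [h3]; group
      _ = d * a * d⁻¹ := by rw [e]; group
  refine TransferFrobenius.pResidual_ne_top_of_focal s.toSylow (L := ⁅D, D⁆.subgroupOf M) (fun l => ?_)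
    (fun x hx g hg => ?_) (by rw [← pResidualOf_subgroupOf, e, subgroupOf_self])
  · refine hP.not_dvd_relIndex_of_le (fun x hx => ?_) hd
    exact l (show (⟨x, s.le hx⟩ : M) ∈ (s.toSylow : Subgroup M) from hx)
  · obtain ⟨d, d1, d2⟩ := TransferAlperin.inducedBy_of_local s.toSylow (D.subgroupOf M)
      (loc _ le_rfl (Or.inl rfl)) (fun U hU h1 h3 => loc U hU.le (Or.inr fun hc => by
        have pg := s.toSylow.isPGroup'
        have d := der_le_cent_of_cyclic hc (le_refl N[U])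
        have l : ((s.toSylow : Subgroup M) ⊓ N[U]) ⊔ C[U] ≤ N[U] := sup_le inf_le_right (centralizer_le_normalizer _)
        have := FusionControl.le_of_centricRadical pg h1 h3 l (NormalIn.of_der_le (d.trans le_sup_right) l).2 (by
          rw [sup_comm]
          exact pResidualOf_sup_le (pg.to_le inf_le_left) (inf_le_right.trans (normalizer_le_normalizer_centralizer U)))
        exact (CoprimeSylow.lt_inf_normalizer_of_isPGroup pg hU).not_ge ((le_inf inf_le_left le_sup_left).trans this)))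
      (zpowers x) g (zpowers_le.2 hx) (by rw [TransferAlperin.conjSub, conj_zpowers]; exact zpowers_le.2 hg)
    rw [d2 x (mem_zpowers x)]
    exact commutator_mem_commutator d1 (hP.le hx)

/-- A noncyclic abelian group centralizing the involution: some nonidentity element fixes an inverted element. -/
theorem exists_Kv_cent {A : Subgroup G} (hp : p.Prime) (h2 : p ≠ 2) (hX : Odd (Nat.card X)) (ht : Invol t)
    (hn : t ∈ N[X]) (hA : IsPGroup p A) (hc : IsMulCommutative A) (hnc : ¬ IsCyclic A) (hAX : A ≤ N[X])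
    (hAt : A ≤ c[t]) (h : ¬ X ≤ c[t]) : ∃ z ∈ A, z ≠ 1 ∧ ∃ k ∈ Kv X t, k ≠ 1 ∧ k * z = z * k := by
  haveI := Fact.mk hp
  obtain ⟨r, R, hr, r1, r2, r3, r4, r5⟩ := minK hX ht hn hAX hAt h
  obtain ⟨z, z1, z2, z3⟩ : ∃ z ∈ A, z ≠ 1 ∧ ¬ R ⊓ c[z] ≤ c[t] := by
    by_contra e
    push Not at e
    by_cases e' : r = p
    · subst e'
      obtain ⟨⟨z, z1⟩, z2⟩ := ne_bot_iff_exists_ne_one.1 (show A ≠ ⊥ by rintro rfl; exact hnc inferInstance)
      have := CoprimeBasic.thompson_AxB r1 hA (B := zpowers t) (by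
        rw [Nat.card_zpowers, order_two ht, Nat.prime_dvd_prime_iff_eq hp Nat.prime_two]; exact h2) r3
        (zpowers_le.2 r4) (by rwa [commutator_eq_bot_iff_le_centralizer, centralizer_zpowers_eq]) (by
          rw [commutator_eq_bot_iff_le_centralizer, centralizer_zpowers_eq]
          exact (inf_le_inf_left R (cent_le_cent1 z1)).trans (e z z1 (by simpa using z2)))
      rw [commutator_eq_bot_iff_le_centralizer, centralizer_zpowers_eq] at this
      exact r5 this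
    · haveI := Fact.mk hr
      exact r5 (CoprimeSylow.le_of_centralizer_elt_le hc hnc r3 (IsPGroup.coprime_card_of_ne p r (Ne.symm e') A R hA r1) e)
  obtain ⟨k, k1, k2⟩ := exists_Kv_ne (odd_of_le hX (inf_le_left.trans r2)) ht
    (mem_norm_inf r4 (mem_norm_cent1 (mem_cent1.1 (hAt z1)).symm)) z3
  exact ⟨z, z1, z2, k, Kv_mono (inf_le_left.trans r2) k1, k2, mem_cent1.1 k1.1.2⟩

section Action

open MulAction

variable {Ω : Type*} [MulAction G Ω] {α β : Ω} {U Z : Subgroup G} {m : ℕ}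

/-- The largest normal `2`-subgroup of the centralizer of `U` in the stabilizer of `α` is transitive on the other
fixed points of `U`. -/
def GoodT (α : Ω) (U : Subgroup G) : Prop :=
  ∀ δ ε : Ω, U ≤ S[δ] → U ≤ S[ε] → δ ≠ α → ε ≠ α → ∃ s ∈ pCoreOf 2 (C[U] ⊓ S[α]), s • δ = ε

theorem eq_one_of_two (hI : IFix G Ω) (hX : IsPGroup 2 X) (hx : x ∈ X) (hne : α ≠ β) (h₁ : x • α = α)
    (h₂ : x • β = β) : x = 1 := by
  haveI := Fact.mk Nat.prime_two
  obtain ⟨k, hk⟩ := isPGroup_iff_forall_mem.1 hX x hx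
  exact eq_one_of_coprime_of_pow_eq_one (odd_order_two hI hne h₁ h₂).coprime_two_right hk

theorem GoodT.step (hI : IFix G Ω) (h : GoodT α Z) (h₁ : Z ≤ U) (h₂ : U ≤ N[Z]) (h₃ : U ≤ S[α]) : GoodT α U :=
  fun δ ε d e d' e' => by
    obtain ⟨s, s1, s2⟩ := h δ ε (h₁.trans d) (h₁.trans e) d' e'
    have n : U ≤ N[pCoreOf 2 (C[Z] ⊓ S[α])] := le_normalizer_pCoreOf_of
      (le_normalizer_inf (le_normalizer_centralizer h₂) (h₃.trans le_normalizer))
    have sα := pCoreOf_le 2 (C[Z] ⊓ S[α])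
    have c : s ∈ C[U] := mem_cent_iff.2 fun u hu => by
      have m := mul_mem (inv_mem s1) (conj_mem_of_norm (n hu) s1)
      have := eq_one_of_two hI (pCoreOf_isPGroup 2 _) m d'.symm (sα m).2 (by
        rw [mul_smul, mul_smul, mul_smul, mem_St.1 (d (inv_mem hu)), s2, mem_St.1 (e hu), ← s2, inv_smul_smul])
      rw [← mul_inv_eq_iff_eq_mul]
      exact (inv_mul_eq_one.1 this).symm
    have l : C[U] ⊓ S[α] ≤ C[Z] ⊓ S[α] := inf_le_inf_right _ (centralizer_anti h₁)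
    exact ⟨s, pCoreOf_inf_le l ⟨s1, c, (sα s1).2⟩, s2⟩

theorem GoodT.of_le (hI : IFix G Ω) (hp : p.Prime) (hU : IsPGroup p U) (h₃ : U ≤ S[α]) (Z : Subgroup G) :
    Z ≤ U → GoodT α Z → GoodT α U := by
  haveI := Fact.mk hp
  induction Z using subgroup_induction_gt with
  | ih Z ih =>
    intro h₁ h
    rcases h₁.eq_or_lt with rfl | lt
    · exact h
    · have := CoprimeSylow.lt_inf_normalizer_of_isPGroup hU lt
      exact ih _ this inf_le_left (h.step hI this.le inf_le_right (inf_le_left.trans h₃))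

theorem goodT_of_two (h : ∀ γ : Ω, U ≤ S[γ] → γ = α ∨ γ = β) : GoodT α U := fun δ ε d e d' e' =>
  ⟨1, one_mem _, by rw [one_smul, (h δ d).resolve_left d', (h ε e).resolve_left e']⟩

/-- A `2`-subgroup of the stabilizer lies in every normal supplement of the two point stabilizer. -/
theorem two_le (hI : IFix G Ω) (hne : α ≠ β) (h₁ : S[α] ≤ N[M]) (h₂ : M ⊔ S[α] ⊓ S[β] = S[α]) (hX : IsPGroup 2 X)
    (h₃ : X ≤ S[α]) : X ≤ M := by
  haveI := Fact.mk Nat.prime_two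
  refine le_of_isPGroup_of_not_dvd_relIndex h₁ (fun hd => ?_) h₃ hX
  nth_rw 1 [← h₂] at hd
  rw [sup_comm, relIndex_sup_of_le_normalizer (inf_le_left.trans h₁)] at hd
  exact ne_two_of_odd (odd_two hI hne) (hd.trans (relIndex_dvd_card _ _)) rfl

/-- The Sylow subgroups of the two point stabilizer of a minimal normal supplement. -/
theorem Hyp.t2 (h : Hyp G Ω m) (hne : α ≠ β) (h₀ : M ≤ S[α]) (h₁ : S[α] ≤ N[M]) (h₂ : M ⊔ S[α] ⊓ S[β] = S[α])
    (hmin : ∀ N ≤ M, S[α] ≤ N[N] → N ⊔ S[α] ⊓ S[β] = S[α] → N = M) (hp : p.Prime)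
    (hd : p ∣ ⁅M ⊓ S[β], M ⊓ S[β]⁆.relIndex (M ⊓ S[β])) (hP : IsSylowIn p P (M ⊓ S[β]))
    (hT : ∀ A : Subgroup G, IsPGroup p A → A ≤ S[α] → A ≤ S[β] → ∀ γ : Ω, γ ≠ α → γ ≠ β → A ≤ S[γ] →
      ∃ t ∈ C[A], Invol t ∧ t • α = β)
    (hB : ∀ z : G, z ≠ 1 → IsPGroup p (zpowers z) → z • α = α → z • β = β → ∀ γ : Ω, γ ≠ α → γ ≠ β → z • γ = γ →
      Four c[z] → GoodT α (zpowers z))
    (hR : ∀ z : G, z ≠ 1 → IsPGroup p (zpowers z) → z • α = α → z • β = β → ∀ γ : Ω, γ ≠ α → γ ≠ β → z • γ = γ →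
      ¬ Four c[z] → ∀ t ∈ c[z], Invol t → t • α = β → ∀ k ∈ Kv (c[z] ⊓ S[α]) t, k = 1) :
    IsCyclic P ∧ ∀ x ∈ P, orderOf x = p → (∃ γ : Ω, γ ≠ α ∧ γ ≠ β ∧ x • γ = γ) ∧ ¬ Four c[x] := by
  haveI := Fact.mk hp
  have l : M ⊓ S[β] ≤ S[α] ⊓ S[β] := inf_le_inf_right _ h₀
  have o := odd_two h.ifix hne
  have h2 : p ≠ 2 := ne_two_of_odd (odd_of_le o l) (hd.trans (relIndex_dvd_card _ _))
  have Pα := (hP.le.trans l).trans inf_le_left
  have Pβ := (hP.le.trans l).trans inf_le_right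
  have nc : ∀ U ≤ P, ¬ IsCyclic U → GoodT α U := fun U hU hc => by
    obtain ⟨A, a1, a2, a3⟩ := exists_ea_two_of_not_cyclic hp h2 (hP.isPGroup.to_le hU) hc
    have AP := a1.trans hU
    have pA := hP.isPGroup.to_le AP
    refine GoodT.of_le h.ifix hp (hP.isPGroup.to_le hU) (hU.trans Pα) A a1 ?_
    by_cases e : ∀ γ : Ω, A ≤ S[γ] → γ = α ∨ γ = β
    · exact goodT_of_two e
    push Not at e
    obtain ⟨γ, g1, g2, g3⟩ := e
    obtain ⟨t, t1, ht, rfl⟩ := hT A pA (AP.trans Pα) (AP.trans Pβ) γ g2 g3 g1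
    obtain ⟨z, z1, z2, k, k1, k2, k3⟩ := exists_Kv_cent hp h2 o ht (mem_norm_two ht α) pA a2.1
      (EA.not_cyclic ⟨le_rfl, a2, a3⟩ hp le_rfl) ((AP.trans (hP.le.trans l)).trans le_normalizer)
      (le_cent1_iff.2 t1) fun c => by
        have := h.one_lt_m
        rw [← h.ncard_Kv ht hne.symm] at this
        obtain ⟨y, y1, y2⟩ := Set.exists_ne_of_one_lt_ncard this 1
        exact y2 (eq_one_of_inv_comm ht (odd_order o y1.1) y1.2 (mem_cent1.1 (c y1.1)).symm)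
    have pz := pA.to_le (zpowers_le.2 z1)
    refine GoodT.of_le h.ifix hp pA (AP.trans Pα) _ (zpowers_le.2 z1)
      (hB z z2 pz (Pα (AP z1)) (Pβ (AP z1)) γ g2 g3 (g1 z1) (by_contra fun f => k2 ?_))
    exact hR z z2 pz (Pα (AP z1)) (Pβ (AP z1)) γ g2 g3 (g1 z1) f t (cent_le_cent1 z1 t1) ht rfl k
      ⟨⟨mem_cent1.2 k3, k1.1.1⟩, k1.2⟩
  have key : ¬ GoodT α P := fun hg => by
    obtain ⟨e₁, e₂⟩ := Bs.t2 hp h2 inf_le_left hP hd fun U hU hc => by
      have g : GoodT α U := hc.elim (fun e => e ▸ hg) (nc U hU)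
      have l₁ := pCoreOf_le 2 (C[U] ⊓ S[α])
      have l₂ := two_le h.ifix hne h₁ h₂ (pCoreOf_isPGroup 2 _) (l₁.trans inf_le_right)
      refine ⟨_, pCoreOf_isPGroup 2 _, le_inf l₂ (l₁.trans inf_le_left), fun n hn => ?_⟩
      obtain ⟨s, s1, s2⟩ := g β (n • β) (hU.trans Pβ) (le_St_smul (hU.trans Pβ) hn.2) hne.symm
        (fun e => hne (smul_left_cancel n ((mem_St.1 (h₀ hn.1)).trans e.symm)))
      exact ⟨s, s1, s⁻¹ * n, ⟨M.mul_mem (M.inv_mem (l₂ s1)) hn.1,
        mem_St.2 (by rw [mul_smul, ← s2, inv_smul_smul])⟩, by group⟩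
    refine e₁ (hmin _ (pResidualOf_le p M) (le_normalizer_pResidualOf_of h₁) ?_)
    rw [← sup_eq_right.2 l, ← sup_assoc, e₂, h₂]
  refine ⟨by_contra fun c => key (nc P le_rfl c), fun x hx ho => ?_⟩
  have px := hP.isPGroup.to_le (zpowers_le.2 hx)
  have k : ¬ GoodT α (zpowers x) := fun g => key (GoodT.of_le h.ifix hp hP.isPGroup Pα _ (zpowers_le.2 hx) g)
  obtain ⟨γ, g1, g2, g3⟩ : ∃ γ : Ω, zpowers x ≤ S[γ] ∧ γ ≠ α ∧ γ ≠ β := by
    by_contra e
    push Not at e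
    exact k (goodT_of_two fun γ g => or_iff_not_imp_left.2 (e γ g))
  have x1 : x ≠ 1 := by
    rintro rfl
    exact hp.ne_one (by simpa using ho.symm)
  exact ⟨⟨γ, g2, g3, zpowers_le.1 g1⟩, fun f => k (hB x x1 px (Pα hx) (Pβ hx) γ g2 g3 (zpowers_le.1 g1) f)⟩

end Action

end Cfsg.Agent.Lib.Bs
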