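import Cfsg.Agent.Lib.SystemNormalizer

/-!
Carter subgroups of finite solvable groups.
-/

set_option autoImplicit false

namespace Cfsg.Agent.Lib.Carter

open Subgroup Cfsg.Agent.Lib.SolvBasic Cfsg.Agent.Lib.SchurZassenhausConj Cfsg.Agent.Lib.Hall
open Cfsg.Agent.Lib.FrattiniFacts Cfsg.Agent.Lib.SystemNormalizer
open scoped Pointwise

universe u

variable {G : Type*} [Group G]

theorem le_normalizer_sup_of_map {X Q N : Subgroup G} [N.Normal]
    (h : X.map (QuotientGroup.mk' N) ≤ normalizer ((Q.map (QuotientGroup.mk' N) : Subgroup (G ⧸ N)) :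
      Set (G ⧸ N))) : X ≤ normalizer ((Q ⊔ N : Subgroup G) : Set G) := by
  rw [← comap_map_mk]
  exact (map_le_iff_le_comap.mp h).trans (le_normalizer_comap _)

theorem isNilpotent_of_map_mk {Q N : Subgroup G} [N.Normal] (h : N ⊓ Q = ⊥)
    (hQ : Group.IsNilpotent (Q.map (QuotientGroup.mk' N))) : Group.IsNilpotent Q := by
  refine Group.nilpotent_of_mulEquiv (MulEquiv.ofBijective ((QuotientGroup.mk' N).subgroupMap Q)
    ⟨?_, MonoidHom.subgroupMap_surjective _ _⟩).symm
  rw [← MonoidHom.ker_eq_bot_iff, ker_subgroupMap, QuotientGroup.ker_mk', subgroupOf_eq_bot,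
    disjoint_iff, h]

theorem coprime_of_piSub_compl [Finite G] {p : ℕ} [Fact p.Prime] {N Q : Subgroup G}
    (hN : IsPGroup p N) (hQ : IsPiSubgroup {q | q ≠ p} Q) : (Nat.card N).Coprime (Nat.card Q) :=
  CoprimeBasic.coprime_of_isPGroup_left hN fun hd => hQ p Fact.out hd rfl

/-- `N ≤ X`, `N` a normal `p`-subgroup, `X/N` nilpotent, `Q` a Hall `p'`-subgroup of `X`. -/
theorem key_nilpotent [Finite G] [Group.IsSolvable G] {p : ℕ} [Fact p.Prime] {N X Q : Subgroup G}
    [N.Normal] (hN : IsPGroup p N) (hNX : N ≤ X)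
    (hX : Group.IsNilpotent (X.map (QuotientGroup.mk' N))) (hQ : IsPiHallOf {q | q ≠ p} Q X) :
    X ≤ normalizer ((Q ⊔ N : Subgroup G) : Set G) ∧
    Group.IsNilpotent (X ⊓ normalizer (Q : Set G) : Subgroup G) ∧
      (X ⊓ normalizer (Q : Set G)) ⊔ N = X := by
  have h1 : X ≤ normalizer ((Q ⊔ N : Subgroup G) : Set G) :=
    le_normalizer_sup_of_map (le_normalizer_hallOf_of_isNilpotent (hallOf_map hQ _))
  have hc := coprime_of_piSub_compl hN hQ.2.1
  refine ⟨h1, ?_, ?_⟩
  · obtain ⟨P, hP, hNP⟩ := exists_hallOf_ge (π := {p}) (piSub_of_isPGroup hN rfl) hNX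
    have h2 : X ≤ normalizer (P : Set G) := by
      have := le_normalizer_sup_of_map (le_normalizer_hallOf_of_isNilpotent
        (hallOf_map hP (QuotientGroup.mk' N)))
      rwa [sup_of_le_left hNP] at this
    have h3 : Q ⊔ P = X := by
      apply le_antisymm (sup_le hQ.1 hP.1)
      rw [← subgroupOf_eq_top, subgroupOf_sup hQ.1 hP.1]
      refine sup_eq_top_of_coprime_index (Nat.coprime_of_dvd fun q hq h1 h2 => ?_)
      by_cases hqp : q = p
      · exact hP.2.2 q hq hqp h2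
      · exact hQ.2.2 q hq hqp h1
    have h4 : X ⊓ normalizer (Q : Set G) = Q ⊔ (P ⊓ normalizer (Q : Set G)) := by
      rw [← dedekind le_normalizer (hQ.1.trans h2), h3]
    rw [h4]
    refine isNilpotent_sup (isNilpotent_of_map_mk (inf_bot_of_coprime hc)
      (isNilpotent_of_le hX (map_mono hQ.1))) ?_ inf_le_right
      (CoprimeBasic.le_normalizer_inf (hQ.1.trans h2) (le_normalizer.trans le_normalizer))
    have : IsPGroup p P := isPGroup_of_forall_prime hP.2.1
    exact (this.to_le inf_le_left).isNilpotent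
  · refine le_antisymm (sup_le inf_le_left hNX) fun x hx => ?_
    have h2 := conj_smul_eq_iff.mpr (h1 hx)
    rw [smul_sup, conj_smul_normal x N, sup_comm, sup_comm Q] at h2
    obtain ⟨n, hn, hn'⟩ := exists_conj_of_sup_eq (le_normalizer_of_normal' _ N)
      (by rwa [card_smul]) hc h2 (Or.inl inferInstance)
    rw [conj_smul_conj_smul, conj_smul_eq_iff] at hn'
    rw [← inv_mul_cancel_left n x]
    exact mul_mem (mem_sup_right (inv_mem hn)) (mem_sup_left ⟨mul_mem (hNX hn) hx, hn'⟩)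

theorem exists_carter (G : Type u) [Group G] [Finite G] :
    Group.IsSolvable G → ∃ C : Subgroup G, IsCarterSubgroup C := by
  refine card_induction (P := fun G _ _ => Group.IsSolvable G → ∃ C : Subgroup G,
    IsCarterSubgroup C) (fun G _ _ ih => ?_) G
  intro hG
  rcases subsingleton_or_nontrivial G with h | h
  · exact ⟨⊤, inferInstance, Subsingleton.elim _ _⟩
  obtain ⟨N, hN⟩ := exists_minNormal (G := G)
  have := hN.normal
  obtain ⟨p, hp, -, hpN, -⟩ := hN.exists_prime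
  have := Fact.mk hp
  obtain ⟨C, hC1, hC2⟩ := ih _ (card_quotient_lt hN.ne_bot) inferInstance
  have hsurj := QuotientGroup.mk'_surjective N
  set X := C.comap (QuotientGroup.mk' N)
  obtain ⟨Q, hQ⟩ := exists_hallOf {q | q ≠ p} X
  obtain ⟨-, h1, h2⟩ := key_nilpotent hpN (le_comap_mk N C)
    (by rwa [map_comap_eq_self_of_surjective hsurj]) hQ
  refine ⟨_, h1, le_antisymm (le_inf ?_ ?_) le_normalizer⟩
  · refine le_trans (CoprimeBasic.le_normalizer_sup le_rfl (le_normalizer_of_normal' _ N)) ?_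
    rw [h2, ← comap_normalizer_eq_of_surjective _ hsurj, hC2]
  · exact normalizer_le_normalizer_hallOf (hallOf_of_le hQ (le_inf hQ.1 le_normalizer) inf_le_left)
      inf_le_right

theorem carter_conj {C : Subgroup G} (hC : IsCarterSubgroup C) (g : G) :
    IsCarterSubgroup (MulAut.conj g • C) :=
  ⟨isNilpotent_map hC.1 _, by rw [normalizer_conj_smul, hC.2]⟩

theorem carter_subgroupOf {C X : Subgroup G} (hC : IsCarterSubgroup C) (h : C ≤ X) :
    IsCarterSubgroup (C.subgroupOf X) :=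
  have := hC.1
  ⟨Group.nilpotent_of_mulEquiv (subgroupOfEquivOfLe h).symm, by
    rw [← subgroupOf_normalizer_eq h, hC.2]⟩

theorem hallOf_sup [Finite G] {p : ℕ} [Fact p.Prime] {N C Q : Subgroup G} [N.Normal]
    (hN : IsPGroup p N) (hQ : IsPiHallOf {q | q ≠ p} Q C) : IsPiHallOf {q | q ≠ p} Q (C ⊔ N) := by
  refine ⟨hQ.1.trans le_sup_left, hQ.2.1, fun q hq hqp hd => ?_⟩
  rw [← relIndex_mul_relIndex Q C _ hQ.1 le_sup_left, SubnormalJoin.relIndex_sup_normal] at hd
  rcases hq.dvd_mul.mp hd with h | h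
  · exact hQ.2.2 q hq hqp h
  · exact hqp (eq_of_prime_dvd_card_of_isPGroup hN hq (h.trans (relIndex_dvd_card _ _)))

theorem map_sup_mk (C N : Subgroup G) [N.Normal] :
    (C ⊔ N).map (QuotientGroup.mk' N) = C.map (QuotientGroup.mk' N) := by
  rw [Subgroup.map_sup, (map_mk_eq_bot_iff N N).mpr le_rfl, sup_bot_eq]

theorem carter_eq [Finite G] [Group.IsSolvable G] {p : ℕ} [Fact p.Prime] {N C Q : Subgroup G}
    [N.Normal] (hN : IsPGroup p N) (hC : IsCarterSubgroup C) (hQ : IsPiHallOf {q | q ≠ p} Q C) :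
    C ⊔ N ≤ normalizer ((Q ⊔ N : Subgroup G) : Set G) ∧
      C = (C ⊔ N) ⊓ normalizer (Q : Set G) := by
  have := hC.1
  obtain ⟨h0, h1, -⟩ := key_nilpotent hN le_sup_right
    (by rw [map_sup_mk]; exact isNilpotent_map hC.1 _) (hallOf_sup hN hQ)
  exact ⟨h0, eq_of_normalizer_eq_of_le hC.2 h1
    (le_inf le_sup_left (le_normalizer_hallOf_of_isNilpotent hQ))⟩

theorem carter_map_aux {C N : Subgroup G} [N.Normal] (hC : IsCarterSubgroup C)
    (h : C ⊔ N = ⊤ ∨ ∀ C₁ C₂ : Subgroup ↥(C ⊔ N), IsCarterSubgroup C₁ → IsCarterSubgroup C₂ →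
      ∃ g : ↥(C ⊔ N), MulAut.conj g • C₁ = C₂) :
    IsCarterSubgroup (C.map (QuotientGroup.mk' N)) := by
  refine ⟨isNilpotent_map hC.1 _, le_antisymm ?_ le_normalizer⟩
  rcases h with h | h
  · rw [(map_mk_eq_top_iff N C).mpr h]; exact le_top
  intro x hx
  obtain ⟨g, rfl⟩ := QuotientGroup.mk'_surjective N x
  have h1 : MulAut.conj g • C ≤ C ⊔ N := by
    rw [← map_mk_le_map_mk_iff, map_conj_smul]
    exact (conj_smul_eq_iff.mpr hx).le
  obtain ⟨y, hy⟩ := h _ _ (carter_subgroupOf (carter_conj hC g) h1) (carter_subgroupOf hC le_sup_left)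
  have h2 := congrArg (map (C ⊔ N).subtype) hy
  rw [map_subtype_conj_smul, map_subgroupOf_eq_of_le h1, map_subgroupOf_eq_of_le le_sup_left,
    conj_smul_conj_smul, conj_smul_eq_iff, hC.2] at h2
  rw [← map_sup_mk]
  refine mem_map_of_mem _ ?_
  rw [← inv_mul_cancel_left (y : G) g]
  exact mul_mem (inv_mem y.2) (mem_sup_left h2)

theorem carter_exists_conj_aux (G : Type u) [Group G] [Finite G] :
    Group.IsSolvable G → ∀ C₁ C₂ : Subgroup G, IsCarterSubgroup C₁ → IsCarterSubgroup C₂ →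
      ∃ g : G, MulAut.conj g • C₁ = C₂ := by
  refine card_induction (P := fun G _ _ => Group.IsSolvable G → ∀ C₁ C₂ : Subgroup G,
    IsCarterSubgroup C₁ → IsCarterSubgroup C₂ → ∃ g : G, MulAut.conj g • C₁ = C₂)
    (fun G _ _ ih => ?_) G
  intro hG C₁ C₂ h1 h2
  rcases subsingleton_or_nontrivial G with h | h
  · exact ⟨1, Subsingleton.elim _ _⟩
  obtain ⟨N, hN⟩ := exists_minNormal (G := G)
  have := hN.normal
  obtain ⟨p, hp, -, hpN, -⟩ := hN.exists_prime
  have := Fact.mk hp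
  have hmap : ∀ C : Subgroup G, IsCarterSubgroup C →
      IsCarterSubgroup (C.map (QuotientGroup.mk' N)) := fun C hC =>
    carter_map_aux hC (or_iff_not_imp_left.mpr fun ht =>
      ih _ (card_lt_of_ne_top ht) inferInstance)
  obtain ⟨g, hg⟩ := ih _ (card_quotient_lt hN.ne_bot) inferInstance _ _ (hmap _ h1) (hmap _ h2)
  obtain ⟨g, rfl⟩ := QuotientGroup.mk'_surjective N g
  rw [← map_conj_smul] at hg
  have h1' := carter_conj h1 g
  set C := MulAut.conj g • C₁
  have hX : C ⊔ N = C₂ ⊔ N := by rw [← comap_map_mk, hg, comap_map_mk]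
  obtain ⟨Q, hQ⟩ := exists_hallOf {q | q ≠ p} C
  obtain ⟨Q₂, hQ₂⟩ := exists_hallOf {q | q ≠ p} C₂
  obtain ⟨x, hx, hx'⟩ := exists_conj_hallOf (hallOf_sup hpN hQ) (hX ▸ hallOf_sup hpN hQ₂)
  refine ⟨x * g, ?_⟩
  rw [← conj_smul_conj_smul, (carter_eq hpN h2 hQ₂).2, ← hX, ← hx', normalizer_conj_smul]
  change MulAut.conj x • C = _
  conv_lhs => rw [(carter_eq hpN h1' hQ).2, smul_inf, conj_smul_eq_of_mem hx]

theorem carter_exists_conj [Finite G] [Group.IsSolvable G] {C₁ C₂ : Subgroup G}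
    (h1 : IsCarterSubgroup C₁) (h2 : IsCarterSubgroup C₂) : ∃ g : G, MulAut.conj g • C₁ = C₂ :=
  carter_exists_conj_aux G inferInstance _ _ h1 h2

theorem carter_map [Finite G] [Group.IsSolvable G] {C : Subgroup G} (hC : IsCarterSubgroup C)
    (N : Subgroup G) [N.Normal] : IsCarterSubgroup (C.map (QuotientGroup.mk' N)) :=
  carter_map_aux hC (Or.inr fun _ _ => carter_exists_conj)

theorem sn_le_carter_aux (G : Type u) [Group G] [Finite G] :
    Group.IsSolvable G → ∀ (C : Subgroup G) (K : Nat.Primes → Subgroup G), IsCarterSubgroup C →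
      IsComplementSystem K → (∀ p : Nat.Primes, ∃ H, IsPiHallOf {q | q ≠ p} H C ∧ H ≤ K p) →
      systemNormalizer K ≤ C := by
  refine card_induction (P := fun G _ _ => Group.IsSolvable G → ∀ (C : Subgroup G)
    (K : Nat.Primes → Subgroup G), IsCarterSubgroup C → IsComplementSystem K →
    (∀ p : Nat.Primes, ∃ H, IsPiHallOf {q | q ≠ p} H C ∧ H ≤ K p) → systemNormalizer K ≤ C)
    (fun G _ _ ih => ?_) G
  intro hG C K hC hK hred
  rcases subsingleton_or_nontrivial G with h | h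
  · exact (Subsingleton.elim _ _).le
  obtain ⟨N, hN⟩ := exists_minNormal (G := G)
  have := hN.normal
  obtain ⟨p, hp, -, hpN, -⟩ := hN.exists_prime
  have := Fact.mk hp
  have h1 := ih _ (card_quotient_lt hN.ne_bot) inferInstance _ _ (carter_map hC N)
    (cs_map hK (QuotientGroup.mk'_surjective N)) fun q => by
      obtain ⟨H, h1, h2⟩ := hred q
      exact ⟨_, hallOf_map h1 _, map_mono h2⟩
  rw [sn_map_mk hK, map_mk_le_map_mk_iff] at h1
  obtain ⟨Q, hQ, hQK⟩ := hred ⟨p, hp⟩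
  obtain ⟨h2, h3⟩ := carter_eq hpN hC hQ
  rw [h3]
  refine le_inf h1 ?_
  have h4 : (Q ⊔ N) ⊓ K ⟨p, hp⟩ = Q := by
    rw [dedekind_normal_right hQK, inf_bot_of_coprime
      (coprime_of_piSub_compl hpN (cs_iff.mp hK ⟨p, hp⟩).1), sup_bot_eq]
  rw [← h4]
  exact CoprimeBasic.le_normalizer_inf (h1.trans h2) (sn_le K _)

theorem exists_cs_sn_le_carter [Finite G] [Group.IsSolvable G] {C : Subgroup G}
    (hC : IsCarterSubgroup C) :
    ∃ K : Nat.Primes → Subgroup G, IsComplementSystem K ∧ systemNormalizer K ≤ C := by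
  have h : ∀ p : Nat.Primes, ∃ K : Subgroup G, IsPiHall {q | q ≠ p} K ∧
      ∃ H, IsPiHallOf {q | q ≠ p} H C ∧ H ≤ K := fun p => by
    obtain ⟨H, hH⟩ := exists_hallOf {q | q ≠ (p : ℕ)} C
    obtain ⟨K, hK, hHK⟩ := exists_hall_ge (π := {q | q ≠ (p : ℕ)}) hH.2.1
    exact ⟨K, hK, H, hH, hHK⟩
  choose K h1 h2 using h
  exact ⟨K, cs_iff.mpr h1, sn_le_carter_aux G inferInstance C K hC (cs_iff.mpr h1) h2⟩

theorem exists_carter_ge_sn [Finite G] [Group.IsSolvable G] {K : Nat.Primes → Subgroup G}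
    (hK : IsComplementSystem K) : ∃ C : Subgroup G, IsCarterSubgroup C ∧ systemNormalizer K ≤ C := by
  obtain ⟨C, hC⟩ := exists_carter G inferInstance
  obtain ⟨L, hL, h⟩ := exists_cs_sn_le_carter hC
  obtain ⟨g, hg⟩ := cs_exists_conj hL hK
  refine ⟨_, carter_conj hC g, ?_⟩
  rw [← funext hg, sn_conj]
  exact conj_smul_mono g h

theorem sn_carter_of_metanilpotent [Finite G] [Group.IsSolvable G] (F : Subgroup G) [F.Normal]
    [Group.IsNilpotent F] [Group.IsNilpotent (G ⧸ F)] {K : Nat.Primes → Subgroup G}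
    (hK : IsComplementSystem K) : IsCarterSubgroup (systemNormalizer K) := by
  refine ⟨sn_isNilpotent hK, le_antisymm (le_iInf fun p => ?_) le_normalizer⟩
  set D := systemNormalizer K
  have hKp := cs_iff.mp hK p
  have hD := hallOf_inf_of_le_normalizer hKp (sn_le K p)
  have hF := hallOf_inf_of_normal hKp F
  have h1 := hallOf_map hD (QuotientGroup.mk' F)
  rw [(map_mk_eq_top_iff F _).mpr (sn_sup_eq_top hK F)] at h1
  have h2 := hallOf_eq_of_le h1 (piSub_map hKp.1 _) (map_mono inf_le_left) le_top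
  have h3 : K p ≤ (K p ⊓ D) ⊔ F := (map_mk_le_map_mk_iff _ _ _).mp h2.ge
  have h4 : K p = (K p ⊓ D) ⊔ (K p ⊓ F) := by
    rw [inf_comm _ F, ← dedekind_normal_right inf_le_left, inf_of_le_right h3]
  rw [h4]
  refine CoprimeBasic.le_normalizer_sup (normalizer_le_normalizer_hallOf hD
    (CoprimeBasic.le_normalizer_inf (sn_le K p) le_normalizer)) ?_
  exact (le_normalizer_of_normal' _ F).trans (normalizer_le_normalizer_hallOf hF
    (le_normalizer_hallOf_of_isNilpotent hF))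

end Cfsg.Agent.Lib.Carter
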