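import Mathlib
import Cfsg.Prelude.Def_Characters
import Cfsg.Prelude.Def_CharExt
import Cfsg.Agent.Lib.CharClifford

/-!
# The going-down theorem for abelian chief factors, averaging over normal subgroups
-/

set_option autoImplicit false
set_option linter.style.haveILetI false
set_option linter.unusedSectionVars false

namespace Cfsg.Agent.Lib.CharGoingDown

open Cfsg Module Cfsg.Agent.Lib.CharRep Cfsg.Agent.Lib.CharBasic Cfsg.Agent.Lib.CharOrth
  Cfsg.Agent.Lib.CharInd Cfsg.Agent.Lib.CharInt Cfsg.Agent.Lib.CharClifford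
open scoped ComplexConjugate commutatorElement

universe u v w

variable {G : Type u} [Group G] {N : Type v} [Group N]

theorem sq_eq_index_of_vanish (E : NormalEmb N G) [Finite G] {χ : G → ℂ}
    (hχ : IsIrrCharacter G χ) {θ : N → ℂ} (hθ : IsIrrCharacter N θ) {e : ℕ}
    (h : (fun n => χ (E.i n)) = (e : ℂ) • θ) (hv : ∀ g, g ∉ E.i.range → χ g = 0) :
    e ^ 2 = E.index := by
  haveI := Fintype.ofFinite G
  haveI := E.finite
  haveI := Fintype.ofFinite N
  have h4 := E.ind_res_of_vanish (irr_classFun hχ) hv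
  have h5 := cinner_ind_left E.i (fun n => χ (E.i n)) (irr_classFun hχ)
  rw [h4, cinner_smul_left, cinner_irr_self hχ, mul_one, h, cinner_smul_left,
    cinner_smul_right, cinner_irr_self hθ] at h5
  simp only [map_natCast, mul_one] at h5
  rw [sq]
  exact_mod_cast h5.symm

/-- If `G/N` is abelian and no nontrivial linear character of `G/N` fixes `χ`, then the
restriction of `χ` to `N` is irreducible. -/
theorem irr_res_of_forall_linear (E : NormalEmb N G) [Finite G]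
    (hab : ∀ a b : G, a * b * a⁻¹ * b⁻¹ ∈ E.i.range) {χ : G → ℂ} (hχ : IsIrrCharacter G χ)
    (h : ∀ lam : G →* ℂˣ, (∀ n, lam (E.i n) = 1) → (fun g => (lam g : ℂ)) * χ = χ → lam = 1) :
    IsIrrCharacter N (fun n => χ (E.i n)) := by
  haveI := Fintype.ofFinite G
  haveI := E.finite
  haveI := Fintype.ofFinite N
  refine irr_of_inner_self (isChar_comp (irr_isChar hχ) E.i) ?_
  rw [← cinner_ind_left E.i _ (irr_classFun hχ), E.ind_res (irr_classFun hχ),
    classFun_expand (ind_classFun E.i (fun _ => 1)), Finset.sum_mul, cinner_sum_left,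
    Finset.sum_eq_single (fun _ => 1)]
  · rw [smul_mul_assoc, cinner_smul_left, cinner_ind_left _ _ (classFun_const 1),
      cinner_irr_self irr_one, one_mul]
    convert cinner_irr_self hχ
    ext g; simp
  · intro β hβ hne
    have hβ' := mem_irr.1 hβ
    rw [smul_mul_assoc, cinner_smul_left]
    by_contra h0
    have h1 := (E.cinner_ind_one_ne_zero_iff hβ').1 (left_ne_zero_of_mul h0)
    have h2 : β 1 = 1 := linear_of_commutator_le_cker hβ' (fun a b => by
      obtain ⟨n, hn⟩ := hab a b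
      exact hn ▸ h1 n)
    have h3 : β * χ = χ := irr_eq_of_inner_ne_zero
      (mul_comm β χ ▸ irr_mul_linear hχ (irr_isChar hβ') h2) hχ (right_ne_zero_of_mul h0)
    obtain ⟨lam, rfl⟩ := exists_hom_of_linear (irr_isChar hβ') h2
    have h4 := h lam (fun n => Units.ext (by simpa using (mem_cker (irr_isChar hβ')).1 (h1 n))) h3
    subst h4
    exact hne rfl
  · intro h'; exact (h' (mem_irr.2 irr_one)).elim

/-- Isaacs (6.18), in ambient form. -/
theorem going_down [Finite G] (H K L : Subgroup G) (hLK : L ≤ K) (hKH : K ≤ H)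
    (hK : ∀ h ∈ H, ∀ k ∈ K, h * k * h⁻¹ ∈ K) (hL : ∀ h ∈ H, ∀ l ∈ L, h * l * h⁻¹ ∈ L)
    (hchief : ∀ M : Subgroup G, L ≤ M → M ≤ K → (∀ h ∈ H, ∀ m ∈ M, h * m * h⁻¹ ∈ M) →
      M = L ∨ M = K)
    (hab : ⁅K, K⁆ ≤ L) {θ : K → ℂ} (hθ : IsIrrCharacter K θ)
    (hinv : ∀ (h : G) (hh : h ∈ H) (k : K), θ ⟨h * k * h⁻¹, hK h hh k k.2⟩ = θ k) :
    IsIrrCharacter L (fun x : L => θ ⟨x, hLK x.2⟩) ∨
      (∃ (φ : L → ℂ) (e : ℕ), IsIrrCharacter L φ ∧
        (fun x : L => θ ⟨x, hLK x.2⟩) = (e : ℂ) • φ ∧ e ^ 2 = L.relIndex K) ∨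
      (∃ F : Finset (L → ℂ), (∀ φ ∈ F, IsIrrCharacter L φ) ∧ F.card = L.relIndex K ∧
        (fun x : L => θ ⟨x, hLK x.2⟩) = ∑ φ ∈ F, φ) := by
  classical
  haveI := Fintype.ofFinite G
  haveI := Fintype.ofFinite K
  haveI := Fintype.ofFinite L
  haveI := Fintype.ofFinite H
  have hLKn : ∀ k ∈ K, ∀ l ∈ L, k * l * k⁻¹ ∈ L := fun k hk => hL k (hKH hk)
  let E := ofLe hLK hLKn
  let EH := ofLe (hLK.trans hKH) hL
  have hidx : E.index = L.relIndex K := ofLe_index hLK hLKn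
  have hcomm : ∀ a ∈ K, ∀ b ∈ K, a * b * a⁻¹ * b⁻¹ ∈ L := fun a ha b hb =>
    hab (Subgroup.commutator_mem_commutator ha hb)
  obtain ⟨φ, hφ, h1⟩ := E.exists_constituent hθ
  have hinvL : EH.Inv (fun x : L => θ ⟨x, hLK x.2⟩) := fun h l => hinv h h.2 ⟨l, hLK l.2⟩
  have hcj : ∀ h : H, ∃ k : K, E.cj φ k = EH.cj φ h := fun h =>
    E.exists_cj_eq hθ hφ (EH.irr_cj hφ h) h1 (by
      have := EH.cinner_inv_cj hinvL φ h
      exact this ▸ h1)
  have hM : ∀ h ∈ H, ∀ m ∈ (E.inertia φ).map K.subtype,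
      h * m * h⁻¹ ∈ (E.inertia φ).map K.subtype := by
    rintro h hh _ ⟨m, hm, rfl⟩
    refine ⟨⟨h * m * h⁻¹, hK h hh m m.2⟩, ?_, rfl⟩
    obtain ⟨k, hk⟩ := hcj ⟨h, hh⟩
    have ht : (⟨h, hh⟩ : H) * (⟨k, hKH k.2⟩ : H)⁻¹ ∈ EH.inertia φ :=
      (EH.cj_eq_cj_iff φ _ _).1 hk.symm
    have hm' : (⟨m, hKH m.2⟩ : H) ∈ EH.inertia φ := hm
    have hc : (⟨k * m * k⁻¹ * m⁻¹, hKH (hLK (hcomm k k.2 m m.2))⟩ : H) ∈ EH.inertia φ :=
      EH.i_mem_inertia (irr_classFun hφ) ⟨_, hcomm k k.2 m m.2⟩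
    have := (EH.inertia φ).mul_mem ((EH.inertia φ).mul_mem ((EH.inertia φ).mul_mem ht hc) hm')
      ((EH.inertia φ).inv_mem ht)
    have e : (⟨h, hh⟩ : H) * (⟨k, hKH k.2⟩ : H)⁻¹ *
        (⟨k * m * k⁻¹ * m⁻¹, hKH (hLK (hcomm k k.2 m m.2))⟩ : H) * (⟨m, hKH m.2⟩ : H) *
        ((⟨h, hh⟩ : H) * (⟨k, hKH k.2⟩ : H)⁻¹)⁻¹ = ⟨h * m * h⁻¹, hKH (hK h hh m m.2)⟩ := by
      apply Subtype.ext
      simp only [Subgroup.coe_mul, Subgroup.coe_inv]
      group
    rw [e] at this
    exact this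
  rcases hchief ((E.inertia φ).map K.subtype)
    (fun l hl => ⟨⟨l, hLK hl⟩, E.i_mem_inertia (irr_classFun hφ) ⟨l, hl⟩, rfl⟩)
    (Subgroup.map_subtype_le _) hM with h2 | h2
  · right; right
    have h3 : E.inertia φ = E.i.range := by
      apply le_antisymm
      · intro k hk
        rw [mem_ofLe_range, ← h2]
        exact ⟨k, hk, rfl⟩
      · rintro _ ⟨l, rfl⟩
        exact E.i_mem_inertia (irr_classFun hφ) l
    have h4 := E.irr_ind_of_inertia_le hφ h3.le
    have h5 : θ = ind E.i φ := irr_eq_of_inner_ne_zero hθ h4 (by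
      rwa [cinner_ind_right _ _ (irr_classFun hθ)])
    have h6 : mult (fun n => θ (E.i n)) φ = 1 := mult_eq_of_eq (by
      rw [← cinner_ind_right _ _ (irr_classFun hθ), ← h5, cinner_irr_self hθ, Nat.cast_one])
    refine ⟨E.orbit φ, fun η hη => ?_, by rw [E.card_orbit, h3, ← hidx]; rfl, ?_⟩
    · obtain ⟨g, rfl⟩ := E.mem_orbit.1 hη
      exact E.irr_cj hφ g
    · have := E.res_eq_smul_sum_orbit hθ hφ h1
      rwa [h6, Nat.cast_one, one_smul] at this
  have h3 : E.Inv φ := by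
    intro k
    have : (k : G) ∈ (E.inertia φ).map K.subtype := h2.symm ▸ k.2
    obtain ⟨k', hk', e⟩ := this
    rw [← show k' = k from Subtype.ext e]
    exact hk'
  have h4 := E.res_eq_smul_of_inv hθ hφ h1 h3
  let W : Subgroup K := ⨅ (lam : K →* ℂˣ) (_ : ∀ n, lam (E.i n) = 1)
    (_ : (fun g => (lam g : ℂ)) * θ = θ), lam.ker
  have hW : ∀ k, k ∈ W ↔ ∀ lam : K →* ℂˣ, (∀ n, lam (E.i n) = 1) →
      (fun g => (lam g : ℂ)) * θ = θ → lam k = 1 := by
    intro k; simp [W, Subgroup.mem_iInf]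
  let EK := ofLe hKH hK
  rcases hchief (W.map K.subtype)
    (fun l hl => ⟨⟨l, hLK hl⟩, (hW _).2 (fun lam h _ => h ⟨l, hl⟩), rfl⟩)
    (Subgroup.map_subtype_le _) (by
      rintro h hh _ ⟨m, hm, rfl⟩
      refine ⟨⟨h * m * h⁻¹, hK h hh m m.2⟩, (hW _).2 (fun lam hl1 hl2 => ?_), rfl⟩
      refine (hW _).1 hm (lam.comp (EK.aut ⟨h, hh⟩).toMonoidHom)
        (fun n => hl1 ⟨h * n * h⁻¹, hL h hh n n.2⟩) ?_
      ext k
      have := congrFun hl2 ⟨h * k * h⁻¹, hK h hh k k.2⟩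
      simp only [Pi.mul_apply] at this ⊢
      rw [hinv h hh k] at this
      exact this) with h5 | h5
  · right; left
    refine ⟨φ, _, hφ, h4, ?_⟩
    rw [← hidx]
    refine sq_eq_index_of_vanish E hθ hφ h4 (fun k hk => ?_)
    rw [mem_ofLe_range, ← h5] at hk
    have hk' : k ∉ W := fun h => hk ⟨k, h, rfl⟩
    rw [hW] at hk'
    push Not at hk'
    obtain ⟨lam, -, hl2, hl3⟩ := hk'
    have := congrFun hl2 k
    simp only [Pi.mul_apply] at this
    by_contra h0
    exact hl3 (Units.ext ((mul_eq_right₀ h0).1 this))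
  · left
    refine irr_res_of_forall_linear E (fun a b => (mem_ofLe_range _ _ _).2 (hcomm a a.2 b b.2)) hθ
      (fun lam hl1 hl2 => ?_)
    ext k
    have : (k : G) ∈ W.map K.subtype := h5.symm ▸ k.2
    obtain ⟨k', hk', e⟩ := this
    rw [← show k' = k from Subtype.ext e, (hW _).1 hk' lam hl1 hl2]
    rfl

/-- A chief factor above a normal subgroup with solvable quotient is abelian. -/
theorem commutator_le_of_chief (N H K L : Subgroup G) [N.Normal] (hsolv : Group.IsSolvable (G ⧸ N))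
    (hNL : N ≤ L) (hLK : L < K) (hKH : K ≤ H)
    (hK : ∀ h ∈ H, ∀ k ∈ K, h * k * h⁻¹ ∈ K) (hL : ∀ h ∈ H, ∀ l ∈ L, h * l * h⁻¹ ∈ L)
    (hchief : ∀ M : Subgroup G, L ≤ M → M ≤ K → (∀ h ∈ H, ∀ m ∈ M, h * m * h⁻¹ ∈ M) →
      M = L ∨ M = K) : ⁅K, K⁆ ≤ L := by
  haveI hLn : (L.subgroupOf K).Normal := ⟨fun l hl k => hL k (hKH k.2) l hl⟩
  haveI : Group.IsSolvable (K ⧸ L.subgroupOf K) := by
    let f := (QuotientGroup.mk' N).comp K.subtype
    haveI : Group.IsSolvable (K ⧸ f.ker) :=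
      Group.isSolvable_of_isSolvable_injective (QuotientGroup.kerLift_injective f)
    have hle : f.ker ≤ L.subgroupOf K := fun k hk => hNL ((QuotientGroup.eq_one_iff _).1 hk)
    exact Group.isSolvable_of_surjective (f := QuotientGroup.map f.ker (L.subgroupOf K)
      (MonoidHom.id K) hle) (fun q => by
        obtain ⟨k, rfl⟩ := QuotientGroup.mk_surjective q
        exact ⟨k, rfl⟩)
  haveI : Nontrivial (K ⧸ L.subgroupOf K) := by
    rw [QuotientGroup.nontrivial_iff, Ne, Subgroup.subgroupOf_eq_top]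
    exact hLK.not_ge
  have hlt := Group.IsSolvable.commutator_lt_top_of_nontrivial (K ⧸ L.subgroupOf K)
  let M := ((commutator (K ⧸ L.subgroupOf K)).comap (QuotientGroup.mk' _)).map K.subtype
  have hKM : ⁅K, K⁆ ≤ M := by
    rw [Subgroup.commutator_le]
    intro a ha b hb
    refine ⟨⁅(⟨a, ha⟩ : K), (⟨b, hb⟩ : K)⁆, ?_, rfl⟩
    rw [SetLike.mem_coe, Subgroup.mem_comap, map_commutatorElement]
    exact Subgroup.commutator_mem_commutator trivial trivial
  have hLM : L ≤ M := fun l hl => ⟨⟨l, hLK.le hl⟩, by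
    rw [SetLike.mem_coe, Subgroup.mem_comap]
    have : QuotientGroup.mk' (L.subgroupOf K) ⟨l, hLK.le hl⟩ = 1 :=
      (QuotientGroup.eq_one_iff _).2 hl
    rw [this]; exact Subgroup.one_mem _, rfl⟩
  rcases hchief (L ⊔ ⁅K, K⁆) le_sup_left (sup_le hLK.le (Subgroup.commutator_le.2
    (fun a ha b hb => K.mul_mem (K.mul_mem (K.mul_mem ha hb) (K.inv_mem ha)) (K.inv_mem hb))))
    (fun h hh m hm => by
      have : L ⊔ ⁅K, K⁆ ≤ (L ⊔ ⁅K, K⁆).comap (MulAut.conj h).toMonoidHom := by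
        refine sup_le (fun l hl => Subgroup.mem_sup_left (hL h hh l hl)) ?_
        rw [Subgroup.commutator_le]
        intro a ha b hb
        rw [Subgroup.mem_comap, map_commutatorElement]
        exact Subgroup.mem_sup_right
          (Subgroup.commutator_mem_commutator (hK h hh a ha) (hK h hh b hb))
      exact this hm) with h | h
  · exact h ▸ le_sup_right
  · exfalso
    apply hlt.ne
    rw [eq_top_iff]
    intro q _
    obtain ⟨k, rfl⟩ := QuotientGroup.mk_surjective q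
    have : (k : G) ∈ M := (sup_le hLM hKM) (h.symm ▸ k.2)
    obtain ⟨k', hk', e⟩ := this
    rw [← show k' = k from Subtype.ext e]
    exact hk'

/-! ### Averaging over a normal subgroup -/

theorem sum_i_mul_irr (E : NormalEmb N G) [Finite G] [Fintype N] {τ : G → ℂ}
    (hτ : IsIrrCharacter G τ) (g : G) :
    ∑ n : N, τ (E.i n * g) = (∑ n : N, τ (E.i n)) / τ 1 * τ g := by
  classical
  haveI := Fintype.ofFinite G
  have key : ∀ F : G → ℂ, ∑ x : G, (if x ∈ E.i.range then 1 else 0) * F x = ∑ n : N, F (E.i n) := by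
    intro F
    simp only [ite_mul, one_mul, zero_mul]
    rw [← Finset.sum_filter]
    symm
    refine Finset.sum_bij (fun n _ => E.i n) (fun n _ => by simp) (fun a _ b _ e => E.inj e) ?_
      (fun _ _ => rfl)
    intro x hx
    obtain ⟨n, rfl⟩ := (Finset.mem_filter.1 hx).2
    exact ⟨n, Finset.mem_univ _, rfl⟩
  have := sum_mul_irr_mul hτ (f := fun x => if x ∈ E.i.range then 1 else 0) (fun x y => by
    have : y * x * y⁻¹ ∈ E.i.range ↔ x ∈ E.i.range :=
      ⟨fun h => by simpa [mul_assoc] using E.range_normal.conj_mem _ h y⁻¹,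
        fun h => E.range_normal.conj_mem _ h y⟩
    simp only [this]) g
  rwa [key (fun x => τ (x * g)), key τ] at this

theorem avg_irr_of_ker (E : NormalEmb N G) [Fintype N] {τ : G → ℂ} (h : ∀ n, E.i n ∈ cker τ)
    (g : G) : (Nat.card N : ℂ)⁻¹ * ∑ n : N, τ (E.i n * g) = τ g := by
  simp only [fun n => mem_cker'.1 (h n) g, Finset.sum_const, Finset.card_univ, nsmul_eq_mul]
  rw [← Nat.card_eq_fintype_card, ← mul_assoc, inv_mul_cancel₀ card_ne_zero, one_mul]

theorem avg_irr_of_not_ker (E : NormalEmb N G) [Finite G] [Fintype N] {τ : G → ℂ}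
    (hτ : IsIrrCharacter G τ) (h : ¬ ∀ n, E.i n ∈ cker τ) (g : G) :
    ∑ n : N, τ (E.i n * g) = 0 := by
  haveI := Fintype.ofFinite G
  rw [← E.cinner_ind_one_ne_zero_iff hτ, not_not, cinner_ind_left _ _ (irr_classFun hτ),
    cinner_eq_zero_comm, cinner_one_right] at h
  rw [sum_i_mul_irr E hτ, (mul_eq_zero.1 h).resolve_left (inv_ne_zero card_ne_zero)]
  simp

open Classical in
theorem avg_classFun (E : NormalEmb N G) [Fintype G] [Fintype N] {f : G → ℂ}
    (hf : IsClassFunction G f) :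
    (fun g => (Nat.card N : ℂ)⁻¹ * ∑ n : N, f (E.i n * g)) =
      ∑ τ ∈ (irr G).filter (fun τ => ∀ n, E.i n ∈ cker τ), classInner f τ • τ := by
  ext g
  simp only [fun x => classFun_expand_apply hf x]
  rw [Finset.sum_comm, Finset.mul_sum, Finset.sum_apply, Finset.sum_filter]
  refine Finset.sum_congr rfl (fun τ hτ => ?_)
  rw [← Finset.mul_sum, mul_left_comm]
  split_ifs with h
  · rw [avg_irr_of_ker E h]; rfl
  · rw [avg_irr_of_not_ker E (mem_irr.1 hτ) h]; simp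

end Cfsg.Agent.Lib.CharGoingDown
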