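import Mathlib
import Cfsg.Prelude.Def_Characters
import Cfsg.Agent.Lib.CharExtend
import Cfsg.Agent.Lib.CharGoingDown
import Cfsg.Agent.Lib.SolvBasic
import Cfsg.Agent.Lib.PCore

/-!
# Quasi-primitive characters of solvable groups are primitive
-/

set_option autoImplicit false
set_option linter.style.haveILetI false
set_option linter.unusedSectionVars false

namespace Cfsg.Agent.Lib.CharBerger

open Cfsg Module Cfsg.Agent.Lib.CharRep Cfsg.Agent.Lib.CharBasic Cfsg.Agent.Lib.CharOrth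
  Cfsg.Agent.Lib.CharInd Cfsg.Agent.Lib.CharInt Cfsg.Agent.Lib.CharClifford
  Cfsg.Agent.Lib.CharGoingDown Cfsg.Agent.Lib.SolvBasic Cfsg.Agent.Lib.CharExtend
open scoped ComplexConjugate

universe u v w

variable {G : Type u} [Group G] {N : Type v} [Group N]

/-! ### Group theory -/

theorem corefree_complement [Finite G] [Group.IsSolvable G] {H : Subgroup G} (hH : IsCoatom H)
    (hcore : ∀ X : Subgroup G, X.Normal → X ≤ H → X = ⊥) :
    ∃ K : Subgroup G, K.Normal ∧ K ⊓ H = ⊥ ∧ K ⊔ H = ⊤ ∧ (H ≠ ⊥ → ∃ M : Subgroup G, M.Normal ∧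
      K < M ∧ (K.relIndex M).Coprime (Nat.card K)) := by
  haveI : Nontrivial G := (Subgroup.nontrivial_iff).1 ⟨H, ⊤, hH.1⟩
  obtain ⟨K, hK⟩ := exists_minNormal (G := G)
  haveI := hK.normal
  haveI := hK.isMulCommutative
  have hKH : ¬ K ≤ H := fun h => hK.ne_bot (hcore K inferInstance h)
  have h1 : K ⊔ H = ⊤ := hH.2 _ (lt_of_le_of_ne le_sup_right (fun h => hKH (h ▸ le_sup_left)))
  have h2 : K ⊓ H = ⊥ := hcore _ (normal_of_sup_eq_top (fun k hk => by
      rw [Subgroup.mem_normalizer_iff]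
      intro x
      by_cases hx : x ∈ K
      · have : k * x * k⁻¹ = x := by
          have e : k * x = x * k := congrArg Subtype.val (mul_comm' (⟨k, hk⟩ : K) ⟨x, hx⟩)
          rw [e, mul_inv_cancel_right]
        rw [this]
      · refine ⟨fun h => (hx h.1).elim, fun h => (hx ?_).elim⟩
        simpa [mul_assoc] using K.mul_mem (K.mul_mem (K.inv_mem hk) h.1) hk)
    (inf_comm H K ▸ le_normalizer_inf_of_normal H K) h1) inf_le_right
  refine ⟨K, inferInstance, h2, h1, fun hH0 => ?_⟩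
  have hKtop : K < ⊤ := lt_top_iff_ne_top.2 (fun h => hH0 (by rwa [h, top_inf_eq] at h2))
  obtain ⟨M, hM, hKM, -, hmin⟩ := exists_chief_above hKtop
  refine ⟨M, hM, hKM, ?_⟩
  obtain ⟨p, hp, -, hpK, -⟩ := hK.exists_prime
  obtain ⟨q, hq, -, hqM, -⟩ := hmin.exists_prime
  haveI := Fact.mk hp
  haveI := Fact.mk hq
  obtain ⟨a, ha⟩ := IsPGroup.iff_card.1 hpK
  obtain ⟨b, hb⟩ := IsPGroup.iff_card.1 hqM
  have h3 : K.relIndex M = q ^ b := by
    have h4 := card_map_mk_mul M K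
    rw [inf_eq_left.2 hKM.le, ← card_mul_relIndex hKM.le, mul_comm] at h4
    rw [← hb]
    exact (Nat.eq_of_mul_eq_mul_left Nat.card_pos h4).symm
  rw [h3, ha]
  refine Nat.coprime_pow_primes _ _ hq hp (fun hpq => ?_)
  subst hpq
  have hMp : IsPGroup q M := IsPGroup.of_card (n := a + b) (by
    rw [← card_mul_relIndex hKM.le, ha, h3, pow_add])
  obtain ⟨x, hx, hxn, hxH⟩ := PCore.exists_mem_normalizer_not_mem hMp (Q := H ⊓ M)
    (lt_of_le_of_ne inf_le_right (fun h => hKH (hKM.le.trans (h ▸ inf_le_left))))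
  have h5 : Subgroup.normalizer ((H ⊓ M : Subgroup G) : Set G) = ⊤ :=
    hH.2 _ (lt_of_le_of_ne (le_normalizer_inf_of_normal H M) (fun h => hxH ⟨h ▸ hxn, hx⟩))
  have h6 := hcore _ (Subgroup.normalizer_eq_top_iff.1 h5) inf_le_left
  have h7 := dedekind_normal_left (A := K) (B := H) hKM.le
  rw [h1, top_inf_eq, h6, sup_bot_eq] at h7
  exact hKM.ne h7.symm

theorem core_complement [Finite G] (L : Subgroup G) [L.Normal] [Group.IsSolvable (G ⧸ L)]
    {H : Subgroup G} (hH : IsCoatom H) (hLH : L ≤ H)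
    (hcore : ∀ X : Subgroup G, X.Normal → X ≤ H → X ≤ L) :
    ∃ K : Subgroup G, K.Normal ∧ L ≤ K ∧ H ⊓ K ≤ L ∧ K ⊔ H = ⊤ ∧ (H ≠ L → ∃ M : Subgroup G,
      M.Normal ∧ K < M ∧ (K.relIndex M).Coprime (L.relIndex K)) := by
  have hs := QuotientGroup.mk'_surjective L
  have e : (H.map (QuotientGroup.mk' L)).comap (QuotientGroup.mk' L) = H := by
    rw [comap_map_mk, sup_of_le_left hLH]
  have hb : (⊥ : Subgroup (G ⧸ L)).comap (QuotientGroup.mk' L) = L := QuotientGroup.ker_mk' L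
  obtain ⟨K, hK, h1, h2, h3⟩ := corefree_complement (H := H.map (QuotientGroup.mk' L))
    ⟨fun h => hH.1 (by rw [← e, h, Subgroup.comap_top]), fun X hX => by
      apply Subgroup.comap_injective hs
      rw [Subgroup.comap_top]
      exact hH.2 _ (e ▸ (Subgroup.comap_lt_comap_of_surjective hs).2 hX)⟩
    (fun X hX h => by
      apply Subgroup.comap_injective hs
      rw [hb]
      exact le_antisymm (hcore _ (hX.comap _) (e ▸ Subgroup.comap_mono h)) (le_comap_mk L X))
  refine ⟨K.comap (QuotientGroup.mk' L), hK.comap _, le_comap_mk L K, ?_, ?_, fun hne => ?_⟩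
  · rw [← e, ← Subgroup.comap_inf, inf_comm, h1, hb]
  · rw [← e, Subgroup.comap_sup_eq _ _ _ hs, h2, Subgroup.comap_top]
  · obtain ⟨M, hM, hKM, hc⟩ := h3 (fun h => hne (by rw [← e, h, hb]))
    refine ⟨M.comap (QuotientGroup.mk' L), hM.comap _,
      (Subgroup.comap_lt_comap_of_surjective hs).2 hKM, ?_⟩
    have h4 := Subgroup.relIndex_comap ⊥ (QuotientGroup.mk' L) (K.comap (QuotientGroup.mk' L))
    rw [hb, Subgroup.map_comap_eq_self_of_surjective hs, Subgroup.relIndex_bot_left] at h4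
    rwa [Subgroup.relIndex_comap, Subgroup.map_comap_eq_self_of_surjective hs, h4]

theorem exists_mul_of_sup_eq_top {K H : Subgroup G} [K.Normal] (h : K ⊔ H = ⊤) (g : G) :
    ∃ k ∈ K, ∃ x ∈ H, g = k * x := by
  obtain ⟨k, hk, x, hx, e⟩ := mem_normal_sup_iff.1 (h ▸ Subgroup.mem_top g : g ∈ K ⊔ H)
  exact ⟨k, hk, x, hx, e.symm⟩

/-! ### Characters -/

theorem eq_of_smul_eq_of_cinner [Fintype N] {φ φ' χ : N → ℂ} (hφ : IsIrrCharacter N φ)
    (hφ' : IsIrrCharacter N φ') {c : ℂ} (h : χ = c • φ') (h1 : classInner χ φ ≠ 0) : φ' = φ := by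
  rw [h, cinner_smul_left] at h1
  exact irr_eq_of_inner_ne_zero hφ' hφ (right_ne_zero_of_mul h1)

/-- If `θ` is a constituent of the restriction of `ψ` then so are the restrictions further down. -/
theorem cinner_comp_ne_zero {H : Type w} [Group H] [Fintype H] [Fintype N] (j : N →* H)
    {χ θ : H → ℂ} (hχ : IsCharacter H χ) (hθ : IsIrrCharacter H θ) (h : classInner χ θ ≠ 0)
    {φ : N → ℂ} (hφ : IsCharacter N φ) (h' : classInner (fun n => θ (j n)) φ ≠ 0) :
    classInner (fun n => χ (j n)) φ ≠ 0 := by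
  have h1 := cinner_add_ne_zero_left (isChar_comp (irr_isChar hθ) j)
    (isChar_comp (isChar_sub_of_inner_ne_zero hχ hθ h) j) hφ h'
  have e : ((fun n => θ (j n)) + fun n => (χ - θ) (j n)) = fun n => χ (j n) := by ext; simp
  rwa [e] at h1

theorem cinner_res_ind_ne_zero [Finite G] {H : Type w} [Group H] [Fintype H] (f : H →* G)
    (hf : Function.Injective f) {θ : H → ℂ} (hθ : IsCharacter H θ) (h0 : θ ≠ 0) :
    classInner (fun h => ind f θ (f h)) θ ≠ 0 := by
  haveI := Fintype.ofFinite G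
  rw [← cinner_ind_right _ _ (ind_classFun _ _)]
  exact fun h => ind_ne_zero f hf hθ h0 (cinner_self_eq_zero h)

/-- If the induced character restricts to a multiple of `θ`, then `θ` vanishes off the core. -/
theorem mem_range_of_res_ind [Finite G] {H : Type w} [Group H] [Finite H] (f : H →* G)
    (hf : Function.Injective f) {θ : H → ℂ} {c : ℂ} (h1 : θ 1 ≠ 0)
    (h : (fun x => ind f θ (f x)) = c • θ) {x : H} (hx : θ x ≠ 0) (g : G) :
    g * f x * g⁻¹ ∈ f.range := by
  have hc : c = f.range.index := by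
    have := congrFun h 1
    simp only [map_one, Pi.smul_apply, smul_eq_mul] at this
    rw [ind_one_apply f hf] at this
    exact (mul_right_cancel₀ h1 this).symm
  have h2 := ind_mul_comp f (fun _ => 1) (ind_classFun f θ)
  have e : ((fun _ : H => (1 : ℂ)) * fun x => ind f θ (f x)) = c • θ := by rw [← h]; ext; simp
  rw [e, ind_smul] at h2
  have h3 := congrFun h2 (f x)
  have h4 := congrFun h x
  simp only [Pi.smul_apply, Pi.mul_apply, smul_eq_mul] at h3 h4
  have hc0 : c ≠ 0 := by rw [hc]; exact_mod_cast Subgroup.index_ne_zero_of_finite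
  have h5 : ind f (fun _ => 1) (f x) = c :=
    (mul_right_cancel₀ (h4 ▸ mul_ne_zero hc0 hx) h3).symm
  have h6 : f x ∈ cker (ind f (fun _ => 1)) := by
    rw [mem_cker (isChar_ind f isChar_one), h5, ind_one_apply f hf, hc, mul_one]
  exact mem_range_of_mem_cker_ind f hf isChar_one (fun h => by simpa using congrFun h 1)
    ((cker_normal (ind_classFun _ _)).conj_mem _ h6 g)

/-- Isaacs (11.32). -/
theorem exists_not_homogeneous [Finite G] (L H : Subgroup G) [L.Normal] (hLH : L ≤ H)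
    (hmax : IsCoatom H) [Group.IsSolvable (G ⧸ L)] {θ : H → ℂ} (hθ : IsIrrCharacter H θ)
    (hθL : IsIrrCharacter L (fun x : L => θ ⟨x, hLH x.2⟩))
    (hind : IsIrrCharacter G (ind H.subtype θ)) :
    ∃ M : Subgroup G, M.Normal ∧ L ≤ M ∧ ¬ ∃ (φ : M → ℂ) (e : ℕ), IsIrrCharacter M φ ∧
      (fun m : M => ind H.subtype θ m) = (e : ℂ) • φ := by
  by_contra hne
  push Not at hne
  haveI := Fintype.ofFinite G
  haveI := Fintype.ofFinite H
  have hLC : L ≤ H.normalCore := Subgroup.normal_le_normalCore.2 hLH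
  have hres : ∀ (X : Subgroup G) (hXH : X ≤ H), L ≤ X →
      IsIrrCharacter X (fun x : X => θ ⟨x, hXH x.2⟩) := fun X hXH hLX =>
    irr_of_comp_irr (isChar_res_le hXH (irr_isChar hθ)) (Subgroup.inclusion hLX) hθL
  generalize hC : H.normalCore = C at hLC
  haveI : C.Normal := hC ▸ H.normalCore_normal
  have hCH : C ≤ H := hC ▸ H.normalCore_le
  have hcore : ∀ X : Subgroup G, X.Normal → X ≤ H → X ≤ C := fun X _ h =>
    hC ▸ Subgroup.normal_le_normalCore.2 h
  haveI : Group.IsSolvable (G ⧸ C) := Group.isSolvable_of_surjective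
    (f := QuotientGroup.map L C (MonoidHom.id G) hLC) (by
      rintro ⟨g⟩; exact ⟨g, rfl⟩)
  haveI := Fintype.ofFinite C
  have hφ := hres C hCH hLC
  obtain ⟨φ', c, hφ', hc⟩ := hne C inferInstance hLC
  have h0 : classInner (fun x : C => ind H.subtype θ x) (fun x : C => θ ⟨x, hCH x.2⟩) ≠ 0 :=
    cinner_comp_ne_zero (Subgroup.inclusion hCH) (isChar_res (irr_isChar hind) H) hθ
      (cinner_res_ind_ne_zero _ H.subtype_injective (irr_isChar hθ) (irr_ne_zero hθ))
      (irr_isChar hφ) (by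
        change classInner (fun x : C => θ ⟨x, hCH x.2⟩) _ ≠ 0
        rw [cinner_irr_self hφ]; exact one_ne_zero)
  obtain rfl := eq_of_smul_eq_of_cinner hφ hφ' hc h0
  have hinv : (ofNormal C).Inv (fun x : C => θ ⟨x, hCH x.2⟩) :=
    (ofNormal C).inv_of_res_eq_smul hind hc
  obtain ⟨K, hK, hCK, hHK, hKH, hM⟩ := core_complement C hmax hCH hcore
  by_cases hHC : H = C
  · subst hHC
    have h1 := (ofNormal H).cinner_ind_ind_of_inv hinv θ
    change classInner (ind H.subtype θ) (ind H.subtype θ) = _ * classInner θ θ at h1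
    rw [cinner_irr_self hind, cinner_irr_self hθ, mul_one, ofNormal_index] at h1
    exact hmax.1 (Subgroup.index_eq_one.1 (by exact_mod_cast h1.symm))
  obtain ⟨M, hM, hKM, hcop⟩ := hM hHC
  haveI := Fintype.ofFinite K
  haveI := Fintype.ofFinite M
  haveI := Fintype.ofFinite ↥(H ⊓ M)
  obtain ⟨η, e, hη, he⟩ := hne K hK (hLC.trans hCK)
  obtain ⟨ψ, f, hψ, hf⟩ := hne M hM ((hLC.trans hCK).trans hKM.le)
  have hξ := hres (H ⊓ M) inf_le_left (le_inf hLH ((hLC.trans hCK).trans hKM.le))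
  have hgen := exists_mul_of_sup_eq_top hKH
  have heK := (res_ind_of_mul H K C hCH hCK hHK hgen (irr_classFun hθ)).symm.trans he
  have hfM := (res_ind_of_mul H M (H ⊓ M) inf_le_left inf_le_right le_rfl (fun g => by
    obtain ⟨k, hk, x, hx, e⟩ := hgen g
    exact ⟨k, hKM.le hk, x, hx, e⟩) (irr_classFun hθ)).symm.trans hf
  have hdθ : ∀ (X : Subgroup G) (hXH : X ≤ H), deg (fun x : X => θ ⟨x, hXH x.2⟩) = deg θ :=
    fun X hXH => deg_eq_of_eq (deg_cast (irr_isChar hθ)).symm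
  -- `η` is fully ramified
  have h1 : classInner (fun x : C => η ⟨x, hCK x.2⟩) (fun x : C => θ ⟨x, hCH x.2⟩) = e := by
    have := cinner_ind_right (Subgroup.inclusion hCK) (fun x : C => θ ⟨x, hCH x.2⟩)
      (irr_classFun hη)
    rw [heK, cinner_smul_right, cinner_irr_self hη, map_natCast, mul_one] at this
    exact this.symm
  have he0 : (e : ℂ) ≠ 0 := fun h => irr_one_ne_zero hind (by
    have := congrFun he 1
    rw [h, zero_smul] at this
    exact this)
  have hf0 : (f : ℂ) ≠ 0 := fun h => irr_one_ne_zero hind (by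
    have := congrFun hf 1
    rw [h, zero_smul] at this
    exact this)
  have h2 : deg η = e * deg θ := by
    have := (ofNormalLe hCK).deg_eq_mult_mul_of_inv hη hφ (h1 ▸ he0 :) (fun g n => hinv g n)
    rw [this, hdθ]
    congr 1
    exact mult_eq_of_eq h1
  have h3 : C.relIndex K = e * e := by
    have h4 := congrArg deg heK
    rw [deg_ind _ (Subgroup.inclusion_injective hCK) (irr_isChar hφ), range_inclusion_index, hdθ,
      deg_eq_of_eq (χ := (e : ℂ) • η) (n := e * deg η) (by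
        rw [Nat.cast_mul, deg_cast (irr_isChar hη)]; rfl), h2, ← mul_assoc] at h4
    exact Nat.eq_of_mul_eq_mul_right (irr_deg_pos hθ) h4
  have h4 : (f : ℂ) • (fun x : K => ψ ⟨x, hKM.le x.2⟩) = (e : ℂ) • η := by
    rw [← he]
    ext x
    exact (congrFun hf ⟨x, hKM.le x.2⟩).symm
  have h5 : classInner (fun x : K => ψ ⟨x, hKM.le x.2⟩) η ≠ 0 := by
    have := congrArg (classInner · η) h4
    simp only [cinner_smul_left, cinner_irr_self hη, mul_one] at this
    exact right_ne_zero_of_mul (this ▸ he0)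
  obtain ⟨t, ht, ht'⟩ := exists_deg_eq (ofNormalLe hKM.le) hψ hη h5
  rw [ofNormalLe_index] at ht'
  have h6 : f * t = e := by
    have := congrFun h4 1
    change (f : ℂ) * ψ 1 = e * η 1 at this
    rw [← deg_cast (irr_isChar hψ), ← deg_cast (irr_isChar hη), ht] at this
    apply Nat.eq_of_mul_eq_mul_right (irr_deg_pos hη)
    rw [mul_assoc]
    exact_mod_cast this
  have h7 : t = 1 := Nat.eq_one_of_dvd_coprimes hcop ht'
    (h3 ▸ Dvd.dvd.mul_right ⟨f, by rw [← h6, mul_comm]⟩ e)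
  subst h7
  rw [mul_one] at h6
  subst h6
  rw [one_mul, h2] at ht
  have h8 : classInner (fun x : ↥(H ⊓ M) => ψ ⟨x, x.2.2⟩) (fun x : ↥(H ⊓ M) => θ ⟨x, x.2.1⟩) = f := by
    have := cinner_ind_right (Subgroup.inclusion (inf_le_right : H ⊓ M ≤ M))
      (fun x : ↥(H ⊓ M) => θ ⟨x, x.2.1⟩) (irr_classFun hψ)
    rw [hfM, cinner_smul_right, cinner_irr_self hψ, map_natCast, mul_one] at this
    exact this.symm
  have h9 := eq_smul_of_deg_le (isChar_res_le (inf_le_right : H ⊓ M ≤ M) (irr_isChar hψ)) hξ f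
    (mult_eq_of_eq h8).ge (by
      rw [hdθ, ← ht]
      exact (deg_eq_of_eq (deg_cast (irr_isChar hψ)).symm).le)
  have h10 : ∀ x : ↥(H ⊓ M), θ ⟨x, x.2.1⟩ ≠ 0 → ∀ m ∈ M, m * x * m⁻¹ ∈ H ⊓ M := fun x hx m hm => by
    obtain ⟨y, hy⟩ := mem_range_of_res_ind (Subgroup.inclusion (inf_le_right : H ⊓ M ≤ M))
      (Subgroup.inclusion_injective _) (θ := fun x : ↥(H ⊓ M) => θ ⟨x, x.2.1⟩) (c := (f : ℂ) * f)
      (irr_one_ne_zero hθ) (by
        rw [hfM, mul_smul, ← h9]; rfl) hx ⟨m, hm⟩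
    have : (y : G) = m * x * m⁻¹ := congrArg Subtype.val hy
    exact this ▸ y.2
  let S : Subgroup ↥(H ⊓ M) :=
    { carrier := {x | ∀ m ∈ M, m * x * m⁻¹ ∈ H ⊓ M}
      mul_mem' := fun {x y} hx hy m hm => by
        have := Subgroup.mul_mem _ (hx m hm) (hy m hm)
        simpa [mul_assoc] using this
      one_mem' := fun m hm => by simp
      inv_mem' := fun {x} hx m hm => by
        have := Subgroup.inv_mem _ (hx m hm)
        simpa [mul_assoc] using this }
  haveI : S.Normal := ⟨fun x hx y m hm => by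
    have := hx (m * y) (M.mul_mem hm y.2.2)
    simpa [mul_assoc] using this⟩
  have hCR : C ≤ H ⊓ M := le_inf hCH (hCK.trans hKM.le)
  have h11 := sq_eq_index_of_vanish (ofNormal S) hξ (e := 1)
    (θ := fun x : S => θ ⟨(x : ↥(H ⊓ M)), (x : ↥(H ⊓ M)).2.1⟩)
    (irr_of_comp_irr (isChar_res (irr_isChar hξ) S) ((Subgroup.inclusion hCR).codRestrict S
      (fun x m _ => hCR (Subgroup.Normal.conj_mem inferInstance _ x.2 m))) hφ)
    (by rw [Nat.cast_one, one_smul]; rfl) (fun x hx => by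
      by_contra h
      exact hx (by rw [ofNormal_range]; exact h10 x h))
  rw [ofNormal_index, one_pow, eq_comm, Subgroup.index_eq_one] at h11
  have h12 : (H ⊓ M).Normal := normal_of_sup_eq_top (H := M) (K := H) (fun m hm => by
      rw [Subgroup.mem_normalizer_iff]
      intro x
      refine ⟨fun hx => (h11 ▸ Subgroup.mem_top (⟨x, hx⟩ : ↥(H ⊓ M)) : _ ∈ S) m hm, fun hx => ?_⟩
      have := (h11 ▸ Subgroup.mem_top (⟨_, hx⟩ : ↥(H ⊓ M)) : _ ∈ S) m⁻¹ (M.inv_mem hm)
      simpa [mul_assoc] using this)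
    (le_normalizer_inf_of_normal H M) (top_le_iff.1 (hKH ▸ sup_le_sup_right hKM.le H))
  have h13 := dedekind_normal_left (A := K) (B := H) hKM.le
  rw [hKH, top_inf_eq, sup_of_le_left ((hcore _ h12 inf_le_left).trans hCK)] at h13
  exact hKM.ne h13.symm

theorem homogeneous_of_le_mul_center [Finite G] (E : NormalEmb N G) (M : Subgroup G) [M.Normal]
    (hNM : ∀ n, E.i n ∈ M) (hM : ∀ m ∈ M, ∃ z ∈ Subgroup.center G, ∃ n, m = z * E.i n)
    {Ψ : G → ℂ} (hΨ : IsIrrCharacter G Ψ) {φ : N → ℂ} (hφ : IsIrrCharacter N φ) {c : ℂ}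
    (h : (fun n => Ψ (E.i n)) = c • φ) :
    ∃ (ξ : M → ℂ) (e : ℕ), IsIrrCharacter M ξ ∧ (fun m : M => Ψ m) = (e : ℂ) • ξ := by
  haveI := Fintype.ofFinite G
  haveI := E.finite
  haveI := Fintype.ofFinite N
  haveI := Fintype.ofFinite M
  obtain ⟨ξ, hξ, h1⟩ := (ofNormal M).exists_constituent hΨ
  refine ⟨ξ, _, hξ, (ofNormal M).res_eq_smul_of_inv hΨ hξ h1 (fun g m => ?_)⟩
  have h2 := eq_smul_of_unique_constituent (isChar_comp (irr_isChar hξ) (E.restrict M hNM).i) hφ
    (fun τ hτ h2 => (eq_of_smul_eq_of_cinner hτ hφ h (cinner_comp_ne_zero (E.restrict M hNM).i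
      (isChar_res (irr_isChar hΨ) M) hξ h1 (irr_isChar hτ) h2)).symm)
  have hinv := E.inv_of_res_eq_smul hΨ h
  obtain ⟨z, hz, n, hm⟩ := hM m m.2
  have hzM : z ∈ M := by simpa [hm] using M.mul_mem m.2 (M.inv_mem (hNM n))
  obtain ⟨d, hd⟩ := center_le_ccenter hξ (x := ⟨z, hzM⟩) (Subgroup.mem_center_iff.2
    (fun y => Subtype.ext (Subgroup.mem_center_iff.1 hz y)))
  have e1 : m = ⟨z, hzM⟩ * (E.restrict M hNM).i n := Subtype.ext hm
  have e2 : (ofNormal M).a g m = ⟨z, hzM⟩ * (E.restrict M hNM).i (E.a g n) := Subtype.ext (by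
    change g * m * g⁻¹ = z * E.i (E.a g n)
    rw [hm, E.i_a, ← mul_assoc g, Subgroup.mem_center_iff.1 hz g]
    simp [mul_assoc])
  rw [e2, hd, congrFun h2 (E.a g n)]
  conv_rhs => rw [e1, hd, congrFun h2 n]
  simp only [Pi.smul_apply, hinv g n]

/-- A central extension of `G` in which an invariant character of `L` extends to the preimage of
a supplement `H` of `K` with `H ⊓ K = L`. -/
theorem exists_cover_pullback [Finite G] (L H K : Subgroup G) [L.Normal] [K.Normal] (hLH : L ≤ H)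
    (hLK : L ≤ K) (hHK : H ⊓ K ≤ L) (hKH : K ⊔ H = ⊤) {φ : L → ℂ} (hφ : IsIrrCharacter L φ)
    (hinv : (ofNormalLe hLH).Inv φ) :
    ∃ (X : Type u) (_ : Group X) (_ : Finite X) (π : X →* G) (E : NormalEmb L X)
      (hE : ∀ l, E.i l ∈ H.comap π) (Y : Subgroup X) (_ : Y.Normal) (φ' : H.comap π → ℂ),
      Function.Surjective π ∧ π.ker ≤ Subgroup.center X ∧ (∀ l, π (E.i l) = l) ∧
      (∀ x l, E.a x l = (ofNormal L).a (π x) l) ∧
      H.comap π ⊓ Y ≤ E.i.range ∧ Y ⊔ H.comap π = ⊤ ∧ IsIrrCharacter _ φ' ∧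
      ∀ l, φ' ⟨E.i l, hE l⟩ = φ l := by
  obtain ⟨Z, _, _, p, E', φ', hp, hker, hi, -, hφ', hres⟩ := exists_cover _ hφ hinv
  haveI := E'.range_normal
  have hi' : ∀ l, (p (E'.i l) : G) = l := fun l => congrArg Subtype.val (hi l)
  let ρ : Z ⧸ E'.i.range →* G ⧸ K := QuotientGroup.lift _
    ((QuotientGroup.mk' K).comp (H.subtype.comp p)) (by
      rintro _ ⟨l, rfl⟩
      exact (QuotientGroup.eq_one_iff _).2 (hi' l ▸ hLK l.2 :))
  let X : Subgroup (G × (Z ⧸ E'.i.range)) :=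
    ((QuotientGroup.mk' K).comp (MonoidHom.fst _ _)).eqLocus (ρ.comp (MonoidHom.snd _ _))
  have hX : ∀ (g : G) (z : Z), (g, (z : Z ⧸ E'.i.range)) ∈ X ↔ g⁻¹ * p z ∈ K := fun g z =>
    QuotientGroup.eq
  let π : X →* G := (MonoidHom.fst _ _).comp X.subtype
  let σ : X →* Z ⧸ E'.i.range := (MonoidHom.snd _ _).comp X.subtype
  let j : Z →* X := ((H.subtype.comp p).prod (QuotientGroup.mk' _)).codRestrict X (fun z => rfl)
  have hσi : ∀ l, σ (j (E'.i l)) = 1 := fun l => (QuotientGroup.eq_one_iff _).2 ⟨l, rfl⟩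
  have hext : ∀ x y : X, π x = π y → σ x = σ y → x = y := fun x y h1 h2 =>
    Subtype.ext (Prod.ext h1 h2)
  let E : NormalEmb L X :=
    { i := j.comp E'.i
      a := fun x l => (ofNormal L).a (π x) l
      inj := fun l l' h => Subtype.ext (by
        rw [← hi' l, ← hi' l']; exact congrArg π h)
      i_a := fun x l => hext _ _ (by
          rw [map_mul, map_mul, map_inv]
          exact (hi' _).trans (congrArg (fun t => π x * t * (π x)⁻¹) (hi' l).symm))
        (by simp only [map_mul, map_inv, MonoidHom.comp_apply, hσi]; simp) }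
  have hjs : ∀ x : X, π x ∈ H → ∃ z, j z = x := by
    rintro ⟨⟨g, q⟩, hx⟩ hg
    obtain ⟨z, rfl⟩ := QuotientGroup.mk_surjective q
    have h1 : g⁻¹ * p z ∈ L := hHK ⟨H.mul_mem (H.inv_mem hg) (p z).2, (hX g z).1 hx⟩
    refine ⟨z * (E'.i ⟨_, h1⟩)⁻¹, hext _ _ ?_ ?_⟩
    · change ((p (z * (E'.i ⟨_, h1⟩)⁻¹) : H) : G) = g
      rw [map_mul, map_inv, Subgroup.coe_mul, Subgroup.coe_inv, hi']
      simp
    · rw [map_mul, map_mul, map_inv, map_inv, hσi, inv_one, mul_one]
      rfl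
  have hji : Function.Injective j := by
    rw [injective_iff_map_eq_one]
    intro z hz
    obtain ⟨l, rfl⟩ := (QuotientGroup.eq_one_iff _).1 (congrArg σ hz : (z : Z ⧸ E'.i.range) = 1)
    have : l = 1 := Subtype.ext ((hi' l).symm.trans (congrArg π hz))
    rw [this, map_one]
  let j' : Z ≃* H.comap π := MulEquiv.ofBijective (j.codRestrict (H.comap π) (fun z => (p z).2))
    ⟨fun z z' h => hji (congrArg Subtype.val h), fun x => by
      obtain ⟨z, hz⟩ := hjs x x.2
      exact ⟨z, Subtype.ext hz⟩⟩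
  refine ⟨X, inferInstance, inferInstance, π, E, fun l => (p (E'.i l)).2, σ.ker, inferInstance,
    fun x => φ' (j'.symm x), fun g => ?_, fun x hx => ?_, hi', fun _ _ => rfl, ?_, ?_,
    irr_comp_equiv hφ' _, fun l => ?_⟩
  · obtain ⟨k, hk, x, hx, rfl⟩ := exists_mul_of_sup_eq_top hKH g
    obtain ⟨z, hz⟩ := hp ⟨x, hx⟩
    refine ⟨⟨(k * x, z), (hX _ _).2 ?_⟩, rfl⟩
    rw [hz]
    simpa [mul_assoc] using Subgroup.Normal.conj_mem inferInstance _ (K.inv_mem hk) x⁻¹
  · obtain ⟨z, rfl⟩ := hjs x (by rw [hx]; exact H.one_mem)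
    have hz : z ∈ Subgroup.center Z := hker (Subtype.ext hx)
    rw [Subgroup.mem_center_iff]
    intro y
    refine hext _ _ (by rw [map_mul, map_mul, hx, mul_one, one_mul]) ?_
    obtain ⟨w, hw⟩ := QuotientGroup.mk_surjective (σ y)
    rw [map_mul, map_mul, ← hw]
    change ((w * z : Z) : Z ⧸ E'.i.range) = (z * w : Z)
    rw [Subgroup.mem_center_iff.1 hz w]
  · rintro x ⟨hx, hx'⟩
    obtain ⟨z, rfl⟩ := hjs x hx
    obtain ⟨l, rfl⟩ := (QuotientGroup.eq_one_iff _).1 (hx' : (z : Z ⧸ E'.i.range) = 1)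
    exact ⟨l, rfl⟩
  · rw [Subgroup.eq_top_iff']
    intro x
    obtain ⟨w, hw⟩ := QuotientGroup.mk_surjective (σ x)
    refine mem_normal_sup_iff.2 ⟨x * (j w)⁻¹, ?_, j w, (p w).2, by simp⟩
    rw [MonoidHom.mem_ker, map_mul, map_inv, ← hw]
    exact mul_inv_cancel _
  · rw [← hres]
    exact congrArg φ' (j'.symm_apply_apply (E'.i l))

/-- Berger's theorem. -/
theorem not_ind_of_quasiprimitive [Finite G] [Group.IsSolvable G] {χ : G → ℂ}
    (hχ : IsIrrCharacter G χ)
    (hqp : ∀ N : Subgroup G, N.Normal → ∃ (θ : N → ℂ) (e : ℕ), IsIrrCharacter N θ ∧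
      (fun n : N => χ n) = (e : ℂ) • θ) (K : Subgroup G) (hK : K ≠ ⊤) {ψ : K → ℂ}
    (hψ : IsCharacter K ψ) : ind K.subtype ψ ≠ χ := by
  intro hind
  haveI := Fintype.ofFinite G
  let S : Set (Subgroup G) := {U | IsCoatom U ∧ ∃ θ, IsCharacter U θ ∧ ind U.subtype θ = χ}
  have hS : ∀ (T : Subgroup G), T ≠ ⊤ → ∀ ψ, IsCharacter T ψ → ind T.subtype ψ = χ →
      ∃ U ∈ S, T ≤ U := fun T hT ψ hψ h => by
    obtain ⟨U, hU, hTU⟩ := (eq_top_or_exists_le_coatom T).resolve_left hT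
    exact ⟨U, ⟨hU, _, isChar_ind (Subgroup.inclusion hTU) hψ,
      (ind_subtype_inclusion hTU ψ).trans h⟩, hTU⟩
  obtain ⟨H, ⟨hH, θ, hθ, rfl⟩, hmax⟩ := Set.exists_max_image S
    (fun U => Nat.card U.normalCore) (Set.toFinite S) (by
      obtain ⟨U, hU, -⟩ := hS K hK ψ hψ hind
      exact ⟨U, hU⟩)
  have hθ := irr_of_ind_irr _ H.subtype_injective hθ hχ
  have hLH := H.normalCore_le
  generalize hL : H.normalCore = L at hLH hmax
  haveI : L.Normal := hL ▸ H.normalCore_normal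
  have hcore : ∀ X : Subgroup G, X.Normal → X ≤ H → X ≤ L := fun X _ h =>
    hL ▸ Subgroup.normal_le_normalCore.2 h
  haveI := Fintype.ofFinite H
  haveI := Fintype.ofFinite L
  obtain ⟨φ, hφ, hθφ⟩ := (ofNormalLe hLH).exists_constituent hθ
  obtain ⟨φ', c, hφ', hc⟩ := hqp L inferInstance
  obtain rfl := eq_of_smul_eq_of_cinner hφ hφ' hc (cinner_comp_ne_zero (Subgroup.inclusion hLH)
    (isChar_res (irr_isChar hχ) H) hθ (cinner_res_ind_ne_zero _ H.subtype_injective
      (irr_isChar hθ) (irr_ne_zero hθ)) (irr_isChar hφ) hθφ)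
  have hinv : (ofNormal L).Inv φ' := (ofNormal L).inv_of_res_eq_smul hχ hc
  obtain ⟨K, _, hLK, hHK, hKH, -⟩ := core_complement L hH hLH hcore
  obtain ⟨X, _, _, π, E, hE, Y, _, φ, hπ, hker, hi, ha, hY, hY', hφ, hres⟩ :=
    exists_cover_pullback L H K hLH hLK hHK hKH hφ' (fun g n => hinv g n)
  haveI := Fintype.ofFinite X
  haveI := Fintype.ofFinite (H.comap π)
  have hres' : (fun l => φ ((E.restrict _ hE).i l)) = φ' := funext hres
  have hθ' : IsIrrCharacter (H.comap π) (fun x => θ ⟨π x, x.2⟩) :=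
    irr_comp_surjective hθ (π.subgroupComap H) (π.subgroupComap_surjective_of_surjective H hπ)
  obtain ⟨β, hβ, hβk, hβe⟩ := (E.restrict _ hE).gallagher_surj (irr_isChar hφ) (hres' ▸ hφ') hθ'
    (by
      rw [hres']
      convert hθφ using 2
      ext l
      exact congrArg θ (Subtype.ext (hi l)))
  obtain ⟨β', hβ', hβe'⟩ := exists_char_factor ((QuotientGroup.mk' Y).comp (H.comap π).subtype)
    (by
      rintro ⟨x⟩
      obtain ⟨y, hy, h, hh, rfl⟩ := exists_mul_of_sup_eq_top hY' x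
      refine ⟨⟨h, hh⟩, ?_⟩
      change (h : X ⧸ Y) = (y * h : X)
      rw [QuotientGroup.mk_mul, (QuotientGroup.eq_one_iff y).2 hy, one_mul]) (irr_isChar hβ)
    (fun x hx => by
      obtain ⟨l, hl⟩ := hY ⟨x.2, (QuotientGroup.eq_one_iff _).1 hx⟩
      have : x = (E.restrict _ hE).i l := Subtype.ext hl.symm
      exact this ▸ hβk l)
  have hγ : IsCharacter X (fun x => β' (QuotientGroup.mk' Y x)) := isChar_comp hβ' _
  generalize hγe : (fun x => β' (QuotientGroup.mk' Y x)) = γ at hγ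
  have hβγ : β = fun x => γ ((H.comap π).subtype x) := by rw [hβe', ← hγe]; rfl
  have hχ' := irr_comp_surjective hχ π hπ
  have h1 : (fun x => ind H.subtype θ (π x)) = ind (H.comap π).subtype φ * γ := by
    rw [ind_comap π hπ H (irr_classFun hθ), hβe, hβγ, mul_comm, ind_mul_comp _ _ (char_classFun hγ)]
  have hΨ : IsIrrCharacter X (ind (H.comap π).subtype φ) :=
    irr_of_mul_irr (isChar_ind _ (irr_isChar hφ)) hγ (h1 ▸ hχ')
  haveI := E.range_normal
  haveI : Group.IsSolvable X := by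
    haveI : Group.IsSolvable (Subgroup.center X) := Group.isSolvable_of_comm
      (fun a b => Subtype.ext (Subgroup.mem_center_iff.1 b.2 a))
    exact Group.isSolvable_of_ker_le_range (Subgroup.center X).subtype π (by simpa using hker)
  have hEH : E.i.range ≤ H.comap π := by rintro _ ⟨l, rfl⟩; exact hE l
  obtain ⟨M, _, hEM, hM⟩ := exists_not_homogeneous E.i.range (H.comap π) hEH
    (Subgroup.isCoatom_comap_of_surjective hπ hH) hφ (by
      have := irr_comp_equiv hφ' (MonoidHom.ofInjective E.inj).symm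
      convert this using 2 with x
      obtain ⟨l, rfl⟩ := (MonoidHom.ofInjective E.inj).surjective x
      rw [MulEquiv.symm_apply_apply, ← hres]; rfl) hΨ
  haveI := Fintype.ofFinite M
  obtain ⟨T, hT, hMT, ξ, hξ, hξe⟩ := (ofNormal M).exists_ind_of_not_homogeneous hΨ hM
  have hη : IsCharacter T (ξ * fun t => γ (T.subtype t)) :=
    isChar_mul (irr_isChar hξ) (isChar_comp hγ _)
  have h2 : ind T.subtype (ξ * fun t => γ (T.subtype t)) = fun x => ind H.subtype θ (π x) := by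
    rw [ind_mul_comp _ _ (char_classFun hγ), hξe, h1]
  generalize (ξ * fun t => γ (T.subtype t)) = η at hη h2
  have hη0 : η ≠ 0 := by
    rintro rfl
    exact irr_ne_zero hχ' (h2 ▸ ind_zero _)
  have hk : π.ker ≤ cker (ind T.subtype η) := h2 ▸ ker_le_cker_comp π _
  have hkT : π.ker ≤ T := fun x hx => by
    simpa using mem_range_of_mem_cker_ind _ T.subtype_injective hη hη0 (hk hx)
  obtain ⟨η', hη', rfl⟩ := exists_char_factor (π.subgroupMap T) (π.subgroupMap_surjective T) hη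
    (fun x hx => mem_cker_of_mem_cker_ind _ T.subtype_injective hη
      (hk (congrArg Subtype.val hx)))
  have hTe : (T.map π).comap π = T := Subgroup.comap_map_eq_self hkT
  have h3 : ind (T.map π).subtype η' = ind H.subtype θ := by
    have h4 := ind_comp_of_pullback (T.map π).subtype π (π.subgroupMap T) T.subtype (fun _ => rfl)
      (fun _ _ _ e => Subtype.ext e)
      (fun h k e => ⟨⟨k, hTe ▸ (show π k ∈ T.map π from e ▸ h.2)⟩, Subtype.ext e.symm, rfl⟩)
      (fun g => by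
        obtain ⟨x, rfl⟩ := hπ g
        exact ⟨x, 1, by simp⟩) (char_classFun hη')
    ext g
    obtain ⟨x, rfl⟩ := hπ g
    exact congrFun (h4.trans h2) x
  obtain ⟨U, hU, hTU⟩ := hS (T.map π) (fun h => hT (by rw [← hTe, h, Subgroup.comap_top])) η' hη' h3
  haveI : (M.map π).Normal := Subgroup.Normal.map inferInstance π hπ
  have h5 : M.map π ≤ U.normalCore := Subgroup.normal_le_normalCore.2
    ((Subgroup.map_mono (fun m hm => hMT ⟨m, hm⟩)).trans hTU)
  have h6 : L ≤ M.map π := fun l hl => ⟨E.i ⟨l, hl⟩, hEM ⟨_, rfl⟩, hi _⟩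
  have h7 : L = U.normalCore := Subgroup.eq_of_le_of_card_ge (h6.trans h5) (hmax U hU)
  apply hM
  have h8 : classInner (fun l => ind (H.comap π).subtype φ (E.i l)) φ' ≠ 0 :=
    cinner_comp_ne_zero (E.restrict _ hE).i (isChar_res (irr_isChar hΨ) _) hφ
      (cinner_res_ind_ne_zero _ (H.comap π).subtype_injective (irr_isChar hφ) (irr_ne_zero hφ))
      (irr_isChar hφ') (by rw [hres', cinner_irr_self hφ']; exact one_ne_zero)
  refine homogeneous_of_le_mul_center E M (fun l => hEM ⟨l, rfl⟩) (fun m hm => ?_) hΨ hφ'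
    (E.res_eq_smul_of_inv hΨ hφ' h8 (fun x l => by rw [ha]; exact hinv _ l))
  have h9 : π m ∈ L := h7 ▸ h5 ⟨m, hm, rfl⟩
  refine ⟨m * (E.i ⟨_, h9⟩)⁻¹, hker ?_, ⟨_, h9⟩, by simp⟩
  rw [MonoidHom.mem_ker, map_mul, map_inv, hi, mul_inv_cancel]

end Cfsg.Agent.Lib.CharBerger
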