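import Mathlib
import Cfsg.Prelude.Def_Characters
import Cfsg.Prelude.Def_Blocks
import Cfsg.Agent.Lib.CharBrauer
import Cfsg.Agent.Lib.CharGoingDown
import Cfsg.Agent.Lib.SolvBasic

/-!
# Congruences of character values modulo a maximal ideal of the algebraic integers
-/

set_option autoImplicit false
set_option linter.style.haveILetI false
set_option linter.unusedSectionVars false

namespace Cfsg.Agent.Lib.CharMod

open Cfsg Module Cfsg.Agent.Lib.CharRep Cfsg.Agent.Lib.CharBasic Cfsg.Agent.Lib.CharOrth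
  Cfsg.Agent.Lib.CharInd Cfsg.Agent.Lib.CharInt Cfsg.Agent.Lib.CharClifford
  Cfsg.Agent.Lib.CharGoingDown Cfsg.Agent.Lib.CharBrauer Cfsg.Agent.Lib.SolvBasic
open scoped ComplexConjugate

universe u v w

variable {G : Type u} [Group G]

/-- An ideal of the algebraic integers as an additive subgroup of `ℂ`. -/
def mset (M : Ideal AlgInt) : AddSubgroup ℂ where
  carrier := {z | ∃ a ∈ M, (a : ℂ) = z}
  add_mem' := by
    rintro _ _ ⟨a, ha, rfl⟩ ⟨b, hb, rfl⟩
    exact ⟨a + b, M.add_mem ha hb, rfl⟩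
  zero_mem' := ⟨0, M.zero_mem, rfl⟩
  neg_mem' := by
    rintro _ ⟨a, ha, rfl⟩
    exact ⟨-a, M.neg_mem ha, rfl⟩

theorem mem_mset {M : Ideal AlgInt} {z : ℂ} : z ∈ mset M ↔ ∃ a ∈ M, (a : ℂ) = z := Iff.rfl

theorem coe_mem_mset {M : Ideal AlgInt} {a : AlgInt} : (a : ℂ) ∈ mset M ↔ a ∈ M :=
  ⟨fun ⟨_, hb, e⟩ => Subtype.ext e ▸ hb, fun h => ⟨a, h, rfl⟩⟩

theorem mul_mem_mset {M : Ideal AlgInt} {z w : ℂ} (hw : IsIntegral ℤ w) (hz : z ∈ mset M) :
    w * z ∈ mset M := by
  obtain ⟨a, ha, rfl⟩ := hz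
  exact ⟨⟨w, hw⟩ * a, M.mul_mem_left _ ha, rfl⟩

theorem isIntegral_of_mem_mset {M : Ideal AlgInt} {z : ℂ} (hz : z ∈ mset M) : IsIntegral ℤ z := by
  obtain ⟨a, -, rfl⟩ := hz
  exact a.2

theorem memLocalIdeal_of_mem_mset {p : ℕ} {M : Ideal AlgInt} (hM : IsPModular p M) {z : ℂ}
    (hz : z ∈ mset M) : MemLocalIdeal M z := by
  obtain ⟨a, ha, rfl⟩ := hz
  exact ⟨a, 1, ha, (Ideal.ne_top_iff_one M).1 hM.2.1.ne_top, by simp⟩

theorem mem_mset_of_memLocalIdeal {p : ℕ} {M : Ideal AlgInt} (hM : IsPModular p M) {z : ℂ}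
    (hi : IsIntegral ℤ z) (hz : MemLocalIdeal M z) : z ∈ mset M := by
  obtain ⟨a, b, ha, hb, e⟩ := hz
  have hb0 : (b : ℂ) ≠ 0 := fun h => hb (by
    rw [show b = 0 from Subtype.ext h]; exact M.zero_mem)
  have : (⟨z, hi⟩ : AlgInt) * b = a := Subtype.ext (by
    change z * b = a
    rw [← e, div_mul_cancel₀ _ hb0])
  exact ⟨⟨z, hi⟩, (hM.2.1.isPrime.mem_or_mem (this ▸ ha)).resolve_right hb, rfl⟩

theorem memLocalIdeal_iff {p : ℕ} {M : Ideal AlgInt} (hM : IsPModular p M) {z : ℂ}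
    (hi : IsIntegral ℤ z) : MemLocalIdeal M z ↔ z ∈ mset M :=
  ⟨mem_mset_of_memLocalIdeal hM hi, memLocalIdeal_of_mem_mset hM⟩

theorem exists_isPModular {p : ℕ} (hp : p.Prime) : ∃ M, IsPModular p M := by
  obtain ⟨M, hM, h⟩ := Ideal.exists_le_maximal (Ideal.span {(p : AlgInt)}) (by
    rw [Ne, Ideal.span_singleton_eq_top]
    rintro ⟨u, hu⟩
    have h1 : ((u⁻¹ : AlgIntˣ) : AlgInt) * (p : AlgInt) = 1 := by rw [← hu]; simp
    have h2 : (((u⁻¹ : AlgIntˣ) : AlgInt) : ℂ) * p = 1 := congrArg Subtype.val h1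
    have hp0 : (p : ℂ) ≠ 0 := by exact_mod_cast hp.ne_zero
    have h3 : IsIntegral ℤ (((1 : ℕ) : ℂ) / p) := by
      rw [Nat.cast_one, ← h2, mul_div_cancel_right₀ _ hp0]
      exact ((u⁻¹ : AlgIntˣ) : AlgInt).2
    exact hp.one_lt.ne' (Nat.dvd_one.1 (dvd_of_isIntegral_div hp.pos h3)))
  exact ⟨M, hp, hM, h (Ideal.subset_span rfl)⟩

theorem intCast_mem_mset_iff {p : ℕ} {M : Ideal AlgInt} (hM : IsPModular p M) {n : ℤ} :
    (n : ℂ) ∈ mset M ↔ (p : ℤ) ∣ n := by
  have hp : (p : ℂ) ∈ mset M := ⟨p, hM.2.2, rfl⟩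
  constructor
  · intro h
    by_contra hn
    obtain ⟨a, b, hab⟩ := (Int.prime_iff_natAbs_prime.2 (by simpa using hM.1) :
      Prime (p : ℤ)).coprime_iff_not_dvd.2 hn
    have h1 : (1 : ℂ) ∈ mset M := by
      have : (a : ℂ) * p + b * n = 1 := by exact_mod_cast hab
      rw [← this]
      exact (mset M).add_mem (mul_mem_mset (isIntegral_algebraMap (x := a)) hp)
        (mul_mem_mset (isIntegral_algebraMap (x := b)) h)
    exact (Ideal.ne_top_iff_one M).1 hM.2.1.ne_top (coe_mem_mset.1 h1)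
  · rintro ⟨c, rfl⟩
    rw [Int.cast_mul, mul_comm, Int.cast_natCast]
    exact mul_mem_mset (isIntegral_algebraMap (x := c)) hp

theorem natCast_mem_mset_iff {p : ℕ} {M : Ideal AlgInt} (hM : IsPModular p M) {n : ℕ} :
    (n : ℂ) ∈ mset M ↔ p ∣ n := by
  rw [← Int.natCast_dvd_natCast, ← intCast_mem_mset_iff hM, Int.cast_natCast]

theorem sub_one_mem_mset {p : ℕ} {M : Ideal AlgInt} (hM : IsPModular p M) {ε : ℂ} {k : ℕ}
    (h : ε ^ p ^ k = 1) : ε - 1 ∈ mset M := by
  haveI := Fact.mk hM.1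
  haveI := hM.2.1
  haveI := hM.2.1.isPrime
  haveI : CharP (AlgInt ⧸ M) p := (CharP.charP_iff_prime_eq_zero hM.1).2 (by
    rw [← map_natCast (Ideal.Quotient.mk M), Ideal.Quotient.eq_zero_iff_mem]; exact hM.2.2)
  let e : AlgInt := ⟨ε, isIntegral_of_pow_eq_one (pow_pos hM.1.pos k) h⟩
  have he : e ^ p ^ k = 1 := Subtype.ext h
  refine ⟨e - 1, ?_, rfl⟩
  rw [← Ideal.Quotient.eq_zero_iff_mem]
  apply pow_eq_zero_iff (pow_pos hM.1.pos k).ne' |>.1
  rw [map_sub, map_one, sub_pow_char_pow, ← map_pow, he, map_one, one_pow, sub_self]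

/-- Character values only depend on the `p`-regular part modulo `M`. -/
theorem char_sub_mem_mset [Finite G] {p : ℕ} {M : Ideal AlgInt} (hM : IsPModular p M)
    {χ : G → ℂ} (hχ : IsCharacter G χ) {a y : G} (hc : Commute a y) {k : ℕ}
    (ha : a ^ p ^ k = 1) : χ (a * y) - χ y ∈ mset M := by
  obtain ⟨n, ρ, rfl⟩ := hχ
  let A := Subgroup.closure ({a, y} : Set G)
  have haA : a ∈ A := Subgroup.subset_closure (by simp)
  have hyA : y ∈ A := Subgroup.subset_closure (by simp)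
  haveI : IsMulCommutative A := Subgroup.isMulCommutative_closure (by
    rintro _ (rfl | rfl) _ (rfl | rfl)
    · rfl
    · exact hc.eq
    · exact hc.eq.symm
    · rfl)
  obtain ⟨s, hs, -⟩ := exists_linear_decomp (A := A) _ (MonoidHom.comp ρ A.subtype)
  have h1 : ρ.character (a * y) = _ := hs ((⟨a, haA⟩ : A) * (⟨y, hyA⟩ : A))
  have h2 : ρ.character y = _ := hs ⟨y, hyA⟩
  rw [h1, h2, ← Multiset.sum_map_sub]
  refine AddSubgroup.multiset_sum_mem _ _ (fun z hz => ?_)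
  obtain ⟨φ, -, rfl⟩ := Multiset.mem_map.1 hz
  rw [map_mul, Units.val_mul, ← sub_one_mul, mul_comm]
  refine mul_mem_mset (isIntegral_char (isChar_of_unitsHom φ) _) (sub_one_mem_mset hM (k := k) ?_)
  rw [← Units.val_pow_eq_pow_val, ← map_pow,
    show (⟨a, haA⟩ : A) ^ p ^ k = 1 from Subtype.ext ha, map_one, Units.val_one]

theorem genChar_sub_mem_mset [Finite G] {p : ℕ} {M : Ideal AlgInt} (hM : IsPModular p M)
    {χ : G → ℂ} (hχ : IsGeneralizedCharacter G χ) {a y : G} (hc : Commute a y) {k : ℕ}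
    (ha : a ^ p ^ k = 1) : χ (a * y) - χ y ∈ mset M := by
  obtain ⟨α, β, hα, hβ, rfl⟩ := hχ
  have := (mset M).sub_mem (char_sub_mem_mset hM hα hc ha) (char_sub_mem_mset hM hβ hc ha)
  convert this using 1
  simp only [Pi.sub_apply]; ring

/-- A character of degree prime to `p` does not vanish on `p`-elements. -/
theorem char_ne_zero_of_not_dvd [Finite G] {p : ℕ} (hp : p.Prime) {χ : G → ℂ}
    (hχ : IsCharacter G χ) (hd : ¬ p ∣ deg χ) {a : G} {k : ℕ} (ha : a ^ p ^ k = 1) : χ a ≠ 0 := by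
  obtain ⟨M, hM⟩ := exists_isPModular hp
  intro h
  have := char_sub_mem_mset hM hχ (Commute.one_right a) ha
  rw [mul_one, h, zero_sub, neg_mem_iff, ← deg_cast hχ, natCast_mem_mset_iff hM] at this
  exact hd this

/-- An integral character value at a `p`-element is congruent to the degree. -/
theorem int_modEq_of_char [Finite G] {p : ℕ} (hp : p.Prime) {χ : G → ℂ}
    (hχ : IsGeneralizedCharacter G χ) {a y : G} (hc : Commute a y) {k : ℕ} (ha : a ^ p ^ k = 1)
    {m n : ℤ} (hm : χ (a * y) = m) (hn : χ y = n) : (p : ℤ) ∣ m - n := by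
  obtain ⟨M, hM⟩ := exists_isPModular hp
  have := genChar_sub_mem_mset hM hχ hc ha
  rwa [hm, hn, ← Int.cast_sub, intCast_mem_mset_iff hM] at this

section Parts

variable {m n e : ℕ}

theorem pow_eq_one_of_coprime (hmn : Nat.card G = m * n) (he : m ∣ e) {u : G}
    (hu : (orderOf u).Coprime n) : u ^ e = 1 :=
  orderOf_dvd_iff_pow_eq_one.1
    ((hu.dvd_of_dvd_mul_right (hmn ▸ orderOf_dvd_natCard u)).trans he)

theorem pow_eq_self_of_coprime (hmn : Nat.card G = m * n) (he : e ≡ 1 [MOD n]) {v : G}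
    (hv : (orderOf v).Coprime m) : v ^ e = v := by
  conv_rhs => rw [← pow_one v]
  exact pow_eq_pow_iff_modEq.2 (he.of_dvd (hv.dvd_of_dvd_mul_left (hmn ▸ orderOf_dvd_natCard v)))

theorem mul_pow_eq_of_coprime (hmn : Nat.card G = m * n) (he : m ∣ e) (he' : e ≡ 1 [MOD n])
    {u v : G} (hc : Commute u v) (hu : (orderOf u).Coprime n) (hv : (orderOf v).Coprime m) :
    (u * v) ^ e = v := by
  rw [hc.mul_pow, pow_eq_one_of_coprime hmn he hu, pow_eq_self_of_coprime hmn he' hv, one_mul]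

theorem exists_decomp [Finite G] (hmn : Nat.card G = m * n) (hcop : m.Coprime n) (x : G) :
    ∃ u v : G, x = u * v ∧ Commute u v ∧ (orderOf u).Coprime n ∧ (orderOf v).Coprime m := by
  obtain ⟨u, hu, v, hv, h1, h2, h3⟩ := exists_mul_of_coprime (x := x) hcop
    (by rw [← hmn]; exact pow_card_eq_one')
  exact ⟨u, v, h3, commute_of_mem_zpowers hu hv,
    hcop.coprime_dvd_left (orderOf_dvd_of_pow_eq_one h1),
    hcop.symm.coprime_dvd_left (orderOf_dvd_of_pow_eq_one h2)⟩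

/-- On an elementary subgroup taking the `n`-part is a homomorphism. -/
theorem mul_pow_of_elementary [Finite G] (hmn : Nat.card G = m * n) (hcop : m.Coprime n)
    (he : m ∣ e) (he' : e ≡ 1 [MOD n]) {p : ℕ} (hp : p.Prime) (E : Subgroup G)
    (hE : IsElementary p E) (x y : E) : (x * y) ^ e = x ^ e * y ^ e := by
  haveI := Fact.mk hp
  obtain ⟨c, hc, -, k, hk⟩ := hE
  obtain ⟨P⟩ : Nonempty (Sylow p E) := inferInstance
  have hdec := exists_mul_eq_of_coprime_index (H := (P : Subgroup E)) (K := Subgroup.zpowers c)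
    (by rw [hk]; exact ((Nat.Prime.coprime_iff_not_dvd hp).2 P.not_dvd_index).symm.pow_right _)
  have hz : Subgroup.zpowers c ≤ Subgroup.center E := (Subgroup.zpowers_le).2 hc
  obtain ⟨a, ha, x, hx, rfl⟩ := hdec x
  obtain ⟨b, hb, y, hy, rfl⟩ := hdec y
  have ca : ∀ z, Commute a z := fun z => (Subgroup.mem_center_iff.1 (hz ha) z).symm
  have cb : ∀ z, Commute b z := fun z => (Subgroup.mem_center_iff.1 (hz hb) z).symm
  have hxy : (x * y) ^ e = x ^ e * y ^ e := by
    have ho : ∀ z ∈ (P : Subgroup E), ∃ j, orderOf (z : G) = p ^ j := fun z hz => by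
      obtain ⟨j, hj⟩ := IsPGroup.iff_orderOf.1 P.isPGroup' ⟨z, hz⟩
      exact ⟨j, by rw [Subgroup.orderOf_coe, ← hj, ← Subgroup.orderOf_coe (⟨z, hz⟩ : P)]⟩
    by_cases hpn : p ∣ n
    · have hpm : p.Coprime m := (hcop.symm.coprime_dvd_left hpn)
      have key : ∀ z ∈ (P : Subgroup E), z ^ e = z := fun z hz => Subtype.ext (by
        obtain ⟨j, hj⟩ := ho z hz
        exact pow_eq_self_of_coprime hmn he' (hj ▸ hpm.pow_left j))
      rw [key _ hx, key _ hy, key _ (Subgroup.mul_mem _ hx hy)]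
    · have hpm : p.Coprime n := (Nat.Prime.coprime_iff_not_dvd hp).2 hpn
      have key : ∀ z ∈ (P : Subgroup E), z ^ e = 1 := fun z hz => Subtype.ext (by
        obtain ⟨j, hj⟩ := ho z hz
        exact pow_eq_one_of_coprime hmn he (hj ▸ hpm.pow_left j))
      rw [key _ hx, key _ hy, key _ (Subgroup.mul_mem _ hx hy), mul_one]
  have e1 : a * x * (b * y) = a * (b * (x * y)) := by
    rw [mul_assoc, ← mul_assoc x, ← (cb x).eq, mul_assoc]
  rw [e1, (ca _).mul_pow, (cb _).mul_pow, hxy, (ca _).mul_pow, (cb _).mul_pow, mul_assoc,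
    ← mul_assoc (x ^ e), ← ((cb _).pow_left e).eq, mul_assoc]

theorem exists_isIntegral_sum_coset [Finite G] (A : Subgroup G) [A.Normal] [Fintype A]
    {φ : G → ℂ} (hφ : IsIrrCharacter G φ) (g : G) :
    ∃ w, IsIntegral ℤ w ∧ ∑ a : A, φ (g * a) = Nat.card A * w := by
  have e : ∑ a : A, φ (g * a) = ∑ a : A, φ ((ofNormal A).i a * g) :=
    Finset.sum_congr rfl (fun a _ => by
      rw [← irr_classFun hφ _ g⁻¹]; congr 1; simp [ofNormal, mul_assoc])
  rw [e]
  by_cases h : ∀ a, (ofNormal A).i a ∈ cker φ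
  · refine ⟨φ g, isIntegral_char (irr_isChar hφ) g, ?_⟩
    rw [← avg_irr_of_ker (ofNormal A) h g, mul_inv_cancel_left₀ card_ne_zero]
  · exact ⟨0, isIntegral_zero, by rw [avg_irr_of_not_ker _ hφ h, mul_zero]⟩

/-- A class function with values in `n` times the algebraic integers which depends only on the
`n`-part has algebraic integer multiplicities. -/
theorem isIntegral_cinner_of_part [Fintype G] (hmn : Nat.card G = m * n) (hcop : m.Coprime n)
    (he : m ∣ e) (he' : e ≡ 1 [MOD n]) {f : G → ℂ} (hf : IsClassFunction G f)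
    (hint : ∀ g, IsIntegral ℤ (f g)) (hpart : ∀ x y, x ^ e = y ^ e → f x = f y)
    {χ : G → ℂ} (hχ : IsCharacter G χ) : IsIntegral ℤ (classInner ((n : ℂ) • f) χ) := by
  classical
  refine cinner_mem_of_elementary (AlgInt.toSubring.toAddSubgroup) (f := (n : ℂ) • f)
    (fun g h => by simp only [Pi.smul_apply, hf g h]) (fun p hp E _ hE φ hφ => ?_) hχ
  let π : E →* E := MonoidHom.mk' (· ^ e) (mul_pow_of_elementary hmn hcop he he' hp E hE)
  haveI := Fintype.ofFinite π.ker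
  haveI := Fintype.ofFinite (E ⧸ π.ker)
  have hidx : π.ker.index ∣ n := by
    have h1 : π.ker.index ∣ m * n :=
      hmn ▸ (Subgroup.index_dvd_card _).trans (Subgroup.card_subgroup_dvd_card E)
    refine Nat.Coprime.dvd_of_dvd_mul_left ?_ h1
    rw [Subgroup.index_ker]
    refine Nat.Coprime.symm (Nat.coprime_of_dvd (fun q hq hqm hqd => ?_))
    haveI := Fact.mk hq
    obtain ⟨⟨_, x, rfl⟩, hx⟩ := exists_prime_orderOf_dvd_card' q hqd
    have h2 : (x : G) ^ (e * n) = 1 := orderOf_dvd_iff_pow_eq_one.1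
      ((orderOf_dvd_natCard _).trans (hmn ▸ Nat.mul_dvd_mul_right he n))
    have h3 : q ∣ n := by
      rw [← hx]
      apply orderOf_dvd_of_pow_eq_one
      apply Subtype.ext; apply Subtype.ext
      exact (pow_mul (x : G) e n).symm.trans h2
    exact hq.one_lt.ne' (Nat.eq_one_of_dvd_coprimes hcop hqm h3)
  obtain ⟨c, hc⟩ := hidx
  choose w hw hw' using exists_isIntegral_sum_coset π.ker hφ
  have key : classInner (fun x : E => ((n : ℂ) • f) x) φ =
      ∑ q : E ⧸ π.ker, c * (f (q.out : E) * conj (w q.out)) := by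
    rw [classInner, sum_eq_sum_quotient π.ker, Finset.mul_sum]
    refine Finset.sum_congr rfl (fun q _ => ?_)
    have h1 : ∀ a : π.ker, f ((q.out * a : E) : G) = f (q.out : E) := fun a => hpart _ _ (by
      have := π.map_mul q.out a
      rw [show π a = 1 from a.2, mul_one] at this
      exact congrArg Subtype.val this)
    simp only [Pi.smul_apply, h1, smul_eq_mul]
    rw [← Finset.mul_sum, ← map_sum, hw', ← π.ker.index_mul_card, hc, map_mul, map_natCast]
    have h2 : (π.ker.index : ℂ) ≠ 0 := by exact_mod_cast Subgroup.index_ne_zero_of_finite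
    have h3 : (Nat.card π.ker : ℂ) ≠ 0 := card_ne_zero
    push_cast
    field_simp
  change IsIntegral ℤ _
  rw [key]
  exact IsIntegral.sum _ (fun q _ => (isIntegral_algebraMap (x := (c : ℤ))).mul
    ((hint _).mul (isIntegral_conj (hw _))))

end Parts

end Cfsg.Agent.Lib.CharMod
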