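import Mathlib
import Cfsg.Prelude.Def_Characters
import Cfsg.Agent.Lib.CharMod
import Cfsg.Agent.Lib.CharExtend

/-!
# Invariant characters and elementary subgroups
-/

set_option autoImplicit false
set_option linter.style.haveILetI false
set_option linter.unusedSectionVars false

namespace Cfsg.Agent.Lib.CharElem

open Cfsg Module Cfsg.Agent.Lib.CharRep Cfsg.Agent.Lib.CharBasic Cfsg.Agent.Lib.CharOrth
  Cfsg.Agent.Lib.CharInd Cfsg.Agent.Lib.CharInt Cfsg.Agent.Lib.CharClifford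
  Cfsg.Agent.Lib.CharGoingDown Cfsg.Agent.Lib.CharBrauer Cfsg.Agent.Lib.SolvBasic
  Cfsg.Agent.Lib.CharMod Cfsg.Agent.Lib.CharExtend
open scoped ComplexConjugate

universe u v w

variable {G : Type u} [Group G] {N : Type v} [Group N]

theorem exists_hom_extend' {A : Type v} {B : Type w} [Group A] [Group B]
    (hB : ∀ a b : B, a * b = b * a) (j : A →* B) (hj : Function.Injective j) (φ : A →* ℂˣ) :
    ∃ ψ : B →* ℂˣ, ∀ a, ψ (j a) = φ a := by
  letI : CommGroup B := { (inferInstance : Group B) with mul_comm := hB }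
  letI : CommGroup A := { (inferInstance : Group A) with
    mul_comm := fun a b => hj (by rw [map_mul, map_mul, hB]) }
  exact exists_hom_extend j hj φ

theorem orbit_eq_iff [Finite G] (E : NormalEmb N G) {α β : N → ℂ} :
    E.orbit α = E.orbit β ↔ α ∈ E.orbit β := by
  constructor
  · intro h; rw [← h]; exact E.self_mem_orbit α
  · intro h
    obtain ⟨g, rfl⟩ := E.mem_orbit.1 h
    ext γ
    simp only [E.mem_orbit, E.cj_cj]
    exact ⟨fun ⟨h, e⟩ => ⟨_, e⟩, fun ⟨h, e⟩ => ⟨g⁻¹ * h, by rw [mul_inv_cancel_left, e]⟩⟩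

/-- If the index is a power of `p`, an invariant weight with total prime to `p` is prime to `p`
at some invariant irreducible character. -/
theorem exists_inv_not_dvd [Finite G] [Finite N] (E : NormalEmb N G) {p k : ℕ} (hp : p.Prime)
    (hk : E.index = p ^ k) (F : (N → ℂ) → ℕ)
    (hF : ∀ α, IsIrrCharacter N α → ∀ g, F (E.cj α g) = F α) (h : ¬ p ∣ ∑ α ∈ irr N, F α) :
    ∃ α, IsIrrCharacter N α ∧ E.Inv α ∧ ¬ p ∣ F α := by
  classical
  by_contra hne
  push Not at hne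
  apply h
  rw [← Finset.sum_fiberwise_of_maps_to (s := irr N) (t := (irr N).image E.orbit) (g := E.orbit)
    (fun α hα => Finset.mem_image_of_mem _ hα)]
  refine Finset.dvd_sum (fun O hO => ?_)
  obtain ⟨β, hβ, rfl⟩ := Finset.mem_image.1 hO
  have hβ' := mem_irr.1 hβ
  have e1 : (irr N).filter (fun α => E.orbit α = E.orbit β) = E.orbit β := by
    ext α
    rw [Finset.mem_filter, orbit_eq_iff]
    refine ⟨fun h => h.2, fun h => ⟨?_, h⟩⟩
    obtain ⟨g, rfl⟩ := E.mem_orbit.1 h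
    exact mem_irr.2 (E.irr_cj hβ' g)
  rw [e1, Finset.sum_congr rfl (g := fun _ => F β) (fun α hα => by
    obtain ⟨g, rfl⟩ := E.mem_orbit.1 hα
    exact hF β hβ' g), Finset.sum_const, smul_eq_mul, E.card_orbit]
  by_cases hi : E.Inv β
  · exact (hne β hβ' hi).mul_left _
  · apply Dvd.dvd.mul_right
    have h1 : (E.inertia β).index ∣ p ^ k :=
      ⟨_, by rw [← hk, E.index_restrict _ (E.i_mem_inertia (irr_classFun hβ'))]⟩
    obtain ⟨j, -, hj⟩ := (Nat.dvd_prime_pow hp).1 h1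
    rcases j with _ | j
    · exact (hi (E.inertia_eq_top.1 (Subgroup.index_eq_one.1 (by simpa using hj)))).elim
    · rw [hj]; exact dvd_pow_self p j.succ_ne_zero

theorem inf_conj_mem (E N : Subgroup G) [hN : N.Normal] :
    ∀ k ∈ E, ∀ l ∈ E ⊓ N, k * l * k⁻¹ ∈ E ⊓ N := fun k hk l hl =>
  ⟨E.mul_mem (E.mul_mem hk hl.1) (E.inv_mem hk), hN.conj_mem l hl.2 k⟩

theorem cinner_res_ind [Fintype G] (E N : Subgroup G) [N.Normal] [Fintype N]
    [Fintype ↥(E ⊓ N)] {φ : E → ℂ} (hφ : IsClassFunction E φ) {ψ : N → ℂ}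
    (hψ : (ofNormal N).Inv ψ) :
    classInner (fun n : N => ind E.subtype φ n) ψ = ((E ⊔ N).index : ℂ) *
      classInner (fun x : ↥(E ⊓ N) => φ ⟨x, x.2.1⟩) (fun x => ψ ⟨x, x.2.2⟩) := by
  haveI := Fintype.ofFinite E
  let E' := ofLe (inf_le_left : E ⊓ N ≤ E) (inf_conj_mem E N)
  have h1 : classInner (fun n : N => ind E.subtype φ n) ψ =
      classInner φ (fun x : E => ind N.subtype ψ x) :=
    (cinner_ind_right N.subtype ψ (ind_classFun _ _)).symm.trans
      (cinner_ind_left E.subtype φ (ind_classFun _ _))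
  have h2 := E'.ind_res_of_vanish (χ := fun x : E => ind N.subtype ψ x)
    (classFun_comp (ind_classFun _ _) E.subtype) (fun x hx =>
      (ofNormal N).ind_eq_zero_of_not_mem ψ (fun h => hx (by
        rw [ofNormal_range] at h
        exact ⟨⟨x, x.2, h⟩, rfl⟩)))
  have h3 : (fun x : ↥(E ⊓ N) => ind N.subtype ψ (E'.i x)) =
      (N.index : ℂ) • (fun x : ↥(E ⊓ N) => ψ ⟨x, x.2.2⟩) := by
    ext x
    have := congrFun ((ofNormal N).res_ind_of_inv hψ) ⟨x, x.2.2⟩
    rw [ofNormal_index] at this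
    exact this
  have h4 : N.index = (E ⊔ N).index * E'.index := by
    rw [ofLe_index, Subgroup.inf_relIndex_left, ← Subgroup.relIndex_sup_right, mul_comm,
      Subgroup.relIndex_mul_index le_sup_right]
  have h5 := congrArg (classInner φ) h2
  rw [cinner_ind_right _ _ hφ, h3, cinner_smul_right, cinner_smul_right, map_natCast, map_natCast,
    h4, Nat.cast_mul, mul_comm ((E ⊔ N).index : ℂ), mul_assoc] at h5
  rw [h1]
  exact (mul_left_cancel₀ E'.index_ne_zero h5).symm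

theorem exists_elementary_not_dvd [Finite G] {p : ℕ} (hp : p.Prime) (N : Subgroup G) [N.Normal]
    {k : ℕ} (hk : N.index = p ^ k) {θ : N → ℂ} (hθ : IsIrrCharacter N θ)
    (hinv : (ofNormal N).Inv θ) :
    ∃ (E : Subgroup G) (_ : Fintype ↥(E ⊓ N)) (φ : ↥(E ⊓ N) → ℂ), IsElementary p E ∧ E ⊔ N = ⊤ ∧
      IsIrrCharacter ↥(E ⊓ N) φ ∧ (ofLe (inf_le_left : E ⊓ N ≤ E) (inf_conj_mem E N)).Inv φ ∧
      ¬ p ∣ mult (fun x : ↥(E ⊓ N) => θ ⟨x, x.2.2⟩) φ := by
  classical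
  haveI := Fintype.ofFinite G
  haveI := Fintype.ofFinite N
  obtain ⟨m, hm, hmem⟩ := exists_const_mem_elemSpan (G := G) hp
  let S : AddSubgroup (G → ℂ) :=
    { carrier := {f | ∃ z : ℤ, classInner (fun n : N => f n) (θ * star θ) = p * z}
      add_mem' := by
        rintro f g ⟨a, ha⟩ ⟨b, hb⟩
        refine ⟨a + b, ?_⟩
        rw [Int.cast_add, mul_add, ← ha, ← hb, ← cinner_add_left]; rfl
      zero_mem' := ⟨0, by rw [Int.cast_zero, mul_zero]; exact cinner_zero_left _⟩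
      neg_mem' := by
        rintro f ⟨a, ha⟩
        refine ⟨-a, ?_⟩
        rw [Int.cast_neg, mul_neg, ← ha, ← cinner_neg_left]; rfl }
  have hS : ¬ elemSpan p G ≤ S := fun h => by
    obtain ⟨z, hz⟩ := h hmem
    have e : ((fun _ : N => (m : ℂ)) * star (star θ)) = (m : ℂ) • θ := by ext; simp
    rw [cinner_mul_right, e, cinner_smul_left, cinner_irr_self hθ, mul_one] at hz
    exact hm (Int.natCast_dvd_natCast.1 ⟨z, by exact_mod_cast hz⟩)
  rw [elemSpan, AddSubgroup.closure_le, Set.not_subset] at hS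
  obtain ⟨_, ⟨E, φ, hE, hφ, rfl⟩, hS⟩ := hS
  haveI := Fintype.ofFinite ↥(E ⊓ N)
  let E' := ofLe (inf_le_left : E ⊓ N ≤ E) (inf_conj_mem E N)
  have hψ : (ofNormal N).Inv (θ * star θ) := fun g n => by simp [hinv g n]
  have hθD : IsCharacter ↥(E ⊓ N) (fun x => θ ⟨x, x.2.2⟩) :=
    isChar_comp (irr_isChar hθ) (Subgroup.inclusion inf_le_right)
  have hφD : IsCharacter ↥(E ⊓ N) (fun x => φ ⟨x, x.2.1⟩) := isChar_comp hφ E'.i
  have hθi : E'.Inv (fun x => θ ⟨x, x.2.2⟩) := fun g x => hinv g ⟨x, x.2.2⟩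
  have hφi : E'.Inv (fun x => φ ⟨x, x.2.1⟩) := E'.inv_res (char_classFun hφ)
  have h1 : classInner (fun n : N => ind E.subtype φ n) (θ * star θ) = (((E ⊔ N).index *
      mult ((fun x : ↥(E ⊓ N) => φ ⟨x, x.2.1⟩) * fun x : ↥(E ⊓ N) => θ ⟨x, x.2.2⟩)
        (fun x : ↥(E ⊓ N) => θ ⟨x, x.2.2⟩) : ℕ) : ℂ) := by
    rw [cinner_res_ind E N (char_classFun hφ) hψ, Nat.cast_mul, mult_cast (isChar_mul hφD hθD) hθD,
      cinner_mul_left]
    rfl
  have h2 : ¬ p ∣ (E ⊔ N).index *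
      mult ((fun x : ↥(E ⊓ N) => φ ⟨x, x.2.1⟩) * fun x : ↥(E ⊓ N) => θ ⟨x, x.2.2⟩)
        (fun x : ↥(E ⊓ N) => θ ⟨x, x.2.2⟩) := by
    rintro ⟨c, hc⟩
    exact hS ⟨c, by rw [h1, hc]; simp⟩
  have h3 : E ⊔ N = ⊤ := by
    obtain ⟨j, -, hj⟩ := (Nat.dvd_prime_pow hp).1
      (hk ▸ Subgroup.index_dvd_of_le (le_sup_right : N ≤ E ⊔ N))
    rcases j with _ | j
    · exact Subgroup.index_eq_one.1 (by simpa using hj)
    · exact (h2 (Dvd.dvd.mul_right (hj ▸ dvd_pow_self p j.succ_ne_zero) _)).elim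
  have h4 : E'.index = p ^ k := by
    rw [ofLe_index, Subgroup.inf_relIndex_left, ← Subgroup.relIndex_sup_right, h3,
      Subgroup.relIndex_top_right, hk]
  rw [h3, Subgroup.index_top, one_mul, mult_eq_sum (isChar_mul hφD hθD) hθD] at h2
  obtain ⟨α, hα, hαi, h5⟩ := exists_inv_not_dvd E' hp h4 _ (fun α _ g => by
    simp only [mult]
    rw [E'.cinner_inv_cj (hφi.mul hθi), E'.cinner_inv_cj hθi]) h2
  exact ⟨E, inferInstance, α, hE, h3, hα, hαi, fun h => h5 (h.mul_left _)⟩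

/-- If the index is a power of `p`, an invariant character occurring with multiplicity prime to
`p` in the restriction of some character extends. -/
theorem ext_of_not_dvd_mult [Finite G] [Fintype N] (E : NormalEmb N G) {p k : ℕ} (hp : p.Prime)
    (hk : E.index = p ^ k) {θ : N → ℂ} (hθ : IsIrrCharacter N θ) (hinv : E.Inv θ) {ψ : G → ℂ}
    (hψ : IsCharacter G ψ) (h : ¬ p ∣ mult (fun n => ψ (E.i n)) θ) :
    ∃ χ : G → ℂ, IsIrrCharacter G χ ∧ ∀ n, χ (E.i n) = θ n := by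
  haveI := Fintype.ofFinite G
  have key : ∃ χ, IsIrrCharacter G χ ∧ ¬ p ∣ mult (fun n => χ (E.i n)) θ := by
    revert h
    refine char_induction (P := fun ψ => ¬ p ∣ mult (fun n => ψ (E.i n)) θ →
      ∃ χ, IsIrrCharacter G χ ∧ ¬ p ∣ mult (fun n => χ (E.i n)) θ) ?_ ?_ ?_ hψ
    · intro h
      exact (h (by rw [mult_eq_of_eq (n := 0) (by rw [Nat.cast_zero]; exact cinner_zero_left _)]; simp)).elim
    · exact fun χ hχ h => ⟨χ, hχ, h⟩
    · intro α β hα hβ h1 h2 h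
      by_cases h3 : p ∣ mult (fun n => α (E.i n)) θ
      · refine h2 (fun h4 => h ?_)
        have := mult_add_left (isChar_comp hα E.i) (isChar_comp hβ E.i) (irr_isChar hθ)
        exact (this ▸ Nat.dvd_add h3 h4 :)
      · exact h1 h3
  obtain ⟨χ, hχ, h1⟩ := key
  have h2 : classInner (fun n => χ (E.i n)) θ ≠ 0 :=
    (mult_ne_zero_iff (isChar_comp (irr_isChar hχ) E.i) (irr_isChar hθ)).1
      (fun h0 => h1 (h0 ▸ dvd_zero p))
  obtain ⟨j, -, hj⟩ := (Nat.dvd_prime_pow hp).1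
    (hk ▸ (Dvd.intro _ rfl).trans (mult_dvd_index E hχ hθ h2))
  rcases j with _ | j
  · have := E.res_eq_smul_of_inv hχ hθ h2 hinv
    rw [hj] at this
    exact ⟨χ, hχ, fun n => by simpa using congrFun this n⟩
  · exact (h1 (hj ▸ dvd_pow_self p j.succ_ne_zero)).elim

end Cfsg.Agent.Lib.CharElem
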