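import Mathlib
import Cfsg.Agent.Lib.CharFrob
import Cfsg.Prelude.Def_Transfer

/-! Characters of extraspecial groups. -/

set_option autoImplicit false

namespace Cfsg.Agent.Lib.CharExtraspecial

open Cfsg Cfsg.Agent.Lib.CharBasic Cfsg.Agent.Lib.CharOrth Cfsg.Agent.Lib.CharInd
  Cfsg.Agent.Lib.CharInt Cfsg.Agent.Lib.CharFrob Finset
open scoped ComplexConjugate commutatorElement

variable {P : Type*} [Group P] [Finite P] {p : ℕ} [hp : Fact p.Prime] (hP : IsExtraspecial p P)
include hP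

theorem center_le_of_mem {H : Subgroup P} {z : P} (hz : z ∈ Subgroup.center P) (h1 : z ≠ 1)
    (hH : z ∈ H) : Subgroup.center P ≤ H := by
  intro w hw
  have := mem_zpowers_of_prime_card hP.2 (g := (⟨z, hz⟩ : Subgroup.center P)) (g' := ⟨w, hw⟩)
    (fun h => h1 (congrArg Subtype.val h))
  obtain ⟨k, hk⟩ := this
  have h2 : z ^ k = w := by simpa using congrArg Subtype.val hk
  rw [← h2]
  exact H.zpow_mem hH k

theorem eq_zero_of_not_mem_center {χ : P → ℂ} (hχ : IsIrrCharacter P χ)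
    (h : ∃ k ∈ Subgroup.center P, χ k ≠ χ 1) {x : P} (hx : x ∉ Subgroup.center P) : χ x = 0 := by
  rw [Subgroup.mem_center_iff] at hx
  push Not at hx
  obtain ⟨y, hy⟩ := hx
  have hc : ⁅y, x⁆ ∈ Subgroup.center P := by
    rw [← hP.1.2.2]
    exact Subgroup.commutator_mem_commutator (Subgroup.mem_top _) (Subgroup.mem_top _)
  have hc1 : ⁅y, x⁆ ≠ 1 := fun h => hy (commutatorElement_eq_one_iff_mul_comm.mp h)
  have hne : χ ⁅y, x⁆ ≠ χ 1 := by
    intro h1
    obtain ⟨k, hk, hk'⟩ := h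
    exact hk' ((mem_cker (irr_isChar hχ)).mp
      (center_le_of_mem hP hc hc1 ((mem_cker (irr_isChar hχ)).mpr h1) hk))
  have h1 := ccenter_apply_mul (irr_one_ne_zero hχ) (center_le_ccenter hχ hc) x
  rw [show ⁅y, x⁆ * x = y * x * y⁻¹ by simp [commutatorElement_def],
    char_conj (irr_isChar hχ)] at h1
  by_contra h0
  apply hne
  have := irr_one_ne_zero hχ
  field_simp at h1
  exact h1.symm

theorem deg_eq_of_nontrivial {n : ℕ} (hcard : Nat.card P = p ^ (2 * n + 1)) {χ : P → ℂ}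
    (hχ : IsIrrCharacter P χ) (h : ∃ k ∈ Subgroup.center P, χ k ≠ χ 1) : deg χ = p ^ n := by
  classical
  have := Fintype.ofFinite P
  have h1 := cinner_irr_self hχ
  rw [cinner_self_eq] at h1
  have h2 : (Nat.card P : ℝ)⁻¹ * ∑ g : P, ‖χ g‖ ^ 2 = 1 := by exact_mod_cast h1
  have h3 : ∀ g : P, ‖χ g‖ ^ 2 = if g ∈ Subgroup.center P then (deg χ : ℝ) ^ 2 else 0 := by
    intro g
    split_ifs with hg
    · rw [(mem_ccenter (irr_isChar hχ)).mp (center_le_ccenter hχ hg)]
    · rw [eq_zero_of_not_mem_center hP hχ h hg]; simp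
  simp only [h3] at h2
  rw [← Finset.sum_filter, Finset.sum_const, nsmul_eq_mul] at h2
  have hc : #{g : P | g ∈ Subgroup.center P} = p := by
    rw [← hP.2, Nat.card_eq_fintype_card, Fintype.card_subtype]
  rw [hc, hcard, inv_mul_eq_one₀ (by have := hp.out.pos; positivity)] at h2
  have h4 : p ^ (2 * n + 1) = p * deg χ ^ 2 := by exact_mod_cast h2
  rw [pow_succ', mul_comm 2 n, pow_mul] at h4
  exact (Nat.pow_left_injective (by norm_num) (Nat.eq_of_mul_eq_mul_left hp.out.pos h4)).symm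

theorem linear_of_trivial {χ : P → ℂ} (hχ : IsIrrCharacter P χ)
    (h : ¬ ∃ k ∈ Subgroup.center P, χ k ≠ χ 1) : χ 1 = 1 := by
  push Not at h
  apply linear_of_commutator_le hχ
  rw [hP.1.2.2]
  exact fun k hk => (mem_cker (irr_isChar hχ)).mpr (h k hk)

theorem pos_of_card {n : ℕ} (hcard : Nat.card P = p ^ (2 * n + 1)) : 0 < n := by
  rcases Nat.eq_zero_or_pos n with rfl | h
  · exfalso
    have h1 : Subgroup.center P = ⊤ := Subgroup.eq_top_of_card_eq _ (by rw [hP.2, hcard]; simp)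
    have h2 : commutator P = ⊥ := by
      rw [commutator_eq_bot_iff_center_eq_top]; exact h1
    have h3 := hP.2
    rw [← hP.1.2.2, h2, Subgroup.card_bot] at h3
    exact hp.out.one_lt.ne h3
  · exact h

end Cfsg.Agent.Lib.CharExtraspecial
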