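import Mathlib
import Cfsg.Agent.Lib.CharTIFN

/-! Coherent sets attached to a T.I. subgroup with Frobenius normalizer. -/

set_option autoImplicit false

namespace Cfsg.Agent.Lib.CharTIFNStar

open Cfsg Cfsg.Agent.Lib.CharBasic Cfsg.Agent.Lib.CharOrth Cfsg.Agent.Lib.CharInd
  Cfsg.Agent.Lib.CharInt Cfsg.Agent.Lib.CharTI Cfsg.Agent.Lib.CharFrob Cfsg.Agent.Lib.CharTIFN Finset
open scoped ComplexConjugate

theorem mem_zspan {X : Type*} {S : Set (X → ℂ)} {χ : X → ℂ} (h : χ ∈ S) : χ ∈ zspan S :=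
  Submodule.subset_span h

theorem zsmul_mem_zspan {X : Type*} {S : Set (X → ℂ)} {χ : X → ℂ} (h : χ ∈ zspan S) (n : ℤ) :
    n • χ ∈ zspan S := Submodule.smul_mem _ n h

theorem add_mem_zspan {X : Type*} {S : Set (X → ℂ)} {χ ξ : X → ℂ} (h : χ ∈ zspan S)
    (h' : ξ ∈ zspan S) : χ + ξ ∈ zspan S := Submodule.add_mem _ h h'

section

variable {L G : Type*} [Group L] [Fintype L] [Group G] [Fintype G] {S : Set (L → ℂ)}
  {star : (L → ℂ) → (G → ℂ)} (hstar : IsLinearIsometryOn (zspan S) star)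
include hstar

theorem star_comb {χ ξ : L → ℂ} (hχ : χ ∈ zspan S) (hξ : ξ ∈ zspan S) (m n : ℤ) :
    star (m • χ + n • ξ) = (m : ℂ) • star χ + (n : ℂ) • star ξ := by
  rw [hstar.1 _ (zsmul_mem_zspan hχ m) _ (zsmul_mem_zspan hξ n), hstar.2.1 _ hχ, hstar.2.1 _ hξ,
    Int.cast_smul_eq_zsmul, Int.cast_smul_eq_zsmul]

theorem star_irr_or {χ : L → ℂ} (hχ : χ ∈ S) (h : IsIrrCharacter L χ) :
    IsIrrCharacter G (star χ) ∨ IsIrrCharacter G (-star χ) :=
  genChar_norm_one (hstar.2.2.2 _ (mem_zspan hχ))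
    (by rw [hstar.2.2.1 _ (mem_zspan hχ) _ (mem_zspan hχ), cinner_irr_self h])

theorem cinner_star_eq_zero {χ : L → ℂ} (hχ : χ ∈ S) (h : IsIrrCharacter L χ) {ψ : G → ℂ}
    (hψ : IsIrrCharacter G ψ) (h1 : ψ ≠ star χ) (h2 : ψ ≠ -star χ) : classInner ψ (star χ) = 0 := by
  rcases star_irr_or hstar hχ h with h3 | h3
  · exact cinner_irr_ne hψ h3 h1
  · have := cinner_irr_ne hψ h3 h2
    rwa [cinner_neg_right, neg_eq_zero] at this

end

variable {G : Type*} [Group G] [Fintype G] {N : Subgroup G} [Fintype N] {S : Set (N → ℂ)}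
  (hirr : ∀ χ ∈ S, IsIrrCharacter N χ)
  {star : (N → ℂ) → (G → ℂ)} (hstar : IsLinearIsometryOn (zspan S) star)
  (hext : ∀ α ∈ zspanOn S ({1}ᶜ : Set N), star α = indFun N α)
include hirr hstar hext

theorem star_eq_indFun {χ ξ : N → ℂ} (hχ : χ ∈ S) (hξ : ξ ∈ S) :
    ξ 1 • star χ - χ 1 • star ξ = indFun N (ξ 1 • χ - χ 1 • ξ) := by
  obtain ⟨d, -, hd⟩ := irr_one_pos (hirr χ hχ)
  obtain ⟨f, -, hf⟩ := irr_one_pos (hirr ξ hξ)
  have h1 := star_comb hstar (mem_zspan hχ) (mem_zspan hξ) f (-d)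
  have h2 : ((f : ℤ) • χ + (-d : ℤ) • ξ) = ξ 1 • χ - χ 1 • ξ := by
    ext x; simp [hd, hf]; ring
  rw [hext _ ⟨add_mem_zspan (zsmul_mem_zspan (mem_zspan hχ) _) (zsmul_mem_zspan (mem_zspan hξ) _),
    fun x hx => by
      have : x = 1 := by simpa using hx
      rw [h2, this]; simp [mul_comm]⟩, h2] at h1
  rw [h1, hd, hf]
  simp [sub_eq_add_neg]

theorem cinner_star_rel {ψ : G → ℂ} (hψ : IsClassFunction G ψ) {χ ξ : N → ℂ} (hχ : χ ∈ S)
    (hξ : ξ ∈ S) : ξ 1 * classInner ψ (star χ) - χ 1 * classInner ψ (star ξ) =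
      ξ 1 * classInner (fun x : N => ψ x) χ - χ 1 * classInner (fun x : N => ψ x) ξ := by
  have h1 := congrArg (classInner ψ) (star_eq_indFun hirr hstar hext hχ hξ)
  rw [cinner_indFun_right N _ hψ] at h1
  simpa only [cinner_sub_right, cinner_smul_right, conj_char_one (irr_isChar (hirr χ hχ)),
    conj_char_one (irr_isChar (hirr ξ hξ))] using h1

/-- If `ψ` and `φ` have matching inner products then `ψ_N - φ` is proportional to the degrees. -/
theorem exists_const {ψ : G → ℂ} (hψ : IsClassFunction G ψ) {φ : N → ℂ}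
    (h : ∀ χ ∈ S, classInner ψ (star χ) = classInner φ χ) :
    ∃ c : ℂ, ∀ χ ∈ S, classInner ((fun x : N => ψ x) - φ) χ = c * χ 1 := by
  rcases S.eq_empty_or_nonempty with rfl | ⟨ξ, hξ⟩
  · exact ⟨0, fun χ hχ => absurd hχ (Set.notMem_empty χ)⟩
  refine ⟨classInner ((fun x : N => ψ x) - φ) ξ / ξ 1, fun χ hχ => ?_⟩
  have h1 := cinner_star_rel hirr hstar hext hψ hχ hξ
  rw [h χ hχ, h ξ hξ] at h1
  have h2 := irr_one_ne_zero (hirr ξ hξ)
  rw [cinner_sub_left, cinner_sub_left]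
  field_simp
  linear_combination -h1

theorem exists_const_star {χ₀ : N → ℂ} (hχ₀ : χ₀ ∈ S) :
    ∃ c : ℂ, ∀ χ ∈ S, classInner ((fun x : N => star χ₀ x) - χ₀) χ = c * χ 1 :=
  exists_const hirr hstar hext (genChar_classFun (hstar.2.2.2 _ (mem_zspan hχ₀)))
    fun _ hχ => hstar.2.2.1 _ (mem_zspan hχ₀) _ (mem_zspan hχ)

end Cfsg.Agent.Lib.CharTIFNStar
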