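import Cfsg.Agent.Lib.Leech
import Cfsg.Agent.Lib.MatRep

/-! A faithful representation of `Co₀` by matrices modulo `17`; elements of `Co₀` given by integral matrices. -/

set_option autoImplicit false
set_option maxRecDepth 100000

namespace Cfsg.Agent.Lib.CoM

open Matrix hiding vec vec_map
open Cfsg.Agent.Lib.Golay Cfsg.Agent.Lib.Leech Cfsg.Agent.Lib.PermNet Cfsg.Agent.Lib.MatRep Cfsg.Spor Equiv

/-- The numbering of the points. -/
def eP : Fin 24 ≃ GolayPt := ⟨fun i => pt i, fun p => ⟨idx p, idx_lt p⟩, fun i => Fin.ext (idx_pt i i.2), pt_idx⟩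

/-- Eight times a unit vector. -/
def e8 (q : GolayPt) : leechLattice := ⟨fun p => if p = q then 8 else 0, mem_iff.2 (by revert q; decide +kernel)⟩

theorem exp8 (s : Co0) (y : leechLattice) (p : GolayPt) : 8 * (s.1 y).1 p = ∑ q, (s.1 (e8 q)).1 p * y.1 q := by
  have : (8 : ℤ) • y = ∑ q, y.1 q • e8 q := Subtype.ext (funext fun p => by
    simp [e8, Finset.sum_apply, mul_comm, -Fintype.sum_option])
  have := congrArg (AddMonoidHom.mk' s.1 s.2.1) this
  simp only [map_zsmul, map_sum, AddMonoidHom.mk'_apply] at this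
  have := congrFun (congrArg Subtype.val this) p
  simpa [Finset.sum_apply, mul_comm, -Fintype.sum_option] using this

/-- The matrix modulo `17`. -/
def ρ0 : Co0 →* Matrix (Fin 24) (Fin 24) (ZMod 17) where
  toFun s := Matrix.of fun i j => 15 * ((s.1 (e8 (eP j))).1 (eP i) : ZMod 17)
  map_one' := Matrix.ext fun i j => by
    change (15 : ZMod 17) * ((if eP i = eP j then 8 else 0 : ℤ) : ZMod 17) = _
    rw [Matrix.one_apply]
    simp only [EmbeddingLike.apply_eq_iff_eq]
    split_ifs <;> rfl
  map_mul' s t := Matrix.ext fun i j => by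
    have := congrArg (fun x : ℤ => (15 * 15 * x : ZMod 17)) (exp8 s (t.1 (e8 (eP j))) (eP i))
    rw [← Equiv.sum_comp eP] at this
    push_cast at this
    rw [Matrix.mul_apply]
    simp only [of_apply]
    rw [← mul_assoc, show (15 * 15 * 8 : ZMod 17) = 15 from rfl, Finset.mul_sum] at this
    exact this.trans (Finset.sum_congr rfl fun k _ => by ring)

theorem ρ0_apply (s : Co0) (i j : Fin 24) : ρ0 s i j = 15 * ((s.1 (e8 (eP j))).1 (eP i) : ZMod 17) := rfl

def ρ : Co0 →* (Matrix (Fin 24) (Fin 24) (ZMod 17))ˣ := ρ0.toHomUnits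

theorem sq_eq (y : V) : sqNorm y = dotInt y y := Finset.sum_congr rfl fun _ _ => sq _

theorem ρ_inj : Function.Injective ρ := (injective_iff_map_eq_one _).2 fun s h => by
  have h1 : ∀ p q, (s.1 (e8 q)).1 p = (e8 q).1 p := fun p q => by
    obtain ⟨i, rfl⟩ := eP.surjective p
    obtain ⟨j, rfl⟩ := eP.surjective q
    have e : ρ0 s = ρ0 1 := (congrArg Units.val h).trans (map_one ρ0).symm
    have e := congrArg (fun x : ZMod 17 => 8 * x) ((ρ0_apply s i j).symm.trans
      ((congrFun (congrFun e i) j).trans (ρ0_apply 1 i j)))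
    simp only [← mul_assoc, show (8 * 15 : ZMod 17) = 1 from rfl, one_mul] at e
    have e : (17 : ℤ) ∣ (e8 (eP j)).1 (eP i) - (s.1 (e8 (eP j))).1 (eP i) :=
      (ZMod.intCast_eq_intCast_iff_dvd_sub _ _ 17).1 e
    have b : (s.1 (e8 (eP j))).1 (eP i) ^ 2 ≤ 64 := by
      rw [← show sqNorm (e8 (eP j)).1 = 64 by simp [sqNorm, e8, -Fintype.sum_option], ← s.2.2]
      exact Finset.single_le_sum (fun q _ => sq_nonneg _) (Finset.mem_univ _)
    have b' := abs_le_of_sq_le_sq' (b := (8 : ℤ)) (b.trans_eq (by decide)) (by decide)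
    have e' : (e8 (eP j)).1 (eP i) = 8 ∨ (e8 (eP j)).1 (eP i) = 0 := by
      simp only [e8]
      split_ifs <;> simp
    omega
  refine Subtype.ext (Equiv.ext fun y => Subtype.ext (funext fun p => ?_))
  have := exp8 s y p
  simp only [h1] at this
  exact mul_left_cancel₀ (by decide) (this.trans (exp8 1 y p).symm)

theorem exists_mat' (A B : Matrix GolayPt GolayPt ℤ) (h₁ : B * A = (64 : ℤ) • 1) (h₁' : A * B = (64 : ℤ) • 1)
    (h₂ : Aᵀ = B) (h₃ : ∀ i, (∀ p, (A *ᵥ Leech.gen i) p % 8 = 0) ∧ Chk fun p => (A *ᵥ Leech.gen i) p / 8)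
    (h₄ : ∀ i, (∀ p, (B *ᵥ Leech.gen i) p % 8 = 0) ∧ Chk fun p => (B *ᵥ Leech.gen i) p / 8) :
    ∃ s ∈ Co0, ∀ y, (8 : ℤ) • (s y).1 = A *ᵥ y.1 := by
  have : ∀ A : Matrix GolayPt GolayPt ℤ, (∀ i, (∀ p, (A *ᵥ Leech.gen i) p % 8 = 0) ∧
      Chk fun p => (A *ᵥ Leech.gen i) p / 8) → ∀ y : leechLattice, ∃ z : leechLattice,
        (8 : ℤ) • z.1 = A *ᵥ y.1 := fun A h₃ y => by
    obtain ⟨z, hz, e⟩ := induct ((leechLattice.map (zsmulAddGroupHom 8)).comap A.mulVecLin.toAddMonoidHom)
      (fun i => ⟨_, mem_iff.2 (h₃ i).2, funext fun p => Int.mul_ediv_cancel' (Int.dvd_of_emod_eq_zero ((h₃ i).1 p))⟩) y.2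
    exact ⟨⟨z, hz⟩, e⟩
  choose r hr using this A h₃
  choose r' hr' using this B h₄
  have inj := smul_right_injective V (show (8 : ℤ) ≠ 0 by decide)
  refine ⟨⟨r, r', fun y => Subtype.ext (inj (inj ?_)), fun y => Subtype.ext (inj (inj ?_))⟩,
    ⟨fun v w => Subtype.ext (inj ?_), fun v => mul_left_cancel₀ (show (64 : ℤ) ≠ 0 by decide) ?_⟩, hr⟩
  · simp only [hr, hr', ← mulVec_smul, mulVec_mulVec, h₁, smul_mulVec, one_mulVec, smul_smul]
    rfl
  · simp only [hr, hr', ← mulVec_smul, mulVec_mulVec, h₁', smul_mulVec, one_mulVec, smul_smul]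
    rfl
  · change (8 : ℤ) • (r _).1 = (8 : ℤ) • (r _ + r _).1
    simp only [AddSubgroup.coe_add, smul_add, hr, mulVec_add]
  · have : ∀ x : V, sqNorm x = x ⬝ᵥ x := fun x => Finset.sum_congr rfl fun p _ => sq _
    change 64 * sqNorm (r v).1 = _
    rw [this, this, ← smul_eq_mul, show (64 : ℤ) = 8 * 8 from rfl, mul_smul,
      ← dotProduct_smul, ← smul_dotProduct, hr, dotProduct_mulVec, ← vecMul_transpose, vecMul_vecMul, h₂, h₁,
      vecMul_smul, vecMul_one, smul_dotProduct]
    rfl

@[reducible] def c : Cfg := ⟨17, 24, 16, 5, 11, 61681, 20⟩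

/-- The digits in base 32, less 8. -/
noncomputable def dec (k : ℕ) : ℕ → List ℤ :=
  Nat.rec (motive := fun _ => ℕ → List ℤ) (fun _ => [])
    (fun _ ih n => Int.subNatNat (Nat.mod n 32) 8 :: ih (Nat.div n 32)) k

/-- A row of the matrix `k`: the digits are the entries of eight times the matrix, plus eight. -/
noncomputable def row (As : List (List ℕ)) (k : ℕ) (p : GolayPt) : List ℤ := CoM.dec 24 ((getW As k).getD (idx p) 0)

/-- The generators of the lattice as lists. -/
def gl (i : Fin 12 ⊕ Option GolayPt) : List ℤ := (List.range 24).map fun k => Leech.gen i (pt k)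

/-- The test for the matrix `k` of the list; `k ^^^ 1` is its transpose. -/
def Good (As ms : List (List ℕ)) (k : ℕ) : Prop :=
  (∀ p r, vec (row As k p) r = vec (row As (k ^^^ 1) r) p ∧
    ldot (row As k p) (row As k r) = (if p = r then 64 else 0) ∧
    ((dg 16 ((getW ms k).getD (idx p) 0) (idx r) : ℤ) - 15 * vec (row As k p) r) % 17 = 0) ∧
  ∀ i, (∀ p, ldot (row As k p) (gl i) % 8 = 0) ∧ Chk fun p => ldot (row As k p) (gl i) / 8

theorem len_dec (k n : ℕ) : (CoM.dec k n).length = k := by
  induction k generalizing n with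
  | zero => rfl
  | succ k ih => exact congrArg (· + 1) (ih _)

theorem dot_row (As : List (List ℕ)) (k : ℕ) (p : GolayPt) (l : List ℤ) :
    dotInt (vec (row As k p)) (vec l) = ldot (row As k p) l := dot_vec (len_dec _ _).le l

theorem exists_gens {As ms : List (List ℕ)} {N : ℕ} (h : ∀ k < 2 * N, Good As ms k)
    (hinv : RelOn c ms (invs N) 0 24) : ∃ y : ℕ → Co0, ∀ i < N, ρ (y i) = MatRep.gen c ms i ∧
      ∀ (v : leechLattice) (l : List ℤ), v.1 = vec l → ∀ p, 8 * ((y i).1 v).1 p = ldot (row As (2 * i) p) l := by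
  have key : ∀ i < N, ∃ s : Co0, ρ s = MatRep.gen c ms i ∧
      ∀ (v : leechLattice) (l : List ℤ), v.1 = vec l → ∀ p, 8 * (s.1 v).1 p = ldot (row As (2 * i) p) l := fun i hi => by
    have h0 := h (2 * i) (by omega)
    have h1 := h (2 * i + 1) (by omega)
    have x0 : 2 * i ^^^ 1 = 2 * i + 1 := Nat.xor_one_of_even (even_two_mul i)
    have x1 : (2 * i + 1) ^^^ 1 = 2 * i := by rw [← x0, Nat.xor_xor_cancel_right]
    have m : ∀ k, Good As ms k → (Matrix.of fun p => vec (row As k p)) *
        (Matrix.of fun p => vec (row As (k ^^^ 1) p)) = (64 : ℤ) • 1 := fun k hk => Matrix.ext fun p r =>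
      (Finset.sum_congr rfl fun q _ => congrArg (_ * ·) (hk.1 r q).1.symm).trans (((dot_row As k p _).trans
        (hk.1 p r).2.1).trans (by simp [Matrix.one_apply]))
    have g : ∀ k i p, ((Matrix.of fun p => vec (row As k p)) *ᵥ Leech.gen i) p = ldot (row As k p) (gl i) :=
      fun k i p => by rw [← dot_row, gl, vec_map]; rfl
    obtain ⟨s, hs, e⟩ := exists_mat' (Matrix.of fun p => vec (row As (2 * i) p))
      (Matrix.of fun p => vec (row As (2 * i + 1) p)) (by simpa only [x1] using m _ h1) (by simpa only [x0] using m _ h0)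
      (Matrix.ext fun p r => (h0.1 r p).1.trans (by rw [x0]; rfl)) (by simp only [g]; exact h0.2) (by simp only [g]; exact h1.2)
    refine ⟨⟨s, hs⟩, Units.ext ?_, fun v l hl p => ?_⟩
    · have := val_wval hinv (w := [2 * i]) (by simp; omega)
      rw [Words.wval_single, mval, List.map_singleton, List.prod_singleton] at this
      refine Eq.trans (Matrix.ext fun a b => ?_) this.symm
      have e1 := congrFun (e (e8 (eP b))) (eP a)
      have e2 := (h0.1 (eP a) (eP b)).2.2
      rw [show idx (eP a) = a from idx_pt a a.2, show idx (eP b) = b from idx_pt b b.2] at e2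
      simp only [mulVec, dotProduct, e8, mul_ite, mul_zero, Finset.sum_ite_eq', Finset.mem_univ, if_true, of_apply,
        Pi.smul_apply, smul_eq_mul] at e1
      refine (ρ0_apply ⟨s, hs⟩ a b).trans ?_
      change (15 : ZMod 17) * ((s (e8 (eP b))).1 (eP a) : ZMod 17) = (dg 16 ((getW ms (2 * i)).getD a 0) b : ZMod 17)
      have e3 := (ZMod.intCast_zmod_eq_zero_iff_dvd _ 17).2 (Int.dvd_of_emod_eq_zero e2)
      push_cast at e3
      rw [show (s (e8 (eP b))).1 (eP a) = vec (row As (2 * i) (eP a)) (eP b) from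
        mul_left_cancel₀ (by decide) (e1.trans (mul_comm _ _))]
      exact (sub_eq_zero.1 e3).symm
    · rw [← dot_row, ← hl]
      exact congrFun (e v) p
  choose! y hy using key
  exact ⟨y, hy⟩

/-! ### A fast test -/

noncomputable def forceI (x : ℤ) (k : ℤ → Bool) : Bool :=
  Int.rec (motive := fun _ => Bool) (fun n => forceB n fun n => k (Int.ofNat n))
    (fun n => forceB n fun n => k (Int.negSucc n)) x

noncomputable def forceL (l : List ℤ) : (List ℤ → Bool) → Bool :=
  List.rec (motive := fun _ => (List ℤ → Bool) → Bool) (fun k => k [])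
    (fun x _ ih k => forceI x fun x => ih fun l => k (x :: l)) l

theorem forceL_eq (l : List ℤ) (k : List ℤ → Bool) : forceL l k = k l := by
  induction l generalizing k with
  | nil => rfl
  | cons x l ih => cases x <;> exact ih _

noncomputable def forceM (l : List (List ℤ)) : (List (List ℤ) → Bool) → Bool :=
  List.rec (motive := fun _ => (List (List ℤ) → Bool) → Bool) (fun k => k [])
    (fun x _ ih k => forceL x fun x => ih fun l => k (x :: l)) l

theorem forceM_eq (l : List (List ℤ)) (k : List (List ℤ) → Bool) : forceM l k = k l := by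
  induction l generalizing k with
  | nil => rfl
  | cons x l ih => exact (forceL_eq _ _).trans (ih _)

def sx (m : ℤ) : List ℤ → ℕ → ℕ
  | [], _ => 0
  | x :: l, i => (if (x - m) % 4 = 0 then 0 else syn i) ^^^ sx m l (i + 1)

theorem bits_sx (m : ℤ) (l : List ℤ) (i : ℕ) (j : Fin 12) : bits (sx m l i) j =
    ∑ k ∈ Finset.range l.length, (if (l.getD k 0 - m) % 4 = 0 then 0 else 1) * bits (syn (i + k)) j := by
  induction l generalizing i with
  | nil => simp [sx, bits_zero]
  | cons x l ih =>
    rw [sx, bits_xor, Pi.add_apply, ih, List.length_cons, Finset.sum_range_succ', add_comm]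
    simp only [List.getD_cons_succ, List.getD_cons_zero, add_assoc, add_comm 1, add_zero]
    split_ifs <;> simp [bits_zero]

/-- The membership test for lists. -/
def chkL (l : List ℤ) : Bool :=
  l.all (fun x => (x - l.getD 23 0) % 2 == 0) && (l.sum - 4 * l.getD 23 0) % 8 == 0 && sx (l.getD 23 0) l 0 == 0

theorem sum_pt' {M : Type*} [AddCommMonoid M] (f : GolayPt → M) : ∑ p, f p = ∑ i ∈ Finset.range 24, f (pt i) :=
  (Equiv.sum_comp eP f).symm.trans (Fin.sum_univ_eq_sum_range (fun i => f (pt i)) 24)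

theorem chk_of {l : List ℤ} (hl : l.length = 24) (h : chkL l = true) : Chk (vec l) := by
  simp only [chkL, Bool.and_eq_true, List.all_eq_true, beq_iff_eq] at h
  refine ⟨fun p => h.1.1 _ ?_, ?_, fun j => ?_⟩
  · rw [vec, List.getD_eq_getElem _ _ (hl ▸ idx_lt p)]
    exact List.getElem_mem _
  · rw [sum_pt', Finset.sum_congr rfl fun i hi => show vec l (pt i) = l.getD i 0 by
      rw [vec, idx_pt i (Finset.mem_range.1 hi)], ← hl, Finset.sum_range, Finset.sum_congr rfl fun i _ => List.getD_eq_getElem l 0 i.2,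
      show Finset.univ.sum l.get = l.sum from Fin.sum_univ_getElem l]
    exact h.1.2
  · have := bits_sx (l.getD 23 0) l 0 j
    rw [h.2, bits_zero, hl] at this
    rw [sum_pt']
    refine (Finset.sum_congr rfl fun i hi => ?_).trans this.symm
    simp only [W, vec, idx_pt i (Finset.mem_range.1 hi), zero_add]
    rfl

def GG : List (List ℤ) := (List.finRange 12).map (fun i => gl (.inl i)) ++
  gl (.inr none) :: (List.range 24).map fun q => gl (.inr (some (pt q)))

noncomputable def goodB (As ms : List (List ℕ)) (k : ℕ) : Bool :=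
  forceM (((List.range 24).map fun i => (getW As k).getD i 0).map (CoM.dec 24)) fun A =>
    forceM (((List.range 24).map fun i => (getW As (k ^^^ 1)).getD i 0).map (CoM.dec 24)) fun B => forceM GG fun G =>
      (List.range 24).all (fun p => (List.range 24).all fun r =>
        (A.getD p []).getD r 0 == (B.getD r []).getD p 0 &&
          ldot (A.getD p []) (A.getD r []) == (if p = r then 64 else 0) &&
          ((dg 16 ((getW ms k).getD p 0) r : ℤ) - 15 * (A.getD p []).getD r 0) % 17 == 0) &&
      G.all fun g => forceL (A.map (ldot · g)) fun y => y.all (· % 8 == 0) && forceL (y.map (· / 8)) chkL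

theorem good_of {As ms : List (List ℕ)} {k : ℕ} (h : goodB As ms k = true) : Good As ms k := by
  simp only [goodB, forceM_eq, forceL_eq, Bool.and_eq_true, List.all_eq_true, beq_iff_eq, List.mem_range] at h
  have e : ∀ k p, (((List.range 24).map fun i => (getW As k).getD i 0).map (CoM.dec 24)).getD (idx p) [] =
      row As k p := fun k p => by simp [row, idx_lt]
  refine ⟨fun p r => ?_, fun i => ?_⟩
  · have := h.1 _ (idx_lt p) _ (idx_lt r)
    simp only [e, idx_injective.eq_iff] at this
    exact ⟨this.1.1, this.1.2, this.2⟩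
  · have := h.2 (gl i) (by
      rcases i with i | _ | q
      · exact List.mem_append_left _ (List.mem_map_of_mem (f := fun i => gl (.inl i)) (List.mem_finRange i))
      · exact List.mem_append_right _ List.mem_cons_self
      · exact List.mem_append_right _ (List.mem_cons_of_mem _ (pt_idx q ▸ List.mem_map_of_mem
          (f := fun q => gl (.inr (some (pt q)))) (List.mem_range.2 (idx_lt q)))))
    refine ⟨fun p => this.1 _ (List.mem_map.2 ⟨_, List.mem_map.2 ⟨_, List.mem_map.2
      ⟨idx p, List.mem_range.2 (idx_lt p), rfl⟩, rfl⟩, rfl⟩), ?_⟩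
    convert chk_of (by simp) this.2 using 1
    funext p
    simp [vec, row, idx_lt]

theorem good_all {As ms : List (List ℕ)} {n : ℕ} (h : (List.range n).all (goodB As ms) = true) :
    ∀ k < n, Good As ms k := fun k hk => good_of (List.all_eq_true.1 h k (List.mem_range.2 hk))

end Cfsg.Agent.Lib.CoM
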