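import Cfsg.Agent.Lib.Co1Gol
import Cfsg.Agent.Lib.CoM
import Cfsg.Agent.Lib.Co3Model
import Cfsg.Agent.Lib.M24Ord

/-! The centre and the order of `Co₀`. -/

set_option autoImplicit false
set_option linter.constructorNameAsVariable false

namespace Cfsg.Agent.Lib.Co1Card

open Cfsg.Agent.Lib.Golay Cfsg.Agent.Lib.Leech Cfsg.Agent.Lib.Co1Gol Cfsg.Spor Finset
open Cfsg.Agent.Lib.CoM (e8 exp8)

attribute [local irreducible] code

/-- The additive map of an element of `Co₀`. -/
def aut (s : Co0) : leechLattice →+ leechLattice := AddMonoidHom.mk' s.1 s.2.1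

theorem aut_apply (s : Co0) (y : leechLattice) : aut s y = s.1 y := rfl

theorem ext_e8 {s t : Co0} (h : ∀ q, s.1 (e8 q) = t.1 (e8 q)) : s = t :=
  Subtype.ext (Equiv.ext fun y => Subtype.ext (funext fun p => mul_left_cancel₀ (show (8 : ℤ) ≠ 0 by decide)
    (by rw [exp8, exp8]; simp only [h])))

theorem norm_e8 (q : GolayPt) : sqNorm (e8 q).1 = 64 := by simp [sqNorm, e8, -Fintype.sum_option]

theorem dot_e8 (y : V) (q : GolayPt) : dotInt y (e8 q).1 = 8 * y q := by
  simp [dotInt, e8, mul_comm, -Fintype.sum_option]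

/-! ### Sign changes -/

theorem flip_mem {S : Finset GolayPt} (hS : Cd S) {y : V} (hy : y ∈ leechLattice) :
    (fun p => if p ∈ S then -y p else y p) ∈ leechLattice := by
  obtain ⟨m, hm, T, hT, h₁, h₂⟩ := exists_cd hy
  have e : ∑ p, (if p ∈ S then -y p else y p) = ∑ p, y p - 2 * ∑ p ∈ S, y p := by
    rw [← sum_ite_mem_eq S, mul_sum, ← sum_sub_distrib]
    exact sum_congr rfl fun p _ => by split_ifs <;> ring
  have e' : (4 : ℤ) ∣ ∑ p ∈ S, (y p - m - if p ∈ T then 2 else 0) :=
    dvd_sum fun p _ => Int.dvd_of_emod_eq_zero (h₁ p)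
  rw [sum_sub_distrib, sum_sub_distrib, sum_ite_mem, sum_const, sum_const, nsmul_eq_mul, nsmul_eq_mul] at e'
  have := hS.mod
  have := hS.inter hT
  rcases hm with rfl | rfl
  · refine mem_of 0 hT (fun p => ?_) (by rw [e]; omega)
    have := h₁ p
    split_ifs at this ⊢ <;> omega
  · refine mem_of 1 (hS.symmDiff hT) (fun p => ?_) (by rw [e]; omega)
    have := h₁ p
    by_cases a : p ∈ S <;> by_cases b : p ∈ T <;> simp only [mem_symmDiff, a, b] at this ⊢ <;> simp at this ⊢ <;> omega

/-- The sign change on a code word. -/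
def eps (S : Finset GolayPt) (hS : Cd S) : Co0 :=
  ⟨Function.Involutive.toPerm (fun y => ⟨_, flip_mem hS y.2⟩) fun y => Subtype.ext (funext fun p => by
      change (if p ∈ S then -(if p ∈ S then _ else _) else if p ∈ S then _ else _) = _
      split_ifs <;> simp),
    fun v w => Subtype.ext (funext fun p => by
      change (if p ∈ S then -(v.1 p + w.1 p) else v.1 p + w.1 p) =
        (if p ∈ S then -v.1 p else v.1 p) + if p ∈ S then -w.1 p else w.1 p
      split_ifs <;> ring),
    fun v => sum_congr rfl fun p _ => by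
      change (if p ∈ S then -v.1 p else v.1 p) ^ 2 = _
      split_ifs <;> ring⟩

theorem eps_apply {S : Finset GolayPt} (hS : Cd S) (y : leechLattice) (p : GolayPt) :
    ((eps S hS).1 y).1 p = if p ∈ S then -y.1 p else y.1 p := rfl

/-- The negation. -/
def neg : Co0 := eps univ cd_univ

theorem neg_apply (y : leechLattice) : neg.1 y = -y := Subtype.ext (funext fun p => by simp [neg, eps_apply])

theorem neg_ne_one : neg ≠ 1 := fun h => by
  have := congrFun (congrArg Subtype.val (neg_apply (e8 none))) none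
  rw [h] at this
  revert this
  decide

theorem neg_mul_neg : neg * neg = 1 := Subtype.ext (Equiv.ext fun y => by
  change neg.1 (neg.1 y) = y
  rw [neg_apply, neg_apply, neg_neg])

theorem mono_e8 (g : M24) (q : GolayPt) : (mono g).1 (e8 q) = e8 (g.1 q) := Subtype.ext (funext fun p => by
  simp [mono_apply, e8, Equiv.symm_apply_eq])

theorem mem_center {z : Co0} : z ∈ Subgroup.center Co0 ↔ z = 1 ∨ z = neg := by
  refine ⟨fun hz => ?_, ?_⟩
  · have hc : ∀ s : Co0, ∀ y, s.1 (z.1 y) = z.1 (s.1 y) := fun s y =>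
      congrArg (fun t : Co0 => t.1 y) (Subgroup.mem_center_iff.1 hz s)
    have h₀ : ∀ p q, p ≠ q → (z.1 (e8 p)).1 q = 0 := fun p q h => by
      obtain ⟨S, hS, hp, hq⟩ := exists_sep h
      have e : (eps S hS).1 (e8 p) = e8 p := Subtype.ext (funext fun r => by
        rw [eps_apply]
        split_ifs with hr
        · have : r ≠ p := fun e => hp (e ▸ hr)
          simp [e8, this]
        · rfl)
      have := congrFun (congrArg Subtype.val (hc (eps S hS) (e8 p))) q
      rw [e, eps_apply, if_pos hq] at this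
      omega
    have h₁ : ∀ p, (z.1 (e8 p)).1 p = (z.1 (e8 (some 8))).1 (some 8) := fun p => by
      obtain ⟨g, hg, rfl⟩ := M24Ord.exists_smul p
      have := congrFun (congrArg Subtype.val (hc (mono ⟨g, hg⟩) (e8 (some 8)))) (g (some 8))
      rw [mono_e8, mono_apply] at this
      simpa using this.symm
    have h₂ := z.2.2 (e8 (some 8))
    rw [norm_e8, sqNorm, sum_eq_single (some 8) (fun q _ hq => by simp [h₀ _ _ hq.symm]) (by simp)] at h₂
    refine (sq_eq_sq_iff_eq_or_eq_neg.1 (h₂.trans (show (64 : ℤ) = 8 ^ 2 from rfl))).imp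
      (fun e => ext_e8 fun q => Subtype.ext (funext fun p => ?_))
      (fun e => ext_e8 fun q => Subtype.ext (funext fun p => ?_))
    · by_cases h : q = p
      · subst h; rw [h₁, e]; simp [e8]
      · rw [h₀ _ _ h]; simp [e8, Ne.symm h]
    · rw [neg_apply]
      by_cases h : q = p
      · subst h; rw [h₁, e]; simp [e8]
      · rw [h₀ _ _ h]; simp [e8, Ne.symm h]
  · rintro (rfl | rfl)
    · exact one_mem _
    · exact Subgroup.mem_center_iff.2 fun s => Subtype.ext (Equiv.ext fun y => by
        change s.1 (neg.1 y) = neg.1 (s.1 y)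
        rw [neg_apply, neg_apply]
        exact map_neg (aut s) y)

theorem center_eq : Subgroup.center Co0 = Subgroup.zpowers neg := le_antisymm
  (fun _ h => (mem_center.1 h).elim (fun e => e ▸ one_mem _) fun e => e ▸ Subgroup.mem_zpowers _)
  (Subgroup.zpowers_le.2 (mem_center.2 (.inr rfl)))

theorem card_center : Nat.card (Subgroup.center Co0) = 2 := by
  rw [center_eq, Nat.card_zpowers]
  exact orderOf_eq_prime (by rw [sq, neg_mul_neg]) neg_ne_one

/-! ### The lattice modulo two -/

/-- Twice the lattice. -/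
abbrev T : AddSubgroup leechLattice := (nsmulAddMonoidHom (α := leechLattice) 2).range

/-- The lattice modulo two. -/
abbrev Q : Type := leechLattice ⧸ T

theorem card_Q : Nat.card Q ≠ 0 ∧ Nat.card Q ≤ 16777216 := by
  have inj : Function.Injective leechLattice.subtype.toIntLinearMap := Subtype.val_injective
  have : Module.Finite ℤ leechLattice := Module.Finite.of_injective _ inj
  have h := LinearMap.finrank_le_finrank_of_injective inj
  rw [Module.finrank_fintype_fun_eq_card, show Fintype.card GolayPt = 24 from rfl] at h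
  rw [← AddSubgroup.index_eq_card, AddSubgroup.index_range_nsmul]
  exact ⟨by positivity, Nat.pow_le_pow_right two_pos h⟩

instance : Finite Q := Nat.finite_of_card_ne_zero card_Q.1

theorem close {x y : leechLattice} (h : (x : Q) = y) (hx : sqNorm x.1 ≤ 64) (hy : sqNorm y.1 ≤ 64) :
    y = x ∨ y = -x ∨ (sqNorm x.1 = 64 ∧ sqNorm y.1 = 64 ∧ dotInt x.1 y.1 = 0) := by
  obtain ⟨a, ha⟩ := QuotientAddGroup.eq.1 h
  obtain rfl : y = x + a + a := by
    rw [add_assoc, ← two_nsmul, show 2 • a = -x + y from ha, add_neg_cancel_left]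
  by_cases h₁ : a = 0
  · simp [h₁]
  by_cases h₂ : x + a = 0
  · exact .inr (.inl (by rw [h₂, zero_add, eq_neg_of_add_eq_zero_right h₂]))
  have m₁ := min_norm a.2 fun e => h₁ (Subtype.ext e)
  have m₂ := min_norm (x + a).2 fun e => h₂ (Subtype.ext e)
  have e₁ : sqNorm x.1 + sqNorm (x + a + a).1 = 2 * sqNorm (x + a).1 + 2 * sqNorm a.1 := by
    simp only [sqNorm, AddSubgroup.coe_add, Pi.add_apply, mul_sum, ← sum_add_distrib]
    exact sum_congr rfl fun p _ => by ring
  have e₂ : dotInt x.1 (x + a + a).1 = sqNorm (x + a).1 - sqNorm a.1 := by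
    simp only [sqNorm, dotInt, AddSubgroup.coe_add, Pi.add_apply, ← sum_sub_distrib]
    exact sum_congr rfl fun p _ => by ring
  exact .inr (.inr ⟨by omega, by omega, by omega⟩)

instance actQ : MulAction Co0 Q where
  smul s := QuotientAddGroup.map T T (aut s) (by rintro _ ⟨a, rfl⟩; exact ⟨aut s a, (map_nsmul _ _ _).symm⟩)
  one_smul q := QuotientAddGroup.induction_on q fun _ => rfl
  mul_smul _ _ q := QuotientAddGroup.induction_on q fun _ => rfl

theorem smul_mk (s : Co0) (y : leechLattice) : s • (y : Q) = (s.1 y : leechLattice) := rfl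

theorem mk_e8 (p q : GolayPt) : (e8 p : Q) = e8 q := QuotientAddGroup.eq.2
  ⟨⟨fun r => (if r = q then 4 else 0) - if r = p then 4 else 0, mem_of 0 cd_empty
    (fun r => by split_ifs <;> simp_all) (by simp [-Fintype.sum_option])⟩, Subtype.ext (funext fun r => by
      simp only [nsmulAddMonoidHom_apply, AddSubgroupClass.coe_nsmul, Pi.smul_apply, AddSubgroup.coe_add,
        NegMemClass.coe_neg, Pi.add_apply, Pi.neg_apply, e8]
      split_ifs <;> rfl)⟩

/-- The stabiliser of the standard frame. -/
abbrev M : Subgroup Co0 := MulAction.stabilizer Co0 (e8 none : Q)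

theorem exists_mono {s : Co0} (hs : s ∈ M) : ∃ g : M24, ∃ S, ∃ hS : Cd S, s = eps S hS * mono g := by
  have h₀ : ∀ p, ∃ q, s.1 (e8 p) = e8 q ∨ s.1 (e8 p) = -e8 q := fun p => by
    by_contra! h
    have : (s.1 (e8 p)).1 = 0 := funext fun q => by
      have e : ((s.1 (e8 p) : leechLattice) : Q) = e8 q := by
        rw [← smul_mk, mk_e8 p none, hs, mk_e8 none q]
      rcases close e (by rw [s.2.2, norm_e8]) (norm_e8 q).le with e | e | e
      · exact absurd e.symm (h q).1
      · exact absurd (by rw [e, neg_neg]) (h q).2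
      · have := e.2.2
        rw [dot_e8] at this
        simpa using this
    have h := s.2.2 (e8 p)
    rw [this, norm_e8] at h
    simp [sqNorm] at h
  choose σ hσ using h₀
  have inj : Function.Injective σ := fun p q e => by
    by_contra h
    have := dot_eq s.2 (e8 p) (e8 q)
    have h' : dotInt (e8 p).1 (e8 q).1 = 0 := by rw [dot_e8]; simp [e8, Ne.symm h]
    have h'' : dotInt (e8 (σ q)).1 (e8 (σ q)).1 = 64 := by rw [dot_e8]; simp [e8]
    rw [h'] at this
    rcases hσ p with a | a <;> rcases hσ q with b | b <;> rw [a, b, e] at this <;>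
      simp only [dotInt, NegMemClass.coe_neg, Pi.neg_apply, neg_mul, mul_neg, neg_neg, sum_neg_distrib] at this h'' <;>
      omega
  let g := Equiv.ofBijective σ (Finite.injective_iff_bijective.1 inj)
  let S : Finset GolayPt := univ.filter fun q => s.1 (e8 (g.symm q)) ≠ e8 q
  have key : ∀ y : leechLattice, ∀ q, (s.1 y).1 q = if q ∈ S then -y.1 (g.symm q) else y.1 (g.symm q) := fun y q => by
    obtain ⟨p, rfl⟩ := g.surjective q
    have := exp8 s y (g p)
    rw [sum_eq_single p (fun r _ hr => by
      have : σ p ≠ σ r := inj.ne hr.symm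
      rcases hσ r with a | a <;> rw [a] <;> simp [e8, g, this]) (by simp)] at this
    simp only [S, mem_filter, mem_univ, true_and, Equiv.symm_apply_apply]
    split_ifs with h
    · rw [(hσ p).resolve_left h] at this
      simp [e8, g] at this
      change _ = -y.1 p
      change 8 * (s.1 y).1 (g p) = _ at this
      omega
    · rw [not_not.1 h] at this
      simp only [e8, if_true] at this
      omega
  have hg : g ∈ M24 := mem_M24_iff.2 fun w hw => by
    have hw' : Cd (support₂ w) := ⟨w, hw, rfl⟩
    have hy : (fun p => if p ∈ support₂ w then 2 else 0 : V) ∈ leechLattice :=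
      mem_of 0 hw' (fun p => by simp) (by rw [sum_ind]; have := hw'.mod; omega)
    obtain ⟨v, hv, e⟩ := cd_res (s.1 ⟨_, hy⟩).2 2 (S := support₂ (w ∘ g.symm)) fun q => by
      rw [key]
      by_cases h : w (g.symm q) = 0 <;> split_ifs <;> simp [support₂, h]
    exact support_injective e ▸ hv
  have hy : (fun p => if p = none then -3 else 1 : V) ∈ leechLattice := mem_iff.2 (by decide +kernel)
  have hS : Cd S := cd_res (s.1 ⟨_, hy⟩).2 3 fun q => by
    rw [key]
    split_ifs with a <;> simp only [a] <;> split_ifs <;> decide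
  exact ⟨⟨g, hg⟩, S, hS, Subtype.ext (Equiv.ext fun y => Subtype.ext (funext (key y)))⟩

theorem card_M : Finite M ∧ Nat.card M ≤ 1002795171840 := by
  let f : code × M24 → Co0 := fun x => eps x.1.1 (mem_code.1 x.1.2) * mono x.2
  have h : (M : Set Co0) ⊆ Set.range f := fun s hs => by
    obtain ⟨g, S, hS, rfl⟩ := exists_mono hs
    exact ⟨(⟨S, mem_code.2 hS⟩, g), rfl⟩
  refine ⟨(Set.finite_range f).subset h, (Set.ncard_le_ncard h (Set.finite_range f)).trans
    ((Finite.card_range_le f).trans ?_)⟩
  rw [Nat.card_prod, M24Ord.card_M24, Nat.card_eq_fintype_card, Fintype.card_coe, card_code]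

/-! ### The minimal vectors -/

/-- The vectors of shape `(∓3, ±1²³)`. -/
def vA (x : GolayPt × Finset GolayPt) : V := fun q =>
  if q ∈ x.2 then (if q = x.1 then 3 else -1) else if q = x.1 then -3 else 1

/-- The vectors with entries `±k` on a set. -/
def vB (k : ℤ) (x : (_ : Finset GolayPt) × Finset GolayPt) : V := fun q =>
  if q ∈ x.2 then -k else if q ∈ x.1 then k else 0

@[irreducible] def fA : Finset V := (univ ×ˢ code).image vA

@[irreducible] def fB : Finset V :=
  ((code.filter fun S => S.card = 8).sigma fun S => S.powerset.filter fun s => s.card % 2 = 0).image (vB 2)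

@[irreducible] def prs : Finset (Finset GolayPt) := powersetCard 2 univ

theorem mem_prs {S : Finset GolayPt} : S ∈ prs ↔ S.card = 2 := by simp [prs]

theorem card_prs : prs.card = 276 := by rw [prs, card_powersetCard]; rfl

@[irreducible] def fC : Finset V := (prs.sigma powerset).image (vB 4)

theorem card_fA : fA.card = 98304 := by
  rw [fA, card_image_of_injective _ fun x y e => ?_, card_product, card_code]
  · rfl
  · refine Prod.ext ?_ (Finset.ext fun q => ?_)
    · have := congrFun e x.1
      simp only [vA, if_true] at this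
      split_ifs at this <;> first | assumption | omega
    · have := congrFun e q
      simp only [vA] at this
      split_ifs at this <;> tauto

theorem vB_inj {k : ℤ} (hk : k ≠ 0) : Set.InjOn (vB k) {x | x.2 ⊆ x.1} := by
  rintro ⟨S, s⟩ hx ⟨T, t⟩ hy e
  have h : ∀ q, (q ∈ S ↔ q ∈ T) ∧ (q ∈ s ↔ q ∈ t) := fun q => by
    have := congrFun e q
    have := @hx q
    have := @hy q
    simp only [vB] at *
    split_ifs at * <;> first | tauto | omega
  obtain rfl : S = T := Finset.ext fun q => (h q).1
  obtain rfl : s = t := Finset.ext fun q => (h q).2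
  rfl

theorem card_fB : fB.card = 97152 := by
  rw [fB, card_image_of_injOn ((vB_inj two_ne_zero).mono fun x hx => by
    have := mem_sigma.1 (mem_coe.1 hx)
    exact mem_powerset.1 (mem_filter.1 this.2).1), card_sigma, sum_congr rfl (g := fun _ => 128) fun S hS => ?_,
    sum_const, card_octads]
  · rfl
  · rw [card_filter, sum_powerset_apply_card (fun k => if k % 2 = 0 then 1 else 0), (mem_filter.1 hS).2]
    decide

theorem card_fC : fC.card = 1104 := by
  rw [fC, card_image_of_injOn ((vB_inj four_ne_zero).mono fun x hx => mem_powerset.1 (mem_sigma.1 hx).2), card_sigma,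
    sum_congr rfl (g := fun _ => 4) fun S hS => by rw [card_powerset, mem_prs.1 hS]; rfl,
    sum_const, card_prs]
  rfl

theorem vB_sum (k : ℤ) {S s : Finset GolayPt} (h : s ⊆ S) :
    ∑ q, vB k ⟨S, s⟩ q = k * S.card - 2 * k * s.card ∧ sqNorm (vB k ⟨S, s⟩) = k ^ 2 * S.card := by
  rw [← sum_ind, ← sum_ind, ← sum_ind, ← sum_sub_distrib]
  refine ⟨sum_congr rfl fun q _ => ?_, sum_congr rfl fun q _ => ?_⟩ <;> have := @h q <;> simp only [vB] <;>
    split_ifs <;> first | tauto | ring

theorem mem_f {y : V} (hy : y ∈ fA ∪ fB ∪ fC) : y ∈ leechLattice ∧ sqNorm y = 32 := by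
  simp only [mem_union, fA, fB, fC, mem_image] at hy
  rcases hy with (⟨⟨p, S⟩, h, rfl⟩ | ⟨⟨S, s⟩, h, rfl⟩) | ⟨⟨S, s⟩, h, rfl⟩
  · have h₀ : ∀ p : GolayPt, Chk (fun q => if q = p then -3 else 1) ∧
        sqNorm (fun q => if q = p then -3 else 1) = 32 := by decide +kernel
    have hS := mem_code.1 (mem_product.1 h).2
    have e : vA (p, S) = ((eps S hS).1 ⟨_, mem_iff.2 (h₀ p).1⟩).1 := funext fun q => by
      simp only [vA, eps_apply]
      split_ifs <;> rfl
    rw [e]
    exact ⟨Subtype.mem _, ((eps S hS).2.2 _).trans (h₀ p).2⟩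
  · simp only [mem_sigma, mem_filter, mem_powerset, mem_code] at h
    obtain ⟨e₁, e₂⟩ := vB_sum 2 h.2.1
    refine ⟨mem_of 0 h.1.1 (fun q => ?_) (by rw [e₁]; omega), by rw [e₂, h.1.2]; rfl⟩
    have := @h.2.1 q
    simp only [vB]
    split_ifs <;> first | rfl | tauto
  · simp only [mem_sigma, mem_prs, mem_powerset] at h
    obtain ⟨e₁, e₂⟩ := vB_sum 4 h.2
    refine ⟨mem_of 0 cd_empty (fun q => ?_) (by rw [e₁]; omega), by rw [e₂, h.1]; rfl⟩
    simp only [vB, notMem_empty]
    split_ifs <;> first | rfl | tauto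

theorem card_f : (fA ∪ fB ∪ fC).card = 196560 := by
  have hA : ∀ y ∈ fA, y none % 2 = 1 := fun y hy => by
    rw [fA] at hy
    obtain ⟨x, -, rfl⟩ := mem_image.1 hy
    simp only [vA]
    split_ifs <;> rfl
  have hB : ∀ y ∈ fB, ∀ q, y q = 0 ∨ y q = 2 ∨ y q = -2 := fun y hy q => by
    rw [fB] at hy
    obtain ⟨x, -, rfl⟩ := mem_image.1 hy
    simp only [vB]
    split_ifs <;> simp
  have hC : ∀ y ∈ fC, ∀ q, y q % 4 = 0 := fun y hy q => by
    rw [fC] at hy
    obtain ⟨x, -, rfl⟩ := mem_image.1 hy
    simp only [vB]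
    split_ifs <;> rfl
  rw [card_union_of_disjoint (disjoint_left.2 fun y h h' => ?_),
    card_union_of_disjoint (disjoint_left.2 fun y h h' => by have := hA y h; have := hB y h' none; omega),
    card_fA, card_fB, card_fC]
  rcases mem_union.1 h with h | h
  · have := hA y h; have := hC y h' none; omega
  · have e : y = 0 := funext fun q => by have := hB y h q; have := hC y h' q; change y q = 0; omega
    have := (mem_f (mem_union_right _ h')).2
    rw [e] at this
    simp [sqNorm] at this

/-! ### The order -/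

/-- The classes of the vectors of a given norm. -/
def Cl (n : ℤ) : Set Q := (↑) '' {y : leechLattice | sqNorm y.1 = n}

theorem disj {m n : ℤ} (hm : m ≤ 64) (hn : n ≤ 64) (h : m ≠ n) : Disjoint (Cl m) (Cl n) := by
  rw [Set.disjoint_left]
  rintro _ ⟨x, rfl : _ = m, rfl⟩ ⟨y, rfl : _ = n, e⟩
  rcases close e hn hm with e | e | e
  · exact h (by rw [e])
  · exact h (by simp [e, sqNorm])
  · omega

theorem le_Cl {n : ℤ} (hn : n < 64) {F : Finset leechLattice} (h : ∀ y ∈ F, sqNorm y.1 = n) :
    F.card ≤ 2 * (Cl n).ncard := by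
  classical
  refine (card_le_mul_card_image (f := fun y : leechLattice => (y : Q)) F 2 fun b hb => ?_).trans
    (Nat.mul_le_mul_left 2 ?_)
  · obtain ⟨x, hx, rfl⟩ := mem_image.1 hb
    refine (card_le_card fun y hy => ?_).trans (card_le_two (a := x) (b := -x))
    obtain ⟨hy, e⟩ := mem_filter.1 hy
    have := h x hx
    have := h y hy
    rcases close e.symm (by omega) (by omega) with e | e | e
    · simp [e]
    · simp [e]
    · omega
  · rw [← Set.ncard_coe_finset]
    refine Set.ncard_le_ncard (fun b hb => ?_)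
    obtain ⟨x, hx, rfl⟩ := mem_image.1 hb
    exact ⟨x, h x hx, rfl⟩

theorem le_Cl₂ : 98280 ≤ (Cl 32).ncard := by
  classical
  have := le_Cl (n := 32) (by decide) (F := (fA ∪ fB ∪ fC).subtype (· ∈ leechLattice))
    fun y hy => (mem_f (mem_subtype.1 hy)).2
  rw [card_subtype, filter_true_of_mem fun y hy => (mem_f hy).1, card_f] at this
  omega

theorem card_stab (X : Subgroup Co0) : Nat.card (MulAction.stabilizer X leechV) ≤ 495766656000 :=
  (Nat.card_le_card_of_injective (fun g : MulAction.stabilizer X leechV => (⟨g.1.1.1, g.1.1.2, g.2⟩ : Co3))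
    fun _ _ e => Subtype.ext (Subtype.ext (Subtype.ext (congrArg (fun g : Co3 => g.1) e)))).trans Co3Model.card_le

theorem le_orbit {X : Subgroup Co0} (hX : 8315553613086720000 ≤ Nat.card X) :
    16773120 ≤ (MulAction.orbit X leechV).ncard := by
  have h := (MulAction.stabilizer X leechV).index_mul_card
  have := Nat.mul_le_mul_left (MulAction.stabilizer X leechV).index (card_stab X)
  rw [← MulAction.index_stabilizer]
  omega

theorem le_Cl₃ {X : Subgroup Co0} (hX : 8315553613086720000 ≤ Nat.card X) : 8386560 ≤ (Cl 48).ncard := by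
  have h := le_orbit hX
  have f : (MulAction.orbit X leechV).Finite := Set.finite_of_ncard_ne_zero (by omega)
  have := le_Cl (n := 48) (by decide) (F := f.toFinset) fun y hy => by
    obtain ⟨s, rfl⟩ := f.mem_toFinset.1 hy
    exact (s.1.2.2 leechV).trans (by decide +kernel)
  rw [← Set.ncard_eq_toFinset_card _ f] at this
  omega

theorem sum_Cl : (Cl 0).ncard + (Cl 32).ncard + (Cl 48).ncard + (Cl 64).ncard =
    (Cl 0 ∪ Cl 32 ∪ Cl 48 ∪ Cl 64).ncard := by
  rw [Set.ncard_union_eq (by simp [disj]), Set.ncard_union_eq (by simp [disj]), Set.ncard_union_eq (by simp [disj])]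

theorem one_le_Cl : 1 ≤ (Cl 0).ncard := (Set.ncard_pos (Set.toFinite _)).2 ⟨_, 0, by simp [sqNorm], rfl⟩

theorem orbit_le : MulAction.orbit Co0 (e8 none : Q) ⊆ Cl 64 := by
  rintro _ ⟨s, rfl⟩
  exact ⟨s.1 (e8 none), (s.2.2 _).trans (norm_e8 _), rfl⟩

instance finite : Finite Co0 := by
  have := card_M.1
  have : M.FiniteIndex := ⟨by
    rw [MulAction.index_stabilizer]
    exact ((Set.ncard_pos (Set.toFinite _)).2 ⟨_, MulAction.mem_orbit_self _⟩).ne'⟩
  exact (Subgroup.finite_iff_finite_and_finiteIndex M).2 ⟨‹_›, ‹_›⟩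

theorem index_M_le {X : Subgroup Co0} (hX : 8315553613086720000 ≤ Nat.card X) : M.index ≤ 8292375 := by
  have h₁ := sum_Cl.trans_le ((Set.ncard_le_card _).trans card_Q.2)
  have h₂ := Set.ncard_le_ncard orbit_le
  have := le_Cl₂
  have := le_Cl₃ hX
  have := one_le_Cl
  rw [MulAction.index_stabilizer]
  omega

theorem card_le (X0 : Subgroup Co0) (hX : 8315553613086720000 ≤ Nat.card X0) :
    X0 = ⊤ ∧ Finite Co0 ∧ Nat.card Co0 = 8315553613086720000 := by
  have h₁ := Nat.mul_le_mul (index_M_le hX) card_M.2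
  rw [M.index_mul_card] at h₁
  have := X0.card_le_card_group
  exact ⟨X0.eq_top_of_le_card (by omega), finite, by omega⟩

section

variable (hc : Nat.card Co0 = 8315553613086720000)
include hc

theorem top_le : 8315553613086720000 ≤ Nat.card (⊤ : Subgroup Co0) := by rw [Subgroup.card_top, hc]

theorem card_Co1 : Nat.card Co1 = 4157776806543360000 := by
  have := (Subgroup.center Co0).index_mul_card
  rw [card_center, hc, Subgroup.index_eq_card] at this
  change Nat.card (Co0 ⧸ _) = _
  omega

theorem index_M : M.index = 8292375 ∧ Nat.card M = 1002795171840 := by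
  have h₁ := M.index_mul_card
  have h₂ := index_M_le (top_le hc)
  have h₃ := card_M.2
  have h₄ := Nat.mul_le_mul_left M.index h₃
  have h₅ := Nat.mul_le_mul_right (Nat.card M) h₂
  omega

/-- Every class has a short representative, and the frames form one orbit. -/
theorem classes : Cl 0 ∪ Cl 32 ∪ Cl 48 ∪ Cl 64 = Set.univ ∧ MulAction.orbit Co0 (e8 none : Q) = Cl 64 ∧
    (Cl 32).ncard = 98280 ∧ (Cl 48).ncard = 8386560 ∧ (Cl 64).ncard = 8292375 ∧ Nat.card Q = 16777216 := by
  have h₀ := Set.ncard_le_card (Cl 0 ∪ Cl 32 ∪ Cl 48 ∪ Cl 64)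
  have h₁ := sum_Cl
  have h₂ := Set.ncard_le_ncard orbit_le
  have := card_Q.2
  have := le_Cl₂
  have := le_Cl₃ (top_le hc)
  have := one_le_Cl
  have h₃ := (index_M hc).1
  rw [MulAction.index_stabilizer] at h₃
  exact ⟨Set.eq_of_subset_of_ncard_le (Set.subset_univ _) (by rw [Set.ncard_univ]; omega),
    Set.eq_of_subset_of_ncard_le orbit_le (by omega), by omega, by omega, by omega, by omega⟩

end

end Cfsg.Agent.Lib.Co1Card
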