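import Cfsg.Agent.Lib.Co1DR

set_option autoImplicit false
set_option maxRecDepth 100000

namespace Cfsg.Agent.Lib.Co1D
open Cfsg.Agent.Lib.PermNet

theorem rels0_0 : RelsOn nets 7084 13 rels0 0 2 :=
  relsOn_of_B _ _ _ _ _ 2 _ (by decide +kernel) (by decide +kernel)

theorem rels0_2 : RelsOn nets 7084 13 rels0 2 4 :=
  relsOn_of_B _ _ _ _ _ 2 _ (by decide +kernel) (by decide +kernel)

theorem rels0_4 : RelsOn nets 7084 13 rels0 4 6 :=
  relsOn_of_B _ _ _ _ _ 2 _ (by decide +kernel) (by decide +kernel)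

theorem rels0_6 : RelsOn nets 7084 13 rels0 6 8 :=
  relsOn_of_B _ _ _ _ _ 2 _ (by decide +kernel) (by decide +kernel)

theorem rels0_8 : RelsOn nets 7084 13 rels0 8 10 :=
  relsOn_of_B _ _ _ _ _ 2 _ (by decide +kernel) (by decide +kernel)

theorem rels0_10 : RelsOn nets 7084 13 rels0 10 12 :=
  relsOn_of_B _ _ _ _ _ 2 _ (by decide +kernel) (by decide +kernel)

theorem rels0_12 : RelsOn nets 7084 13 rels0 12 13 :=
  relsOn_of_B _ _ _ _ _ 1 _ (by decide +kernel) (by decide +kernel)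

end Cfsg.Agent.Lib.Co1D
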