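import Cfsg.Agent.Lib.Co1DF0

set_option autoImplicit false
set_option maxRecDepth 100000

namespace Cfsg.Agent.Lib.Co1D
open Cfsg.Agent.Lib.PermNet Cfsg.Agent.Lib.DCE

noncomputable def FF : FT := (.node (nat_lit 32) f0 (.node (nat_lit 64) f32 f64))

def TM : List Tm := [⟨false, [], [(false, []), (true, [])]⟩,
  ⟨true, [24, 21, 25, 21, 25], [(false, [24, 20, 24, 20, 25])]⟩,
  ⟨true, [], [(false, [24, 20, 24, 20, 25]), (true, [24, 21, 25, 21, 25])]⟩,
  ⟨true, [25], [(false, [24, 21, 19, 24, 20, 24, 20, 20, 24, 20, 25]), (true, [24, 21, 25, 21, 21, 25, 21, 25, 18])]⟩,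
  ⟨false, [25], [(false, [24, 21, 19, 24, 20, 24, 20, 20, 24, 20, 25]), (true, [24, 21, 25, 21, 21, 25, 21, 25, 18, 24, 20, 24, 20, 25]), (true, [24, 21, 25, 21, 25])]⟩,
  ⟨true, [24, 21, 25, 21, 25, 18], [(false, [25]), (false, [24, 21, 19, 24, 20, 24, 20, 25])]⟩]

def XW : List (List (List Nat)) := [[],
  [[]],
  [[], [18, 26, 18]],
  [[], [18, 26, 0, 26, 18]],
  [[], [18, 26, 18], [0, 26, 18, 0, 26, 18]],
  [[], [18, 26, 0, 26, 18], [18, 26, 0, 26, 18]]]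

def BB : List Nat := [(nat_lit 0), (nat_lit 110), (nat_lit 112), (nat_lit 1), (nat_lit 3), (nat_lit 5), (nat_lit 13), (nat_lit 15), (nat_lit 30), (nat_lit 103), (nat_lit 221)]



end Cfsg.Agent.Lib.Co1D
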