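import Cfsg.Agent.Lib.Co1DR
import Cfsg.Agent.Lib.Co1DT
import Cfsg.Agent.Lib.Co1DF
import Cfsg.Agent.Lib.Co1DM

set_option autoImplicit false
set_option maxRecDepth 100000

namespace Cfsg.Agent.Lib.Co1D
open Cfsg.Agent.Lib.PermNet Cfsg.Agent.Lib.DCE

theorem tab17 : allR (tabB nets (nat_lit 7084) (nat_lit 13) (nat_lit 3542) (nat_lit 12) (nat_lit 12) (nat_lit 4095) tH) (nat_lit 17) (nat_lit 17) = true := by decide +kernel

end Cfsg.Agent.Lib.Co1D
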