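import Cfsg.Agent.Lib.ThDefs

/-! Interfaces for the recognition of the first Conway group. -/

set_option autoImplicit false

namespace Cfsg.Agent.Lib.Co1Defs

open Subgroup

variable {G : Type*} [Group G]

/-- The centraliser of `z` acts on an extraspecial group of order `2 ^ 9`. -/
structure Hyp0 (z : G) (Q : Subgroup G) : Prop where
  zz : z * z = 1
  ne : z ≠ 1
  mem : z ∈ Q
  le : Q ≤ centralizer {z}
  nor : ∀ g ∈ centralizer ({z} : Set G), ∀ q ∈ Q, g * q * g⁻¹ ∈ Q
  cen : ∀ g ∈ centralizer ({z} : Set G), (∀ q ∈ Q, g * q = q * g) → g = 1 ∨ g = z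
  com : ∀ a ∈ Q, ∀ b ∈ Q, a * b = b * a ∨ a * b = z * (b * a)
  cQ : Nat.card Q = 512

/-- The hypothesis, inside `G`. -/
structure Hyp (z : G) (Q : Subgroup G) : Prop extends Hyp0 z Q where
  cH : Nat.card (centralizer ({z} : Set G)) = 89181388800

end Cfsg.Agent.Lib.Co1Defs
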