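import Cfsg.Agent.Lib.Co1E1

/-! A subgroup with the local structure of the first Conway group is the whole group. -/

set_option autoImplicit false

namespace Cfsg.Agent.Lib.Co1E

open Subgroup

variable {G : Type*} [Group G] [Finite G] {z : G} {M A : Subgroup G}

theorem exists_comm (h : Nat.card G = 299) :
    ∃ a b : G, a ^ 13 = 1 ∧ b ^ 23 = 1 ∧ a ≠ 1 ∧ b ≠ 1 ∧ a * b = b * a := by
  have := Fact.mk (show Nat.Prime 13 by norm_num)
  have := Fact.mk (show Nat.Prime 23 by norm_num)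
  obtain ⟨a, ha⟩ := exists_prime_orderOf_dvd_card' (G := G) 13 (by rw [h]; norm_num)
  obtain ⟨b, hb⟩ := exists_prime_orderOf_dvd_card' (G := G) 23 (by rw [h]; norm_num)
  have h1 : Nat.card (zpowers a) = 13 := by rw [Nat.card_zpowers, ha]
  have h2 : (zpowers a).index = 23 := by have := (zpowers a).card_mul_index; rw [h1, h] at this; omega
  let P : Sylow 13 G := (IsPGroup.of_card (n := 1) h1).toSylow (by rw [h2]; norm_num)
  have h3 : Nat.card (Sylow 13 G) = 1 := by
    have h4 := card_sylow_modEq_one 13 G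
    rcases (Nat.dvd_prime this.out).1 (h2 ▸ P.card_dvd_index) with e | e
    · exact e
    · rw [e] at h4; exact absurd h4 (by decide)
  have := (Nat.card_eq_one_iff_unique.1 h3).1
  have := P.normal_of_subsingleton
  refine ⟨a, b, ha ▸ pow_orderOf_eq_one a, hb ▸ pow_orderOf_eq_one b, by rintro rfl; simp at ha,
    by rintro rfl; simp at hb, IsCyclic.normalizer_le_centralizer (P := P) (by rw [h]; norm_num)
      (inferInstanceAs (IsCyclic (zpowers a))) (le_normalizer_of_normal (mem_top b)) a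
      (mem_zpowers a)⟩

/-- The element fixes at most one coset. -/
def U (M : Subgroup G) (s : G) : Prop := ∀ g h, g⁻¹ * s * g ∈ M → h⁻¹ * s * h ∈ M → g⁻¹ * h ∈ M

omit [Finite G] in
theorem U.conj {s : G} (h : U M s) (k : G) : U M (k * s * k⁻¹) := fun a b ha hb => by
  simpa [mul_assoc] using h (k⁻¹ * a) (k⁻¹ * b) (by simpa [mul_assoc] using ha)
    (by simpa [mul_assoc] using hb)

variable (H : Hy z M A)
include H

theorem Hy.uA {a : G} (ha : a ∈ A) (a1 : a ≠ 1) : U M a := by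
  by_cases hz : IsConj z a
  · exact fun _ _ => H.uniq hz
  suffices h : ∀ g, g⁻¹ * a * g ∈ M → g ∈ M from fun g k h1 h2 => mul_mem (inv_mem (h g h1)) (h k h2)
  intro g hg
  rcases H.inv _ hg (by rw [← inv_inv g, inv_inv g⁻¹, conj_mul, H.sq a ha]; simp) with
    ⟨m, hm, e⟩ | ⟨y, -, y1, y2, e⟩
  · have := H.ti (h := g * m⁻¹) (mem1.2 ha) (mem_cj.2 (by simpa [mul_assoc] using e)) a1
    simpa using mul_mem this hm
  exfalso
  have e1 : g * y * g⁻¹ * a = a * (g * y * g⁻¹) := by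
    calc _ = g * (y * (g⁻¹ * a * g)) * g⁻¹ := by group
      _ = _ := by rw [e]; group
  have y3 : (g * y * g⁻¹) ^ 13 = 1 := by rw [conj_pow, y1]; simp
  have y4 : g * y * g⁻¹ ≠ 1 := fun e => y2 (conj_eq_one_iff.1 e)
  generalize g * y * g⁻¹ = y at *
  have yM := H.ti (h := y) (mem1.2 ha) (mem_cj.2 (by rwa [mul_assoc, ← e1, inv_mul_cancel_left])) a1
  have := Fact.mk (show Nat.Prime 13 by norm_num)
  have h1 := LocFour.card_modEq_inf_centralizer (V := A) (A := zpowers y) (p := 13)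
    (IsPGroup.of_card (n := 1) (by rw [Nat.card_zpowers, orderOf_eq_prime y3 y4, pow_one]))
    (zpowers_le.2 (mem_normalizer_iff.2 fun x => by
      simpa only [mem1] using H.norm (mem1.2 ha) a1 hz (by simpa using yM) e1 (x := x)))
  have h2 := H.free (A ⊓ centralizer (zpowers y : Set G)) inf_le_left fun w hw e =>
    y4 (H.prime (.inr rfl) e y3 (hw.2 _ (mem_zpowers y)))
  have h3 := card_dvd_of_le (inf_le_left : A ⊓ centralizer (zpowers y : Set G) ≤ A)
  rw [H.card] at h1 h3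
  generalize Nat.card ↥(A ⊓ centralizer (zpowers y : Set G)) = n at *
  interval_cases n <;> first | exact absurd h1 (by decide) | exact absurd h3 (by decide)

theorem Hy.uP {s s' : G} (h : IsConj z s) (h' : IsConj z s') (e : s' * s = s * s') (ne : s' ≠ s) :
    U M (s' * s) := by
  obtain ⟨k, rfl⟩ := isConj_iff.1 h
  have e1 : k⁻¹ * s' * k * z = z * (k⁻¹ * s' * k) := by
    rw [← mul_left_inj k⁻¹, ← mul_right_inj k]; simpa [mul_assoc] using e
  obtain ⟨m, hm, e2⟩ := H.fuse (H.hC _ e1) (by simpa using isConj_conj k⁻¹ h')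
  obtain ⟨l, -, e3⟩ := H.prod m hm (e2 ▸ e1)
  have := (H.uA e3 fun e => ne (by
    rw [conj_eq_one_iff, e2, mul_eq_one_iff_eq_inv, inv_eq_of_mul_eq_one_right H.zz] at e
    rw [← e]; group)).conj (k * l⁻¹)
  convert this using 1
  rw [e2]; group

theorem Hy.eq_top : M = ⊤ := by
  have hz := H.zz
  have hC := H.hC
  have h3 : 299 ∣ (centralizer {z}).relIndex M := by
    have := ((centralizer {z}).subgroupOf M).card_mul_index
    rw [Nat.card_congr (subgroupOfEquivOfLe fun g hg =>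
      hC g (mem_centralizer_singleton_iff.1 hg)).toEquiv, H.cH, H.cM] at this
    rw [relIndex]; omega
  have h4 : ¬ 23 ^ 2 ∣ Nat.card M ∧ ¬ 13 ^ 2 ∣ Nat.card M := by rw [H.cM]; norm_num
  by_contra hM
  obtain ⟨g, hg⟩ : ∃ g, g ∉ M := by simpa [eq_top_iff'] using hM
  have sq' : ∀ {s}, IsConj z s → s ^ 2 = 1 := fun h => by rw [pow_two, InvolCount.sq_of_isConj hz h]
  have cj' : ∀ {s} k, IsConj z s → IsConj z (k * s * k⁻¹) := fun k h => h.trans (isConj_iff.2 ⟨k, rfl⟩)
  have hB : ∀ {s s'}, IsConj z s → IsConj z s' → s' * s = s * s' → s' ≠ s → U M (s' * s) := H.uP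
  have hD : ∀ {s s' x}, IsConj z s → IsConj z s' → x ∈ zpowers (s * s') → IsConj z (x * s) := by
    intro s s' x h h' hx
    obtain ⟨k, -, e | e⟩ := ZStar.dihedral (sq' h) (sq' h') hx <;> rw [e]
    exacts [cj' k h, cj' k h']
  have hE : ∀ {s s'}, IsConj z s → IsConj z s' → ¬ Odd (orderOf (s * s')) →
      ∃ v ∈ zpowers (s * s'), U M v ∧ s * v = v * s ∧ s' * v = v * s' := by
    intro s s' h h' ho
    obtain ⟨v, hv, v1, v2⟩ := InvolCount.exists_invol ho
    have s2 := InvolCount.sq_of_isConj hz h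
    obtain ⟨c1, c2⟩ := InvolCount.comm_of_mem s2 (InvolCount.sq_of_isConj hz h') v1 hv
    refine ⟨v, hv, ?_, c1, c2⟩
    have := hB h (hD h h' hv) (by rw [← mul_assoc, c1]) (by simpa using v2)
    rwa [mul_assoc, s2, mul_one] at this
  have hU : ∀ {s}, U M s → ∀ {a b : G ⧸ M}, s • a = a → s • b = b → a = b := by
    intro s h a b
    induction a using QuotientGroup.induction_on with | H a => ?_
    induction b using QuotientGroup.induction_on with | H b => ?_
    exact fun ha hb => QuotientGroup.eq.2 (h a b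
      (by simpa [mul_assoc] using QuotientGroup.eq.1 ha.symm)
      (by simpa [mul_assoc] using QuotientGroup.eq.1 hb.symm))
  have hF : ∀ {s}, IsConj z s → ∀ {a b : G ⧸ M}, s • a = a → s • b = b → a = b :=
    fun h => hU fun _ _ => H.uniq h
  have hc : ∀ {s v : G} {a : G ⧸ M}, IsConj z s → s • a = a → s * v = v * s → v • a = a :=
    fun h ha e => hF h (by rw [← mul_smul, e, mul_smul, ha]) ha
  set α : G ⧸ M := ((1 : G) : G ⧸ M) with hα
  have mα : ∀ x : G, x • α = α ↔ x ∈ M := fun x => by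
    rw [← MulAction.mem_stabilizer_iff, hα, MulAction.stabilizer_quotient]
  set β := g • α with hβ
  have ne : α ≠ β := fun e => hg ((mα g).1 e.symm)
  have zM := hC z rfl
  have zz := IsConj.refl z
  have z' : (g * z * g⁻¹) • β = β := by
    rw [hβ, ← mul_smul, inv_mul_cancel_right, mul_smul, (mα z).2 zM]
  have hσ : ∀ m ∈ M, ∃ σ, IsConj z σ ∧ σ • α = β ∧ σ • β = α ∧
      σ * (g * z * g⁻¹) * σ⁻¹ = m * z * m⁻¹ := fun m hm => by
    have a1 := (mα _).2 (mul_mem (mul_mem hm zM) (inv_mem hm))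
    have ho : Odd (orderOf (g * z * g⁻¹ * (m * z * m⁻¹))) := by_contra fun ho => by
      obtain ⟨v, -, v1, v2, v3⟩ := hE (cj' g zz) (cj' m zz) ho
      exact ne (hU v1 (hc (cj' m zz) a1 v3) (hc (cj' g zz) z' v2))
    obtain ⟨k, hk, e⟩ := ZStar.exists_conj_of_odd (sq' (cj' g zz)) (sq' (cj' m zz)) ho
    have a2 := hD (cj' g zz) (cj' m zz) (inv_mem hk)
    have a3 : k⁻¹ * (g * z * g⁻¹) * (g * z * g⁻¹) * (k⁻¹ * (g * z * g⁻¹))⁻¹ = m * z * m⁻¹ := by
      generalize g * z * g⁻¹ = u at e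
      rw [← e]; group
    have a4 : (k⁻¹ * (g * z * g⁻¹)) • β = α := hF (cj' m zz) (by
      rw [← a3, ← mul_smul, inv_mul_cancel_right, mul_smul _ _ β, z']) a1
    refine ⟨_, a2, ?_, a4, a3⟩
    rw [← a4, ← mul_smul, InvolCount.sq_of_isConj hz a2, one_smul]
  let D : Subgroup G :=
    { carrier := {x | x • α = α ∧ x • β = β ∨ x • α = β ∧ x • β = α}
      mul_mem' := by
        rintro a b (⟨a1, a2⟩ | ⟨a1, a2⟩) (⟨b1, b2⟩ | ⟨b1, b2⟩) <;> simp [mul_smul, a1, a2, b1, b2]
      one_mem' := by simp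
      inv_mem' := by
        rintro a (⟨a1, a2⟩ | ⟨a1, a2⟩) <;> simp [inv_smul_eq_iff, a1, a2] }
  have sw : ∀ s ∈ D, IsConj z s → s • α = β ∧ s • β = α := fun s hs h =>
    hs.resolve_left fun e => ne (hF h e.1 e.2)
  have nz : ∀ {s s'}, s • α = β ∧ s • β = α → s' • α = β ∧ s' • β = α →
      ∀ v ∈ zpowers (s * s'), ¬ U M v := fun {s s'} h h' v hv hzv => by
    have : zpowers (s * s') ≤ MulAction.stabilizer G α ⊓ MulAction.stabilizer G β :=
      zpowers_le.2 ⟨by simp [mul_smul, h'.1, h.2], by simp [mul_smul, h'.2, h.1]⟩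
    exact ne (hU hzv (this hv).1 (this hv).2)
  obtain ⟨s, s1, s2, s3, s4⟩ := hσ 1 (one_mem _)
  have hs : s ∈ D := Or.inr ⟨s2, s3⟩
  have hZ := ZStar.zstar D ⟨s, hs⟩ (Subtype.ext (sq' s1)) fun k hk => by_contra fun h =>
    nz (sw _ (k * ⟨s, hs⟩ * k⁻¹).2 (cj' k s1)) ⟨s2, s3⟩ _ (mem_zpowers _)
      (hB s1 (cj' k s1) (congrArg Subtype.val hk).symm fun e => h (Subtype.ext e))
  let O := (pPrimeCore 2 D).map D.subtype
  have hO : Odd (Nat.card O) := by
    rw [card_map_of_injective D.subtype_injective]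
    exact Nat.coprime_two_right.1 (PCoreResidual.coprime_card_pPrimeCore 2 D)
  have OM : O ≤ M := fun o ho => by
    obtain ⟨k, hk⟩ := hO
    have a1 : o ^ (2 * k + 1) = 1 := congrArg Subtype.val (hk ▸ pow_card_eq_one' (x := (⟨o, ho⟩ : O)))
    rcases map_subtype_le _ ho with e | e
    · exact (mα o).1 e.1
    · have : (o ^ 2) ^ k ∈ M := pow_mem ((mα _).1 (by rw [pow_two, mul_smul, e.1, e.2])) k
      rw [← pow_mul, eq_inv_of_mul_eq_one_left ((pow_succ _ _).symm.trans a1)] at this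
      exact inv_mem_iff.1 this
  have tr : ∀ m ∈ M, ∃ o ∈ O, o * z * o⁻¹ = m * z * m⁻¹ := fun m hm => by
    obtain ⟨σ, t1, t2, t3, t4⟩ := hσ m hm
    have ho : Odd (orderOf (σ * s)) := by_contra fun ho => by
      obtain ⟨v, hv, v1, -⟩ := hE t1 s1 ho
      exact nz ⟨t2, t3⟩ ⟨s2, s3⟩ v hv v1
    obtain ⟨k, hk, e⟩ := ZStar.exists_conj_of_odd (sq' t1) (sq' s1) ho
    refine ⟨σ * s⁻¹, ⟨_, hZ ⟨k, zpowers_le.2 (mul_mem (Or.inr ⟨t2, t3⟩) hs) hk⟩, by simp [e]⟩, ?_⟩
    rw [one_mul, inv_one, mul_one] at s4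
    rw [← t4]
    generalize g * z * g⁻¹ = u at s4 ⊢
    rw [← s4]; group
  have key : ∀ K : Subgroup G, (centralizer {z}).relIndex K =
      (MulAction.orbit K ((1 : G) : G ⧸ centralizer {z})).ncard := fun K => by
    rw [← MulAction.index_stabilizer, relIndex]
    congr 1
    ext x
    rw [mem_subgroupOf]
    exact (SetLike.ext_iff.1 (MulAction.stabilizer_quotient (centralizer {z})) (x : G)).symm
  have hd : 299 ∣ Nat.card O := by
    refine dvd_trans (h3.trans (dvd_of_eq ?_)) (relIndex_dvd_card (centralizer {z}) O)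
    rw [key, key]
    congr 1
    refine Set.Subset.antisymm ?_ (by rintro _ ⟨o, rfl⟩; exact ⟨⟨o, OM o.2⟩, rfl⟩)
    rintro _ ⟨m, rfl⟩
    obtain ⟨o, ho, e⟩ := tr m m.2
    refine ⟨⟨o, ho⟩, QuotientGroup.eq.2 (mem_centralizer_singleton_iff.2 ?_)⟩
    change (o * 1)⁻¹ * (m * 1) * z = z * ((o * 1)⁻¹ * (m * 1))
    calc _ = o⁻¹ * (m * z * (m : G)⁻¹) * m := by group
      _ = _ := by rw [← e]; group
  obtain ⟨n, hn⟩ := hd
  have := FTOddOrder.solvable_of_odd hO
  have hOM := card_dvd_of_le OM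
  obtain ⟨K, hK, -⟩ := Hall.exists_card_eq_of_coprime (Nat.Coprime.mul_left (m := 23) (n := 13)
    ((Nat.Prime.coprime_iff_not_dvd (by norm_num)).2 fun ⟨c, hc⟩ =>
      h4.1 (dvd_trans ⟨13 * c, by rw [hn, hc]; ring⟩ hOM))
    ((Nat.Prime.coprime_iff_not_dvd (by norm_num)).2 fun ⟨c, hc⟩ =>
      h4.2 (dvd_trans ⟨23 * c, by rw [hn, hc]; ring⟩ hOM))) hn
  obtain ⟨a, b, a1, b1, a2, b2, e⟩ := exists_comm hK
  rcases H.nc a.1.1 (OM a.1.2) b.1.1 (OM b.1.2) (congrArg (·.1.1) a1) (congrArg (·.1.1) b1)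
    (congrArg (·.1.1) e) with h | h
  · exact a2 (Subtype.ext (Subtype.ext h))
  · exact b2 (Subtype.ext (Subtype.ext h))

omit H in
/-- The form with an embedding. -/
theorem range_eq_top {X : Type*} [Group X] {x : X} {B : Subgroup X}
    (H : Nat.card (centralizer ({x} : Set X)) = 89181388800 → Hy x ⊤ B) (ι : X →* G)
    (hι : Function.Injective ι) (hC : centralizer {ι x} ≤ ι.range)
    (hH : Nat.card (centralizer ({ι x} : Set G)) = 89181388800) : ι.range = ⊤ := by
  replace H := H (by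
    rw [← hH, ← card_map_of_injective hι, eq_comm]
    congr 2
    refine le_antisymm (fun g hg => ?_) ?_
    · obtain ⟨m, rfl⟩ := hC hg
      exact ⟨m, mem_centralizer_singleton_iff.2 (hι (by
        simpa using mem_centralizer_singleton_iff.1 hg)), rfl⟩
    · rintro _ ⟨m, hm, rfl⟩
      exact mem_centralizer_singleton_iff.2 (by
        rw [← map_mul, mem_centralizer_singleton_iff.1 hm, map_mul]))
  have cj' : ∀ {a b : X}, IsConj a b → IsConj (ι a) (ι b) := ι.map_isConj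
  refine Hy.eq_top (z := ι x) (A := B.map ι) ⟨by rw [← map_mul, H.zz, map_one],
    fun g hg => hC (mem_centralizer_singleton_iff.2 hg), map_le_range _ _, ?_,
    (card_map_of_injective hι).trans H.card, ?_, fun W hW h => ?_, ?_, ?_, hH, ?_, ?_⟩
  · rintro _ ⟨a, ha, rfl⟩; rw [← map_mul, H.sq a ha, map_one]
  · rintro _ ⟨a, ha, rfl⟩
    rcases H.typ a ha with e | ⟨m, -, e⟩ | ⟨h, y, y1, y2, e⟩
    · exact .inl (by rw [e, map_one])
    · exact .inr (.inl ⟨ι m, ⟨m, rfl⟩, by simp [← e]⟩)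
    · refine .inr (.inr ⟨?_, ι y, by rw [← map_pow, y1, map_one],
        fun e => y2 (hι (e.trans ι.map_one.symm)), by rw [← map_mul, e, map_mul]⟩)
      rintro _ ⟨m, rfl⟩ e
      exact le_normalizer_map ι ⟨m, h m trivial (hι (by simpa using e)), rfl⟩
  · rw [← map_comap_eq_self (hW.trans (map_le_range _ _)), card_map_of_injective hι]
    exact H.free _ ((comap_mono hW).trans (comap_map_eq_self_of_injective hι B).le)
      fun w hw e => h _ hw (cj' e)
  · rintro _ ⟨v, rfl⟩ e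
    rcases H.inv v trivial (hι (by simpa using e)) with ⟨m, -, h⟩ | ⟨y, -, y1, y2, e⟩
    · exact .inl ⟨ι m, ⟨m, rfl⟩, _, h, by simp⟩
    · exact .inr ⟨ι y, ⟨y, rfl⟩, by rw [← map_pow, y1, map_one],
        fun e => y2 (hι (e.trans ι.map_one.symm)), by rw [← map_mul, e, map_mul]⟩
  · rintro _ ⟨m, rfl⟩ e
    obtain ⟨k, -, h⟩ := H.prod m trivial (hι (by simpa using e))
    exact ⟨ι k, ⟨k, rfl⟩, _, h, by simp⟩
  · rw [MonoidHom.range_eq_map, card_map_of_injective hι, H.cM]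
  · rintro _ ⟨a, rfl⟩ _ ⟨b, rfl⟩ a1 b1 e
    exact (H.nc a trivial b trivial (hι (by simpa using a1)) (hι (by simpa using b1))
      (hι (by simpa using e))).imp (fun e => by rw [e, map_one]) fun e => by rw [e, map_one]

end Cfsg.Agent.Lib.Co1E
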