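import Cfsg.Agent.Lib.Co1M0
import Cfsg.Agent.Lib.Co1TC
import Cfsg.Agent.Lib.Co1D

/-! Elements of `Co₁` satisfying the relators of the presentation. -/

set_option autoImplicit false
set_option maxRecDepth 100000

namespace Cfsg.Agent.Lib.Co1M

open Cfsg.Agent.Lib.PermNet

theorem exists_phi : ∃ φ : ℕ → Spor.Co1, (∀ w ∈ Co1TC.K1 ++ Co1D.RR, wval φ w = 1) ∧
    wval φ [28, 0, 19, 27, 18] ^ 13 = 1 ∧ wval φ [28, 0, 19, 27, 18] ≠ 1 ∧ wval φ [6, 8, 6, 8] ≠ 1 := by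
  obtain ⟨φ, h, h'⟩ := exists_phi0
  have e : (Co1TC.K1 ++ Co1D.RR).all (WP ++ WN).contains = true := by decide +kernel
  exact ⟨φ, fun w hw => h w (by simpa using List.all_eq_true.1 e w hw), h'⟩

end Cfsg.Agent.Lib.Co1M
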