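import Cfsg.Agent.Lib.Co1Fin0
import Cfsg.Agent.Lib.Co1M

/-! Identification of the first Conway group from a presentation. -/

set_option autoImplicit false

namespace Cfsg.Agent.Lib.Co1Fin

open Subgroup Cfsg.Agent.Lib.PermNet Cfsg.Agent.Lib.Words Cfsg.Agent.Lib.PermGroup
  Cfsg.Agent.Lib.DCE Cfsg.Spor

theorem iso {G : Type*} [Group G] [Finite G] (f : ℕ → G) (hK : ∀ w ∈ Co1TC.K1, wval f w = 1)
    (hR : ∀ w ∈ Co1D.RR, wval f w = 1)
    (hC : centralizer {wval f [6, 8, 6, 8]} ≤ gp f (sing 15))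
    (hH : Nat.card (centralizer ({wval f [6, 8, 6, 8]} : Set G)) = 89181388800) :
    IsoCo1 G := by
  obtain ⟨φ, h0, h1, h2, h3⟩ := Co1M.exists_phi
  exact (iso_of φ h0 h1 h2 h3 f hK hR hC hH).1

end Cfsg.Agent.Lib.Co1Fin
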