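import Cfsg.Agent.Lib.Co1L3
import Cfsg.Agent.Lib.Co1E2
import Cfsg.Agent.Lib.SuzG1

/-! A copy of the first Conway group that contains the centraliser of a central involution is the
whole group. -/

set_option autoImplicit false
set_option maxRecDepth 100000

namespace Cfsg.Agent.Lib.Co1L

open Subgroup Cfsg.Agent.Lib.Golay Cfsg.Agent.Lib.Leech Cfsg.Agent.Lib.CoM Cfsg.Spor Equiv

/-- The projection. -/
abbrev pr : Co0 →* Co1 := QuotientGroup.mk' _

theorem pr_sur (a : Co1) : ∃ s, pr s = a := QuotientGroup.mk'_surjective _ a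

theorem pr_one {s : Co0} : pr s = 1 ↔ s ∈ center Co0 := QuotientGroup.eq_one_iff _

theorem pr_eq {s t : Co0} (h : pr s = pr t) : s = t ∨ s = eps om * t :=
  (mem_cen.1 (pr_one.1 (show pr (s * t⁻¹) = 1 by rw [map_mul, map_inv, h, mul_inv_cancel]))).imp mul_inv_eq_one.1 mul_inv_eq_iff_eq_mul.1

theorem om_cen (s : Co0) : s * eps om = eps om * s := mem_center_iff.1 (mem_cen.2 (.inr rfl)) s

theorem pr_om (w : golayCode) : pr (eps (w + om)) = pr (eps w) := by
  rw [eps_add, map_mul, pr_one.2 (mem_cen.2 (.inr rfl)), mul_one]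

theorem odd_eq {s t : Co0} {k : ℕ} (h : pr s = pr t) (hs : s ^ (2 * k + 1) = 1)
    (ht : t ^ (2 * k + 1) = 1) : s = t :=
  BT.rigid (eps_sq om) (om_cen t) hs ht ((BT.mem_zpowers_two (eps_sq om)).2
    (mem_cen.1 (pr_one.1 (by rw [map_mul, map_inv, h, mul_inv_cancel]))))

theorem odd_lift {a : Co1} {k : ℕ} (h : a ^ (2 * k + 1) = 1) : ∃ s, pr s = a ∧ s ^ (2 * k + 1) = 1 := by
  obtain ⟨s, rfl⟩ := pr_sur a
  refine ⟨s ^ (2 * k + 1) * s, by rw [map_mul, map_pow, h, one_mul], ?_⟩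
  rw [← pow_succ, ← pow_mul, show (2 * k + 1 + 1) * (2 * k + 1) = (2 * k + 1) * 2 * (k + 1) by ring,
    pow_mul, pow_mul, pow_two]
  rcases mem_cen.1 (pr_one.1 ((map_pow _ _ _).trans h)) with e | e <;> simp [e, eps_sq]

/-- The image of the group of the changes of signs. -/
def A1 : Subgroup Co1 := A0.map pr

/-- The central involution. -/
def z0 : Co1 := pr (eps (cw O0))

theorem conj_img (g : M24) (w : golayCode) : IsConj (pr (eps w)) (pr (eps (img g w))) :=
  pr.map_isConj (isConj_iff.2 ⟨mono g, mul_inv_eq_iff_eq_mul.2 (mono_eps g w)⟩)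

theorem cls1 (w : golayCode) : w = 0 ∨ w = om ∨ IsConj z0 (pr (eps w)) ∨ ∃ g, img g w = cw D0 := by
  obtain ⟨g, e | e | e | e | e⟩ := cls w
  · exact .inl (Subtype.ext (funext fun p => by simpa [img] using congrFun (congrArg Subtype.val e) (g.1 p)))
  · exact .inr (.inr (.inl (z0.eq_1 ▸ e ▸ (conj_img g w).symm)))
  · exact .inr (.inr (.inr ⟨g, e⟩))
  · exact .inr (.inr (.inl (z0.eq_1 ▸ pr_om _ ▸ e ▸ (conj_img g w).symm)))
  · exact .inr (.inl (Subtype.ext (funext fun p => by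
      simpa [img, om] using congrFun (congrArg Subtype.val e) (g.1 p))))

theorem card_A1 : Nat.card A1 = 2048 := by
  have h := card_eq_card_quotient_mul_card_subgroup (pr.domRestrict A0).ker
  rw [card_A0, Nat.card_congr (QuotientGroup.quotientKerEquivRange _).toEquiv, MonoidHom.domRestrict_range,
    MonoidHom.ker_domRestrict, QuotientGroup.ker_mk', Nat.card_congr (subgroupOfEquivOfLe (K := A0) fun s hs =>
      (mem_cen.1 hs).elim (· ▸ one_mem _) fun e => ⟨_, e.symm⟩).toEquiv, Co1Card.card_center] at h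
  change 4096 = Nat.card A1 * 2 at h
  omega

theorem typ1 {a : Co1} (ha : a ∈ A1) : a = 1 ∨ IsConj z0 a ∨
    (∀ m, m * a = a * m → m ∈ normalizer (A1 : Set Co1)) ∧ ∃ y, y ^ 11 = 1 ∧ y ≠ 1 ∧ y * a = a * y := by
  obtain ⟨_, ⟨w, rfl⟩, rfl⟩ := ha
  rcases cls1 w with rfl | rfl | e | ⟨g, e⟩
  · exact .inl (by rw [eps_zero, map_one])
  · exact .inl (pr_one.2 (mem_cen.2 (.inr rfl)))
  · exact .inr (.inl e)
  have hw : wt w = 12 := by rw [← wt_img g, e]; decide +kernel
  have p5 : P 5 ^ 11 = 1 := Subtype.ext (Equiv.ext (by decide +kernel))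
  have y1 : mono (g⁻¹ * P 5 * g) ^ (2 * 5 + 1) = 1 := by
    rw [← map_pow, show g⁻¹ * P 5 * g = g⁻¹ * P 5 * g⁻¹⁻¹ by simp, conj_pow, p5]; simp
  refine .inr (.inr ⟨fun m h => ?_, pr (mono (g⁻¹ * P 5 * g)), by rw [← map_pow, y1, map_one],
    fun h => ?_, ?_⟩)
  · obtain ⟨m, rfl⟩ := pr_sur m
    refine le_normalizer_map pr ⟨m, Fr.norm ?_, rfl⟩
    rcases pr_eq (((map_mul _ _ _).trans h).trans (map_mul _ _ _).symm) with h | h
    · exact fr_of hm hw hw h
    · exact fr_of hm hw (v' := w + om) (by have := wt_om w; omega)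
        (by rw [h, add_comm, eps_add, mul_assoc])
  · have := congrArg (·.1 (e8 (g.1.symm (pt 0)))) (odd_eq (h.trans pr.map_one.symm) y1 (one_pow _))
    have := (e8_inj (a := 1) (b := 1) rfl (congrArg _ ((mono_e8 _ _).symm.trans this))).1
    have : (P 5).1 (g.1 (g.1.symm _)) = _ := g.1.symm.injective this
    rw [Equiv.apply_symm_apply] at this
    revert this; decide +kernel
  · rw [← map_mul, ← map_mul, mono_eps, img_mul, img_mul, e,
      show img (P 5) (cw D0) = cw D0 from Subtype.ext (funext (by decide +kernel)), ← e, ← img_mul,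
      inv_mul_cancel]
    rfl

theorem free1 {W : Subgroup Co1} (hW : W ≤ A1) (h : ∀ w ∈ W, ¬ IsConj z0 w) : Nat.card W ≤ 24 := by
  classical
  let S : AddSubgroup golayCode :=
    { carrier := {w | pr (eps w) ∈ W ∧ w.1 none = 0}
      add_mem' := fun h1 h2 => ⟨by rw [eps_add, map_mul]; exact mul_mem h1.1 h2.1, by simp [h1.2, h2.2]⟩
      zero_mem' := ⟨by rw [eps_zero, map_one]; exact one_mem _, rfl⟩
      neg_mem' := fun {w} h => by rwa [neg_eq_of_add_eq_zero_right (add_self w)] }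
  have := Fintype.ofFinite S
  refine (Nat.card_le_card_of_surjective (fun w : S => (⟨_, w.2.1⟩ : W)) fun a => ?_).trans ?_
  · obtain ⟨_, ⟨w, rfl⟩, e⟩ := hW a.2
    rcases (by decide : ∀ t : ZMod 2, t = 0 ∨ t + 1 = 0) (w.1 none) with h | h
    · exact ⟨⟨w, e ▸ a.2, h⟩, Subtype.ext e⟩
    · exact ⟨⟨w + om, (pr_om w).trans e ▸ a.2, h⟩, Subtype.ext ((pr_om w).trans e)⟩
  have h1 : ∀ p, 0 ≤ ∑ w : S, sg w.1.1 p := fun p => by
    by_cases h : ∀ w : S, w.1.1 p = 0
    · exact Finset.sum_nonneg fun w _ => by simp [sg, s2, h]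
    obtain ⟨v, hv⟩ := not_forall.1 h
    have := Equiv.sum_comp (Equiv.addLeft v) fun w : S => sg w.1.1 p
    simp only [Equiv.coe_addLeft, AddSubgroup.coe_add, Submodule.coe_add, sg_add, Pi.mul_apply,
      ← Finset.mul_sum, show sg v.1.1 p = -1 from if_neg hv] at this
    omega
  have h2 := Finset.single_le_sum (fun p _ => h1 p) (Finset.mem_univ none)
  rw [Finset.sum_congr rfl fun (w : S) _ => show sg w.1.1 none = 1 from if_pos w.2.2,
    Finset.sum_comm, Finset.sum_eq_single (f := fun w : S => ∑ p, sg w.1.1 p) 0 (fun w _ w0 => ?_)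
    (by simp),
    show ∑ p, sg (0 : S).1.1 p = 24 by simp [sg, s2, -Fintype.sum_option]] at h2
  · rw [Nat.card_eq_fintype_card]; simpa using h2
  rcases cls1 w with e | e | e | ⟨g, e⟩
  · exact absurd (Subtype.ext e) w0
  · exact absurd (e ▸ w.2.2 : om.1 none = 0) (by decide)
  · exact absurd e (h _ w.2.1)
  · rw [← Equiv.sum_comp g.1.symm]
    change ∑ p, sg (img g w).1 p = 0
    rw [e]; decide +kernel

theorem tr_conj {s t : Co0} (h : IsConj s t) : (ρ0 t).trace = (ρ0 s).trace := by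
  obtain ⟨k, rfl⟩ := isConj_iff.1 h
  rw [map_mul, Matrix.trace_mul_comm, ← map_mul, inv_mul_cancel_left]

variable (hc : Nat.card Co0 = 8315553613086720000)
include hc

theorem inv1 {v : Co1} (h : v * v = 1) : (∃ m, m * v * m⁻¹ ∈ A1) ∨
    ∃ y, y ^ 13 = 1 ∧ y ≠ 1 ∧ y * v = v * y := by
  obtain ⟨v, rfl⟩ := pr_sur v
  rcases sq_cls hc (pr_one.1 ((map_mul _ _ _).trans h)) with ⟨w, e⟩ | e <;>
    obtain ⟨k, e⟩ := isConj_iff.1 e
  · exact .inl ⟨pr k, _, ⟨w, rfl⟩, by simp [← e]⟩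
  obtain ⟨-, y, -, -, y1, y2, y3⟩ := special
  have y4 : (k⁻¹ * y * k) ^ (2 * 6 + 1) = 1 := by
    rw [show k⁻¹ * y * k = k⁻¹ * y * k⁻¹⁻¹ by simp, conj_pow, y1]; simp
  refine .inr ⟨pr (k⁻¹ * y * k), by rw [← map_pow, y4, map_one], fun h => y2 (by
    simpa [mul_assoc, inv_mul_eq_one] using odd_eq (h.trans pr.map_one.symm) y4 (one_pow _)), ?_⟩
  rw [← map_mul, ← map_mul]
  rw [← e] at y3
  simpa [mul_assoc] using congrArg (fun t => pr (k⁻¹ * t * k)) y3

theorem prod1 {a b : Co1} (ha : IsConj z0 a) (hb : IsConj z0 b) (e : a * b = b * a) :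
    ∃ k, k * (a * b) * k⁻¹ ∈ A1 := by
  have l : ∀ a, IsConj z0 a → ∃ s, pr s = a ∧ s * s = 1 ∧ IsConj (eps (cw O0)) s := fun a ha => by
    obtain ⟨k, rfl⟩ := isConj_iff.1 ha
    obtain ⟨k, rfl⟩ := pr_sur k
    exact ⟨k * eps _ * k⁻¹, rfl, by rw [conj_mul, eps_sq]; simp, isConj_iff.2 ⟨k, rfl⟩⟩
  obtain ⟨s, rfl, s1, s2⟩ := l a ha
  obtain ⟨t, rfl, t1, -⟩ := l b hb
  rcases pr_eq (((map_mul _ _ _).trans e.symm).trans (map_mul _ _ _).symm) with e | e
  · have h : s * t * (s * t) = 1 := by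
      rw [mul_assoc, ← mul_assoc t, e, mul_assoc, t1, mul_one, s1]
    rcases sq_cls hc (h ▸ one_mem _) with ⟨w, e⟩ | e
    · obtain ⟨k, e⟩ := isConj_iff.1 e
      exact ⟨pr k, _, ⟨w, rfl⟩, by simp [← e]⟩
    · exact absurd ((sq_conj e (h ▸ one_mem _)).trans h) s0_sq
  · have h := tr_conj (isConj_iff.2 ⟨t, mul_inv_eq_iff_eq_mul.2 (e.trans (mul_assoc _ _ _).symm)⟩)
    rw [show ρ0 (eps om * s) = -ρ0 s from Matrix.ext fun i j => by
      rw [Matrix.neg_apply, ρ0_apply, ρ0_apply, ← mul_neg, ← Int.cast_neg]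
      exact congrArg (fun x : ℤ => (15 * x : ZMod 17)) (neg_one_mul _), Matrix.trace_neg,
      tr_conj s2] at h
    refine absurd h ?_
    simp only [Matrix.trace, Matrix.diag, ρ0_apply]
    decide +kernel

theorem nc1 {a b : Co1} (ha : a ^ 13 = 1) (hb : b ^ 23 = 1) (e : a * b = b * a) : a = 1 ∨ b = 1 := by
  obtain ⟨a, rfl, ha'⟩ := odd_lift (k := 6) ha
  obtain ⟨b, rfl, hb'⟩ := odd_lift (k := 11) hb
  have e : a * b * a⁻¹ = b := odd_eq (by rw [map_mul, map_mul, e, map_inv, mul_inv_cancel_right])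
    (by rw [conj_pow, hb']; simp) hb'
  refine or_iff_not_imp_right.2 fun b1 => ?_
  have p6 : P 6 ^ 23 = 1 := Subtype.ext (Equiv.ext (by decide +kernel))
  obtain ⟨g, -, hg⟩ := SuzG1.sylow_conj (H := ⊤) (p := 23) (by norm_num) (by rw [card_top, hc]; decide)
    trivial trivial hb' (fun e => b1 (by rw [e, map_one])) (c := mono (P 6)) (by rw [← map_pow, p6, map_one])
    fun e => absurd (e8_inj (a := 1) (b := 1) rfl (congrArg _ ((mono_e8 _ (pt 0)).symm.trans
      (congrArg (·.1 (e8 (pt 0))) e)))).1 (by decide +kernel)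
  obtain ⟨n, hn⟩ := hg.le (mem_zpowers _)
  have c1 : g⁻¹ * a * g * mono (P 6) = mono (P 6) * (g⁻¹ * a * g) := by
    have : a * b ^ n * a⁻¹ = b ^ n := by rw [← conj_zpow, e]
    rw [show b ^ n = _ from hn] at this
    simpa [mul_assoc] using congrArg (fun t => g⁻¹ * t * a * g) this
  have c2 : (g⁻¹ * a * g) ^ 13 = 1 := by
    rw [show g⁻¹ * a * g = g⁻¹ * a * g⁻¹⁻¹ by simp, conj_pow, ha']; simp
  suffices g⁻¹ * a * g = 1 by rw [show a = 1 by simpa [mul_assoc, inv_mul_eq_one] using this, map_one]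
  generalize g⁻¹ * a * g = s at c1 c2
  have c3 : (mono (P 6)).1 (s.1 leechV) = s.1 leechV := (congrArg (·.1 leechV) c1).symm.trans
    (congrArg s.1 (Subtype.ext (funext (by decide +kernel))))
  have c4 : s.1 leechV = leechV ∨ s.1 leechV = -leechV := by
    have h1 := (s.2.2 leechV).trans (show _ = 48 by decide +kernel)
    generalize s.1 leechV = y at c3 h1
    have h2 : ∀ n : ℕ, ∀ p, y.1 ((((P 6).1.symm : _ → _)^[n]) p) = y.1 p := fun n p => by
      induction n with
      | zero => rfl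
      | succ n ih => rw [Function.iterate_succ_apply', ← ih]; exact congrFun (congrArg Subtype.val c3) _
    have h3 : y.1 = fun p => if p = none then y.1 none else y.1 (some 0) := funext fun p => by
      split_ifs with h
      · rw [h]
      · obtain ⟨n, -, e⟩ := (by decide +kernel : ∀ p : GolayPt, p ≠ none → ∃ n < 23,
          (((P 6).1.symm : _ → _)^[n]) p = some 0) p h
        rw [← e, h2]
    have h4 := (mem_iff.1 y.2).2.1
    rw [Subtype.ext_iff, Subtype.ext_iff]
    rw [h3] at h1 h4 ⊢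
    generalize y.1 none = u at *
    generalize y.1 (some 0) = t at *
    simp [sqNorm] at h1 h4
    have : t = -1 ∨ t = 0 ∨ t = 1 := by
      have : t < 2 := by nlinarith
      have : -2 < t := by nlinarith
      omega
    have : -7 < u := by nlinarith
    have : u < 7 := by nlinarith
    rcases ‹_ ∨ _ ∨ _› with rfl | rfl | rfl <;> interval_cases u <;> first | omega | decide +kernel
  have c5 : (s * s).1 leechV = leechV := by
    change s.1 (s.1 _) = _
    rcases c4 with e | e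
    · rw [e, e]
    · rw [e, ← neg_one_zsmul, smul_eq, e]; simp
  have h1 := Co1Card.le_orbit (Co1Card.top_le hc)
  have f : (MulAction.orbit (⊤ : Subgroup Co0) leechV).Finite := Set.finite_of_ncard_ne_zero (by omega)
  have h2 := Co1Card.le_Cl (n := 48) (by decide) (F := f.toFinset) fun y hy => by
    obtain ⟨s, rfl⟩ := f.mem_toFinset.1 hy
    exact (s.1.2.2 leechV).trans (by decide +kernel)
  have h3 := (MulAction.stabilizer (⊤ : Subgroup Co0) leechV).index_mul_card
  rw [← Set.ncard_eq_toFinset_card _ f, (Co1Card.classes hc).2.2.2.1] at h2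
  rw [MulAction.index_stabilizer, card_top, hc, h1.antisymm' h2] at h3
  have h4 := orderOf_dvd_natCard (⟨⟨s * s, trivial⟩, c5⟩ : MulAction.stabilizer (⊤ : Subgroup Co0) leechV)
  rw [show Nat.card _ = 495766656000 by omega, ← orderOf_coe, ← orderOf_coe] at h4
  have h5 : s * s = 1 := orderOf_eq_one_iff.1 (Nat.eq_one_of_dvd_coprimes (by decide) h4
    (orderOf_dvd_of_pow_eq_one (n := 13) (by rw [← pow_two, ← pow_mul, mul_comm, pow_mul, c2, one_pow])))
  rw [show 13 = 2 * 6 + 1 from rfl, pow_succ, pow_mul, pow_two, h5, one_pow, one_mul] at c2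
  exact c2

theorem conj_z0 {x : Co1} (x2 : x * x = 1) (x1 : x ≠ 1)
    (h : Nat.card (centralizer ({x} : Set Co1)) = 89181388800) : IsConj z0 x := by
  have key : ∀ p y, Nat.Coprime 89181388800 p → y ^ p = 1 → y * x = x * y → y = 1 := fun p y hp y1 e =>
    orderOf_eq_one_iff.1 (Nat.eq_one_of_dvd_coprimes hp (h ▸ Subgroup.orderOf_dvd_natCard _
      (mem_centralizer_singleton_iff.2 e)) (orderOf_dvd_of_pow_eq_one y1))
  obtain ⟨m, hm⟩ := (inv1 hc x2).resolve_right fun ⟨y, y1, y2, e⟩ => y2 (key _ y (by decide) y1 e)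
  rcases typ1 hm with e | e | ⟨-, y, y1, y2, e⟩
  · exact absurd (by simpa using e) x1
  · exact e.trans (isConj_iff.2 ⟨m, rfl⟩).symm
  · exact absurd (by simpa [mul_assoc, inv_mul_eq_one] using key 11 (m⁻¹ * y * m⁻¹⁻¹) (by decide) (by
      rw [conj_pow, y1]; simp) (by simpa [mul_assoc] using congrArg (fun t => m⁻¹ * t * m) e)) y2

/-- The final step of the recognition. -/
theorem top {G : Type*} [Group G] [Finite G] (ι : Co1 →* G) (hι : Function.Injective ι) {x : Co1}
    (x2 : x * x = 1) (x1 : x ≠ 1) (hC : centralizer {ι x} ≤ ι.range)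
    (hH : Nat.card (centralizer ({ι x} : Set G)) = 89181388800) : ι.range = ⊤ :=
  Co1E.range_eq_top (B := A1) (fun h =>
    have c := conj_z0 hc x2 x1 h
    ⟨x2, fun _ _ => trivial, le_top, by
      rintro _ ⟨_, ⟨w, rfl⟩, rfl⟩; rw [← map_mul, eps_sq, map_one], card_A1,
    fun a ha => (typ1 ha).imp_right (Or.imp (fun e => by simpa using isConj_iff.1 (c.symm.trans e))
      fun e => ⟨fun m _ => e.1 m, e.2⟩), fun W hW e => free1 hW fun w hw e' => e w hw (c.symm.trans e'),
    fun v _ e => by simpa using inv1 hc e, fun m _ e => by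
      simpa using prod1 hc (c.trans (isConj_iff.2 ⟨m, rfl⟩)) c e, h,
    card_top.trans (Co1Card.card_Co1 hc), fun a _ b _ => nc1 hc⟩) ι hι hC hH

end Cfsg.Agent.Lib.Co1L
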