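import Cfsg.Agent.Lib.PairFin
import Cfsg.Agent.Lib.Co1TC
import Cfsg.Agent.Lib.Co1D
import Cfsg.Agent.Lib.Co1L4

/-! Identification of the first Conway group from a presentation and a model. -/

set_option autoImplicit false
set_option maxRecDepth 100000

namespace Cfsg.Agent.Lib.Co1Fin

open Subgroup Cfsg.Agent.Lib.PermNet Cfsg.Agent.Lib.Words Cfsg.Agent.Lib.PermGroup
  Cfsg.Agent.Lib.DCE Cfsg.Spor

theorem top_of_card (S : Subgroup Co1) (h : Nat.card S = 4157776806543360000) :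
    S = ⊤ ∧ Nat.card Co0 = 8315553613086720000 := by
  have e1 := (S.comap Co1L.pr).index_mul_card
  have e2 := S.index_mul_card
  have e3 := (center Co0).card_eq_card_quotient_mul_card_subgroup
  rw [index_comap_of_surjective _ Co1L.pr_sur] at e1
  rw [Co1Card.card_center, ← e2, ← e1, h, mul_assoc] at e3
  have e4 := Nat.eq_of_mul_eq_mul_left (Nat.pos_of_ne_zero S.index_ne_zero_of_finite) e3
  have hc := (Co1Card.card_le (S.comap Co1L.pr) (e4.trans (by norm_num)).ge).2.2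
  exact ⟨eq_top_of_card_eq _ (by rw [h, Co1Card.card_Co1 hc]), hc⟩

theorem iso_of (φ : ℕ → Co1) (hφ : ∀ w ∈ Co1TC.K1 ++ Co1D.RR, wval φ w = 1)
    (h1 : wval φ [28, 0, 19, 27, 18] ^ 13 = 1) (h2 : wval φ [28, 0, 19, 27, 18] ≠ 1)
    (h3 : wval φ [6, 8, 6, 8] ≠ 1)
    {G : Type*} [Group G] [Finite G] (f : ℕ → G) (hK : ∀ w ∈ Co1TC.K1, wval f w = 1)
    (hR : ∀ w ∈ Co1D.RR, wval f w = 1)
    (hC : centralizer {wval f [6, 8, 6, 8]} ≤ gp f (sing 15))
    (hH : Nat.card (centralizer ({wval f [6, 8, 6, 8]} : Set G)) = 89181388800) :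
    IsoCo1 G ∧ Nat.card G = 4157776806543360000 := by
  have hn : Co1D.dat.n0 = 14 := rfl
  have hT : Co1D.dat.T = 501397585920 := rfl
  have ht : Co1D.dat.tot = 8292375 := rfl
  have hRR : Co1D.dat.R = Co1D.RR := rfl
  obtain ⟨c, ι, i1, i2, i3⟩ := PairFin.pair Co1D.ok Co1TC.K1 Co1D.hK1 f φ
    (fun z hz => Co1TC.card_le z hz)
    (by rw [hn, hRR]; decide +kernel) (by rw [hRR]; exact all_append hK hR) (by rw [hRR]; exact hφ)
    [28, 0, 19, 27, 18] (by rw [hn]; decide) (q := 13) (by norm_num) (by rw [hT]; norm_num)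
    (by rw [ht]; norm_num) h1 h2
    (by
      rw [hn, hT]
      intro hd
      have := (card_dvd_of_le hC).trans hd
      rw [hH] at this
      norm_num at this)
    (by rw [ht, hT]; exact fun h => (top_of_card _ (by rw [h])).1)
  rw [ht, hT] at c
  rw [hn] at i2 i3
  have hc0 := (top_of_card ⊤ (by rw [card_top, c])).2
  have ez := i3 [6, 8, 6, 8] (by decide)
  have x2 : wval φ [6, 8, 6, 8] * wval φ [6, 8, 6, 8] = 1 := by
    rw [← wval_append]
    exact hφ _ (List.mem_append_left _ (by decide))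
  have r := Co1L.top hc0 ι i1 x2 h3 (by rw [ez, i2]; exact hC) (by rw [ez]; exact hH)
  let e := MulEquiv.ofBijective ι ⟨i1, MonoidHom.range_eq_top.1 r⟩
  exact ⟨⟨e.symm⟩, by rw [← Nat.card_congr e.toEquiv, c]⟩

end Cfsg.Agent.Lib.Co1Fin
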