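import Cfsg.Agent.Lib.Leech

/-! Code words as finite sets, their weights, and the minimal norm of the Leech lattice. -/

set_option autoImplicit false

namespace Cfsg.Agent.Lib.Co1Gol

open Cfsg.Agent.Lib.Golay Cfsg.Agent.Lib.Leech Cfsg.Spor Finset

/-- `S` is the support of a code word. -/
def Cd (S : Finset GolayPt) : Prop := S ∈ supports (golayCode : Set (GolayPt → ZMod 2))

/-- The indicator word. -/
def ind (S : Finset GolayPt) : GolayPt → ZMod 2 := fun p => if p ∈ S then 1 else 0

theorem support_ind (S : Finset GolayPt) : support₂ (ind S) = S := by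
  ext p; by_cases h : p ∈ S <;> simp [support₂, ind, h]

theorem cd_iff {S : Finset GolayPt} : Cd S ↔ ind S ∈ golayCode :=
  ⟨fun ⟨w, hw, e⟩ => by
    have : w = ind S := support_injective (e.trans (support_ind S).symm)
    exact this ▸ hw, fun h => ⟨_, h, support_ind S⟩⟩

theorem cd_empty : Cd ∅ := empty_mem_supports_golayCode

theorem cd_univ : Cd univ := univ_mem_supports_golayCode

theorem Cd.symmDiff {S T : Finset GolayPt} (hS : Cd S) (hT : Cd T) : Cd (symmDiff S T) := by
  rw [cd_iff] at *
  convert add_mem hS hT using 1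
  funext p
  by_cases h : p ∈ S <;> by_cases k : p ∈ T <;> simp [ind, h, k, Finset.mem_symmDiff]
  rfl

theorem Cd.compl {S : Finset GolayPt} (hS : Cd S) : Cd Sᶜ := by
  convert hS.symmDiff cd_univ using 1
  ext p; simp [Finset.mem_symmDiff]

/-- The mask of the code word with the number `n`. -/
def cm (n : ℕ) : ℕ := (List.finRange 12).foldr (fun (i : Fin 12) r => if n.testBit i then bm i ^^^ r else r) 0

/-- The code word with the number `n`. -/
def sp (n : ℕ) : Finset GolayPt := univ.filter fun p => (cm n).testBit (idx p)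

theorem wd_xor (a b : ℕ) : wd (a ^^^ b) = wd a + wd b := funext fun p => by
  simp only [wd, Nat.testBit_xor, Pi.add_apply]
  cases a.testBit _ <;> cases b.testBit _ <;> rfl

theorem ind_sp (n : ℕ) : ind (sp n) = wd (cm n) := funext fun p => by simp [ind, sp, wd]

theorem cd_sp (n : ℕ) : Cd (sp n) := by
  rw [cd_iff, ind_sp, cm]
  induction List.finRange 12 with
  | nil => exact (funext fun p => by simp [wd] : wd 0 = 0) ▸ zero_mem _
  | cons i l ih =>
    rw [List.foldr_cons]
    split_ifs
    · rw [wd_xor]; exact add_mem (wd_bm_mem i) ih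
    · exact ih

/-- The number of ones among the first 24 bits. -/
def pc (m : ℕ) : ℕ := ((List.range 24).filter m.testBit).length

theorem card_sp (n : ℕ) : (sp n).card = pc (cm n) := by
  have : (sp n).card = ((range 24).filter fun i => (cm n).testBit i).card :=
    Finset.card_nbij' idx Golay.pt (fun p hp => by simpa [sp, idx_lt] using hp)
      (fun i hi => by
        have hi' : i < 24 ∧ (cm n).testBit i = true := by simpa using hi
        simp [sp, idx_pt i hi'.1, hi'.2])
      (fun p _ => pt_idx p) (fun i hi => idx_pt i (by have := (mem_filter.1 hi).1; simpa using this))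
  rw [this, pc, ← List.toFinset_range, ← List.toFinset_filter,
    List.toFinset_card_of_nodup (List.nodup_range.filter _)]

theorem tab : (List.range 4096).all (fun n => Nat.beq (cm n % 4096) n && Nat.beq (pc (cm n) % 4) 0 &&
    (Nat.beq n 0 || Nat.ble 8 (pc (cm n)))) = true := by decide +kernel

theorem tab8 : ((List.range 4096).filter fun n => Nat.beq (pc (cm n)) 8).length = 759 := by decide +kernel

theorem tab' {n : ℕ} (hn : n < 4096) : cm n % 4096 = n ∧ (sp n).card % 4 = 0 ∧ (n = 0 ∨ 8 ≤ (sp n).card) := by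
  have := List.all_eq_true.1 tab n (List.mem_range.2 hn)
  simpa [card_sp, and_assoc, Nat.beq_eq, Nat.ble_eq] using this

theorem mem_sp {n : ℕ} (hn : n < 4096) {i : ℕ} (hi : i < 12) : Golay.pt i ∈ sp n ↔ n.testBit i = true := by
  have : n.testBit i = (cm n).testBit i := by
    conv_lhs => rw [← (tab' hn).1, show 4096 = 2 ^ 12 from rfl, Nat.testBit_mod_two_pow]
    simp [hi]
  simp [sp, idx_pt i (by omega), this]

theorem sp_inj : Set.InjOn sp (Set.Iio 4096) := fun m hm n hn e => Nat.eq_of_testBit_eq fun i => by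
  by_cases hi : i < 12
  · rw [Bool.eq_iff_iff, ← mem_sp hm hi, ← mem_sp hn hi, e]
  · have h : 4096 ≤ 2 ^ i := Nat.pow_le_pow_right (n := 2) two_pos (not_lt.1 hi)
    rw [Nat.testBit_eq_false_of_lt (lt_of_lt_of_le hm h), Nat.testBit_eq_false_of_lt (lt_of_lt_of_le hn h)]

theorem Cd.ext {S T : Finset GolayPt} (hS : Cd S) (hT : Cd T) (h : ∀ i < 12, Golay.pt i ∈ S ↔ Golay.pt i ∈ T) :
    S = T := by
  rw [← support_ind S, ← support_ind T, eq_sum_of_S (S_eq_zero (cd_iff.1 hS)), eq_sum_of_S (S_eq_zero (cd_iff.1 hT))]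
  congr 1
  exact sum_congr rfl fun i _ => by simp only [ind, h i i.2]

theorem Cd.exists_sp {S : Finset GolayPt} (hS : Cd S) : ∃ n < 4096, S = sp n := by
  have h := Nat.ofBits_lt_two_pow fun i : Fin 12 => decide (Golay.pt i ∈ S)
  refine ⟨_, h, hS.ext (cd_sp _) fun i hi => ?_⟩
  rw [mem_sp h hi, Nat.testBit_ofBits_lt _ _ hi, decide_eq_true_eq]

theorem Cd.mod {S : Finset GolayPt} (hS : Cd S) : S.card % 4 = 0 := by
  obtain ⟨n, hn, rfl⟩ := hS.exists_sp
  exact (tab' hn).2.1

theorem Cd.min {S : Finset GolayPt} (hS : Cd S) : S = ∅ ∨ 8 ≤ S.card := by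
  obtain ⟨n, hn, rfl⟩ := hS.exists_sp
  exact (tab' hn).2.2.imp_left fun e => by subst e; decide +kernel

/-- All code words. -/
def code : Finset (Finset GolayPt) := (range 4096).image sp

theorem mem_code {S : Finset GolayPt} : S ∈ code ↔ Cd S :=
  ⟨fun h => by obtain ⟨n, -, rfl⟩ := mem_image.1 h; exact cd_sp n,
    fun h => h.exists_sp.elim fun n hn => mem_image.2 ⟨n, mem_range.2 hn.1, hn.2.symm⟩⟩

theorem card_code : code.card = 4096 := by
  rw [code, card_image_of_injOn (by simpa using sp_inj), card_range]

theorem card_octads : (code.filter fun S => S.card = 8).card = 759 := by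
  rw [code, filter_image, card_image_of_injOn (sp_inj.mono fun n hn => by simpa using (mem_filter.1 hn).1), ← tab8]
  rw [← List.toFinset_card_of_nodup (List.nodup_range.filter _), List.toFinset_filter, List.toFinset_range]
  simp only [card_sp, Nat.beq_eq]

theorem Cd.inter {S T : Finset GolayPt} (hS : Cd S) (hT : Cd T) : (S ∩ T).card % 2 = 0 := by
  have h₁ := (hS.symmDiff hT).mod
  have h₂ := hS.mod
  have h₃ := hT.mod
  rw [symmDiff_def, sup_eq_union, card_union_of_disjoint disjoint_sdiff_sdiff] at h₁
  have := card_sdiff_add_card_inter S T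
  have := card_sdiff_add_card_inter T S
  rw [inter_comm T] at this
  omega

theorem sep : ∀ p q : GolayPt, p ≠ q → ∃ i : Fin 12, (bm i).testBit (idx p) ≠ (bm i).testBit (idx q) := by
  decide +kernel

theorem exists_sep {p q : GolayPt} (h : p ≠ q) : ∃ S, Cd S ∧ p ∉ S ∧ q ∈ S := by
  obtain ⟨i, hi⟩ := sep p q h
  have h₁ : Cd (support₂ (wd (bm i))) := ⟨_, wd_bm_mem i, rfl⟩
  cases h₂ : (bm i).testBit (idx p) <;> cases h₃ : (bm i).testBit (idx q) <;> simp only [h₂, h₃] at hi
  · exact absurd rfl hi
  · exact ⟨_, h₁, by simp [support₂, wd, h₂], by simp [support₂, wd, h₃]⟩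
  · exact ⟨_, h₁.compl, by simp [support₂, wd, h₂], by simp [support₂, wd, h₃]⟩
  · exact absurd rfl hi

/-! ### The lattice -/

theorem mem_of {y : V} (m : ℤ) {S : Finset GolayPt} (hS : Cd S)
    (h : ∀ p, (y p - m - if p ∈ S then 2 else 0) % 4 = 0) (hs : (∑ p, y p - 4 * m) % 8 = 0) : y ∈ leechLattice := by
  refine AddSubgroup.subset_closure ⟨m, fun p => ?_, ?_, fun k => ?_⟩
  · have := h p; unfold Int.ModEq; split_ifs at this <;> omega
  · unfold Int.ModEq; omega
  · change Cd _
    by_cases e : (k - m) % 2 = 0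
    · by_cases e' : (k - m) % 4 = 0
      · convert hS.compl using 1
        ext p
        have := h p
        rw [mem_filter, mem_compl, Int.ModEq, and_iff_right (mem_univ _)]
        split_ifs at this with hp <;> simp only [hp, not_true, not_false_iff, iff_true, iff_false] <;> omega
      · convert hS using 1
        ext p
        have := h p
        rw [mem_filter, Int.ModEq, and_iff_right (mem_univ _)]
        split_ifs at this with hp <;> simp only [hp, iff_true, iff_false] <;> omega
    · convert cd_empty using 1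
      ext p
      have := h p
      rw [mem_filter, Int.ModEq, and_iff_right (mem_univ _)]
      simp only [notMem_empty, iff_false]
      split_ifs at this <;> omega

theorem exists_cd {y : V} (hy : y ∈ leechLattice) : ∃ m : ℤ, (m = 0 ∨ m = 1) ∧ ∃ S, Cd S ∧
    (∀ p, (y p - m - if p ∈ S then 2 else 0) % 4 = 0) ∧ (∑ p, y p - 4 * m) % 8 = 0 := by
  obtain ⟨h₁, h₂, h₃⟩ := mem_iff.1 hy
  have hW : Cd (support₂ (W y)) := ⟨_, mem_golay_iff.2 (funext h₃), rfl⟩
  have hm : ∀ p, p ∈ support₂ (W y) ↔ (y p - y none) % 4 ≠ 0 := fun p => by simp [support₂, W]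
  refine ⟨y none % 2, by omega, ?_⟩
  by_cases e : y none % 4 < 2
  · refine ⟨_, hW, fun p => ?_, by omega⟩
    have := h₁ p
    have := hm p
    split_ifs with hp <;> simp only [hp, true_iff, false_iff] at this <;> omega
  · refine ⟨_, hW.compl, fun p => ?_, by omega⟩
    have := h₁ p
    have := hm p
    simp only [mem_compl]
    split_ifs with hp <;> simp only [hp, true_iff, false_iff] at this <;> omega

theorem cd_res {y : V} (hy : y ∈ leechLattice) (k : ℤ) {S : Finset GolayPt} (h : ∀ p, p ∈ S ↔ (y p - k) % 4 = 0) :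
    Cd S := by
  obtain ⟨m, -, T, hT, h₁, -⟩ := exists_cd hy
  by_cases e : (k - m) % 2 = 0
  · by_cases e' : (k - m) % 4 = 0
    · convert hT.compl using 1
      ext p
      have := h₁ p
      simp only [h, mem_compl]
      split_ifs at this with hp <;> simp only [hp, not_true, not_false_iff, iff_true, iff_false] <;> omega
    · convert hT using 1
      ext p
      have := h₁ p
      simp only [h]
      split_ifs at this with hp <;> simp only [hp, iff_true, iff_false] <;> omega
  · convert cd_empty using 1
    ext p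
    have := h₁ p
    simp only [h, notMem_empty, iff_false]
    split_ifs at this <;> omega

theorem sum_ind (S : Finset GolayPt) (a : ℤ) : ∑ p, (if p ∈ S then a else 0) = a * S.card := by
  simp [mul_comm]

theorem min_norm {y : V} (hy : y ∈ leechLattice) (h0 : y ≠ 0) : 32 ≤ sqNorm y := by
  obtain ⟨m, hm, S, hS, h₁, h₂⟩ := exists_cd hy
  by_contra hlt
  have sq : ∀ p, 0 ≤ y p ^ 2 := fun p => sq_nonneg _
  rcases hm with rfl | rfl
  · rcases hS.min with rfl | h8
    · obtain ⟨p, hp⟩ := Function.ne_iff.1 h0
      have hb : ∀ q, y q ≠ 0 → 16 ≤ y q ^ 2 := fun q hq => by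
        have := h₁ q
        simp only [notMem_empty, if_false] at this
        rcases (by omega : y q ≤ -4 ∨ 4 ≤ y q) with h | h <;> nlinarith
      have hz : ∀ q ≠ p, y q = 0 := fun q hq => by
        by_contra h
        have := sum_le_sum_of_subset_of_nonneg (f := fun r => y r ^ 2) (subset_univ {q, p}) fun r _ _ => sq r
        rw [sum_pair hq] at this
        have := hb q h
        have := hb p hp
        unfold sqNorm at hlt
        omega
      rw [sqNorm, sum_eq_single p (fun q _ hq => by simp [hz q hq]) (by simp)] at hlt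
      rw [sum_eq_single p (fun q _ hq => hz q hq) (by simp)] at h₂
      have : y p ≠ 0 := hp
      rcases (by omega : y p ≤ -8 ∨ 8 ≤ y p) with h | h <;> nlinarith
    · have : ∑ p, (if p ∈ S then (4 : ℤ) else 0) ≤ sqNorm y := sum_le_sum fun p _ => by
        have := h₁ p
        split_ifs at this ⊢
        · rcases (by omega : y p ≤ -2 ∨ 2 ≤ y p) with h | h <;> nlinarith
        · exact sq p
      rw [sum_ind] at this
      omega
  · have hb : ∀ q, 1 ≤ y q ^ 2 := fun q => by
      have := h₁ q
      rcases (by split_ifs at this <;> omega : y q ≤ -1 ∨ 1 ≤ y q) with h | h <;> nlinarith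
    have hz : ∀ p, y p = 1 - if p ∈ S then 2 else 0 := fun p => by
      have h := sum_le_sum (s := univ.erase p) (f := fun _ => (1 : ℤ)) fun q _ => hb q
      have h' := add_sum_erase univ (fun q => y q ^ 2) (mem_univ p)
      rw [sum_const, card_erase_of_mem (mem_univ p), show (univ : Finset GolayPt).card = 24 from rfl] at h
      have h3 : y p ^ 2 < 9 := by unfold sqNorm at hlt; simp only [nsmul_eq_mul] at h; push_cast at h; omega
      have : -3 < y p ∧ y p < 3 := ⟨by nlinarith, by nlinarith⟩
      have := h₁ p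
      split_ifs at this ⊢ <;> omega
    simp only [hz, sum_sub_distrib, sum_ind] at h₂
    rw [show ∑ _p : GolayPt, (1 : ℤ) = 24 from rfl] at h₂
    have := hS.mod
    omega

end Cfsg.Agent.Lib.Co1Gol
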