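import Cfsg.Agent.Lib.CoM
import Cfsg.Agent.Lib.M24Ord

/-! Changes of signs on the generators of the Leech lattice. -/

set_option autoImplicit false
set_option maxRecDepth 100000

namespace Cfsg.Agent.Lib.Co1L

open Subgroup Cfsg.Agent.Lib.Golay Cfsg.Agent.Lib.Leech Cfsg.Agent.Lib.CoM Cfsg.Spor Equiv

/-- The sign. -/
def s2 (a : ZMod 2) : ℤ := if a = 0 then 1 else -1

/-- The signs of a word. -/
def sg (w : GolayPt → ZMod 2) (p : GolayPt) : ℤ := s2 (w p)

theorem sg_add (v w : GolayPt → ZMod 2) : sg (v + w) = sg v * sg w := funext fun _ =>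
  (by decide : ∀ a b, s2 (a + b) = s2 a * s2 b) _ _

theorem sg_sq (w : GolayPt → ZMod 2) (p : GolayPt) : sg w p * sg w p = 1 :=
  (by decide : ∀ a, s2 a * s2 a = 1) _

theorem sg_inj {v w : GolayPt → ZMod 2} {p q : GolayPt} : sg v p = sg w q → v p = w q :=
  (by decide : ∀ a b, s2 a = s2 b → a = b) _ _

theorem sg_gen (i : Fin 12) (j : Fin 12 ⊕ Option GolayPt) : Chk (sg (wd (bm i)) * Leech.gen j) := by
  rw [← vec_map (_ * _)]
  exact chk_of (by simp) (by revert i j; decide +kernel)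

theorem g4 (j : GolayPt) : Leech.gen (.inr (some j)) ∈ leechLattice :=
  mem_iff.2 (by revert j; decide +kernel)

theorem g3 : Leech.gen (.inr none) ∈ leechLattice := mem_iff.2 (by decide +kernel)

theorem wd_bm : ∀ i j : Fin 12, wd (bm i) (pt j) = if i = j then 1 else 0 := by decide +kernel

theorem mem_sup {w : GolayPt → ZMod 2} {p : GolayPt} : p ∈ support₂ w ↔ w p ≠ 0 := by
  simp [support₂]

end Cfsg.Agent.Lib.Co1L
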