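import Cfsg.Agent.Lib.Co1L0

/-! Changes of signs and monomial automorphisms of the Leech lattice. -/

set_option autoImplicit false
set_option maxRecDepth 100000

namespace Cfsg.Agent.Lib.Co1L

open Subgroup Cfsg.Agent.Lib.Golay Cfsg.Agent.Lib.Leech Cfsg.Agent.Lib.CoM Cfsg.Spor Equiv

theorem sg_mem {w : GolayPt → ZMod 2} (hw : w ∈ golayCode) :
    ∀ y ∈ leechLattice, sg w * y ∈ leechLattice := by
  have z : ∀ y ∈ leechLattice, sg 0 * y ∈ leechLattice := fun y hy => by
    rwa [show sg 0 = 1 from funext fun _ => rfl, one_mul]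
  rw [eq_sum_of_S (S_eq_zero hw)]
  refine Finset.sum_induction _ (fun w => ∀ y ∈ leechLattice, sg w * y ∈ leechLattice)
    (fun a b ha hb y hy => by rw [sg_add, mul_assoc]; exact ha _ (hb y hy)) z fun i _ => ?_
  rcases (by decide : ∀ t : ZMod 2, t = 0 ∨ t = 1) (w (pt i)) with e | e <;> rw [e]
  · rwa [zero_smul]
  · rw [one_smul]
    exact induct (leechLattice.comap (AddMonoidHom.mulLeft _)) fun j => mem_iff.2 (sg_gen i j)

/-- The change of signs on a code word. -/
def eps (w : golayCode) : Co0 :=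
  ⟨Function.Involutive.toPerm (fun y => ⟨sg w * y, sg_mem w.2 _ y.2⟩) fun y => Subtype.ext
    (funext fun p => by simp [← mul_assoc, sg_sq]), fun _ _ => Subtype.ext (mul_add _ _ _),
    fun y => Finset.sum_congr rfl fun p _ => by
      change (sg w p * y.1 p) ^ 2 = _
      rw [mul_pow, sq, sg_sq, one_mul]⟩

theorem eps_apply (w : golayCode) (y : leechLattice) : ((eps w).1 y).1 = sg w * y.1 := rfl

theorem ext0 {s t : Co0} (h : ∀ y, (s.1 y).1 = (t.1 y).1) : s = t :=
  Subtype.ext (Equiv.ext fun y => Subtype.ext (h y))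

theorem ext8 {s t : Co0} (h : ∀ q, (s.1 (e8 q)).1 = (t.1 (e8 q)).1) : s = t :=
  ext0 fun y => funext fun p => mul_left_cancel₀ (show (8 : ℤ) ≠ 0 by decide) (by
    simp only [exp8, h])

theorem eps_add (v w : golayCode) : eps (v + w) = eps v * eps w := ext0 fun y => by
  rw [eps_apply, Submodule.coe_add, sg_add, mul_assoc]; rfl

theorem eps_zero : eps 0 = 1 := ext0 fun y => funext fun p => one_mul _

theorem eps_sq (w : golayCode) : eps w * eps w = 1 := by
  rw [← eps_add, ← two_smul (ZMod 2), show (2 : ZMod 2) = 0 from rfl, zero_smul, eps_zero]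

theorem smul_eq (s : Co0) (c : ℤ) (y : leechLattice) : s.1 (c • y) = c • s.1 y :=
  map_zsmul (AddMonoidHom.mk' s.1 s.2.1) c y

theorem eps_e8 (w : golayCode) (q : GolayPt) : (eps w).1 (e8 q) = sg w q • e8 q :=
  Subtype.ext (funext fun p => by
    change sg w p * (if p = q then 8 else 0) = sg w q * (if p = q then 8 else 0)
    split_ifs with h <;> simp [h])

theorem mono_e8 (g : M24) (q : GolayPt) : (mono g).1 (e8 q) = e8 (g.1 q) :=
  Subtype.ext (funext fun p => by simp [mono_apply, e8, Equiv.symm_apply_eq])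

theorem e8_inj {a b : ℤ} {p q : GolayPt} (ha : a * a = 1) (h : a • e8 p = b • e8 q) :
    p = q ∧ a = b := by
  have := congrFun (congrArg Subtype.val h) p
  change a * (if p = p then 8 else 0) = b * (if p = q then 8 else 0) at this
  rw [if_pos rfl] at this
  split_ifs at this with e
  · exact ⟨e, by omega⟩
  · obtain rfl : a = 0 := by omega
    simp at ha

theorem eps_inj : Function.Injective eps := fun v w h => Subtype.ext (funext fun p =>
  sg_inj (e8_inj (sg_sq _ _) (by rw [← eps_e8, h, eps_e8])).2)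

/-- The group of the changes of signs. -/
def A0 : Subgroup Co0 where
  carrier := Set.range eps
  mul_mem' := by rintro _ _ ⟨v, rfl⟩ ⟨w, rfl⟩; exact ⟨_, eps_add v w⟩
  one_mem' := ⟨0, eps_zero⟩
  inv_mem' := by rintro _ ⟨v, rfl⟩; exact ⟨v, eq_inv_of_mul_eq_one_left (eps_sq v)⟩

theorem card_code : Nat.card golayCode = 4096 := by
  rw [Nat.card_congr (Equiv.ofBijective (fun (w : golayCode) (i : Fin 12) => w.1 (pt i))
    ⟨fun v w h => Subtype.ext (by
      rw [eq_sum_of_S (S_eq_zero v.2), eq_sum_of_S (S_eq_zero w.2)]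
      exact Finset.sum_congr rfl fun i _ => congrArg (· • _) (congrFun h i)),
    fun c => ⟨⟨∑ i, c i • wd (bm i), Submodule.sum_mem _ fun i _ =>
      Submodule.smul_mem _ _ (wd_bm_mem i)⟩, funext fun j => by
        simp [wd_bm]⟩⟩)]
  simp

theorem card_A0 : Nat.card A0 = 4096 := (Nat.card_range_of_injective eps_inj).trans card_code

theorem diag {s : Co0} (h : ∀ q, ∃ c : ℤ, c * c = 1 ∧ s.1 (e8 q) = c • e8 q) : s ∈ A0 := by
  choose c h1 h2 using h
  have h3 : ∀ p, c p = 1 ∨ c p = -1 := fun p => Int.eq_one_or_neg_one_of_mul_eq_one (h1 p)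
  have h4 : ∀ y p, (s.1 y).1 p = c p * y.1 p := fun y p =>
    mul_left_cancel₀ (show (8 : ℤ) ≠ 0 by decide) (by
      rw [exp8, Finset.sum_eq_single p (fun q _ hq => by rw [h2]; simp [e8, hq.symm]) (by simp), h2]
      simp [e8]; ring)
  have h5 := mem_golay_iff.2 (funext (mem_iff.1
    (s.1 ⟨_, g3⟩).2).2.2)
  rw [show (s.1 ⟨_, g3⟩).1 = fun p => c p * Leech.gen (.inr none) p from funext (h4 _)] at h5
  refine ⟨⟨fun p => if c p = 1 then 0 else 1, ?_⟩, ext0 fun y => funext fun p => ?_⟩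
  · convert add_mem h5 (show (if c none = 1 then 0 else 1) ∈ golayCode by
      split_ifs; exacts [zero_mem _, one_mem_code]) using 1
    funext p
    simp only [W, Leech.gen, Pi.add_apply]
    rcases h3 p with e | e <;> rcases h3 none with e' | e' <;> by_cases hp : p = none <;>
      simp_all <;> rfl
  · refine Eq.trans ?_ (h4 y p).symm
    change s2 (if c p = 1 then 0 else 1) * _ = _
    rcases h3 p with e | e <;> simp [e, s2]

/-- The element permutes the coordinate frame. -/
def Fr (s : Co0) : Prop := ∀ q, ∃ p, ∃ c : ℤ, c * c = 1 ∧ s.1 (e8 q) = c • e8 p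

instance : Finite A0 := Nat.finite_of_card_ne_zero (by rw [card_A0]; decide)

theorem Fr.norm {s : Co0} (h : Fr s) : s ∈ normalizer (A0 : Set Co0) := by
  choose τ c h1 h2 using h
  have h3 : ∀ q, s.1 (c q • e8 q) = e8 (τ q) := fun q => by
    rw [smul_eq, h2, smul_smul, h1, one_smul]
  have h4 : Function.Surjective τ := Finite.injective_iff_surjective.1 fun p q e =>
    (e8_inj (h1 p) (s.1.injective (by rw [h3, h3, e]))).1
  have : Finite (A0 : Set Co0) := inferInstanceAs (Finite A0)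
  refine mem_normalizer_fintype ?_
  rintro _ ⟨w, rfl⟩
  refine diag fun p => ?_
  obtain ⟨q, rfl⟩ := h4 p
  refine ⟨_, sg_sq w q, ?_⟩
  change s.1 ((eps w).1 (s.1.symm _)) = _
  rw [← h3, Equiv.symm_apply_apply, smul_eq, eps_e8, smul_comm, smul_eq]

/-- The image of a code word. -/
def img (g : M24) (w : golayCode) : golayCode := ⟨w.1 ∘ g.1.symm, mem_M24_iff.1 g.2 _ w.2⟩

theorem mono_eps (g : M24) (w : golayCode) : mono g * eps w = eps (img g w) * mono g :=
  ext0 fun _ => rfl

/-- The all-ones word. -/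
def om : golayCode := ⟨1, one_mem_code⟩

/-- The weight. -/
def wt (w : golayCode) : ℕ := (support₂ w.1).card

theorem wt_img (g : M24) (w : golayCode) : wt (img g w) = wt w := by
  rw [wt, img, ← smul_support, Finset.card_smul_finset, wt]

theorem wt_om (w : golayCode) : wt (w + om) + wt w = 24 := by
  rw [wt, show support₂ (w + om).1 = (support₂ w.1)ᶜ from Finset.ext fun p => by
    rw [Finset.mem_compl, mem_sup, mem_sup]
    exact (by decide : ∀ a : ZMod 2, a + 1 ≠ 0 ↔ ¬ a ≠ 0) _, wt, Finset.card_compl_add_card]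
  rfl

variable (hm : ∀ w : golayCode, w ≠ 0 → 8 ≤ wt w)
include hm

theorem mod4 {u : golayCode} (hu : wt u = 12) {x : leechLattice} (hx : sqNorm x.1 = 32)
    (h : ∀ p, u.1 p = 0 → x.1 p = 0) (p : GolayPt) : 4 ∣ x.1 p := by
  obtain ⟨h1, -, h2⟩ := mem_iff.1 x.2
  obtain ⟨p0, h3⟩ : ∃ p, u.1 p = 0 := by_contra fun hn => by
    rw [wt, Finset.eq_univ_of_forall fun p => mem_sup.2 fun e => hn ⟨p, e⟩] at hu
    exact absurd hu (by decide)
  have h4 := h1 p0
  rw [h p0 h3] at h4
  let C : golayCode := ⟨_, add_mem (mem_golay_iff.2 (funext h2))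
    (show (if x.1 none % 4 = 0 then 0 else 1) ∈ golayCode by
      split_ifs; exacts [zero_mem _, one_mem_code])⟩
  have hC : ∀ p, C.1 p = 0 ↔ 4 ∣ x.1 p := fun p => by
    have := h1 p
    simp only [C, W, Pi.add_apply]
    split_ifs <;> simp only [Pi.zero_apply, Pi.one_apply, add_zero, zero_add, one_ne_zero, true_iff,
      false_iff, show (1 + 1 : ZMod 2) = 0 from rfl] <;> omega
  have h5 : (wt C : ℤ) * 4 ≤ 32 := by
    rw [← hx, wt, ← nsmul_eq_mul, ← Finset.sum_const]
    refine (Finset.sum_le_sum fun p hp => ?_).trans (Finset.sum_le_sum_of_subset_of_nonneg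
      (Finset.subset_univ _) fun _ _ _ => sq_nonneg _)
    have := (hC p).not.1 (Finset.mem_filter.1 hp).2
    have := h1 p
    rcases (by omega : x.1 p ≤ -2 ∨ 2 ≤ x.1 p) with e | e <;> nlinarith
  have h6 : support₂ C.1 ⊆ support₂ u.1 := fun p hp => Finset.mem_filter.2 ⟨Finset.mem_univ _,
    fun e => (Finset.mem_filter.1 hp).2 ((hC p).2 (by simp [h p e]))⟩
  have h7 : wt (u + C) + wt C = 12 := by
    rw [← hu, wt, wt, wt, ← Finset.card_sdiff_add_card_eq_card h6]
    congr 2
    ext p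
    rw [Finset.mem_sdiff, mem_sup, mem_sup, mem_sup]
    exact (by decide : ∀ a b : ZMod 2, (b ≠ 0 → a ≠ 0) → (a + b ≠ 0 ↔ a ≠ 0 ∧ ¬ b ≠ 0)) _ _
      fun h => mem_sup.1 (h6 (mem_sup.2 h))
  refine (hC p).1 (congrFun (congrArg Subtype.val (show C = 0 from by_contra fun e => ?_)) p)
  have h8 := hm C e
  have h9 := hm (u + C) fun e => by
    rw [e, show wt 0 = 0 by simp [wt, support₂]] at h7; omega
  omega

theorem fr_of {s : Co0} {v v' : golayCode} (hv : wt v = 12) (hv' : wt v' = 12)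
    (e : s * eps v = eps v' * s) : Fr s := fun q => by
  obtain ⟨u, u', hu, hu', hq, e⟩ : ∃ u u', wt u = 12 ∧ wt u' = 12 ∧ u.1 q ≠ 0 ∧
      s * eps u = eps u' * s := by
    by_cases h : v.1 q = 0
    · refine ⟨v + om, v' + om, by have := wt_om v; omega, by have := wt_om v'; omega,
        by simp [om, h], ?_⟩
      rw [eps_add, eps_add, ← mul_assoc, e, mul_assoc, mul_assoc]
      exact congrArg _ (ext0 fun y => congrArg Subtype.val (smul_eq s (-1) y))
    · exact ⟨v, v', hv, hv', h, e⟩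
  have neg : ∀ (u : golayCode) (y : leechLattice), (eps u).1 y = (-1 : ℤ) • y ↔
      ∀ p, u.1 p = 0 → y.1 p = 0 := fun u y => by
    rw [Subtype.ext_iff, funext_iff]
    refine forall_congr' fun p => ?_
    change sg u p * y.1 p = -1 * y.1 p ↔ _
    rw [sg, s2]; split_ifs with h <;> simp [h]; omega
  have tr : ∀ y, (∀ p, u'.1 p = 0 → (s.1 y).1 p = 0) ↔ ∀ p, u.1 p = 0 → y.1 p = 0 := fun y => by
    rw [← neg, ← neg, ← smul_eq, ← s.1.injective.eq_iff (a := (eps u).1 y)]
    exact Eq.congr_left (congrArg (·.1 y) e).symm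
  have y0 := (tr (e8 q)).2 fun p hp => if_neg fun e : p = q => hq (e ▸ hp)
  have yn : sqNorm (s.1 (e8 q)).1 = 64 := by
    rw [s.2.2]; simp [sqNorm, e8, -Fintype.sum_option]
  have key : ∀ x : leechLattice, sqNorm x.1 = 32 → (∀ p, u'.1 p = 0 → x.1 p = 0) →
      32 ∣ dotInt (s.1 (e8 q)).1 x.1 := fun x h1 h2 => by
    obtain ⟨x, rfl⟩ := s.1.surjective x
    have := mod4 hm hu (s.2.2 x ▸ h1) ((tr x).1 h2) q
    rw [dot_eq s.2, show dotInt (e8 q).1 x.1 = 8 * x.1 q by simp [dotInt, e8, -Fintype.sum_option]]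
    omega
  generalize s.1 (e8 q) = y at *
  have h8 : ∀ j k, j ≠ k → u'.1 j ≠ 0 → u'.1 k ≠ 0 → 8 ∣ y.1 j - y.1 k ∧ 8 ∣ y.1 j + y.1 k :=
    fun j k jk hj hk => by
      have a : ∀ c : ℤ, c * c = 16 → ∀ x : leechLattice,
          (∀ p, x.1 p = (if p = j then 4 else 0) + if p = k then c else 0) →
          32 ∣ y.1 j * 4 + y.1 k * c := fun c hc x hx => by
        have := key x (by
          rw [sq_eq]; simp [dotInt, hx, mul_add, Finset.sum_add_distrib, jk, jk.symm, hc,
            -Fintype.sum_option]) fun p hp => by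
          rw [hx, if_neg fun e : p = j => hj (e ▸ hp), if_neg fun e : p = k => hk (e ▸ hp)]; rfl
        simpa [dotInt, hx, mul_add, Finset.sum_add_distrib, -Fintype.sum_option] using this
      have a1 := a (-4) rfl (⟨_, g4 j⟩ - ⟨_, g4 k⟩) fun p => by
        simp only [AddSubgroup.coe_sub, Pi.sub_apply, Leech.gen]; split_ifs <;> rfl
      have a2 := a 4 rfl (⟨_, g4 j⟩ - ⟨_, g4 k⟩ + e8 k) fun p => by
        simp only [AddSubgroup.coe_sub, AddSubgroup.coe_add, Pi.sub_apply, Pi.add_apply, Leech.gen, e8]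
        split_ifs <;> rfl
      omega
  have h9 : ∀ j, 8 ∣ y.1 j := fun j => by_contra fun hj => by
    have j1 : u'.1 j ≠ 0 := fun e => hj (by simp [y0 j e])
    obtain ⟨k, k1, k2⟩ := Finset.exists_mem_ne (s := support₂ u'.1) (by rw [← wt, hu']; decide) j
    have := h8 j k k2.symm j1 (Finset.mem_filter.1 k1).2
    have : (wt u' : ℤ) * 16 ≤ 64 := by
      rw [← yn, wt, ← nsmul_eq_mul, ← Finset.sum_const]
      refine (Finset.sum_le_sum fun p hp => ?_).trans (Finset.sum_le_sum_of_subset_of_nonneg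
        (Finset.subset_univ _) fun _ _ _ => sq_nonneg _)
      have : y.1 p ≤ -4 ∨ 4 ≤ y.1 p := by
        by_cases e : j = p
        · subst e; omega
        · have := h8 j p e j1 (Finset.mem_filter.1 hp).2; omega
      rcases this with e | e <;> nlinarith
    omega
  obtain ⟨p, hp⟩ : ∃ p, y.1 p ≠ 0 := by_contra fun hn => by
    simp only [not_exists, not_not] at hn
    simp [sqNorm, hn] at yn
  obtain ⟨c, hc⟩ := h9 p
  rw [sqNorm, ← Finset.add_sum_erase _ _ (Finset.mem_univ p), hc] at yn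
  have n0 : ∀ r ∈ Finset.univ.erase p, 0 ≤ y.1 r ^ 2 := fun _ _ => sq_nonneg _
  have n1 := Finset.sum_nonneg n0
  have n2 : 0 < c * c := mul_self_pos.2 fun e => hp (by simp [hc, e])
  have n3 := (Finset.sum_eq_zero_iff_of_nonneg n0).1 (by nlinarith)
  refine ⟨p, c, by nlinarith, Subtype.ext (funext fun r => ?_)⟩
  change _ = c * (if r = p then 8 else 0)
  split_ifs with h
  · rw [h, hc, mul_comm]
  · simpa using n3 r (by simp [h])

end Cfsg.Agent.Lib.Co1L
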