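import Cfsg.Agent.Lib.Co1L1
import Cfsg.Agent.Lib.Co1LD
import Cfsg.Agent.Lib.Co1Card

/-! The orbits of `M24` on the code words and the classes of involutions of `M24`. -/

set_option autoImplicit false
set_option maxRecDepth 100000

namespace Cfsg.Agent.Lib.Co1L

open Subgroup Cfsg.Agent.Lib.Golay Cfsg.Agent.Lib.Leech Cfsg.Agent.Lib.CoM Cfsg.Spor Equiv
  Cfsg.Agent.Lib.Co1Gol Cfsg.Agent.Lib.PermNet Cfsg.Agent.Lib.Words Cfsg.Agent.Lib.PermGroup
  Cfsg.Agent.Lib.DCE Cfsg.Agent.Lib.PermModel Cfsg.Agent.Lib.BT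

theorem hm (w : golayCode) (h : w ≠ 0) : 8 ≤ wt w :=
  (Cd.min ⟨_, w.2, rfl⟩).resolve_left fun e => h (Subtype.ext (support_injective
    (e.trans (by simp [support₂]))))

/-- The list of images. -/
def L1 (i : Fin 14) : List ℕ := (PL.getD i ([], [])).1

/-- The list of preimages. -/
def L2 (i : Fin 14) : List ℕ := (PL.getD i ([], [])).2

/-- Some elements of `M24`. -/
def P (i : Fin 14) : M24 :=
  ⟨ofList (L1 i) (L2 i) (by revert i; decide +kernel), mem_M24_of (by revert i; decide +kernel)⟩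

/-- The image of a mask. -/
noncomputable def pm (l : List ℕ) (c : ℕ) : ℕ :=
  List.rec (motive := fun _ => ℕ) 0 (fun i _ r => Nat.add (Nat.mul 2 r) (Nat.mod (Nat.shiftRight c i) 2)) l

theorem pm_bit (l : List ℕ) (c j : ℕ) :
    (pm l c).testBit j = (decide (j < l.length) && c.testBit (l.getD j 0)) := by
  induction l generalizing j with
  | nil => simp [pm]
  | cons i l ih =>
    change (2 * pm l c + (c >>> i) % 2).testBit j = _
    cases j with
    | zero => simp [Nat.testBit, Nat.add_mod]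
    | succ j =>
      rw [Nat.testBit_succ, show (2 * pm l c + (c >>> i) % 2) / 2 = pm l c by omega, ih]; simp

theorem L2_lt : ∀ i, (L2 i).length = 24 ∧ ∀ p, idx (pt ((L2 i).getD (idx p) 0)) = (L2 i).getD (idx p) 0 := by
  decide +kernel

theorem pm_lt (i : Fin 14) (c : ℕ) : pm (L2 i) c < 2 ^ 24 :=
  Nat.lt_pow_two_of_testBit _ fun j hj => by simp [pm_bit, (L2_lt i).1, hj.not_gt]

theorem img_P (i : Fin 14) {w : golayCode} {c : ℕ} (h : w.1 = wd c) :
    (img (P i) w).1 = wd (pm (L2 i) c) := funext fun p => by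
  change w.1 (pt _) = _
  simp only [h, wd, pm_bit, (L2_lt i).1, (L2_lt i).2, idx_lt, decide_true, Bool.true_and]

theorem wd_inj {a b : ℕ} (ha : a < 2 ^ 24) (hb : b < 2 ^ 24) (h : wd a = wd b) : a = b :=
  Nat.eq_of_testBit_eq fun j => by
    by_cases hj : j < 24
    · have := congrFun h (pt j)
      simp only [wd, idx_pt j hj] at this
      revert this
      cases a.testBit j <;> cases b.testBit j <;> decide
    · have := Nat.pow_le_pow_right (n := 2) two_pos (not_lt.1 hj)
      rw [Nat.testBit_eq_false_of_lt (ha.trans_le this), Nat.testBit_eq_false_of_lt (hb.trans_le this)]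

theorem all_code {k : ℕ → Bool} (h : allSp k ((List.finRange 12).map bm) 0 = true) (w : golayCode) :
    ∃ c, w.1 = wd c ∧ k c = true :=
  let ⟨c, h1, h2⟩ := exists_mask w.2
  ⟨c, h2, allSp_sound h (by rwa [Nat.xor_zero])⟩

/-- The code word with given information bits. -/
def cw (n : ℕ) : golayCode := ⟨wd (cm n), ind_sp n ▸ cd_iff.1 (cd_sp n)⟩

theorem cw_eq {w : golayCode} {c : ℕ} (h : w.1 = wd c) (e : cm c = c) : w = cw c :=
  Subtype.ext (h.trans (congrArg wd e).symm)

theorem img_mul (g h : M24) (w : golayCode) : img (g * h) w = img g (img h w) := rfl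

/-- The entry of the table of distances. -/
noncomputable def rd (c : ℕ) : ℕ := Nat.mod (Nat.shiftRight rk (Nat.mul 8 (Nat.mod c 4096))) 256

theorem rk_ok : allSp (fun c => Nat.blt c (2 ^ 24) && (decide (c ∈ [0, O0, D0, O0 ^^^ 16777215, 16777215]) ||
    Nat.blt (rd (pm (L2 (if rd c % 4 = 0 then 0 else if rd c % 4 = 1 then 1 else 4)) c) / 4) (rd c / 4)))
    ((List.finRange 12).map bm) 0 = true := by decide +kernel

theorem om_eq : om.1 = wd 16777215 := funext (by decide +kernel)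

theorem cls (w : golayCode) : ∃ g : M24, img g w = 0 ∨ img g w = cw O0 ∨ img g w = cw D0 ∨
    img g w = cw O0 + om ∨ img g w = om := by
  obtain ⟨c, e, h⟩ := all_code rk_ok w
  replace h := Nat.le_of_ble_eq_true (Bool.and_eq_true_iff.1 h).1
  induction hn : rd c / 4 using Nat.strong_induction_on generalizing w c with | _ n ih =>
  obtain ⟨c', e', h'⟩ := all_code rk_ok w
  simp only [Bool.and_eq_true, Bool.or_eq_true, Nat.blt_eq, decide_eq_true_eq] at h'
  obtain rfl := wd_inj h h'.1 (e.symm.trans e')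
  rcases h'.2 with h1 | h1
  · refine ⟨1, ?_⟩
    simp only [List.mem_cons, List.not_mem_nil, or_false] at h1
    rcases h1 with rfl | rfl | rfl | rfl | rfl
    · exact .inl (Subtype.ext (e.trans (funext (by decide +kernel))))
    · exact .inr (.inl (cw_eq e (by decide +kernel)))
    · exact .inr (.inr (.inl (cw_eq e (by decide +kernel))))
    · exact .inr (.inr (.inr (.inl (Subtype.ext (e.trans (funext (by decide +kernel)))))))
    · exact .inr (.inr (.inr (.inr (Subtype.ext (e.trans om_eq.symm)))))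
  · obtain ⟨g, hg⟩ := ih _ (hn ▸ h1) _ _ (img_P _ e) (pm_lt _ _) rfl
    exact ⟨g * P _, hg⟩

theorem inv24 {g : M24} (g2 : g * g = 1) (g1 : g ≠ 1) : IsConj g (P 2) ∨ IsConj g (P 3) := by
  have lt : ∀ (g : M24), ∀ p < 24, M24Ord.phi g.1 p = Golay.act g.1 p := fun g p hp => by
    rw [Golay.act, ← M24Ord.phi_idx, idx_pt p hp]
  have inj := M24Ord.phi_injective.comp (subtype_injective M24)
  obtain ⟨M, hM⟩ := vTM.mk_model (f := fun i => (P (Fin.ofNat 14 i)).1) (Z := ⊥)
    (M24Ord.phi.comp M24.subtype) (fun i => P (Fin.ofNat 14 i)) (fun _ _ => rfl)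
    (fun i hi => Equiv.ext fun p => by
      by_cases hp : p < 24
      · rw [vok.apply i hp]
        refine (lt _ p hp).trans ?_
        revert i p; decide +kernel
      · have := tp_fix (N := 24) (wb := 5) (mask := 31) vtt [2 * i] (not_lt.1 hp)
        rw [wval_cons, wval_nil, mul_one, lval, if_pos (by omega), show 2 * i / 2 = i by omega] at this
        rw [this]
        exact Perm.viaEmbedding_apply_of_notMem _ _ _ fun ⟨q, e⟩ => hp (e ▸ idx_lt q))
    (fun g p hp => (lt g p hp).trans_lt (idx_lt _))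
    (by rw [← Nat.card_congr (MonoidHom.ofInjective inj).toEquiv, M24Ord.card_M24]; decide)
    fun _ g => (map_eq_one_iff _ inj).trans (by simp)
  have hch := M.ch_top vch (by decide +kernel)
  have pi : ∀ (k : M24) q, M.π k (idx q) = idx (k.1 q) := fun k q => hM ▸ M24Ord.phi_idx _ _
  have st : ∀ n (bs : List ℕ) (T : List (ℕ × List ℕ)), (∀ e ∈ T, wval M.y e.2 ∈ M24.subgroupOf M24 ∧
      (∀ b ∈ bs, (M.π (wval M.y e.2))⁻¹ b = b) ∧ (M.π (wval M.y e.2))⁻¹ n = e.1) →
      (∀ q < 24, if q < n then q ∈ bs else q ∈ T.map Prod.fst) → ∀ x : ℕ → GolayPt,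
      (∀ i < n, x i ≠ x n) → (∃ k : M24, ∀ i < n, idx (k.1 (x i)) = i) →
      ∃ k : M24, ∀ i < n + 1, idx (k.1 (x i)) = i := fun n bs T h hd x hx ⟨k, hk⟩ => by
    have h1 := hd _ (idx_lt (k.1 (x n)))
    rw [if_neg fun h => hx _ h (k.1.injective (idx_injective (hk _ h)))] at h1
    obtain ⟨e, he, h2⟩ := List.mem_map.1 h1
    refine ⟨wval M.y e.2 * k, fun i hi => (pi _ (k.1 (x i))).symm.trans ?_⟩
    rcases (Nat.lt_succ_iff.1 hi).lt_or_eq with hi | rfl
    · have h3 := hd _ (idx_lt (k.1 (x i)))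
      rw [hk i hi] at h3 ⊢
      exact (Perm.inv_eq_iff_eq.1 ((h e he).2.1 i (by rwa [if_pos hi] at h3))).symm
    · rw [← h2]; exact (Perm.inv_eq_iff_eq.1 (h e he).2.2).symm
  have gg : ∀ p, g.1 (g.1 p) = p := fun p => congrArg (·.1 p) g2
  obtain ⟨a, ha⟩ : ∃ a, g.1 a ≠ a := not_forall.1 fun h => g1 (Subtype.ext (Equiv.ext h))
  obtain ⟨c, c1, c2, c3⟩ : ∃ c, c ≠ a ∧ c ≠ g.1 a ∧ g.1 c ≠ c := by_contra fun hn => by
    obtain ⟨i, hi⟩ := sep _ _ ha
    let w : golayCode := ⟨_, wd_bm_mem i⟩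
    have hw : ∀ p, (w + img g w).1 p = w.1 p + w.1 (g.1 p) := fun p =>
      congrArg (w.1 p + w.1 ·) (g.1.symm_apply_eq.2 (gg p).symm)
    have := (hm (w + img g w) fun e => by
      have : (0 : ZMod 2) = _ := (congrFun (congrArg Subtype.val e) a).symm.trans (hw a)
      simp only [w, wd] at this
      revert hi this
      cases (bm i).testBit (idx a) <;> cases (bm i).testBit (idx (g.1 a)) <;> decide).trans
      ((Finset.card_le_card (t := {a, g.1 a}) fun p hp => by_contra fun h => mem_sup.1 hp (by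
        simp only [Finset.mem_insert, Finset.mem_singleton, not_or] at h
        rw [hw, show g.1 p = p from by_contra fun e => hn ⟨p, h.1, h.2, e⟩]
        exact CharTwo.add_self_eq_zero _)).trans Finset.card_le_two)
    omega
  have c4 : g.1 c ≠ a := fun e => c2 (by rw [← e, gg])
  have c5 : g.1 c ≠ g.1 a := fun e => c1 (g.1.injective e)
  obtain ⟨-, -, h0, -, -, h1, -, -, h2, -, -, h3, -⟩ := id hch
  let x : ℕ → GolayPt := fun i => [a, c, g.1 a, g.1 c].getD i a
  obtain ⟨k, hk⟩ := st 3 _ _ h3 (by decide) x (fun i hi => by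
    interval_cases i; exacts [c4.symm, c3.symm, c5.symm]) (st 2 _ _ h2 (by decide) x (fun i hi => by
    interval_cases i; exacts [ha.symm, c2]) (st 1 _ _ h1 (by decide) x (fun i hi => by
    interval_cases i; exact c1.symm) (st 0 _ _ h0 (by decide) x (by simp) ⟨1, by simp⟩)))
  have F2 : ext (fun i => (P (Fin.ofNat 14 i)).1) 4 vdefs 2 = (P 2).1 := ext_of_lt _ _ (by decide)
  have F3 : ext (fun i => (P (Fin.ofNat 14 i)).1) 4 vdefs 3 = (P 3).1 := ext_of_lt _ _ (by decide)
  obtain ⟨u, hu, e⟩ := M.find1 hch si rfl ((P 2)⁻¹ * (k * g * k⁻¹)).2 (fun b hb => by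
    have : ∃ i < 4, b = i ∧ g.1 (x i) = x ((i + 2) % 4) := by
      simp only [vch, List.take, List.map, List.mem_cons, List.not_mem_nil, or_false] at hb
      rcases hb with rfl | rfl | rfl | rfl
      exacts [⟨0, by decide, rfl, rfl⟩, ⟨1, by decide, rfl, rfl⟩, ⟨2, by decide, rfl, gg _⟩,
        ⟨3, by decide, rfl, gg _⟩]
    obtain ⟨i, hi, rfl, e⟩ := this
    rw [← hk b hi, pi]
    change idx ((P 2).1.symm (k.1 (g.1 (k.1.symm (k.1 _))))) = _
    rw [Equiv.symm_apply_apply, e, hk b hi, ← pt_idx (k.1 _), hk _ (Nat.mod_lt _ (by decide))]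
    clear e hb; revert b; decide +kernel) .nil (List.forall_mem_singleton.2 (by
      simp only [wval_cons, wval_nil, lval, Nat.reduceMod, Nat.reduceDiv, if_true, Function.update_self,
        Function.update_of_ne (show 2 ≠ 100 by decide), F2, mem_bot]
      simpa [mul_assoc] using congrArg (fun t : M24 => (k * t * k⁻¹).1) g2)) (by simp)
  rw [show 5 = 2 * 2 + 1 from rfl, wval_odd, wval_mkC, ← M.val u.tail] at e
  replace e := mul_left_cancel (F2 ▸ e)
  have : ∀ t : M24, (k * g * k⁻¹).1 = _ * t.1 * _ → IsConj g t := fun t e =>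
    (isConj_iff.2 ⟨k, rfl⟩).trans (isConj_iff.2 ⟨wval M.y u.tail, Subtype.ext e.symm⟩).symm
  rcases (by rw [Nat.blt_eq] at hu; omega : u.headD 0 = 0 ∨ u.headD 0 = 1) with h | h <;> rw [h] at e
  · exact .inl (this _ (e.trans (by rw [← F2]; simp [wval_cons, lval])))
  · exact .inr (this _ (e.trans (by rw [← F3]; simp [wval_cons, lval])))

end Cfsg.Agent.Lib.Co1L
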