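import Cfsg.Agent.Lib.Co1L2

/-! The elements of `Co₀` whose square is `1` or `-1`. -/

set_option autoImplicit false
set_option maxRecDepth 100000

namespace Cfsg.Agent.Lib.Co1L

open Subgroup Cfsg.Agent.Lib.Golay Cfsg.Agent.Lib.Leech Cfsg.Agent.Lib.CoM Cfsg.Spor Equiv
  Cfsg.Agent.Lib.Co1Gol Cfsg.Agent.Lib.PermNet Cfsg.Agent.Lib.Words Cfsg.Agent.Lib.MatRep

theorem eps_eq {S : Finset GolayPt} (hS : Cd S) : Co1Card.eps S hS = eps ⟨ind S, cd_iff.1 hS⟩ :=
  ext0 fun y => funext fun p => by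
    rw [Co1Card.eps_apply, eps_apply]
    by_cases h : p ∈ S <;> simp [sg, s2, ind, h]

theorem neg_eq : Co1Card.neg = eps om :=
  (eps_eq _).trans (congrArg eps (Subtype.ext (funext fun p => by simp [ind, om])))

theorem mem_cen {z : Co0} : z ∈ center Co0 ↔ z = 1 ∨ z = eps om := neg_eq ▸ Co1Card.mem_center

theorem twist {s : Co0} {X : GolayPt → V} (hX : ∀ p q, (s.1 (e8 q)).1 p = X p q) (v v' : golayCode)
    (g g' : M24) (h : ∀ p q, sg v (g.1 q) * X p (g.1 q) = sg v' p * X (g'.1.symm p) q) :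
    s * (eps v * mono g) = eps v' * mono g' * s := ext8 fun q => funext fun p => by
  change (s.1 ((eps v).1 ((mono g).1 _))).1 p = sg v' p * (s.1 (e8 q)).1 (g'.1.symm p)
  rw [mono_e8, eps_e8, smul_eq, hX, ← h, ← hX]; rfl

/-- The element whose square is `-1`. -/
def s0 : Co0 := eps (cw c0) * mono (P 3)

theorem special : ∃ ξ y : Co0, (∀ r ∈ R1, ξ * (eps (cw r.1) * mono (P 2)) = eps (cw r.2) * ξ) ∧
    (∀ r ∈ R2, ξ * (eps (cw r.1) * mono (P 3)) = eps (cw r.2) * ξ) ∧ y ^ 13 = 1 ∧ y ≠ 1 ∧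
    y * s0 = s0 * y := by
  have ok : Ok c ms := ok_of_okB (by decide +kernel)
  have hi : RelOn c ms (invs 2) 0 24 := relOn ok _ 0 24 24 (by decide +kernel)
  obtain ⟨y, hy⟩ := exists_gens (As := As) (good_all (by decide +kernel)) hi
  have ent : ∀ i < 2, ∀ p q, ((y i).1 (e8 q)).1 p = vec (row As (2 * i) p) q := fun i hi p q =>
    mul_left_cancel₀ (show (8 : ℤ) ≠ 0 by decide) (by
      rw [(hy i hi).2 _ _ (vec_map _).symm, ← dot_row, vec_map, Co1Card.dot_e8])
  have w1 : ∀ n, ρ (y 1 ^ n) = wval (MatRep.gen c ms) (List.replicate n 2) := fun n => by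
    induction n with
    | zero => simp [wval_nil]
    | succ n ih => rw [pow_succ', map_mul, ih, (hy 1 (by decide)).1, List.replicate_succ, wval_cons, lval,
        if_pos rfl]
  refine ⟨y 0, y 1, fun r hr => ?_, fun r hr => ?_, ρ_inj ?_, fun e => ?_,
    twist (ent 1 (by decide)) _ _ _ _ (by decide +kernel)⟩
  · simpa using twist (ent 0 (by decide)) (cw r.1) (cw r.2) (P 2) 1 (by revert r; decide +kernel)
  · simpa using twist (ent 0 (by decide)) (cw r.1) (cw r.2) (P 3) 1 (by revert r; decide +kernel)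
  · rw [w1, map_one]
    exact rels_of hi (relOn ok [List.replicate 13 2] 0 24 24 (by decide +kernel)) (by decide) _
      List.mem_cons_self
  · have := ent 1 (by decide) none none
    rw [e] at this
    revert this; decide +kernel

theorem add_self (w : golayCode) : w + w = 0 :=
  Subtype.ext (funext fun _ => CharTwo.add_self_eq_zero _)

theorem red (j : Fin 14) (HL : List (Fin 14)) (B R : List ℕ) (hH : ∀ i ∈ HL, ∀ p, (P i).1 ((P j).1 p) =
    (P j).1 ((P i).1 p)) (h : allSp (fun c => Nat.blt c (2 ^ 24) &&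
      (!decide (c ^^^ pm (L2 j) c ∈ [0, 16777215]) || HL.any fun i => forceB (pm (L2 i) c) fun d =>
        B.any fun b => R.any fun r => Nat.beq (d ^^^ cm b ^^^ pm (L2 j) (cm b)) (cm r)))
      ((List.finRange 12).map bm) 0 = true) {w : golayCode}
    (hw : w + img (P j) w = 0 ∨ w + img (P j) w = om) :
    ∃ r ∈ R, IsConj (eps w * mono (P j)) (eps (cw r) * mono (P j)) := by
  obtain ⟨c, e, h⟩ := all_code h w
  simp only [Bool.and_eq_true, Bool.or_eq_true, Nat.blt_eq, Bool.not_eq_true', decide_eq_false_iff_not,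
    List.any_eq_true, forceB_eq, Nat.beq_eq] at h
  have e1 : (w + img (P j) w).1 = wd (c ^^^ pm (L2 j) c) := by rw [wd_xor, ← e, ← img_P j e]; rfl
  have l1 := Nat.xor_lt_two_pow h.1 (pm_lt j c)
  obtain ⟨i, hi, b, -, r, hr, h⟩ := h.2.resolve_left (not_not.2 (by
    rcases hw with hw | hw <;> rw [hw] at e1
    · rw [← wd_inj (a := 0) (by decide) l1 ((funext (by decide +kernel)).trans e1)]; decide
    · rw [← wd_inj (a := 16777215) (by decide) l1 (om_eq.symm.trans e1)]; decide))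
  refine ⟨r, hr, isConj_iff.2 ⟨eps (cw b) * mono (P i), mul_inv_eq_iff_eq_mul.2 ?_⟩⟩
  have e2 : cw r = img (P i) w + cw b + img (P j) (cw b) := Subtype.ext (by
    change wd (cm r) = _
    rw [← h, wd_xor, wd_xor, ← img_P i e, ← img_P j (w := cw b) rfl]; rfl)
  have e3 : P i * P j = P j * P i := Subtype.ext (Equiv.ext (hH i hi))
  rw [e2, mul_assoc, ← mul_assoc (mono _), mono_eps, mul_assoc (eps (img _ w)), ← map_mul, e3,
    mul_assoc, ← mul_assoc (mono (P j)), mono_eps, mul_assoc, ← map_mul, ← mul_assoc, ← mul_assoc,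
    ← eps_add, ← eps_add, add_assoc, add_self, add_zero,
    add_comm]

theorem sq_mono {w : golayCode} {g : M24} (h : (eps w * mono g) * (eps w * mono g) ∈ center Co0) :
    g * g = 1 ∧ (w + img g w = 0 ∨ w + img g w = om) := by
  rw [mul_assoc, ← mul_assoc (mono g), mono_eps, mul_assoc, ← map_mul, ← mul_assoc, ← eps_add] at h
  have : g * g = 1 := Subtype.ext (Equiv.ext fun q => by
    obtain ⟨v, e⟩ : ∃ v, _ = eps v := (mem_cen.1 h).elim (fun e => ⟨0, e.trans eps_zero.symm⟩) fun e => ⟨_, e⟩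
    have : (eps _).1 ((mono _).1 _) = _ := congrArg (·.1 (e8 q)) e
    rw [mono_e8, eps_e8, eps_e8] at this
    exact (e8_inj (sg_sq _ _) this).1)
  rw [this, map_one, mul_one] at h
  exact ⟨this, (mem_cen.1 h).imp (fun e => eps_inj (e.trans eps_zero.symm)) fun e => eps_inj e⟩

theorem sq_conj {s t : Co0} (h : IsConj s t) (hs : s * s ∈ center Co0) : t * t = s * s := by
  obtain ⟨k, rfl⟩ := isConj_iff.1 h
  rw [conj_mul, mem_center_iff.1 hs k, mul_inv_cancel_right]

theorem sq_cls (hc : Nat.card Co0 = 8315553613086720000) {s : Co0} (h : s * s ∈ center Co0) :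
    (∃ v, IsConj s (eps v)) ∨ IsConj s s0 := by
  obtain ⟨ξ, -, h1, h2, -⟩ := special
  obtain ⟨m, -, hm⟩ := BT.conj_into (M := ⊤) (H := Co1Card.M) (k := 2) Nat.prime_two
    (by rw [relIndex_top_right, (Co1Card.index_M hc).1]; decide) (le_top (a := zpowers s)) (by
      rintro _ ⟨n, rfl⟩
      have : s ^ 2 ^ 2 = 1 := by
        rw [show 2 ^ 2 = 2 * 2 from rfl, pow_mul, pow_two, pow_two]
        rcases mem_cen.1 h with e | e <;> simp [e, eps_sq]
      rw [← zpow_natCast, ← zpow_mul, mul_comm, zpow_mul, zpow_natCast, this, one_zpow])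
  obtain ⟨g, S, hS, e⟩ := Co1Card.exists_mono (hm s (mem_zpowers s))
  have c1 : IsConj s (eps _ * mono g) := isConj_iff.2 ⟨m, e.trans (by rw [eps_eq])⟩
  generalize (⟨ind S, cd_iff.1 hS⟩ : golayCode) = w at c1
  by_cases g1 : g = 1
  · exact .inl ⟨w, by simpa [g1] using c1⟩
  have c2 : ∀ t, IsConj g t → ∃ w, IsConj s (eps w * mono t) ∧ (w + img t w = 0 ∨ w + img t w = om) :=
    fun t ht => by
      obtain ⟨k, rfl⟩ := isConj_iff.1 ht
      have : IsConj s (eps (img k w) * mono (k * g * k⁻¹)) := c1.trans (isConj_iff.2 ⟨mono k, by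
        rw [← mul_assoc, mono_eps, map_mul, map_mul, map_inv]; simp only [mul_assoc]⟩)
      exact ⟨_, this, (sq_mono (sq_conj this h ▸ h)).2⟩
  rcases inv24 (sq_mono (sq_conj c1 h ▸ h)).1 g1 with ht | ht <;> obtain ⟨w, c3, hw⟩ := c2 _ ht
  · obtain ⟨r, hr, c4⟩ := red 2 [7, 8, 9, 10, 11, 12, 13] B1 (R1.map Prod.fst) (by decide +kernel)
      (by decide +kernel) hw
    obtain ⟨t, ht, rfl⟩ := List.mem_map.1 hr
    exact .inl ⟨_, (c3.trans c4).trans (isConj_iff.2 ⟨ξ, mul_inv_eq_iff_eq_mul.2 (h1 t ht)⟩)⟩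
  · obtain ⟨r, hr, c4⟩ := red 3 [7] B2 (c0 :: R2.map Prod.fst) (by decide +kernel)
      (by decide +kernel) hw
    rcases List.mem_cons.1 hr with rfl | hr
    · exact .inr (c3.trans c4)
    obtain ⟨t, ht, rfl⟩ := List.mem_map.1 hr
    exact .inl ⟨_, (c3.trans c4).trans (isConj_iff.2 ⟨ξ, mul_inv_eq_iff_eq_mul.2 (h2 t ht)⟩)⟩

theorem s0_sq : s0 * s0 ≠ 1 := fun e => by
  have := congrArg (fun s : Co0 => (s.1 (e8 none)).1 none) e
  revert this; decide +kernel

end Cfsg.Agent.Lib.Co1L
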