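import Cfsg.Agent.Lib.ThO

/-! The action of the involution centraliser on its extraspecial subgroup. -/

set_option autoImplicit false
set_option maxRecDepth 100000

namespace Cfsg.Agent.Lib.ThCl

open Subgroup Cfsg.Agent.Lib.PermNet Cfsg.Agent.Lib.Words Cfsg.Agent.Lib.PermGroup Cfsg.Agent.Lib.DCE
  Cfsg.Agent.Lib.BT Cfsg.Agent.Lib.ThDefs Cfsg.Agent.Lib.ThV Cfsg.Agent.Lib.ThO

theorem qm_mod (a b : ℕ) : qm a b % 256 = a % 256 ^^^ b % 256 := by
  change (a ^^^ b ^^^ par _ <<< 8) % 2 ^ 8 = _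
  rw [Nat.xor_mod_two_pow, Nat.xor_mod_two_pow, Nat.shiftLeft_eq, Nat.mul_mod_left, Nat.xor_zero]

theorem top : ∀ a < 512, (a = a % 256 ∨ a = qm 256 (a % 256)) ∧ qm a a = qm (a % 256) (a % 256) ∧
    (qm a a = 0 ∨ qm a a = 256) := by decide +kernel

theorem com_ok : allR (fun a => allR (fun b => Nat.beq (qm a b)
    (qm (Nat.xor (Nat.xor (qm a a) (qm b b)) (qm (Nat.xor a b) (Nat.xor a b))) (qm b a))) 0 256) 0 256
    = true := by decide +kernel

variable {G : Type*} [Group G] {z : G} {Q : Subgroup G} {n : ℕ → G}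
  {φ : centralizer ({z} : Set G) →* Equiv.Perm (Fin 9)}

/-- Equality modulo `z`. -/
def Md (z a b : G) : Prop := a = b ∨ a = z * b

section
variable (h : Hyp z Q φ) (E : Enc z Q n)
include h

theorem Md.trans {a b c : G} (h1 : Md z a b) (h2 : Md z b c) : Md z a c := by
  rcases h1 with rfl | rfl <;> rcases h2 with rfl | rfl
  exacts [.inl rfl, .inr rfl, .inr rfl, .inl (by rw [← mul_assoc, h.zz, one_mul])]

theorem Md.symm {a b : G} (h1 : Md z a b) : Md z b a :=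
  h1.imp Eq.symm fun e => by rw [e, ← mul_assoc, h.zz, one_mul]

theorem Md.mul {a b c d : G} (h1 : Md z a b) (h2 : Md z c d) (hb : b * z = z * b) :
    Md z (a * c) (b * d) := by
  rcases h1 with rfl | rfl <;> rcases h2 with rfl | rfl
  exacts [.inl rfl, .inr (by rw [← mul_assoc, hb, mul_assoc]), .inr (mul_assoc _ _ _),
    .inl (by rw [← hb, mul_assoc, ← mul_assoc z, h.zz, one_mul])]

omit h in
theorem Md.conj {a b g : G} (h1 : Md z a b) (hg : g ∈ centralizer ({z} : Set G)) :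
    Md z (g * a * g⁻¹) (g * b * g⁻¹) := h1.imp (fun e => by rw [e]) fun e => by
  rw [e, ← mul_assoc, mem_centralizer_singleton_iff.1 hg]; group

include E

omit h in
theorem md_mod {a : ℕ} (ha : a < 512) : Md z (n a) (n (a % 256)) :=
  (top a ha).1.imp (congrArg n) fun e => by
    rw [← E.z256, E.mul _ (by decide) _ (by omega), ← e]

theorem nz {a : ℕ} (ha : a < 512) : n a * z = z * n a :=
  mem_centralizer_singleton_iff.1 (h.le (E.mem a ha))

theorem exists_rho : ∃ ρ : centralizer ({z} : Set G) →* Equiv.Perm ℕ, ∀ g, ρ g ∈ OV ∧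
    ∀ p < 256, Md z (g * n p * (g : G)⁻¹) (n (ρ g p)) := by
  choose! A A1 A2 using fun (g : centralizer ({z} : Set G)) p (hp : p < 512) =>
    E.surj _ (h.nor g g.2 _ (E.mem p hp))
  have Am : ∀ g, ∀ a < 512, ∀ b < 512, A g (qm a b) = qm (A g a) (A g b) := fun g a ha b hb =>
    E.inj _ (A1 g _ (qm_lt ha hb)) _ (qm_lt (A1 g a ha) (A1 g b hb)) (by
      rw [← E.mul _ (A1 g a ha) _ (A1 g b hb), A2 g _ (qm_lt ha hb), A2 g a ha, A2 g b hb,
        ← E.mul a ha b hb, conj_mul])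
  have Az : ∀ g, A g 0 = 0 ∧ A g 256 = 256 := fun g =>
    ⟨E.inj _ (A1 g _ (by decide)) _ (by decide) (by rw [A2 g _ (by decide), E.zero]; simp),
      E.inj _ (A1 g _ (by decide)) _ (by decide) (by
        rw [A2 g _ (by decide), E.z256, mem_centralizer_singleton_iff.1 g.2]; simp)⟩
  have Ad : ∀ g, ∀ a < 512, A g (a % 256) % 256 = A g a % 256 := fun g a ha => by
    rcases (top a ha).1 with e | e
    · rw [← e]
    · nth_rw 2 [e]
      rw [Am g _ (by decide) _ (by omega), (Az g).2, qm_mod]; simp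
  let b : centralizer ({z} : Set G) → ℕ → ℕ := fun g p => if p < 256 then A g p % 256 else p
  have b1 : ∀ g, ∀ p < 256, b g p = A g p % 256 := fun g p hp => if_pos hp
  have b2 : ∀ g p, 256 ≤ p → b g p = p := fun g p hp => if_neg (by omega)
  have bm : ∀ g k p, b (g * k) p = b g (b k p) := fun g k p => by
    by_cases hp : p < 256
    · have hp' : p < 512 := by omega
      rw [b1 _ p hp, b1 k p hp, b1 g _ (by omega), Ad g _ (A1 k p hp')]
      congr 1
      refine E.inj _ (A1 _ p hp') _ (A1 g _ (A1 k p hp')) ?_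
      rw [A2 _ p hp', A2 g _ (A1 k p hp'), A2 k p hp']
      simp [mul_assoc]
    · rw [b2 _ p (by omega), b2 k p (by omega), b2 g p (by omega)]
  have b0 : ∀ p, b 1 p = p := fun p => by
    by_cases hp : p < 256
    · rw [b1 _ p hp, E.inj _ (A1 1 p (by omega)) p (by omega) (by rw [A2 _ p (by omega)]; simp)]; omega
    · exact b2 _ p (by omega)
  refine ⟨MonoidHom.mk' (fun g => ⟨b g, b g⁻¹, fun p => by rw [← bm, inv_mul_cancel, b0],
    fun p => by rw [← bm, mul_inv_cancel, b0]⟩) fun g k => Equiv.ext (bm g k),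
    fun g => ⟨⟨b2 g, fun a ha => ⟨?_, fun c hc => ?_⟩⟩, fun p hp => ?_⟩⟩
  · change qm (b g a) (b g a) = _
    rw [b1 g a ha, ← (top _ (A1 g a (by omega))).2.1, ← Am g a (by omega) a (by omega)]
    rcases (top a (by omega)).2.2 with e | e <;> rw [e]
    exacts [(Az g).1, (Az g).2]
  · change b g _ = b g a ^^^ b g c
    rw [b1 g a ha, b1 g c hc, b1 g _ (xl ha hc), ← qm_mod, ← Am g a (by omega) c (by omega),
      ← Ad g _ (qm_lt (a := a) (b := c) (by omega) (by omega)), qm_mod, Nat.mod_eq_of_lt ha,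
      Nat.mod_eq_of_lt hc]
  · change Md z _ (n (b g p))
    rw [b1 g p hp, ← A2 g p (by omega)]
    exact md_mod E (A1 g p (by omega))

/-- The signs are adjusted by an element of `Q`. -/
theorem adjust {g : G} (hg : g ∈ centralizer ({z} : Set G)) {L : List ℕ} (h1 : L.length = 8)
    (h2 : ∀ a ∈ L, a < 512) (h3 : ∀ i < 8, Md z (g * n (2 ^ i) * g⁻¹) (n (L.getD i 0))) :
    ∃ q ∈ Q, Act n (g * q) L := by
  have key : ∀ k ≤ 8, ∃ q ∈ Q, ∀ i < 8, Md z (g * q * n (2 ^ i) * (g * q)⁻¹) (n (L.getD i 0)) ∧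
      (i < k → g * q * n (2 ^ i) * (g * q)⁻¹ = n (L.getD i 0)) := fun k hk => by
    induction k with
    | zero => exact ⟨1, one_mem _, fun i hi => ⟨by simpa using h3 i hi, by simp⟩⟩
    | succ k ih =>
      obtain ⟨q, hq, e⟩ := ih (by omega)
      rcases (e k hk).1 with e1 | e1
      · exact ⟨q, hq, fun i hi => ⟨(e i hi).1, fun h4 => by
          rcases Nat.lt_succ_iff_lt_or_eq.1 h4 with h4 | rfl
          exacts [(e i hi).2 h4, e1]⟩⟩
      have c : ∀ i < 8, g * (q * n (2 ^ (k ^^^ 1))) * n (2 ^ i) * (g * (q * n (2 ^ (k ^^^ 1))))⁻¹ =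
          (if i = k then z else 1) * (g * q * n (2 ^ i) * (g * q)⁻¹) := fun i hi => by
        obtain ⟨a1, a2, a3⟩ := (by decide +kernel : ∀ k < 8, ∀ i < 8, 2 ^ (k ^^^ 1) < 512 ∧ 2 ^ i < 512 ∧
          qm (2 ^ (k ^^^ 1)) (2 ^ i) = qm (if i = k then 256 else 0) (qm (2 ^ i) (2 ^ (k ^^^ 1)))) k hk i hi
        have := congrArg n a3
        rw [← E.mul _ a1 _ a2, ← E.mul _ (by split_ifs <;> decide) _ (qm_lt a2 a1), ← E.mul _ a2 _ a1] at this
        rw [← mul_assoc g, mul_assoc (g * q), this]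
        have := mem_centralizer_singleton_iff.1 (mul_mem hg (h.le hq))
        split_ifs
        · rw [E.z256, ← mul_assoc, this]; group
        · rw [E.zero]; group
      refine ⟨q * n (2 ^ (k ^^^ 1)), mul_mem hq (E.mem _ ((by decide : ∀ k < 8, 2 ^ (k ^^^ 1) < 512) k hk)),
        fun i hi => ?_⟩
      rw [c i hi]
      split_ifs with h4
      · have : z * (g * q * n (2 ^ i) * (g * q)⁻¹) = n (L.getD i 0) := by
          rw [h4, e1, ← mul_assoc, h.zz, one_mul]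
        exact ⟨.inl this, fun _ => this⟩
      · rw [one_mul]; exact ⟨(e i hi).1, fun h5 => (e i hi).2 (by omega)⟩
  obtain ⟨q, hq, e⟩ := key 8 le_rfl
  exact ⟨q, hq, h1, h2, fun i hi => (e i hi).2 hi⟩

theorem of_act {g : G} (hg : g ∈ centralizer ({z} : Set G)) (h1 : Act n g L0) : g = 1 ∨ g = z :=
  h.cen g hg fun q hq => by
    obtain ⟨a, ha, rfl⟩ := E.surj q hq
    have := h1.all E hg ha
    rwa [lin_L0 a ha, mul_inv_eq_iff_eq_mul] at this

theorem rebase [Finite G] {a : Equiv.Perm ℕ} (ha : a ∈ OV) :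
    ∃ n', Enc z Q n' ∧ ∀ m < 256, Md z (n' m) (n (a m)) := by
  have l : ∀ m < 256, a m < 512 := fun m hm => (lt_of_fix ha.1 hm).trans (by decide)
  have l2 : ∀ i < 8, 2 ^ i < 256 := by decide
  obtain ⟨n', E', e⟩ := ThQ.of_basis h (q := fun i => n (a (2 ^ i))) (fun i hi => E.mem _ (l _ (l2 i hi)))
    fun i hi => ⟨by
      rw [E.mul _ (l _ (l2 i hi)) _ (l _ (l2 i hi)), (ha.2 _ (l2 i hi)).1,
        (by decide +kernel : ∀ i < 8, qm (2 ^ i) (2 ^ i) = 0) i hi, E.zero], fun j hj => by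
      have hj' := l2 j (by omega)
      have := beq_eq (allR_all (allR_all com_ok _ (Nat.zero_le _) (lt_of_fix ha.1 (l2 i hi))) _
        (Nat.zero_le _) (lt_of_fix ha.1 hj'))
      change _ = qm (_ ^^^ _ ^^^ qm (_ ^^^ _) (_ ^^^ _)) _ at this
      rw [← (ha.2 _ (l2 i hi)).2 _ hj', (ha.2 _ (l2 i hi)).1, (ha.2 _ hj').1,
        (ha.2 _ (xl (l2 i hi) hj')).1, (by decide +kernel : ∀ i < 8, ∀ j < i, qm (2 ^ i) (2 ^ i) ^^^
          qm (2 ^ j) (2 ^ j) ^^^ qm (2 ^ i ^^^ 2 ^ j) (2 ^ i ^^^ 2 ^ j) =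
          if i = j + 1 ∧ j % 2 = 0 then 256 else 0) i hi j hj] at this
      rw [E.mul _ (l _ (l2 i hi)) _ (l _ hj'), this, ← E.mul _ (by split_ifs <;> decide) _
        (qm_lt (l _ hj') (l _ (l2 i hi))), E.mul _ (l _ hj') _ (l _ (l2 i hi))]
      split_ifs
      exacts [by rw [E.z256, pow_one], by rw [E.zero, pow_zero]]⟩
  refine ⟨n', E', ind (.inl (by rw [zero ha, E.zero, E'.zero])) fun i hi m hm e1 e2 => ?_⟩
  have hi' := l2 i hi
  rw [(ha.2 _ hi').2 m hm, ← e1, ← E'.mul _ (by omega) _ (by omega), e i hi]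
  refine .trans h (.mul h (.inl rfl) e2 (nz h E (l _ hi'))) ?_
  have := md_mod E (qm_lt (l _ hi') (l _ hm))
  rwa [qm_mod, Nat.mod_eq_of_lt (lt_of_fix ha.1 hi'), Nat.mod_eq_of_lt (lt_of_fix ha.1 hm),
    ← E.mul _ (l _ hi') _ (l _ hm)] at this

theorem odd_fix {g : G} {L l : List ℕ} (h1 : Act n g L) (h2 : Ph φ g l) (k : ℕ)
    (h3 : (List.map (lin L))^[2 * k] L = L0) : ∃ g', Act n g' L ∧ Ph φ g' l ∧ g' ^ (2 * k + 1) = 1 := by
  obtain ⟨hg, h2⟩ := h2
  have : ∀ j, Act n (g ^ (j + 1)) ((List.map (lin L))^[j] L) := fun j => by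
    induction j with
    | zero => simpa using h1
    | succ j ih => rw [pow_succ', Function.iterate_succ_apply']; exact h1.mul ih E hg
  have hc := mem_centralizer_singleton_iff.1 hg
  rcases of_act h E (pow_mem hg _) (h3 ▸ this (2 * k)) with e | e
  · exact ⟨g, h1, ⟨hg, h2⟩, e⟩
  · refine ⟨g * z, ⟨h1.1, h1.2.1, fun i hi => ?_⟩, ⟨mul_mem hg (h.le h.mem), fun p => ?_⟩, ?_⟩
    · rw [← h1.2.2 i hi, mul_assoc g, ← nz h E ((by decide : ∀ i < 8, 2 ^ i < 512) i hi)]; group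
    · rw [← h2, show (⟨g * z, _⟩ : centralizer {z}) = ⟨g, hg⟩ * ⟨z, h.le h.mem⟩ from rfl, map_mul,
        (h.ker ⟨z, _⟩).2 h.mem, mul_one]
    · rw [Commute.mul_pow hc, e, pow_succ, pow_mul, sq, h.zz, one_pow, one_mul, h.zz]

end

def p9 : ℕ → Equiv.Perm (Fin 9)
  | 0 => ⟨![1, 3, 0, 4, 6, 2, 5, 7, 8], ![2, 0, 5, 1, 3, 6, 4, 7, 8], by decide, by decide⟩
  | 1 => ⟨![3, 2, 5, 4, 0, 1, 6, 7, 8], ![4, 5, 1, 0, 3, 2, 6, 7, 8], by decide, by decide⟩
  | _ => ⟨![0, 1, 2, 3, 4, 5, 7, 8, 6], ![0, 1, 2, 3, 4, 5, 8, 6, 7], by decide, by decide⟩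

/-- The letters as words in three elements with known action. -/
theorem letters (h : Hyp z Q φ) (E : Enc z Q n) {y : ℕ → centralizer ({z} : Set G)} (j : ℕ)
    (h1 : ∀ i < 3, φ (y i) = p9 i) {ρ : centralizer ({z} : Set G) →* Equiv.Perm ℕ}
    (h2 : ∀ g : centralizer ({z} : Set G), ∀ p < 256, Md z (g * n p * (g : G)⁻¹) (n (ρ g p)))
    (h3 : ρ (y 0) = P 0 ∧ ρ (y 1) = P 1 ∧ ρ (y 2) = P j) (W : List (List ℕ)) (L : List (ℕ × List ℕ × List ℕ))
    (h4 : ∀ e ∈ L, e.1 ≠ 0 ∧ e.1 ≠ 2 ∧ lt2 3 (W.getD e.1 []) = true ∧ e.2.1.length = 8 ∧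
      (∀ a ∈ e.2.1, a < 512) ∧ (∀ e' ∈ L, e'.1 = e.1 → e' = e) ∧
      (∀ i < 8, ap1i (nat_lit 8) (nat_lit 255) vtt (subst [[0], [2], [2 * j]] (W.getD e.1 [])) (2 ^ i) =
        e.2.1.getD i 0 % 256) ∧ ∀ p : Fin 9, (wval p9 (W.getD e.1 []) p : ℕ) = e.2.2.getD p 0)
    (h5 : LS.getD 2 default ∈ L ∧ LS.getD 3 default ∈ L) : ∃ f, St φ n f L := by
  have key : ∀ e ∈ L, ∃ g, Act n g e.2.1 ∧ Ph φ g e.2.2 := fun e he => by
    obtain ⟨-, -, a1, a2, a3, -, a4, a5⟩ := h4 e he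
    obtain ⟨q, hq, a6⟩ := adjust h E (wval y (W.getD e.1 [])).2 a2 a3 fun i hi => by
      have l2 := (by decide : ∀ i < 8, 2 ^ i < 256) i hi
      refine .trans h (h2 _ _ l2) (.symm h ?_)
      rw [map_wval, wval_congr (n := 3) (z := fun i => wval P ([[0], [2], [2 * j]].getD i [])) (fun i hi => by
        interval_cases i
        exacts [h3.1.trans (wval_single P 0).symm, h3.2.1.trans (wval_single P 1).symm,
          h3.2.2.trans (wval_single P j).symm]) (by simpa using a1), ← wval_subst]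
      have := ap1i_eq vok.good (subst [[0], [2], [2 * j]] (W.getD e.1 [])) l2
      rw [a4 i hi, MonoidHom.id_apply] at this
      rw [← this, List.getD_eq_getElem _ _ (a2 ▸ hi)]
      exact md_mod E (a3 _ (List.getElem_mem _))
    refine ⟨_, a6, mul_mem (wval y _).2 (h.le hq), fun p => ?_⟩
    rw [← a5, show (⟨_ * q, _⟩ : centralizer {z}) = wval y (W.getD e.1 []) * ⟨q, h.le hq⟩ from rfl,
      map_mul, (h.ker ⟨q, _⟩).2 hq, mul_one, map_wval, wval_congr h1 (by simpa using a1)]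
  have key2 : ∀ i, ∃ g, (∀ e ∈ L, e.1 = i → Act n g e.2.1 ∧ Ph φ g e.2.2) ∧ (i = 5 → g ^ 7 = 1) ∧
      (i = 6 → g ^ 3 = 1) := fun i => by
    have u : ∀ e ∈ L, ∀ g, Act n g e.2.1 ∧ Ph φ g e.2.2 → ∀ e' ∈ L, e'.1 = e.1 →
        Act n g e'.2.1 ∧ Ph φ g e'.2.2 := fun e he g hg e' he' e1 =>
      ((h4 e he).2.2.2.2.2.1 e' he' e1).symm ▸ hg
    by_cases h5' : i = 5
    · obtain ⟨g, g1, g2⟩ := key _ h5.1
      obtain ⟨g, g1, g2, g3⟩ := odd_fix h E g1 g2 3 (by decide +kernel)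
      exact ⟨g, h5' ▸ u _ h5.1 g ⟨g1, g2⟩, fun _ => g3, by omega⟩
    by_cases h6 : i = 6
    · obtain ⟨g, g1, g2⟩ := key _ h5.2
      obtain ⟨g, g1, g2, g3⟩ := odd_fix h E g1 g2 1 (by decide +kernel)
      exact ⟨g, h6 ▸ u _ h5.2 g ⟨g1, g2⟩, by omega, fun _ => g3⟩
    by_cases h7 : ∃ e ∈ L, e.1 = i
    · obtain ⟨e, he, rfl⟩ := h7
      obtain ⟨g, hg⟩ := key e he
      exact ⟨g, u e he g hg, by omega, by omega⟩
    · exact ⟨1, fun e he e1 => absurd ⟨e, he, e1⟩ h7, by omega, by omega⟩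
  choose f f1 f2 f3 using key2
  refine ⟨fun i => if i = 0 then z else if i = 2 then n 1 else f i, rfl, rfl, fun e he => ?_,
    f2 5 rfl, f3 6 rfl⟩
  rw [if_neg (h4 e he).1, if_neg (h4 e he).2.1]
  exact f1 _ e he rfl

theorem flip (h : Hyp z Q φ) : Hyp z Q ((MulAut.conj (Equiv.swap 7 8)).toMonoidHom.comp φ) :=
  { h with
    ker := fun g => by rw [← h.ker]; exact map_eq_one_iff _ (MulAut.conj _).injective
    rng := by
      rw [MonoidHom.range_comp, h.rng]
      exact Normal.map_conj_eq _ _ }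

theorem exists_st [Finite G] (h : Hyp z Q φ) (E : Enc z Q n) :
    ∃ φ' n' f, Hyp z Q φ' ∧ Enc z Q n' ∧ (St φ' n' f LS ∨ St φ' n' f LN) := by
  obtain ⟨ρ, hρ⟩ := exists_rho h E
  choose! y hy using fun i (hi : i < 3) => show p9 i ∈ φ.range from h.rng ▸
    (by decide +kernel : ∀ i < 3, Equiv.Perm.sign (p9 i) = 1) i hi
  have k1 : ∀ g, φ g = 1 → ρ g = 1 := fun g hg => Equiv.ext fun p => by
    by_cases hp : p < 256
    · have l := lt_of_fix (hρ g).1.1 hp
      have := Md.trans h (.symm h ((hρ g).2 p hp)) ((h.com _ ((h.ker g).1 hg) _ (E.mem p (by omega))).imp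
        (fun e => show _ = n p by rw [e]; simp) fun e => by rw [e]; simp [mul_assoc])
      change _ = p
      rcases this with e | e
      · exact E.inj _ (by omega) _ (by omega) e
      · replace e := e.trans (E.z256 ▸ E.mul 256 (by decide) p (by omega))
        have := congrArg (· % 256) (E.inj _ (by omega) _ (qm_lt (by decide) (by omega)) e)
        simp only [qm_mod] at this
        simpa [Nat.mod_eq_of_lt l, Nat.mod_eq_of_lt hp] using this
    · exact (hρ g).1.1 p (by omega)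
  have k2 : ∀ g, ρ g = 1 → φ g = 1 := fun g hg => by
    obtain ⟨q, hq, e⟩ := adjust h E g.2 (L := L0) rfl (by decide) fun i hi => by
      have := (by decide : ∀ i < 8, 2 ^ i < 256 ∧ L0.getD i 0 = 2 ^ i) i hi
      rw [this.2]; simpa [hg] using (hρ g).2 _ this.1
    rw [h.ker, ← Q.mul_mem_cancel_right hq]
    rcases of_act h E (mul_mem g.2 (h.le hq)) e with e | e <;> rw [e]
    exacts [one_mem _, h.mem]
  have r : ∀ a b, φ a = φ b → ρ a = ρ b := fun a b e => by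
    rw [← mul_inv_eq_one, ← map_inv, ← map_mul]
    exact k1 _ (by rw [map_mul, e, map_inv, mul_inv_cancel])
  have y0 := hy 0 (by decide)
  have y1 := hy 1 (by decide)
  have y2 := hy 2 (by decide)
  obtain ⟨a, ha, a0, a1, a2⟩ := classify (hρ (y 0)).1 (hρ (y 1)).1 (hρ (y 2)).1
    (by rw [← map_pow]; exact k1 _ (by rw [map_pow, y0]; decide +kernel))
    (fun e => absurd (k2 _ e) (by rw [y0]; decide +kernel))
    (by simpa using r (y 1 * (y 0 * y 0) * (y 1)⁻¹) (y 0) (by simp only [map_mul, map_inv, y0, y1]; decide +kernel))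
    (by rw [← map_pow]; exact k1 _ (by rw [map_pow, y1]; decide +kernel))
    (by simpa using r (y 2 * y 1 * (y 2)⁻¹) (y 1) (by simp only [map_mul, map_inv, y2, y1]; decide +kernel))
    (by rw [← map_pow]; exact k1 _ (by rw [map_pow, y2]; decide +kernel))
    (fun e => absurd (k2 _ e) (by rw [y2]; decide +kernel))
    fun i hi => by
      have := k1 ((y 2 * (y 0 ^ i * y 2 * (y 0 ^ i)⁻¹)) ^ 2) (by
        simp only [map_mul, map_inv, map_pow, y0, y2]; revert i; decide +kernel)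
      rwa [map_pow, map_mul, map_mul, map_mul, map_inv, map_pow] at this
  obtain ⟨n', E', e⟩ := rebase h E (inv_mem ha)
  have h2 : ∀ g : centralizer ({z} : Set G), ∀ p < 256, Md z (g * n' p * (g : G)⁻¹)
      (n' (((MulAut.conj a).toMonoidHom.comp ρ) g p)) := fun g p hp => by
    refine .trans h ((e p hp).conj g.2) (.trans h ((hρ g).2 _ (lt_of_fix (inv_mem ha).1 hp)) (.symm h ?_))
    simpa using e _ (lt_of_fix (mul_mem (mul_mem ha (hρ g).1) (inv_mem ha)).1 hp)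
  have y' : ∀ i < 3, ((MulAut.conj (Equiv.swap 7 8)).toMonoidHom.comp φ)
      (if i = 2 then (y 2)⁻¹ else y i) = p9 i := fun i hi => by
    interval_cases i <;> simp only [MonoidHom.comp_apply, reduceIte, Nat.reduceEqDiff, map_inv φ, y0, y1, y2] <;>
      decide +kernel
  rcases a2 with a2 | a2 | a2 | a2
  · obtain ⟨f, S⟩ := letters h E' 2 hy h2 ⟨a0, a1, a2⟩ WD LS (by decide +kernel) (by decide)
    exact ⟨_, _, f, h, E', .inl S⟩
  · obtain ⟨f, S⟩ := letters (flip h) E' 2 y' h2 ⟨a0, a1, by simpa using a2⟩ WD LS (by decide +kernel)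
      (by decide)
    exact ⟨_, _, f, flip h, E', .inl S⟩
  · obtain ⟨f, S⟩ := letters h E' 3 hy h2 ⟨a0, a1, a2⟩ [[], [], [], [], [], [0], [2], [4]] LN
      (by decide +kernel) (by decide)
    exact ⟨_, _, f, h, E', .inr S⟩
  · obtain ⟨f, S⟩ := letters (flip h) E' 3 y' h2 ⟨a0, a1, by simpa using a2⟩
      [[], [], [], [], [], [0], [2], [4]] LN (by decide +kernel) (by decide)
    exact ⟨_, _, f, flip h, E', .inr S⟩

end Cfsg.Agent.Lib.ThCl
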