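import Cfsg.Agent.Lib.Co1Defs
import Cfsg.Agent.Lib.ThCl

/-! Coordinates for an extraspecial group of order `2 ^ 9` and plus type, and the lifting of automorphisms. -/

set_option autoImplicit false
set_option maxRecDepth 100000

namespace Cfsg.Agent.Lib.Co1Q

open Subgroup Cfsg.Agent.Lib.PermNet Cfsg.Agent.Lib.DCE Cfsg.Agent.Lib.Co1Defs
open Cfsg.Agent.Lib.ThDefs hiding Hyp
open Cfsg.Agent.Lib.ThQ (Bas bits ins_ok top_ok ass_ok inv_ok ins_prod tr)
open Cfsg.Agent.Lib.ThO (OV lt_of_fix xl)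
open Cfsg.Agent.Lib.ThCl (Md qm_mod top md_mod)

variable {G : Type*} [Group G] {z : G} {Q : Subgroup G} {q n : ℕ → G}

theorem of_basis0 [Finite G] (h : Hyp0 z Q) (hq : ∀ i < 8, q i ∈ Q) (hb : Bas z q) :
    ∃ n, Enc z Q n ∧ ∀ i < 8, n (2 ^ i) = q i := by
  have hc : ∀ g ∈ Q, g * z = z * g := fun g hg => mem_centralizer_singleton_iff.1 (h.le hg)
  have hp : ∀ m, ((bits m).map q).prod ∈ Q := fun m => Q.list_prod_mem fun x hx => by
    obtain ⟨i, hi, rfl⟩ := List.mem_map.1 hx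
    exact hq i (List.mem_range.1 (List.mem_filter.1 hi).1)
  have hm : ∀ k, z ^ (k % 2) = z ^ k := fun k => (pow_eq_pow_mod k (by rw [sq, h.zz])).symm
  let n : ℕ → G := fun m => z ^ (m / 256) * ((bits m).map q).prod
  have n0 : n 0 = 1 := by simp [n, show bits 0 = [] by decide]
  have nz : n 256 = z := by simp [n, show bits 256 = [] by decide]
  have n2 : ∀ i < 8, n (2 ^ i) = q i := fun i hi => by
    have := (by decide : ∀ i < 8, 2 ^ i / 256 = 0 ∧ bits (2 ^ i) = [i]) i hi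
    simp [n, this]
  have m1 : ∀ i < 8, ∀ b < 512, q i * n b = n (qm (2 ^ i) b) := fun i hi b hb' => by
    obtain ⟨a1, a2⟩ := ins_ok i hi b hb'
    simp only [n]
    rw [← a1, ← a2, hm, add_comm, pow_add, mul_assoc, ← ins_prod hb (fun j hj => hc _ (hq j hj)) hi,
      ← mul_assoc, ← mul_assoc, (Commute.pow_right (hc _ (hq i hi)) _).eq]
  have m2 : ∀ b < 512, z * n b = n (qm 256 b) := fun b hb' => by
    obtain ⟨a1, a2, -⟩ := top_ok b hb'
    simp only [n]
    rw [← a1, ← a2, hm, pow_add, pow_one, mul_assoc]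
  have mul : ∀ a < 512, ∀ b < 512, n a * n b = n (qm a b) := fun a => by
    induction a using Nat.strong_induction_on with | _ a ih => ?_
    intro ha b hb'
    obtain ⟨-, -, -, a1 | a1 | ⟨i, hi, a1⟩, -, a2⟩ := top_ok a ha
    · rw [a1, n0, one_mul, (top_ok b hb').2.2.1]
    · rw [a1, nz, m2 b hb']
    · obtain ⟨a2, a3⟩ := a2.resolve_left (by rintro rfl; simp at a1)
      have := allR_all ass_ok a a.zero_le ha
      rw [forceB_eq, forceB_eq] at this
      replace this := beq_eq (allR_all this b b.zero_le hb')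
      change qm (a ^^^ (a &&& (a - 1))) (qm (a &&& (a - 1)) b) = _ at this
      rw [← this, ← a1, ← m1 i hi _ (qm_lt (by omega) hb'), ← ih _ a2 (by omega) b hb', ← mul_assoc (q i),
        m1 i hi _ (by omega), a1, a3]
  have one : ∀ c < 512, n c = 1 → c = 0 := fun c hc' e => by
    obtain ⟨-, -, -, -, a1 | a1 | ⟨i, hi, a1⟩, -⟩ := top_ok c hc'
    · exact a1
    · exact absurd (nz ▸ a1 ▸ e) h.ne
    · have h2 : 2 ^ i < 512 := (Nat.pow_lt_pow_right one_lt_two hi).trans (by decide)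
      have := congrArg n a1
      rw [← m2 _ (qm_lt h2 hc'), ← mul _ hc' _ h2, ← mul _ h2 _ hc', e] at this
      exact absurd (by simpa using this) h.ne
  have inj : ∀ a < 512, ∀ b < 512, n a = n b → a = b := fun a ha b hb' e => by
    obtain ⟨a1, a2⟩ := band_eq (allR_all inv_ok a a.zero_le ha)
    have a3 := allR_all a2 b b.zero_le hb'
    have hl := qm_lt ha (qm_lt ha ha)
    rw [one _ (qm_lt hl hb') (by rw [← mul _ hl _ hb', ← e, mul _ hl _ ha, beq_eq a1, n0])] at a3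
    exact beq_eq a3
  have mem : ∀ a, n a ∈ Q := fun a => mul_mem (pow_mem h.mem _) (hp a)
  refine ⟨n, ⟨mul, fun a _ => mem a, fun g hg => ?_, inj, n0, nz⟩, n2⟩
  obtain ⟨a, e⟩ := (Function.Injective.bijective_of_nat_card_le
    (f := fun a : Fin 512 => (⟨n a, mem a⟩ : Q))
    (fun a b e => Fin.ext (inj _ a.2 _ b.2 (congrArg Subtype.val e))) (by simp [h.cQ])).2 ⟨g, hg⟩
  exact ⟨a, a.2, congrArg Subtype.val e⟩


/-- The codes `L` form a hyperbolic basis. -/
def BasL (L : List ℕ) : Prop := L.length = 8 ∧ (∀ a ∈ L, a < 512) ∧ ∀ i < 8, qm (L.getD i 0) (L.getD i 0) = 0 ∧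
  ∀ j < i, qm (L.getD i 0) (L.getD j 0) =
    qm (if i = j + 1 ∧ j % 2 = 0 then 256 else 0) (qm (L.getD j 0) (L.getD i 0))

noncomputable instance : DecidablePred BasL := fun _ => inferInstanceAs (Decidable (_ ∧ _))

theorem getD_lt {L : List ℕ} (h : ∀ a ∈ L, a < 512) (i : ℕ) : L.getD i 0 < 512 := by
  by_cases hi : i < L.length
  · rw [List.getD_eq_getElem _ _ hi]; exact h _ (List.getElem_mem _)
  · rw [List.getD_eq_default _ _ (not_lt.1 hi)]; decide

theorem pl : ∀ i < 8, 2 ^ i < 512 := by decide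

theorem tr0 {n' : ℕ → G} (E : Enc z Q n) (E' : Enc z Q n') {L : List ℕ} (hl : L.length = 8) (hlt : ∀ a ∈ L, a < 512)
    (h : ∀ i < 8, n' (2 ^ i) = n (L.getD i 0)) {m : ℕ} (hm : m < 512) : n' m = n (lin L m) := by
  have := (tr E E' (L := L0) (L' := L) (List.forall₂_iff_get.2 ⟨hl.symm, fun i h1 h2 => by
    have h3 := (by decide : ∀ i (h : i < L0.length), L0.get ⟨i, h⟩ = 2 ^ i ∧ 2 ^ i < 512) i h1
    refine ⟨h3.1 ▸ h3.2, hlt _ (List.get_mem _ _), ?_⟩
    rw [h3.1, h i h1, List.getD_eq_getElem _ _ h2]; rfl⟩) m).2.2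
  rwa [lin_L0 m hm] at this

/-- The element of `Q` with a given code. -/
def nq (E : Enc z Q n) (m : ℕ) : Q := if h : m < 512 then ⟨n m, E.mem m h⟩ else 1

theorem nq_val (E : Enc z Q n) {m : ℕ} (hm : m < 512) : (nq E m : G) = n m := by rw [nq, dif_pos hm]

theorem nq_surj (E : Enc z Q n) (x : Q) : ∃ m < 512, nq E m = x :=
  (E.surj x x.2).imp fun _ h => ⟨h.1, Subtype.ext ((nq_val E h.1).trans h.2)⟩

theorem nq_mul (E : Enc z Q n) {a b : ℕ} (ha : a < 512) (hb : b < 512) : nq E a * nq E b = nq E (qm a b) :=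
  Subtype.ext (by rw [coe_mul, nq_val E ha, nq_val E hb, nq_val E (qm_lt ha hb), E.mul a ha b hb])

section
variable (h : Hyp0 z Q) (E : Enc z Q n)
include h

theorem md_trans {a b c : G} (h1 : Md z a b) (h2 : Md z b c) : Md z a c := by
  rcases h1 with rfl | rfl <;> rcases h2 with rfl | rfl
  exacts [.inl rfl, .inr rfl, .inr rfl, .inl (by rw [← mul_assoc, h.zz, one_mul])]

theorem md_symm {a b : G} (h1 : Md z a b) : Md z b a :=
  h1.imp Eq.symm fun e => by rw [e, ← mul_assoc, h.zz, one_mul]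

theorem md_mul {a b c d : G} (h1 : Md z a b) (h2 : Md z c d) (hb : b * z = z * b) :
    Md z (a * c) (b * d) := by
  rcases h1 with rfl | rfl <;> rcases h2 with rfl | rfl
  exacts [.inl rfl, .inr (by rw [← mul_assoc, hb, mul_assoc]), .inr (mul_assoc _ _ _),
    .inl (by rw [← hb, mul_assoc, ← mul_assoc z, h.zz, one_mul])]


theorem aut_z (α : MulAut Q) : (α ⟨z, h.mem⟩ : G) = z := by
  refine (h.cen _ (h.le (α _).2) fun q hq => ?_).resolve_left fun e => h.ne ?_
  · obtain ⟨r, e⟩ := α.surjective ⟨q, hq⟩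
    have : α (⟨z, h.mem⟩ * r) = α (r * ⟨z, h.mem⟩) :=
      congrArg α (Subtype.ext (mem_centralizer_singleton_iff.1 (h.le r.2)).symm)
    rw [map_mul, map_mul, e] at this
    exact congrArg Subtype.val this
  · exact congrArg Subtype.val ((map_eq_one_iff α α.injective).1 (Subtype.ext e))

theorem le_nor : centralizer {z} ≤ normalizer (Q : Set G) := fun g hg => mem_normalizer_iff.2 fun q =>
  ⟨h.nor g hg q, fun hq => by simpa [mul_assoc] using h.nor _ (inv_mem hg) _ hq⟩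

include E

theorem nz {a : ℕ} (ha : a < 512) : n a * z = z * n a :=
  mem_centralizer_singleton_iff.1 (h.le (E.mem a ha))

theorem enc_map (α : MulAut Q) : Enc z Q fun m => α (nq E m) where
  mul a ha b hb := by rw [← coe_mul, ← map_mul, nq_mul E ha hb]
  mem a _ := (α _).2
  surj x hx := (nq_surj E (α.symm ⟨x, hx⟩)).imp fun m hm => ⟨hm.1, by simp [hm.2]⟩
  inj a ha b hb e := E.inj a ha b hb (by rw [← nq_val E ha, ← nq_val E hb, α.injective (Subtype.ext e)])
  zero := by rw [show nq E 0 = 1 from Subtype.ext ((nq_val E (by decide)).trans E.zero)]; simp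
  z256 := by
    rw [show nq E 256 = ⟨z, h.mem⟩ from Subtype.ext ((nq_val E (by decide)).trans E.z256)]
    exact aut_z h α

theorem aut_ext {α β : MulAut Q} (e : ∀ i < 8, α (nq E (2 ^ i)) = β (nq E (2 ^ i))) : α = β := MulEquiv.ext fun x => by
  obtain ⟨m, hm, rfl⟩ := nq_surj E x
  have := tr0 (enc_map h E β) (enc_map h E α) (L := L0) rfl (by decide) (fun i hi => by
    rw [(by decide : ∀ i < 8, L0.getD i 0 = 2 ^ i) i hi, e i hi]) hm
  rw [lin_L0 m hm] at this
  exact Subtype.ext this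

/-- The action of the automorphisms on the orthogonal space. -/
theorem exists_rhoA : ∃ ρ : MulAut Q →* Equiv.Perm ℕ, ∀ g, ρ g ∈ OV ∧
    ∀ p < 256, Md z (g (nq E p)) (n (ρ g p)) := by
  choose A A1 A2 using fun (g : MulAut Q) p => nq_surj E (g (nq E p))
  have inj : ∀ a < 512, ∀ b < 512, nq E a = nq E b → a = b := fun a ha b hb e =>
    E.inj a ha b hb (by rw [← nq_val E ha, e, nq_val E hb])
  have Am : ∀ g, ∀ a < 512, ∀ b < 512, A g (qm a b) = qm (A g a) (A g b) := fun g a ha b hb =>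
    inj _ (A1 g _) _ (qm_lt (A1 g a) (A1 g b)) (by
      rw [← nq_mul E (A1 g a) (A1 g b), A2, A2, A2, ← nq_mul E ha hb, map_mul])
  have Az : ∀ g, A g 0 = 0 ∧ A g 256 = 256 := fun g =>
    ⟨E.inj _ (A1 g _) _ (by decide) (by rw [← nq_val E (A1 g _), A2, E.zero]; exact (enc_map h E g).zero),
      E.inj _ (A1 g _) _ (by decide) (by rw [← nq_val E (A1 g _), A2, E.z256]; exact (enc_map h E g).z256)⟩
  have Ad : ∀ g, ∀ a < 512, A g (a % 256) % 256 = A g a % 256 := fun g a ha => by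
    rcases (top a ha).1 with e | e
    · rw [← e]
    · nth_rw 2 [e]
      rw [Am g _ (by decide) _ (by omega), (Az g).2, qm_mod]; simp
  let b : MulAut Q → ℕ → ℕ := fun g p => if p < 256 then A g p % 256 else p
  have b1 : ∀ g, ∀ p < 256, b g p = A g p % 256 := fun g p hp => if_pos hp
  have b2 : ∀ g p, 256 ≤ p → b g p = p := fun g p hp => if_neg (by omega)
  have bm : ∀ g k p, b (g * k) p = b g (b k p) := fun g k p => by
    by_cases hp : p < 256
    · rw [b1 _ p hp, b1 k p hp, b1 g _ (by omega), Ad g _ (A1 k p)]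
      congr 1
      refine inj _ (A1 _ p) _ (A1 g _) ?_
      rw [A2, A2, A2, MulAut.mul_apply]
    · rw [b2 _ p (by omega), b2 k p (by omega), b2 g p (by omega)]
  have b0 : ∀ p, b 1 p = p := fun p => by
    by_cases hp : p < 256
    · rw [b1 _ p hp, inj _ (A1 1 p) p (by omega) (A2 _ p)]; omega
    · exact b2 _ p (by omega)
  refine ⟨MonoidHom.mk' (fun g => ⟨b g, b g⁻¹, fun p => by rw [← bm, inv_mul_cancel, b0],
    fun p => by rw [← bm, mul_inv_cancel, b0]⟩) fun g k => Equiv.ext (bm g k),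
    fun g => ⟨⟨b2 g, fun a ha => ⟨?_, fun c hc => ?_⟩⟩, fun p hp => ?_⟩⟩
  · change qm (b g a) (b g a) = _
    rw [b1 g a ha, ← (top _ (A1 g a)).2.1, ← Am g a (by omega) a (by omega)]
    rcases (top a (by omega)).2.2 with e | e <;> rw [e]
    exacts [(Az g).1, (Az g).2]
  · change b g _ = b g a ^^^ b g c
    rw [b1 g a ha, b1 g c hc, b1 g _ (xl ha hc), ← qm_mod, ← Am g a (by omega) c (by omega),
      ← Ad g _ (qm_lt (a := a) (b := c) (by omega) (by omega)), qm_mod, Nat.mod_eq_of_lt ha,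
      Nat.mod_eq_of_lt hc]
  · change Md z _ (n (b g p))
    rw [b1 g p hp, ← A2 g p, nq_val E (A1 g p)]
    exact md_mod E (A1 g p)

theorem exists_rho : ∃ ρ : centralizer ({z} : Set G) →* Equiv.Perm ℕ, ∀ g, ρ g ∈ OV ∧
    ∀ p < 256, Md z (g * n p * (g : G)⁻¹) (n (ρ g p)) := by
  obtain ⟨ρ, hρ⟩ := exists_rhoA h E
  refine ⟨ρ.comp (Q.normalizerMonoidHom.comp (inclusion (le_nor h))), fun g => ⟨(hρ _).1, fun p hp => ?_⟩⟩
  rw [← nq_val E (show p < 512 by omega)]
  exact (hρ (Q.normalizerMonoidHom (inclusion (le_nor h) g))).2 p hp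

theorem card_aut [Finite G] : Nat.card (MulAut Q) ≤ 89181388800 := by
  classical
  obtain ⟨ρ, hρ⟩ := exists_rhoA h E
  have h1 : Nat.card ρ.ker ≤ Nat.card (Fin 8 → Bool) := by
    refine Nat.card_le_card_of_injective (fun g i => decide ((g.1 (nq E (2 ^ i.1)) : G) = n (2 ^ i.1)))
      fun a b e => Subtype.ext (aut_ext h E fun i hi => Subtype.ext ?_)
    have k : ∀ g : ρ.ker, Md z (g.1 (nq E (2 ^ i))) (n (2 ^ i)) := fun g => by
      have := (hρ g).2 (2 ^ i) ((by decide : ∀ i < 8, 2 ^ i < 256) i hi)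
      rwa [show ρ g = 1 from g.2] at this
    have := congrFun e ⟨i, hi⟩
    simp only [decide_eq_decide] at this
    rcases k a with a1 | a1 <;> rcases k b with b1 | b1
    exacts [a1.trans b1.symm, a1.trans (this.1 a1).symm, (this.2 b1).trans b1.symm, a1.trans b1.symm]
  have h2 : Nat.card ρ.range ≤ 348364800 := (card_le_of_le (show ρ.range ≤ OV from by
    rintro _ ⟨g, rfl⟩; exact (hρ g).1)).trans ThO.card_le
  rw [← ρ.ker.index_mul_card, index_ker]
  exact (Nat.mul_le_mul h2 h1).trans (by simp)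

/-- The signs are adjusted by an element of `Q`. -/
theorem adjust {g : G} (hg : g ∈ centralizer ({z} : Set G)) {L : List ℕ} (h1 : L.length = 8)
    (h2 : ∀ a ∈ L, a < 512) (h3 : ∀ i < 8, Md z (g * n (2 ^ i) * g⁻¹) (n (L.getD i 0))) :
    ∃ q ∈ Q, Act n (g * q) L := by
  have key : ∀ k ≤ 8, ∃ q ∈ Q, ∀ i < 8, Md z (g * q * n (2 ^ i) * (g * q)⁻¹) (n (L.getD i 0)) ∧
      (i < k → g * q * n (2 ^ i) * (g * q)⁻¹ = n (L.getD i 0)) := fun k hk => by
    induction k with
    | zero => exact ⟨1, one_mem _, fun i hi => ⟨by simpa using h3 i hi, by simp⟩⟩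
    | succ k ih =>
      obtain ⟨q, hq, e⟩ := ih (by omega)
      rcases (e k hk).1 with e1 | e1
      · exact ⟨q, hq, fun i hi => ⟨(e i hi).1, fun h4 => by
          rcases Nat.lt_succ_iff_lt_or_eq.1 h4 with h4 | rfl
          exacts [(e i hi).2 h4, e1]⟩⟩
      have c : ∀ i < 8, g * (q * n (2 ^ (k ^^^ 1))) * n (2 ^ i) * (g * (q * n (2 ^ (k ^^^ 1))))⁻¹ =
          (if i = k then z else 1) * (g * q * n (2 ^ i) * (g * q)⁻¹) := fun i hi => by
        obtain ⟨a1, a2, a3⟩ := (by decide +kernel : ∀ k < 8, ∀ i < 8, 2 ^ (k ^^^ 1) < 512 ∧ 2 ^ i < 512 ∧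
          qm (2 ^ (k ^^^ 1)) (2 ^ i) = qm (if i = k then 256 else 0) (qm (2 ^ i) (2 ^ (k ^^^ 1)))) k hk i hi
        have := congrArg n a3
        rw [← E.mul _ a1 _ a2, ← E.mul _ (by split_ifs <;> decide) _ (qm_lt a2 a1), ← E.mul _ a2 _ a1] at this
        rw [← mul_assoc g, mul_assoc (g * q), this]
        have := mem_centralizer_singleton_iff.1 (mul_mem hg (h.le hq))
        split_ifs
        · rw [E.z256, ← mul_assoc, this]; group
        · rw [E.zero]; group
      refine ⟨q * n (2 ^ (k ^^^ 1)), mul_mem hq (E.mem _ ((by decide : ∀ k < 8, 2 ^ (k ^^^ 1) < 512) k hk)),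
        fun i hi => ?_⟩
      rw [c i hi]
      split_ifs with h4
      · have : z * (g * q * n (2 ^ i) * (g * q)⁻¹) = n (L.getD i 0) := by
          rw [h4, e1, ← mul_assoc, h.zz, one_mul]
        exact ⟨.inl this, fun _ => this⟩
      · rw [one_mul]; exact ⟨(e i hi).1, fun h5 => (e i hi).2 (by omega)⟩
  obtain ⟨q, hq, e⟩ := key 8 le_rfl
  exact ⟨q, hq, h1, h2, fun i hi => (e i hi).2 hi⟩

theorem of_act {g : G} (hg : g ∈ centralizer ({z} : Set G)) (h1 : Act n g L0) : g = 1 ∨ g = z :=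
  h.cen g hg fun q hq => by
    obtain ⟨a, ha, rfl⟩ := E.surj q hq
    have := h1.all E hg ha
    rwa [lin_L0 a ha, mul_inv_eq_iff_eq_mul] at this

theorem rebase [Finite G] {L : List ℕ} (hb : BasL L) : ∃ n2, Enc z Q n2 ∧ ∀ m < 512, n2 m = n (lin L m) := by
  have l := getD_lt hb.2.1
  obtain ⟨n2, E2, e⟩ := of_basis0 h (q := fun i => n (L.getD i 0)) (fun i _ => E.mem _ (l i)) fun i hi =>
    ⟨by rw [E.mul _ (l i) _ (l i), (hb.2.2 i hi).1, E.zero], fun j hj => by
      rw [E.mul _ (l i) _ (l j), (hb.2.2 i hi).2 j hj, ← E.mul _ (by split_ifs <;> decide) _ (qm_lt (l j) (l i)),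
        E.mul _ (l j) _ (l i)]
      split_ifs
      exacts [by rw [E.z256, pow_one], by rw [E.zero, pow_zero]]⟩
  exact ⟨n2, E2, fun m hm => tr0 E E2 hb.1 hb.2.1 e hm⟩

omit h in
theorem exists_aut [Finite G] {n' : ℕ → G} (E' : Enc z Q n') : ∃ α : MulAut Q, ∀ m < 512, α (nq E m) = nq E' m := by
  choose c c1 c2 using nq_surj E
  have inj : ∀ {n : ℕ → G} (E : Enc z Q n), ∀ a < 512, ∀ b < 512, nq E a = nq E b → a = b := fun E a ha b hb e =>
    E.inj a ha b hb (by rw [← nq_val E ha, e, nq_val E hb])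
  let f : Q →* Q := MonoidHom.mk' (fun x => nq E' (c x)) fun x y => by
    rw [nq_mul E' (c1 x) (c1 y), inj E _ (c1 (x * y)) _ (qm_lt (c1 x) (c1 y)) (by
      rw [← nq_mul E (c1 x) (c1 y), c2, c2, c2])]
  have hf : Function.Injective f := fun x y e => by rw [← c2 x, inj E' _ (c1 x) _ (c1 y) e, c2]
  exact ⟨MulEquiv.ofBijective f (Finite.injective_iff_bijective.1 hf), fun m hm =>
    congrArg (nq E') (inj E _ (c1 _) _ hm (c2 _))⟩

theorem odd_fix {g : G} (hg : g ∈ centralizer ({z} : Set G)) {L : List ℕ} (h1 : Act n g L) (k : ℕ)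
    (h3 : (List.map (lin L))^[2 * k] L = L0) :
    ∃ g' ∈ centralizer ({z} : Set G), (g' = g ∨ g' = g * z) ∧ Act n g' L ∧ g' ^ (2 * k + 1) = 1 := by
  have : ∀ j, Act n (g ^ (j + 1)) ((List.map (lin L))^[j] L) := fun j => by
    induction j with
    | zero => simpa using h1
    | succ j ih => rw [pow_succ', Function.iterate_succ_apply']; exact h1.mul ih E hg
  have hc := mem_centralizer_singleton_iff.1 hg
  rcases of_act h E (pow_mem hg _) (h3 ▸ this (2 * k)) with e | e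
  · exact ⟨g, hg, .inl rfl, h1, e⟩
  · refine ⟨g * z, mul_mem hg (h.le h.mem), .inr rfl, ⟨h1.1, h1.2.1, fun i hi => ?_⟩, ?_⟩
    · rw [← h1.2.2 i hi, mul_assoc g, ← nz h E (pl i hi)]; group
    · rw [Commute.mul_pow hc, e, pow_succ, pow_mul, sq, h.zz, one_pow, one_mul, h.zz]

end

/-- Every automorphism of odd order is induced. -/
theorem lift [Finite G] (h : Hyp z Q) (E : Enc z Q n) {L : List ℕ} (hb : BasL L) (k : ℕ)
    (ho : (List.map (lin L))^[2 * k] L = L0) :
    ∃ g ∈ centralizer ({z} : Set G), Act n g L ∧ g ^ (2 * k + 1) = 1 := by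
  obtain ⟨n2, E2, e⟩ := rebase h.toHyp0 E hb
  obtain ⟨α, hα⟩ := exists_aut E E2
  have a1 : ∀ m < 512, α (nq E m) = nq E (lin L m) := fun m hm => Subtype.ext (by
    rw [hα m hm, nq_val E2 hm, nq_val E (lin_lt hb.2.1 m), e m hm])
  have a2 : ∀ i < 8, lin L (2 ^ i) = L.getD i 0 := by
    obtain ⟨a, b, c, d, a', b', c', d', rfl⟩ : ∃ a b c d a' b' c' d', L = [a, b, c, d, a', b', c', d'] := by
      match L, hb.1 with
      | [a, b, c, d, a', b', c', d'], _ => exact ⟨_, _, _, _, _, _, _, _, rfl⟩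
    have z0 : ∀ a, qm a 0 = a := fun a => by
      change a ^^^ 0 ^^^ par (Nat.land (Nat.shiftRight a 1) 0) <<< 8 = a
      rw [show Nat.land (Nat.shiftRight a 1) 0 = 0 from Nat.and_zero _]
      simp [show par 0 = 0 from rfl]
    intro i hi
    interval_cases i <;> simp [lin_cons, show lin [] 0 = 0 from rfl, z0]
  have a3 : ∀ j, ((List.map (lin L))^[j] L).length = 8 ∧ (∀ a ∈ (List.map (lin L))^[j] L, a < 512) ∧
      ∀ i < 8, (α ^ (j + 1)) (nq E (2 ^ i)) = nq E (((List.map (lin L))^[j] L).getD i 0) := fun j => by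
    induction j with
    | zero => exact ⟨hb.1, hb.2.1, fun i hi => by simpa [a2 i hi] using a1 _ (pl i hi)⟩
    | succ j ih =>
      rw [Function.iterate_succ_apply']
      refine ⟨by simpa using ih.1, fun a ha => ?_, fun i hi => ?_⟩
      · obtain ⟨b, -, rfl⟩ := List.mem_map.1 ha
        exact lin_lt hb.2.1 b
      · rw [pow_succ', MulAut.mul_apply, ih.2.2 i hi, a1 _ (getD_lt ih.2.1 i),
          List.getD_eq_getElem _ _ (ih.1 ▸ hi), List.getD_eq_getElem _ _ (by simpa [ih.1] using hi), List.getElem_map]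
  obtain ⟨g, hg, e1⟩ := BT.exists_lift (le_nor h.toHyp0) h.cen ((card_aut h.toHyp0 E).trans h.cH.ge) (α := α) (k := k)
    (aut_ext h.toHyp0 E fun i hi => by
      rw [(a3 _).2.2 i hi, ho, (by decide : ∀ i < 8, L0.getD i 0 = 2 ^ i) i hi]; rfl)
  obtain ⟨g', g1, -, g2⟩ := odd_fix h.toHyp0 E hg (L := L) ⟨hb.1, hb.2.1, fun i hi => by
    rw [← nq_val E (pl i hi), e1, a1 _ (pl i hi), a2 i hi, nq_val E (getD_lt hb.2.1 i)]⟩ k ho
  exact ⟨g', g1, g2⟩

end Cfsg.Agent.Lib.Co1Q
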