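import Cfsg.Agent.Lib.Co1Q
import Cfsg.Agent.Lib.FStar
import Cfsg.Agent.Lib.PCoreResidual

/-! The hypothesis for the first Conway group inside `G`; the extraspecial subgroup has plus type. -/

set_option autoImplicit false

namespace Cfsg.Agent.Lib.Co1Q2

open Subgroup Cfsg.Agent.Lib.Co1Defs Cfsg.Agent.S3085
open Cfsg.Agent.Lib.SuzG1 (Nd split pairD sq_mul)
open Cfsg.Agent.Lib.ThDefs (Enc)
open Cfsg.Agent.Lib.ThQ (Bas)
open scoped commutatorElement

section form

open Cfsg.Agent.Lib.FormDisc Cfsg.Agent.Lib.FormPerp Cfsg.Agent.Lib.FormMatrix Cfsg.Agent.Lib.FormOrth QuadraticMap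

abbrev Ix := Fin 4 ⊕ Fin 4

abbrev qf := quadFormPlus 4 (ZMod 2)

abbrev qp := qPlus 4 (ZMod 2)

/-- Pointwise stabilisers of basis vectors. -/
abbrev Fx (S : Finset Ix) := fixer (σ := RingHom.id _) (polarBilin qp) qp
  (Submodule.span (ZMod 2) (Pi.basisFun (ZMod 2) Ix '' (S : Set Ix)))

set_option synthInstance.maxSize 1024 in
theorem step (S : Finset Ix) (i : Ix) (n : ℕ) (h : i ∉ S ∧ (Finset.univ.filter fun b : Ix → ZMod 2 =>
    (∃ j, j ∉ S ∧ b j ≠ 0) ∧ qf b = qf (Pi.single i 1) ∧ ∀ j ∈ S,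
      polar qf (Pi.single j 1) b = polar qf (Pi.single j 1) (Pi.single i 1)).card = n) :
    Nat.card (Fx S) = n * Nat.card (Fx (insert i S)) := by
  have hm : ∀ b : Ix → ZMod 2, b ∉ Submodule.span (ZMod 2) (Pi.basisFun (ZMod 2) Ix '' (S : Set Ix)) ↔
      ∃ j, j ∉ S ∧ b j ≠ 0 := fun b => by
    rw [Module.Basis.mem_span_image, Set.not_subset]
    simp only [Finset.mem_coe, Finsupp.mem_support_iff, Pi.basisFun_repr, and_comm]
  rw [card_fixer_step (FormWitt.isFormSpace_quad _ (qPlus_sep 4)) _ (Pi.single i 1)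
    ((hm _).2 ⟨i, h.1, by simp⟩), ← h.2, ← Fintype.card_subtype, ← Nat.card_eq_fintype_card]
  congr 1
  · refine Nat.card_congr (Equiv.subtypeEquivRight fun b => and_congr (hm b) (and_congr_right
      fun _ => ⟨fun h j hj => h _ (Submodule.subset_span ⟨j, hj, by simp⟩), fun h x hx => ?_⟩))
    induction hx using Submodule.span_induction with
    | mem x hx => obtain ⟨j, hj, rfl⟩ := hx; rw [Pi.basisFun_apply]; exact h j hj
    | zero => simp
    | add x y _ _ hx hy => simp only [map_add, LinearMap.add_apply, hx, hy]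
    | smul c x _ hx => simp only [map_smul, LinearMap.smul_apply, hx]
  · rw [Fx, Finset.coe_insert, Set.image_insert_eq,
      Submodule.span_insert, sup_comm, Pi.basisFun_apply]

theorem card_orth : Nat.card (orth qp) = 348364800 := by
  have : Fx ∅ = orth qp := by simp [Fx, fixer_bot]
  rw [← this, step _ (.inl 0) 135 (by decide +kernel), step _ (.inr 0) 64
    (by decide +kernel), step _ (.inl 1) 35 (by decide +kernel), step _ (.inr 1) 16
    (by decide +kernel), step _ (.inl 2) 9 (by decide +kernel), step _ (.inr 2) 4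
    (by decide +kernel), step _ (.inl 3) 2 (by decide +kernel), step _ (.inr 3) 1
    (by decide +kernel), Fx, Set.eq_univ_of_forall (s := ((_ : Finset Ix) : Set Ix))
      (fun x => Finset.mem_coe.2 (by revert x; decide)),
    Set.image_univ, Module.Basis.span_eq, fixer_top, card_bot]

theorem card_omega : Nat.card (Cfsg.Omega (ZMod 2) qf) = 174182400 := by
  have h2 := (Cfsg.Omega (ZMod 2) ⇑qp).index_mul_card
  rw [index_eq_of_equiv (orthEquiv _) (mem_commutator_iff_of_equiv (orthEquiv _)),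
    FormSpin.index_commutator_even (qPlus_sep 4) (by decide) (by simp) (Or.inr (by simp)),
    Nat.card_congr (orthEquiv _).toEquiv, card_orth] at h2
  change 2 * Nat.card (Cfsg.Omega (ZMod 2) qf) = _ at h2
  omega

theorem z2 : ∀ a : ZMod 2, a = 0 ∨ a = 1 := by decide

theorem refl_inj {u v : Ix → ZMod 2} (hu : qp u = 1) (hv : qp v = 1) (e : refl qp u = refl qp v) : u = v := by
  obtain ⟨x, hx⟩ : ∃ x, polar qp u x ≠ 0 := by
    by_contra! h
    rw [qPlus_sep 4 u h] at hu
    simp at hu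
  have := congrArg (fun g : orth qp => g.1 x) e
  simp only [refl_apply, hu, hv, inv_one, one_mul, (z2 _).resolve_left hx, one_smul, sub_right_inj] at this
  rcases z2 (polar qp v x) with h | h <;> rw [h] at this
  · rw [this] at hu; simp at hu
  · rwa [one_smul] at this

theorem normal_odd {N : Subgroup (orth qp)} [hN : N.Normal] (ho : (Nat.card N).Coprime 2) : N = ⊥ := by
  have : Finite (orth qp) := Nat.finite_of_card_ne_zero (by rw [card_orth]; decide)
  have k : ∀ u v, qp u = 1 → qp v = 1 → polar qp u v = 0 → refl qp u * refl qp v ∈ N → u = v := fun u v hu hv h hm => by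
    have h1 : (refl qp u * refl qp v) ^ 2 = 1 := by
      rw [pow_two, mul_assoc, ← mul_assoc (refl qp v), ← refl_comm h, mul_assoc, refl_mul_self, mul_one, refl_mul_self]
    have h2 := Nat.eq_one_of_dvd_coprimes ho (orderOf_dvd_natCard (⟨_, hm⟩ : N))
      (orderOf_dvd_of_pow_eq_one (Subtype.ext h1))
    exact refl_inj hu hv (by
      rw [← refl_inv v]; exact eq_inv_of_mul_eq_one_left (congrArg Subtype.val (orderOf_eq_one_iff.1 h2)))
  have pself : ∀ v, polar qp v v = 0 := fun v => by rw [polar_self, two_nsmul]; exact CharTwo.add_self_eq_zero _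
  refine eq_bot_iff.2 fun n hn => ?_
  have fx : ∀ v, qp v = 1 → n.1 v = v := fun v hv => by
    have hu : qp (n.1 v) = 1 := (mem_orth.1 n.2 v).trans hv
    have m1 : refl qp (n.1 v) * refl qp v ∈ N := by
      rw [← conj_refl, mul_assoc, mul_assoc, ← mul_assoc (refl qp v)]
      exact mul_mem hn (by simpa [refl_inv] using hN.conj_mem _ (inv_mem hn) (refl qp v))
    generalize n.1 v = u at hu m1
    rcases z2 (polar qp u v) with h | h
    · exact k u v hu hv h m1
    obtain ⟨a, b, hab, e⟩ := Fintype.exists_ne_map_eq_of_card_lt (fun a : Fin 4 → ZMod 2 =>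
      (polar qp (Sum.elim a 0) u, polar qp (Sum.elim a 0) v)) (by simp)
    obtain ⟨s, s0, s1, s2, s3⟩ : ∃ s : Ix → ZMod 2, s ≠ 0 ∧ qp s = 0 ∧ polar qp s u = 0 ∧ polar qp s v = 0 :=
      ⟨Sum.elim a 0 - Sum.elim b 0, fun h => hab (funext fun i => sub_eq_zero.1 (congrFun h (.inl i))),
        by simp [coe_qPlus, quadFormPlus], by rw [polar_sub_left]; exact sub_eq_zero.2 (congrArg Prod.fst e),
        by rw [polar_sub_left]; exact sub_eq_zero.2 (congrArg Prod.snd e)⟩
    have add : ∀ x y, qp (x + y) = qp x + qp y + polar qp x y := fun x y => by rw [polar]; ring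
    have hw : qp (s + v) = 1 := by rw [add, s1, s3, hv]; rfl
    have g1 : (refl qp (s + v) * refl qp v).1 v = v := by
      change (refl qp (s + v)).1 ((refl qp v).1 v) = v
      rw [refl_apply_of_polar (pself v), refl_apply_of_polar (by rw [polar_add_left, s3, pself, add_zero])]
    have g2 : (refl qp (s + v) * refl qp v).1 u = s + u := by
      change (refl qp (s + v)).1 ((refl qp v).1 u) = _
      rw [refl_apply v, hv, polar_comm, h, refl_apply, hw]
      simp only [inv_one, one_mul, one_smul, polar_add_left, polar_sub_right, s2, s3, pself, polar_comm qp v u, h]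
      funext i
      simp only [Pi.sub_apply, Pi.add_apply, sub_zero, zero_add, one_smul]
      exact (by decide : ∀ x y t : ZMod 2, x - y - (t + y) = t + x) _ _ _
    have m2 := hN.conj_mem _ m1 (refl qp (s + v) * refl qp v)
    rw [← conj_mul, conj_refl, conj_refl, g1, g2] at m2
    have m3 := mul_mem m2 (inv_mem m1)
    rw [mul_inv_rev, mul_assoc, mul_inv_cancel_left, refl_inv] at m3
    exact absurd (add_eq_right.1 (k _ _ (by rw [add, s1, s2, hu]; rfl) hu
      (by rw [polar_add_left, s2, pself, add_zero]) m3)) s0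
  refine Subtype.ext (LinearEquiv.toLinearMap_injective ((Pi.basisFun (ZMod 2) Ix).ext fun i => ?_))
  obtain ⟨v, h1, h2⟩ := (by decide +kernel : ∀ i : Ix, ∃ v, qf v = 1 ∧ qf (Pi.single i 1 + v) = 1) i
  have := fx _ h2
  rw [map_add, fx v h1] at this
  rw [Pi.basisFun_apply]
  exact add_right_cancel this

theorem core_omega : pPrimeCore 2 (Cfsg.Omega (ZMod 2) qf) = ⊥ := by
  have : Finite (Cfsg.Omega (ZMod 2) qf) := Nat.finite_of_card_ne_zero (by rw [card_omega]; decide)
  have h : (((pPrimeCore 2 (Cfsg.Omega (ZMod 2) ⇑qp)).map (Cfsg.Omega (ZMod 2) ⇑qp).subtype).map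
      (orthEquiv qp).toMonoidHom).Normal := Normal.map inferInstance _ (orthEquiv qp).surjective
  have := normal_odd (hN := h) (PCoreResidual.coprime_card_map _ (PCoreResidual.coprime_card_map _
    (PCoreResidual.coprime_card_pPrimeCore 2 (Cfsg.Omega (ZMod 2) qf))))
  rwa [map_eq_bot_iff_of_injective _ (orthEquiv qp).injective,
    map_eq_bot_iff_of_injective _ (subtype_injective _)] at this

end form

/-- A `p`-constrained group whose quotient by `O_p` has no normal `p'`-subgroup has characteristic `p`. -/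
theorem charP_of {C X : Type*} [Group C] [Finite C] [Group X] {p : ℕ} [Fact p.Prime] (hc : IsPConstrained p C)
    (e : C ⧸ pCore p C ≃* X) (hX : pPrimeCore p X = ⊥) : centralizer (pCore p C : Set C) ≤ pCore p C := by
  have h1 : pPrimeCore p C ≤ pCore p C := by
    have := PCoreResidual.map_pPrimeCore_le_of_surjective (p := p)
      (f := e.toMonoidHom.comp (QuotientGroup.mk' _)) (e.surjective.comp (QuotientGroup.mk'_surjective _))
    rw [hX, le_bot_iff, Subgroup.map_eq_bot_iff] at this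
    intro g hg
    exact (QuotientGroup.eq_one_iff g).1 ((map_eq_one_iff e e.injective).1 (this hg))
  have h2 : pPrimePCore p C = pCore p C := PCore.comap_pCore_of_surjective (QuotientGroup.mk'_surjective _)
    (by rw [QuotientGroup.ker_mk']; exact (PCore.pCore_isPGroup p C).to_le h1)
  obtain ⟨P⟩ : Nonempty (Sylow p (pPrimePCore p C)) := inferInstance
  have h3 := hc P
  have h4 : (P : Subgroup (pPrimePCore p C)) = ⊤ :=
    (P.is_maximal' (IsPGroup.to_subgroup (h2 ▸ PCore.pCore_isPGroup p C) ⊤) le_top).symm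
  rwa [h4, ← MonoidHom.range_eq_map, range_subtype, h2] at h3

variable {G : Type*} [Group G] {z : G} {Q : Subgroup G}

theorem hyp0 (hz : orderOf z = 2) (Q : Subgroup (centralizer ({z} : Set G))) [hN : Q.Normal]
    (hC : centralizer (Q : Set (centralizer ({z} : Set G))) ≤ Q) (hQ : IsExtraspecial 2 Q)
    (hcard : Nat.card Q = 2 ^ 9) : Hyp0 z (Q.map (centralizer {z}).subtype) := by
  let z' : centralizer ({z} : Set G) := ⟨z, mem_centralizer_singleton_iff.2 rfl⟩
  have hzc : ∀ g, g * z' = z' * g := fun g => Subtype.ext (mem_centralizer_singleton_iff.1 g.2)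
  have hzQ : z' ∈ Q := hC fun g _ => hzc g
  have hz1 : z ≠ 1 := by rintro rfl; simp at hz
  have key : ∀ g : Q, g ∈ center Q → (g.1 : G) = 1 ∨ (g.1 : G) = z := by
    intro g hg
    obtain ⟨y, -, hy⟩ := (Nat.card_eq_two_iff' (1 : center Q)).mp hQ.2
    have h1 := hy ⟨⟨z', hzQ⟩, mem_center_iff.mpr fun r => Subtype.ext (hzc r)⟩
      fun h => hz1 (congrArg (fun x : center Q => (x.1.1 : G)) h)
    by_cases h : (⟨g, hg⟩ : center Q) = 1
    · exact Or.inl (congrArg (fun x : center Q => (x.1.1 : G)) h)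
    · exact Or.inr (congrArg (fun x : center Q => (x.1.1 : G)) ((hy _ h).trans h1.symm))
  refine ⟨by rw [← sq, ← hz, pow_orderOf_eq_one], hz1, ⟨z', hzQ, rfl⟩, map_subtype_le Q,
    ?_, fun g hg h => ?_, ?_, ?_⟩
  · rintro g hg _ ⟨q, hq, rfl⟩
    exact ⟨_, hN.conj_mem q hq ⟨g, hg⟩, rfl⟩
  · have : (⟨g, hg⟩ : centralizer ({z} : Set G)) ∈ centralizer (Q : Set (centralizer ({z} : Set G))) :=
      fun r hr => Subtype.ext (h r ⟨r, hr, rfl⟩).symm
    exact key ⟨_, hC this⟩ (mem_center_iff.mpr fun r => Subtype.ext (this r r.2))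
  · rintro _ ⟨q, hq, rfl⟩ _ ⟨r, hr, rfl⟩
    have h1 : ⁅(⟨q, hq⟩ : Q), (⟨r, hr⟩ : Q)⁆ ∈ commutator Q :=
      commutator_mem_commutator (mem_top _) (mem_top _)
    rw [hQ.1.2.2] at h1
    change (q : G) * r = r * q ∨ (q : G) * r = z * (r * q)
    rcases key _ h1 with h | h <;> change (q : G) * r * (q : G)⁻¹ * (r : G)⁻¹ = _ at h
    · left; rw [← one_mul ((r : G) * q), ← h]; group
    · right; rw [← mul_inv_eq_iff_eq_mul, mul_inv_rev, ← mul_assoc]; exact h
  · rw [card_map_of_injective (subtype_injective _), hcard]; rfl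

theorem hyp_of (hz : orderOf z = 2) (Q : Subgroup (centralizer ({z} : Set G))) [Q.Normal]
    (hC : centralizer (Q : Set (centralizer ({z} : Set G))) ≤ Q) (hQ : IsExtraspecial 2 Q)
    (hcard : Nat.card Q = 2 ^ 9)
    (e : centralizer ({z} : Set G) ⧸ Q ≃* Omega (ZMod 2) (quadFormPlus 4 (ZMod 2))) :
    Hyp z (Q.map (centralizer {z}).subtype) := ⟨hyp0 hz Q hC hQ hcard, by
  rw [card_eq_card_quotient_mul_card_subgroup Q, Nat.card_congr e.toEquiv, card_omega, hcard]
  rfl⟩

theorem hyp18 [Finite G] (hz : orderOf z = 2) (Q : Subgroup (centralizer ({z} : Set G))) [Q.Normal]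
    (hF : generalizedFittingSubgroup (centralizer ({z} : Set G)) = Q) (hQ : IsExtraspecial 2 Q)
    (hcard : Nat.card Q = 2 ^ 9)
    (e : centralizer ({z} : Set G) ⧸ Q ≃* Omega (ZMod 2) (quadFormPlus 4 (ZMod 2))) :
    Hyp z (Q.map (centralizer {z}).subtype) :=
  hyp_of hz Q (hF ▸ FStar.centralizer_fstar_le) hQ hcard e

theorem hyp77 [Finite G] (hz : orderOf z = 2) (hcon : IsPConstrained 2 (centralizer ({z} : Set G)))
    (hQ : IsExtraspecial 2 (pCore 2 (centralizer ({z} : Set G))))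
    (hcard : Nat.card (pCore 2 (centralizer ({z} : Set G))) = 2 ^ 9)
    (e : centralizer ({z} : Set G) ⧸ pCore 2 (centralizer ({z} : Set G)) ≃*
      Omega (ZMod 2) (quadFormPlus 4 (ZMod 2))) :
    Hyp z ((pCore 2 (centralizer ({z} : Set G))).map (centralizer {z}).subtype) :=
  hyp_of hz _ (charP_of hcon e core_omega) hQ hcard e

section ex

variable {X : Type*} [Group X] [Finite X] {z : X}

/-- The number of solutions of `x ^ 2 = 1`. -/
noncomputable def inv2 (H : Subgroup X) : ℕ := Nat.card {k : H // k.1 * k.1 = 1}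

theorem inv2_split (h : Ex z) {H K : Subgroup X} {x y : X} (hx : x ∈ H) (hy : y ∈ H) (x2 : x * x = 1)
    (y2 : y * y = 1) (e : x * y ≠ y * x) (hK : K ≤ H) (hc : ∀ k ∈ K, x * k = k * x ∧ y * k = k * y)
    (hcard : Nat.card H = 4 * Nat.card K) : inv2 H = 2 * inv2 K + Nat.card K := by
  classical
  let t : Fin 4 → X := ![1, x, y, x * y]
  have ht : ∀ i, t i ∈ H := fun i => by
    fin_cases i
    exacts [one_mem _, hx, hy, mul_mem hx hy]
  have tc : ∀ i, ∀ k ∈ K, t i * k = k * t i := fun i k hk => by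
    fin_cases i
    exacts [by simp [t], (hc k hk).1, (hc k hk).2, (Ex.cc (hc k hk).1.symm (hc k hk).2.symm).symm]
  let F : Fin 4 × K → H := fun p => ⟨p.2.1 * t p.1, mul_mem (hK p.2.2) (ht _)⟩
  have c : ∀ u, (∀ k ∈ K, u * k = k * u) → ∀ i, ∀ k ∈ K, u * (k * t i) = k * t i * u ↔ u * t i = t i * u :=
    fun u hu i k hk => by rw [← mul_assoc, hu k hk, mul_assoc, mul_assoc, mul_right_inj]
  have ti : ∀ i j, (x * t i = t i * x ↔ x * t j = t j * x) → (y * t i = t i * y ↔ y * t j = t j * y) → i = j := by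
    have a1 : x * (x * y) ≠ x * y * x := h.ca rfl e
    have a2 : y * (x * y) ≠ x * y * y := h.ac e.symm rfl
    have a3 := e.symm
    intro i j
    fin_cases i <;> fin_cases j <;> simp [t, e, a1, a2, a3]
  have inj : Function.Injective F := by
    rintro ⟨i, k⟩ ⟨j, l⟩ e'
    have e' : k.1 * t i = l.1 * t j := congrArg Subtype.val e'
    obtain rfl := ti i j (by rw [← c x (fun k hk => (hc k hk).1) i k k.2, e', c x (fun k hk => (hc k hk).1) j l l.2])
      (by rw [← c y (fun k hk => (hc k hk).2) i k k.2, e', c y (fun k hk => (hc k hk).2) j l l.2])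
    rw [Subtype.ext (mul_right_cancel e')]
  have bij := inj.bijective_of_nat_card_le (by simp [hcard])
  have sq : ∀ i, ∀ k : K, (F (i, k)).1 * (F (i, k)).1 = k.1 * k.1 * (t i * t i) := fun i k => by
    change k.1 * t i * (k.1 * t i) = _
    rw [mul_assoc, ← mul_assoc (t i), tc i k k.2]; group
  have := Fintype.ofFinite K
  have := Fintype.ofFinite H
  have e1 : inv2 H = ∑ p : Fin 4 × K, if (F p).1 * (F p).1 = 1 then 1 else 0 := by
    rw [inv2, Nat.card_eq_fintype_card, Fintype.card_subtype, Finset.card_filter]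
    exact (bij.sum_comp fun k : H => if k.1 * k.1 = 1 then 1 else 0).symm
  have e2 : inv2 K = ∑ k : K, if k.1 * k.1 = 1 then 1 else 0 := by
    rw [inv2, Nat.card_eq_fintype_card, Fintype.card_subtype, Finset.card_filter]
  have e3 : (∑ k : K, if k.1 * k.1 = 1 then 1 else 0) + (∑ k : K, if k.1 * k.1 * z = 1 then 1 else 0) =
      Nat.card K := by
    rw [← Finset.sum_add_distrib, Nat.card_eq_fintype_card, Fintype.card_eq_sum_ones]
    refine Finset.sum_congr rfl fun k _ => ?_
    by_cases a : k.1 * k.1 = 1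
    · simp [a, h.ne]
    · simp [h.sq a, h.zz, h.ne]
  have t3 : t 3 * t 3 = z := by
    change x * y * (x * y) = z
    rw [sq_mul h e, x2, y2, mul_one, mul_one]
  rw [e1, Fintype.sum_prod_type, Fin.sum_univ_four]
  simp only [sq, t3, show t 0 * t 0 = 1 from mul_one _, show t 1 * t 1 = 1 from x2, show t 2 * t 2 = 1 from y2,
    mul_one]
  omega

theorem bas_or (h : Ex z) (hc : Nat.card X = 512) : (∃ q, Bas z q) ∨ inv2 (⊤ : Subgroup X) = 240 := by
  have n0 : Nd (⊤ : Subgroup X) := fun c _ hc => mem_center_iff.2 fun g => hc g trivial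
  obtain ⟨a, -, b, -, a2, b2, ab⟩ := pairD h n0 (by rw [card_top]; omega)
  obtain ⟨K1, k1, c1, d1, n1, -⟩ := split h n0 (mem_top a) (mem_top b) ab
  have s1 := inv2_split h (mem_top a) (mem_top b) a2 b2 ab k1 c1 d1
  rw [card_top] at d1
  obtain ⟨c, hc, d, hd, c2, d2, cd⟩ := pairD h n1 (by omega)
  obtain ⟨K2, k2, e1, f1, n2, -⟩ := split h n1 hc hd cd
  have s2 := inv2_split h hc hd c2 d2 cd k2 e1 f1
  obtain ⟨u, hu, v, hv, u2, v2, uv⟩ := pairD h n2 (by omega)
  obtain ⟨K3, k3, f1', f3, n3, -⟩ := split h n2 hu hv uv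
  have s3 := inv2_split h hu hv u2 v2 uv k3 f1' f3
  by_cases hp : ∃ x ∈ K3, ∃ y ∈ K3, x * x = 1 ∧ y * y = 1 ∧ x * y ≠ y * x
  · obtain ⟨x, hx, y, hy, x2, y2, xy⟩ := hp
    have t : ∀ {x y : X}, x * y = y * x → y * x = z ^ 0 * (x * y) := fun e => by rw [e]; simp
    have t1 : ∀ {x y : X}, x * y ≠ y * x → y * x = z ^ 1 * (x * y) := fun e => by
      rw [pow_one, h.anti e.symm]
    refine .inl ⟨fun i => [a, b, c, d, u, v, x, y].getD i 1, ?_⟩
    simp only [Bas, Nat.forall_lt_succ_right, Nat.not_lt_zero, false_imp_iff, implies_true, true_and]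
    have p := fun g hg => c1 g (k2 hg)
    have p2 := fun g hg => c1 g (k2 (k3 hg))
    have p3 := fun g hg => e1 g (k3 hg)
    exact ⟨⟨⟨⟨⟨⟨⟨⟨a2, trivial⟩, b2, t1 ab⟩, c2, t (c1 c hc).1, t (c1 c hc).2⟩,
      d2, ⟨t (c1 d hd).1, t (c1 d hd).2⟩, t1 cd⟩,
      u2, ⟨⟨t (p u hu).1, t (p u hu).2⟩, t (e1 u hu).1⟩, t (e1 u hu).2⟩,
      v2, ⟨⟨⟨t (p v hv).1, t (p v hv).2⟩, t (e1 v hv).1⟩, t (e1 v hv).2⟩, t1 uv⟩,
      x2, ⟨⟨⟨⟨t (p2 x hx).1, t (p2 x hx).2⟩, t (p3 x hx).1⟩, t (p3 x hx).2⟩, t (f1' x hx).1⟩, t (f1' x hx).2⟩,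
      y2, ⟨⟨⟨⟨⟨t (p2 y hy).1, t (p2 y hy).2⟩, t (p3 y hy).1⟩, t (p3 y hy).2⟩, t (f1' y hy).1⟩,
        t (f1' y hy).2⟩, t1 xy⟩
  · obtain ⟨x, hx, -, -, x2, -⟩ := h.step (by omega) n3
    have : inv2 K3 = 2 := (Nat.card_eq_two_iff' (⟨1, mul_one _⟩ : {k : K3 // k.1 * k.1 = 1})).2
      ⟨⟨⟨z, x2 ▸ mul_mem hx hx⟩, h.zz⟩, fun e => h.ne (congrArg (fun k => k.1.1) e), fun k hk => by
        refine Subtype.ext (Subtype.ext (((h.cen _).1 (n3 _ k.1.2 fun g hg => ?_)).resolve_left
          fun e => hk (Subtype.ext (Subtype.ext e))))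
        by_contra e
        by_cases g2 : g * g = 1
        · exact hp ⟨g, hg, _, k.1.2, g2, k.2, e⟩
        · exact hp ⟨g * k.1, mul_mem hg k.1.2, _, k.1.2, by rw [sq_mul h e, h.sq g2, k.2, mul_one, h.zz], k.2,
            (h.ac (Ne.symm e) rfl).symm⟩⟩
    right
    omega

end ex

theorem ex_of (h : Hyp0 z Q) : Ex (⟨z, h.mem⟩ : Q) :=
  ⟨fun e => h.ne (congrArg Subtype.val e), fun a => ⟨fun ha => (h.cen a (h.le a.2) fun q hq =>
      congrArg Subtype.val (mem_center_iff.1 ha ⟨q, hq⟩).symm).imp Subtype.ext Subtype.ext, by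
    rintro (rfl | rfl)
    exacts [one_mem _, mem_center_iff.2 fun g => Subtype.ext (mem_centralizer_singleton_iff.1 (h.le g.2))]⟩,
    fun a b => (h.com a a.2 b b.2).imp Subtype.ext Subtype.ext⟩

/-- A subgroup of order 25 excludes the minus type. -/
theorem enc_of_dvd [Finite G] (h : Hyp0 z Q) (h25 : 25 ∣ Nat.card (centralizer ({z} : Set G))) :
    ∃ n, Enc z Q n := by
  classical
  rcases bas_or (ex_of h) h.cQ with ⟨q, hq⟩ | h240
  · obtain ⟨n, E, -⟩ := Co1Q.of_basis0 h (q := fun i => (q i : G)) (fun i _ => (q i).2) fun i hi =>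
      ⟨congrArg Subtype.val (hq i hi).1, fun j hj => congrArg Subtype.val ((hq i hi).2 j hj)⟩
    exact ⟨n, E⟩
  exfalso
  have := Fact.mk (show Nat.Prime 5 by norm_num)
  obtain ⟨P, hP⟩ := Sylow.exists_subgroup_card_pow_prime 5 (n := 2) h25
  let ρ : P →* MulAut Q := (Q.normalizerMonoidHom.comp (inclusion (Co1Q.le_nor h))).comp P.subtype
  letI : MulAction P Q := MulAction.compHom Q ρ
  have sm : ∀ (x : P) (q : Q), x • q = ρ x q := fun _ _ => rfl
  have hz : ∀ x, ρ x ⟨z, h.mem⟩ = ⟨z, h.mem⟩ := fun x => Subtype.ext (Co1Q.aut_z h _)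
  let S : SubMulAction P Q := ⟨{q | q * q = 1 ∧ q ≠ 1 ∧ q ≠ ⟨z, h.mem⟩}, fun x q hq =>
    ⟨by rw [sm, ← map_mul, hq.1, map_one], fun e => hq.2.1 ((map_eq_one_iff _ (ρ x).injective).1 e),
      fun e => hq.2.2 ((ρ x).injective (e.trans (hz x).symm))⟩⟩
  have hS : Nat.card S = 238 := by
    have e1 : {q : Q | q * q = 1}.ncard = 240 := by
      rw [← h240]
      exact Nat.card_congr ⟨fun q => ⟨⟨q.1, trivial⟩, q.2⟩, fun q => ⟨q.1.1, q.2⟩, fun _ => rfl, fun _ => rfl⟩
    have e2 : (S : Set Q) = {q : Q | q * q = 1} \ {1, ⟨z, h.mem⟩} := Set.ext fun q => by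
      simp only [Set.mem_sdiff, Set.mem_insert_iff, Set.mem_singleton_iff, not_or]; rfl
    change (S : Set Q).ncard = _
    rw [e2, Set.ncard_sdiff (by
      rintro _ (rfl | rfl)
      exacts [mul_one _, Subtype.ext h.zz]), e1, Set.ncard_pair (ex_of h).ne.symm]
  obtain ⟨a, ha⟩ := (IsPGroup.of_card hP).nonempty_fixed_point_of_prime_not_dvd_card S (by rw [hS]; decide)
  have := Fintype.ofFinite P
  have := Fintype.ofFinite Q
  have hf : ∀ x : P, x ≠ 1 → Fintype.card (MulAction.fixedBy Q x) = 32 := fun x hx => by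
    let F : Subgroup Q := (ρ x).toMonoidHom.eqLocus (MonoidHom.id _)
    have e0 : Fintype.card (MulAction.fixedBy Q x) = Nat.card F := by rw [← Nat.card_eq_fintype_card]; rfl
    have o : x ^ 5 ^ 2 = 1 := hP ▸ pow_card_eq_one'
    have e1 := Equiv.Perm.card_fixedPoints_modEq (p := 5) (n := 2) (f := MulAction.toEndHom (α := Q) x)
      (by rw [← map_pow, o, map_one])
    simp only [← Nat.card_eq_fintype_card, h.cQ] at e1
    change _ ≡ Nat.card F [MOD 5] at e1
    obtain ⟨k, hk, e3⟩ := (Nat.dvd_prime_pow Nat.prime_two (m := 9)).1 (h.cQ ▸ F.card_subgroup_dvd_card)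
    have e4 : Nat.card F ≠ 512 := fun e => by
      have : F = ⊤ := F.eq_top_of_card_eq (e.trans h.cQ.symm)
      have o' : (x.1.1 : G) ^ 25 = 1 := congrArg (fun y : P => (y.1.1 : G)) o
      rcases h.cen x.1.1 x.1.2 fun q hq => mul_inv_eq_iff_eq_mul.1
        (congrArg Subtype.val (this.ge (mem_top (⟨q, hq⟩ : Q)))) with e | e
      · exact hx (Subtype.ext (Subtype.ext e))
      · rw [e, show 25 = 2 * 12 + 1 from rfl, pow_succ, pow_mul, sq, h.zz, one_pow, one_mul] at o'
        exact h.ne o'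
    have e5 : 3 ≤ Nat.card F := by
      have : ({1, ⟨z, h.mem⟩, a.1} : Set Q) ⊆ F := by
        rintro _ (rfl | rfl | rfl)
        exacts [one_mem F, hz x, congrArg Subtype.val (ha x)]
      exact (Set.ncard_eq_three.2 ⟨_, _, _, (ex_of h).ne.symm, a.2.2.1.symm, a.2.2.2.symm, rfl⟩).ge.trans
        (Set.ncard_le_ncard this)
    rw [e0]
    rw [e3] at e1 e4 e5 ⊢
    interval_cases k <;> first | rfl | omega | exact absurd e1 (by decide)
  have := Fintype.ofFinite (Quotient (MulAction.orbitRel P Q))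
  have b := MulAction.sum_card_fixedBy_eq_card_orbits_mul_card_group P Q
  rw [← Finset.add_sum_erase _ _ (Finset.mem_univ 1), Finset.sum_congr rfl (g := fun _ => 32) fun x hx =>
    (by convert hf x (Finset.ne_of_mem_erase hx)), Finset.sum_const, Finset.card_erase_of_mem (Finset.mem_univ _),
    Finset.card_univ, ← Nat.card_eq_fintype_card (α := P), hP, ← Nat.card_eq_fintype_card,
    MulAction.fixedBy_one_eq_univ, Nat.card_univ, h.cQ, smul_eq_mul] at b
  omega

theorem exists_enc [Finite G] (h : Hyp z Q) : ∃ n, Enc z Q n := enc_of_dvd h.toHyp0 (by rw [h.cH]; decide)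

end Cfsg.Agent.Lib.Co1Q2
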