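import Cfsg.Agent.Lib.Co1SN
import Cfsg.Agent.Lib.Co1Q

/-! Computing in the involution centraliser of a group of type `Co₁`, which is only known modulo its
centre. -/

set_option autoImplicit false
set_option maxRecDepth 100000

namespace Cfsg.Agent.Lib.Co1S1

open Subgroup Cfsg.Agent.Lib.PermNet Cfsg.Agent.Lib.Words Cfsg.Agent.Lib.PermGroup Cfsg.Agent.Lib.DCE
  Cfsg.Agent.Lib.BT Cfsg.Agent.Lib.Co1Defs Cfsg.Agent.Lib.Co1SM
open Cfsg.Agent.Lib.ThDefs hiding Hyp

/-- The action of the letters of odd order. -/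
def LA : ℕ → List ℕ
  | 9 => [1, 2, 324, 40, 20, 136, 340, 168]
  | 10 => [1, 2, 324, 8, 64, 168, 336, 32]
  | 11 => [1, 354, 324, 40, 277, 393, 85, 425]
  | 12 => [1, 2, 340, 288, 324, 360, 64, 204]
  | 13 => [85, 8, 81, 10, 16, 34, 64, 130]
  | 14 => [1, 2, 220, 8, 296, 504, 416, 96]
  | 15 => [1, 2, 88, 340, 316, 336, 64, 496]
  | _ => L0

def od (i : ℕ) : ℕ := if i = 9 ∨ i = 11 then 3 else 1

/-- The code of a letter that lies in `Q`. -/
def qc (i : ℕ) : ℕ := if 1 ≤ i ∧ i < 9 then 2 ^ (i - 1) else 0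

/-- The word acts trivially on `Q`. -/
noncomputable abbrev fx (w : List ℕ) : Bool := fixW (nat_lit 9) (nat_lit 511) htt (hch.map Lv.b) w

noncomputable abbrev pt (w : List ℕ) (p : ℕ) : ℕ := ap1i (nat_lit 9) (nat_lit 511) htt w p

/-- Collect the letters in `Q`. -/
noncomputable def col (w : List ℕ) (p : ℕ) : ℕ :=
  List.rec (motive := fun _ => ℕ) p (fun l _ ih => force ih fun q =>
    if qc (l / 2) = 0 then pt [l] q else qm (qc (l / 2)) q) w

def nq (w : List ℕ) : List ℕ := w.filter fun l => qc (l / 2) == 0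

noncomputable def colB (R : List (List ℕ)) : Bool :=
  allL (fun w => band (Nat.beq (col w 0) 0) (eqL (nf [] (nq w)) [])) R

def cjw (u a : List ℕ) : List ℕ := u ++ a ++ invW u

def cmw (a b : List ℕ) : List ℕ := a ++ b ++ invW a ++ invW b

/-- The words of odd order. -/
def OW : List (List ℕ) := [[18], [19], [20], [21], [22], [23], [24], [25], [26], [27], [28], [29], [30],
  [31], [18, 18]]

abbrev RE := List ℕ × List ℕ × List ℕ × List ℕ

def rgw (e : RE) : List ℕ := cjw e.1 e.2.1 ++ invW (cjw e.2.2.1 e.2.2.2)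

noncomputable def rigB (L : List RE) : Bool :=
  allL (fun e => band (OW.contains e.2.1 && OW.contains e.2.2.2) (fx (rgw e))) L

variable {G : Type*} [Group G] {z : G} {Q : Subgroup G} {n F : ℕ → G}

theorem wval_cjw (u a : List ℕ) : wval F (cjw u a) = wval F u * wval F a * (wval F u)⁻¹ := by
  rw [cjw, wval_append, wval_append, wval_invW]

theorem wval_cmw (a b : List ℕ) :
    wval F (cmw a b) = wval F a * wval F b * (wval F a)⁻¹ * (wval F b)⁻¹ := by
  rw [cmw, wval_append, wval_append, wval_append, wval_invW, wval_invW]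

/-- The letters. -/
structure SF (z : G) (n F : ℕ → G) : Prop where
  f0 : F 0 = 1
  q : ∀ i, 1 ≤ i → i < 9 → F i = n (2 ^ (i - 1))
  act : ∀ i, 9 ≤ i → i < 16 →
    F i ∈ centralizer ({z} : Set G) ∧ Act n (F i) (LA i) ∧ F i ^ (2 * od i + 1) = 1

theorem qc_ok (i : ℕ) : qc i < 512 ∧ qm (qc i) (qc i) = 0 := by
  by_cases hi : i < 9
  · exact (by decide +kernel : ∀ i < 9, qc i < 512 ∧ qm (qc i) (qc i) = 0) i hi
  · rw [qc, if_neg (by omega)]; decide +kernel

theorem cZ {c x : G} (hc : c ∈ centralizer ({z} : Set G)) (hx : x ∈ zpowers z) : c * x = x * c := by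
  obtain ⟨j, rfl⟩ := hx
  exact ((show Commute c z from mem_centralizer_singleton_iff.1 hc).zpow_right j).eq

theorem cjZ {c x : G} (hc : c ∈ centralizer ({z} : Set G)) (hx : x ∈ zpowers z) :
    c * x * c⁻¹ ∈ zpowers z := by rwa [cZ hc hx, mul_inv_cancel_right]

theorem SF.qv (S : SF z n F) {i : ℕ} (hi : qc i ≠ 0) : F i = n (qc i) := by
  unfold qc at hi ⊢
  split_ifs at hi ⊢ with h8
  · exact S.q i h8.1 h8.2
  · exact absurd rfl hi

theorem SF.p21 (S : SF z n F) : ∀ a ∈ OW, wval F a ^ 21 = 1 := by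
  have k : ∀ i, 9 ≤ i → i < 16 → F i ^ 21 = 1 := fun i h1 h2 => by
    have := (S.act i h1 h2).2.2
    unfold od at this
    split_ifs at this
    · rw [show 21 = (2 * 3 + 1) * 3 from rfl, pow_mul, this, one_pow]
    · rw [show 21 = (2 * 1 + 1) * 7 from rfl, pow_mul, this, one_pow]
  simp [OW, wval, lval, k, (Commute.refl _).mul_pow]

theorem nn (E : Enc z Q n) (i : ℕ) : (n (qc i))⁻¹ = n (qc i) :=
  inv_eq_of_mul_eq_one_right (by rw [E.mul _ (qc_ok i).1 _ (qc_ok i).1, (qc_ok i).2, E.zero])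

/-- The model. -/
structure Cx (z : G) (n F : ℕ → G) where
  M : Model F (centralizer {z}) (zpowers z) (nat_lit 512) (nat_lit 9) (nat_lit 511) htt (hch.map Lv.b)
    44590694400
  hs : ∀ g : centralizer ({z} : Set G), ∀ p < 512, g * n p * (g : G)⁻¹ = n (M.π g p)
  ch : M.Ch (centralizer {z}) hch
  gen : ∀ i, F i ∈ gp F (sing 16)

theorem tabs_ok : ∀ i < 16, allR (fun p => Nat.beq (lk 9 511 (htt.get (2 * i + 1)) p)
    (if qc i = 0 then lin (LA i) p else qm (qm (qc i) p) (qc i))) 0 512 = true := by decide +kernel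

theorem exists_cx [Finite G] (h : Hyp z Q) (E : Enc z Q n) : ∃ F, SF z n F ∧ Nonempty (Cx z n F) := by
  have k0 : ∀ i, ∃ g, 9 ≤ i → i < 16 →
      g ∈ centralizer ({z} : Set G) ∧ Act n g (LA i) ∧ g ^ (2 * od i + 1) = 1 := fun i => by
    by_cases hi : 9 ≤ i ∧ i < 16
    · obtain ⟨a, b⟩ := (by decide +kernel : ∀ i < 16, 9 ≤ i → Co1Q.BasL (LA i) ∧
        (List.map (lin (LA i)))^[2 * od i] (LA i) = L0) i hi.2 hi.1
      obtain ⟨g, hg⟩ := Co1Q.lift h E a _ b
      exact ⟨g, fun _ _ => hg⟩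
    · exact ⟨1, fun a b => absurd ⟨a, b⟩ hi⟩
  choose g hg using k0
  let f : ℕ → G := fun i => if i = 0 then 1 else if i < 9 then n (2 ^ (i - 1)) else g i
  have S : SF z n f := ⟨rfl, fun i h1 h2 => by simp only [f]; rw [if_neg (by omega), if_pos h2],
    fun i h1 h2 => by simp only [f]; rw [if_neg (by omega), if_neg (by omega)]; exact hg i h1 h2⟩
  have k : ∀ i < 16, qc i = 0 → f i ∈ centralizer ({z} : Set G) ∧ Act n (f i) (LA i) := fun i hi h0 => by
    rcases (by decide : ∀ i < 16, qc i = 0 → i = 0 ∨ 9 ≤ i) i hi h0 with rfl | e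
    · rw [S.f0]
      exact ⟨one_mem _, rfl, by decide, fun j hj => by
        rw [(by decide : ∀ j < 8, (LA 0).getD j 0 = 2 ^ j) j hj]; simp⟩
    · exact ⟨(S.act i e hi).1, (S.act i e hi).2.1⟩
  obtain ⟨M, hM⟩ := hTM.cmodel (f := f) (H := centralizer {z}) (Z := zpowers z) (s := n)
    (fun i hi => by
      by_cases h0 : qc i = 0
      · exact (k i hi h0).1
      · exact S.qv h0 ▸ h.le (E.mem _ (qc_ok i).1)) E.inj
    (fun g hg p hp => by
      obtain ⟨q, hq, e⟩ := E.surj _ (h.nor g hg _ (E.mem p hp))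
      exact ⟨q, hq, e.symm⟩)
    (fun g hg => ⟨fun e => (mem_zpowers_two h.zz).2 (h.cen g hg fun q hq => by
        obtain ⟨p, hp, rfl⟩ := E.surj q hq
        exact mul_inv_eq_iff_eq_mul.1 (e p hp)),
      fun e p hp => by rw [← cZ (h.le (E.mem p hp)) e, mul_inv_cancel_right]⟩)
    (fun i hi p hp => by
      have := beq_eq (allR_all (tabs_ok i hi) p p.zero_le (by simpa using hp))
      refine Eq.trans ?_ (congrArg n this.symm)
      split_ifs with h0
      · exact (k i hi h0).2.all E (k i hi h0).1 hp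
      · rw [S.qv h0, nn E, E.mul _ (qc_ok i).1 _ hp, E.mul _ (qm_lt (qc_ok i).1 hp) _ (qc_ok i).1])
    (by
      have := Fact.mk Nat.prime_two
      rw [h.cH, Nat.card_congr (subgroupOfEquivOfLe (zpowers_le.2 (h.le h.mem))).toEquiv,
        Nat.card_zpowers, orderOf_eq_prime (p := 2) (by rw [sq, h.zz]) h.ne])
  have e : ∀ i < 16, ext f 16 hdefs i = f i := fun i hi => ext_of_lt _ _ hi
  refine ⟨ext f 16 hdefs, ⟨(e 0 (by decide)).trans S.f0, fun i h1 h2 => (e i (by omega)).trans (S.q i h1 h2),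
    fun i h1 h2 => (e i h2).symm ▸ S.act i h1 h2⟩, ⟨M, hM, M.ch_top hch (by rw [hc]; decide +kernel),
    fun i => (gp_le.2 fun w hw => ?_ : gp f (sing 16) ≤ _) (ext_mem f 16 (by decide) i)⟩⟩
  obtain ⟨j, hj, rfl⟩ := List.mem_map.1 hw
  rw [wval_single, ← e j (List.mem_range.1 hj)]
  exact mem_sing _ (List.mem_range.1 hj)

namespace Cx
variable (C : Cx z n F)
include C

theorem cpt (w : List ℕ) (p q : ℕ) (h : band (Nat.blt p 512) (Nat.beq (pt w p) q) = true) :
    wval F w * n p * (wval F w)⁻¹ = n q := C.M.conj_pt C.hs w p q h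

theorem md (u w : List ℕ) (h : fx (u ++ invW w) = true) : wval F u * (wval F w)⁻¹ ∈ zpowers z := by
  simpa only [wval_append, wval_invW] using C.M.rel _ h

theorem fixp (E : Enc z Q n) {c : G} (hc : c ∈ centralizer ({z} : Set G)) {b : ℕ} (hb : b < 512)
    (h : c * n b = n b * c) : C.M.π ⟨c, hc⟩ b = b :=
  C.M.fix_pt (fun g p hp => ⟨C.M.lt g p hp, C.hs g p hp⟩) E.inj hc hb h

theorem rig (zz : z * z = 1) (S : SF z n F) (L : List RE) (h : rigB L = true) :
    ∀ w ∈ L.map rgw, wval F w = 1 := fun w hw => by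
  obtain ⟨e, he, rfl⟩ := List.mem_map.1 hw
  obtain ⟨b1, b2⟩ := band_eq (allL_all h e he)
  simp only [Bool.and_eq_true, List.contains_iff_mem] at b1
  rw [rgw, wval_append, wval_invW, wval_cjw, wval_cjw,
    C.M.rigid zz (fun g hg => mem_centralizer_singleton_iff.1 hg) 10 _ _ _ _ (S.p21 _ b1.1) (S.p21 _ b1.2) b2]
  simp

theorem rig1 (zz : z * z = 1) (S : SF z n F) (u a v b : List ℕ) (h : rigB [(u, a, v, b)] = true) :
    wval F (cjw u a) = wval F (cjw v b) := by
  simpa only [rgw, wval_append, wval_invW, mul_inv_eq_one] using C.rig zz S _ h _ List.mem_cons_self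

/-- An element of odd order that agrees with a conjugate of a letter modulo `z`. -/
theorem rig2 (zz : z * z = 1) (S : SF z n F) {c : G} (h1 : c ^ 21 = 1) (u : List ℕ) {a : List ℕ} (ha : a ∈ OW)
    (h : c * (wval F (cjw u a))⁻¹ ∈ zpowers z) : c = wval F (cjw u a) :=
  BT.rigid (k := 10) zz (mem_centralizer_singleton_iff.1 (C.M.mem _)) h1
    (by rw [wval_cjw, conj_pow, S.p21 a ha]; simp) h

theorem crig (u c d c' d' : List ℕ) (h : band (fx (cjw u c ++ invW c')) (fx (cjw u d ++ invW d')) = true) :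
    wval F (cjw u (cmw c d)) = wval F (cmw c' d') := by
  have h1 := C.md _ _ (band_eq h).1
  have h2 := C.md _ _ (band_eq h).2
  rw [wval_cjw] at h1 h2
  have a := cZ (C.M.mem c') h1
  have b := cZ (C.M.mem d') h1
  have a' := cZ (C.M.mem c') h2
  have b' := cZ (C.M.mem d') h2
  have zc : ∀ {x y : G}, x ∈ zpowers z → y ∈ zpowers z → x * y = y * x := fun hx hy =>
    cZ (by obtain ⟨j, rfl⟩ := hx; exact zpow_mem (mem_centralizer_singleton_iff.2 rfl) j) hy
  have ab := zc h1 h2
  rw [wval_cjw, wval_cmw, wval_cmw, show ∀ u c d : G, u * (c * d * c⁻¹ * d⁻¹) * u⁻¹ =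
    u * c * u⁻¹ * (u * d * u⁻¹) * (u * c * u⁻¹)⁻¹ * (u * d * u⁻¹)⁻¹ from fun _ _ _ => by group,
    ← inv_mul_cancel_right (_ * wval F c * _) (wval F c'), ← inv_mul_cancel_right (_ * wval F d * _) (wval F d')]
  generalize _ * wval F c * _ * (wval F c')⁻¹ = s at *
  generalize _ * wval F d * _ * (wval F d')⁻¹ = t at *
  generalize wval F c' = x at *
  generalize wval F d' = y at *
  have e1 : s * x * (t * y) = t * y * s * (y⁻¹ * x * y) := by
    rw [mul_assoc t, b, ← mul_assoc t, ← ab]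
    calc s * x * (t * y) = s * (x * t) * y := by group
      _ = _ := by rw [a']; group
  rw [mul_inv_eq_iff_eq_mul, mul_inv_eq_iff_eq_mul, e1]
  have c1 : Commute s x := a.symm
  have c2 : Commute s y := b.symm
  have c3 : Commute t x := a'.symm
  have c4 : Commute t y := b'.symm
  have c5 : Commute s t := ab
  calc t * y * s * (y⁻¹ * x * y) = t * (y * s * y⁻¹) * x * y := by group
    _ = t * s * (x * y) := by rw [b]; group
    _ = x * y * (t * s) := ((c3.mul_right c4).mul_left (c1.mul_right c2)).eq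
    _ = x * y * (x⁻¹ * t * x) * (x⁻¹ * s * x) := by
      rw [mul_assoc x⁻¹ t, ← a', mul_assoc x⁻¹ s, ← a]; group
    _ = x * y * x⁻¹ * y⁻¹ * (y * t) * (s * x) := by group
    _ = _ := by rw [b']

variable (E : Enc z Q n) (S : SF z n F)
include E S

theorem col_eq (w : List ℕ) {p : ℕ} (hp : p < 512) :
    col w p < 512 ∧ wval F w * n p = n (col w p) * wval F (nq w) := by
  induction w with
  | nil => exact ⟨hp, by simp [col, nq]⟩
  | cons l w ih =>
    rw [wval_cons, mul_assoc, ih.2, ← mul_assoc, show col (l :: w) p = if qc (l / 2) = 0 then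
      pt [l] (col w p) else qm (qc (l / 2)) (col w p) from rfl, show nq (l :: w) =
      if qc (l / 2) == 0 then l :: nq w else nq w from List.filter_cons]
    by_cases h0 : qc (l / 2) = 0
    · have := ap1i_eq C.M.good [l] ih.1
      rw [if_pos h0, if_pos (by simpa using h0)]
      refine ⟨this.trans_lt (C.M.lt _ _ ih.1), ?_⟩
      rw [wval_cons, ← mul_assoc, ← C.cpt [l] (col w p) (pt [l] (col w p))
        (by rw [show Nat.blt (col w p) 512 = true by simpa using ih.1]; exact Nat.beq_refl _)]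
      simp [wval]
    · rw [if_neg h0, if_neg (by simpa using h0)]
      refine ⟨qm_lt (qc_ok _).1 ih.1, ?_⟩
      rw [← E.mul _ (qc_ok _).1 _ ih.1, lval, S.qv h0, nn E, ite_self]

theorem colv (w : List ℕ) : wval F w = n (col w 0) * wval F (nf [] (nq w)) := by
  rw [wval_nf (by simp), ← (C.col_eq E S w (by decide)).2, E.zero, mul_one]

theorem colrel (R : List (List ℕ)) (h : colB R = true) : ∀ w ∈ R, wval F w = 1 := fun w hw => by
  obtain ⟨a, b⟩ := band_eq (allL_all h w hw)
  rw [C.colv E S, beq_eq a, eqL_eq b, E.zero, one_mul, wval_nil]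

theorem coleq (u w : List ℕ) (h : band (Nat.beq (col u 0) (col w 0))
    (eqL (nf [] (nq u)) (nf [] (nq w))) = true) : wval F u = wval F w := by
  rw [C.colv E S, C.colv E S w, beq_eq (band_eq h).1, eqL_eq (band_eq h).2]

theorem coln (u : List ℕ) (p : ℕ) (h : band (Nat.beq (col u 0) p) (eqL (nf [] (nq u)) []) = true) :
    wval F u = n p := by
  rw [C.colv E S, beq_eq (band_eq h).1, eqL_eq (band_eq h).2, wval_nil, mul_one]

end Cx

/-- An involution that interchanges `z` and `n 1`. -/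
structure SW (z : G) (n : ℕ → G) (v : G) : Prop where
  vv : v * v = 1
  vz : v * z * v⁻¹ = n 1

section
variable {v : G} {us vs : List (List ℕ)} (h : Hyp z Q) (E : Enc z Q n) (C : Cx z n F) (W : SW z n v)
  (D : Cj v F us vs)

include W in
theorem SW.vc : v * n 1 * v⁻¹ = z := by
  rw [← W.vz, ← mul_assoc, ← mul_assoc, W.vv, one_mul, mul_assoc, ← mul_inv_rev, W.vv, inv_one, mul_one]

include h E in
theorem n1 : n 1 ∉ zpowers z := fun e => by
  rcases (mem_zpowers_two h.zz).1 e with e | e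
  · exact absurd (E.inj 1 (by decide) 0 (by decide) (e.trans E.zero.symm)) (by decide)
  · exact absurd (E.inj 1 (by decide) 256 (by decide) (e.trans E.z256.symm)) (by decide)

include D in
theorem sub (p : List ℕ) : v * wval F (subst us p) * v⁻¹ = wval F (subst vs p) :=
  mul_inv_eq_iff_eq_mul.2 (conj_subst D p)

include E C W D in
theorem step {r : List ℕ} {pa ps U : List (List ℕ)} {ts : List Tst} {ct : CT}
    (hs : solveB (nat_lit 9) (nat_lit 511) htt (nat_lit 512) 500 (hch.map Lv.b) (fun _ => true) hch 1 []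
      (pa.map (subst vs)) (pa.map (subst vs)) (prEq 500 (pa.map (subst vs)) (pa.map (subst vs)) ++
      ps.map (subst ([2 * 500] :: vs))) [] [] (memLL U) id ts ct = true)
    (hb : band (band (Nat.blt 1 512) (Nat.beq (pt r 1) 1)) (vs.all (lt2 500) &&
      (pa.map (subst vs) ++ pa.map (subst vs)).all (lt2 500)) = true)
    (hR : ∀ w ∈ pa.map (fun p => cmw r (subst us p)) ++ ps.map (subst (r :: us)), wval F w = 1) :
    ∃ u ∈ U, v * wval F r * v⁻¹ * (wval F u)⁻¹ ∈ zpowers z := by
  obtain ⟨b1, b2⟩ := band_eq hb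
  simp only [Bool.and_eq_true] at b2
  have hx : v * wval F r * v⁻¹ ∈ centralizer ({z} : Set G) := by
    rw [mem_centralizer_singleton_iff, ← W.vc, conj_mul, conj_mul, mul_inv_eq_iff_eq_mul.1 (C.cpt r 1 1 b1)]
  obtain ⟨u, hu, x, h1, e⟩ := C.M.find C.ch hs b2.2 hx (List.forall_mem_singleton.2 (C.fixp E hx (by decide) (by
      rw [← W.vz, conj_mul, conj_mul, mem_centralizer_singleton_iff.1 (C.M.mem r)])))
    (comm_pairs _ fun w hw => by
      obtain ⟨p, hp, rfl⟩ := List.mem_map.1 hw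
      have := hR _ (List.mem_append_left _ (List.mem_map_of_mem hp))
      rw [wval_cmw, mul_inv_eq_one, mul_inv_eq_iff_eq_mul] at this
      exact D.comm p this)
    (fun w hw => by
      rw [mem_bot.1 (D.transport r 500 ps (fun w hw => hR w (List.mem_append_right _ hw)) b2.1 w hw)]
      exact one_mem _) (by simp)
  exact ⟨u, memLL_mem hu, by rw [e]; exact cjZ (C.M.mem u) h1⟩

include h E C W D

theorem orc (P : List (List ℕ)) (hb : allL (fun p => band (fx (subst us p)) (fx (subst vs p))) P = true) :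
    ∀ w ∈ P.map (subst us), wval F w = 1 := fun w hw => by
  obtain ⟨p, hp, rfl⟩ := List.mem_map.1 hw
  obtain ⟨b1, b2⟩ := band_eq (allL_all hb p hp)
  refine ((mem_zpowers_two h.zz).1 (C.M.rel _ b1)).resolve_right fun e => n1 h E ?_
  have := C.M.rel _ b2
  rwa [← sub D, e, W.vz] at this

end

end Cfsg.Agent.Lib.Co1S1
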