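import Cfsg.Agent.Lib.Co1Fq

/-! Normal forms for the action of an involution on the extraspecial group of order `2 ^ 9`. -/

set_option autoImplicit false

namespace Cfsg.Agent.Lib.Co1W

/-- Type `c₂`, plus type. -/
def c2p : List ℕ := [2, 1, 8, 4, 16, 32, 64, 128]

/-- Type `c₂`, minus type. -/
def c2m : List ℕ := [2, 1, 8, 4, 272, 288, 64, 128]

/-- Type `c₄`. -/
def c4 : List ℕ := [2, 1, 8, 4, 32, 16, 128, 64]

/-- Type `a₂`, with centraliser of order `128`. -/
def a20 : List ℕ := [5, 2, 4, 10, 16, 32, 64, 128]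

/-- Type `a₂`, twisted by a singular vector. -/
def a2s : List ℕ := [5, 2, 4, 10, 16, 288, 64, 128]

/-- Type `a₂`, twisted by a nonsingular vector. -/
def a2n : List ℕ := [5, 2, 4, 10, 272, 288, 64, 128]

/-- Type `a₄`. -/
def a4 : List ℕ := [5, 2, 4, 10, 80, 32, 64, 160]

/-- The normal forms. -/
def NF : List (List ℕ) := [c2p, c2m, c4, a20, a2s, a2n, a4]

end Cfsg.Agent.Lib.Co1W
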