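import Cfsg.Agent.Lib.Co1W0
import Cfsg.Agent.Lib.Co1W1a
import Cfsg.Agent.Lib.Co1Q2

/-! Normal forms for the involutions of the centraliser outside the extraspecial group. -/

set_option autoImplicit false
set_option maxRecDepth 100000

namespace Cfsg.Agent.Lib.Co1W1

open Subgroup Cfsg.Agent.Lib.PermNet Cfsg.Agent.Lib.Words Cfsg.Agent.Lib.PermGroup
  Cfsg.Agent.Lib.DCE Cfsg.Agent.Lib.BT Cfsg.Agent.Lib.Co1Defs Cfsg.Agent.Lib.Co1Q
open Cfsg.Agent.Lib.ThDefs hiding Hyp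
open Cfsg.Agent.Lib.ThCl (Md qm_mod md_mod)
open Cfsg.Agent.Lib.ThV (vtt vok vTM)

theorem prs_sound {M A B : List ℕ} (P : List (ℕ × ℕ)) (c : ℕ) (h : prs M A B P c = true) :
    ∀ e ∈ P, e.1 < 512 ∧ e.2 < 512 ∧ ∃ m, lin M e.1 = lin A m ∧ lin M e.2 = lin B m := by
  induction P generalizing c with
  | nil => simp
  | cons e P ih =>
    obtain ⟨h1, h2⟩ := band_eq h
    rw [forceB_eq] at h1 h2
    obtain ⟨h3, h4⟩ := band_eq h1
    refine List.forall_mem_cons.2 ⟨⟨blt_lt (band_eq h3).1, blt_lt (band_eq h3).2, _,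
      beq_eq (band_eq h4).1, beq_eq (band_eq h4).2⟩, ih _ h2⟩

theorem chk_sound {PS : List (List (ℕ × ℕ))} {k : ℕ} {A B : List ℕ} {c : ℕ}
    (h : chk PS k A B c = true) : (∃ m, lin A m = 0 ∧ lin B m ≠ 0) ∨ ∃ j < k, ∃ M, BasL M ∧
      ∀ e ∈ getD [] PS j, e.1 < 512 ∧ e.2 < 512 ∧ ∃ m, lin M e.1 = lin A m ∧ lin M e.2 = lin B m := by
  rw [chk, forceB_eq, forceB_eq] at h
  cases hb : Nat.beq (Nat.land c 255) 255 <;> rw [hb] at h
  · obtain ⟨h1, h2⟩ := band_eq h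
    simp only [decM, forceB_eq] at h2
    obtain ⟨h3, h4⟩ := band_eq h2
    exact .inr ⟨_, blt_lt h1, _, of_decide_eq_true h3, prs_sound _ _ h4⟩
  · obtain ⟨h1, h2⟩ := band_eq h
    exact .inl ⟨_, beq_eq h1, fun e => by rw [e] at h2; exact Bool.noConfusion h2⟩

theorem loop_sound {PS : List (List (ℕ × ℕ))} {k : ℕ} {P : List (ℕ × ℕ)} {a : ℕ} (n : ℕ)
    (cs : List ℕ) (h : loop PS k P a n cs = true) : ∀ b < n, test P a b = true →
      ∃ c, chk PS k (a :: b :: P.map Prod.fst) (b :: a :: P.map Prod.snd) c = true := by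
  induction n generalizing cs with
  | zero => simp
  | succ n ih =>
    intro b hb ht
    change @Bool.rec (fun _ => Bool) (loop PS k P a n cs) (List.rec (motive := fun _ => Bool) false
      (fun c cs _ => band (chk PS k (a :: n :: P.map Prod.fst) (n :: a :: P.map Prod.snd) c)
        (loop PS k P a n cs)) cs) (test P a n) = true at h
    cases hn : test P a n <;> rw [hn] at h
    · exact ih cs h b (lt_of_le_of_ne (by omega) fun e => by rw [e, hn] at ht; cases ht) ht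
    · cases cs with
      | nil => cases h
      | cons c cs =>
        rcases Nat.lt_succ_iff_lt_or_eq.1 hb with hb | rfl
        exacts [ih cs (band_eq h).2 b hb ht, ⟨c, (band_eq h).1⟩]

variable {G : Type*} [Group G] {z t : G} {Q : Subgroup G} {n : ℕ → G}

/-- `t` conjugates the code `a` to the code `b`. -/
def Pr (n : ℕ → G) (t : G) (a b : ℕ) : Prop := a < 512 ∧ b < 512 ∧ t * n a * t⁻¹ = n b

theorem Pr.mul (E : Enc z Q n) {a b c d : ℕ} (h : Pr n t a b) (k : Pr n t c d) :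
    Pr n t (qm a c) (qm b d) := ⟨qm_lt h.1 k.1, qm_lt h.2.1 k.2.1, by
  rw [← E.mul _ h.1 _ k.1, ← E.mul _ h.2.1 _ k.2.1, ← h.2.2, ← k.2.2, conj_mul]⟩

theorem Pr.zero (E : Enc z Q n) : Pr n t 0 0 := ⟨by decide, by decide, by simp [E.zero]⟩

theorem Pr.iff (E : Enc z Q n) {a b c d : ℕ} (h : Pr n t a b) (k : Pr n t c d) : a = c ↔ b = d :=
  ⟨fun e => E.inj _ h.2.1 _ k.2.1 (by rw [← h.2.2, ← k.2.2, e]), fun e => E.inj _ h.1 _ k.1 (by
    have := h.2.2.trans (e ▸ k.2.2.symm : n b = t * n c * t⁻¹)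
    simpa using this)⟩

theorem Pr.beq (E : Enc z Q n) {a b c d : ℕ} (h : Pr n t a b) (k : Pr n t c d) :
    (Nat.beq a c == Nat.beq b d) = true := by
  rw [beq_iff_eq, Bool.eq_iff_iff, Nat.beq_eq, Nat.beq_eq]; exact h.iff E k

/-- All normal forms. -/
def LV : List (List ℕ) := Co1W.NF ++ ([[1, 2, 4, 8, 16, 32, 128, 64], [257, 258, 4, 8, 16, 32, 128, 64],
  [1, 2, 8, 4, 64, 128, 16, 32], [257, 258, 8, 4, 64, 128, 16, 32]] ++
  [[257, 2, 4, 8, 16, 32, 64, 128], [257, 258, 4, 8, 16, 32, 64, 128], [1, 2, 4, 8, 16, 32, 64, 128]])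

theorem leaf : ∀ k < 14, LV.getD k [] ∈ LV ∧ (LV.getD k []).length = 8 ∧ (∀ a ∈ LV.getD k [], a < 512) ∧
    ∀ i < 8, (2 ^ i, (LV.getD k []).getD i 0) ∈ getD [] PS k := by decide +kernel

theorem tree [Finite G] (h : Hyp0 z Q) (ht : t ∈ centralizer ({z} : Set G)) (t2 : t * t = 1)
    (k : ℕ) (hk : k < 118) (n : ℕ → G) (E : Enc z Q n) (H : ∀ e ∈ getD [] PS k, Pr n t e.1 e.2) :
    ∃ n, Enc z Q n ∧ ∃ L ∈ LV, Act n t L := by
  induction k using Nat.strong_induction_on generalizing n with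
  | _ k ih =>
  by_cases h14 : k < 14
  · obtain ⟨l1, l2, l3, l4⟩ := leaf k h14
    exact ⟨n, E, _, l1, l2, l3, fun i hi => (H _ (l4 i hi)).2.2⟩
  have hn : nodeB k = true := nodes k (by omega) hk
  rw [nodeB, forceB_eq] at hn
  obtain ⟨h1, h2⟩ := band_eq hn
  generalize (getD (0, []) ND (k - 14)).1 = a at h1 h2
  have ha := blt_lt h1
  obtain ⟨b, hb, e⟩ := E.surj _ (h.nor t ht _ (E.mem a ha))
  have p1 : Pr n t a b := ⟨ha, hb, e.symm⟩
  have p2 : Pr n t b a := ⟨hb, ha, by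
    rw [e, ← mul_assoc, ← mul_assoc, t2, one_mul, mul_assoc, ← mul_inv_rev, t2, inv_one, mul_one]⟩
  obtain ⟨c, hc⟩ := loop_sound _ _ h2 b hb (by
    rw [test, ((p1.mul E p1).beq E (Pr.zero E))]
    exact allL_of fun e he => (p1.mul E (H e he)).beq E ((H e he).mul E p1))
  have tz : t * z * t⁻¹ = z := by rw [mem_centralizer_singleton_iff.1 ht]; group
  have all : ∀ m, Pr n t (lin (a :: b :: (getD [] PS k).map Prod.fst) m)
      (lin (b :: a :: (getD [] PS k).map Prod.snd) m) := fun m =>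
    E.conj tz (.cons p1 (.cons p2 (by
      rw [List.forall₂_map_left_iff, List.forall₂_map_right_iff, List.forall₂_same]; exact H))) m
  rcases chk_sound hc with ⟨m, m1, m2⟩ | ⟨j, hj, M, hM, hP⟩
  · exact (m2 (((all m).iff E (Pr.zero E)).1 m1)).elim
  · obtain ⟨n2, E2, e2⟩ := rebase h E hM
    refine ih j hj (by omega) n2 E2 fun e he => ?_
    obtain ⟨a1, a2, m, a3, a4⟩ := hP e he
    exact ⟨a1, a2, by rw [e2 _ a1, e2 _ a2, a3, a4]; exact (all m).2.2⟩

theorem md_inj (E : Enc z Q n) {a b : ℕ} (ha : a < 256) (hb : b < 256) (e : Md z (n a) (n b)) :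
    a = b := by
  rcases e with e | e
  · exact E.inj _ (by omega) _ (by omega) e
  · rw [← E.z256, E.mul _ (by decide) _ (by omega)] at e
    have := congrArg (· % 256) (E.inj _ (by omega) _ (qm_lt (by decide) (by omega)) e)
    simp only [qm_mod] at this
    simpa [Nat.mod_eq_of_lt ha, Nat.mod_eq_of_lt hb] using this

/-- Lifts of odd order of four generators of the orthogonal group. -/
def LP : List (List ℕ × ℕ) := [([1, 2, 16, 40, 128, 64, 8, 20], 3), ([1, 2, 4, 8, 144, 64, 96, 16], 1),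
  ([9, 4, 6, 1, 80, 128, 16, 160], 1), ([258, 271, 266, 6, 16, 32, 64, 128], 1)]

theorem LP_ok : ∀ i < 4, BasL (LP.getD i ([], 0)).1 ∧ (List.map (lin (LP.getD i ([], 0)).1))^[2 *
    (LP.getD i ([], 0)).2] (LP.getD i ([], 0)).1 = L0 ∧
    ∀ p < 256, lin (LP.getD i ([], 0)).1 p % 256 = lk 8 255 (vtt.get (2 * i + 1)) p := by
  decide +kernel

theorem no_odd [Finite G] (h : Hyp z Q) (E : Enc z Q n) {g : G} (hg : g ∈ centralizer ({z} : Set G))
    {L : List ℕ} (ha : Act n g L) (hL : ∀ p < 256, lin L p % 256 = lk 8 255 (vtt.get (2 * 4 + 1)) p) :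
    False := by
  obtain ⟨ρ, hρ⟩ := exists_rho h.toHyp0 E
  have rng : ∀ {g : G} (hg : g ∈ centralizer ({z} : Set G)) {L : List ℕ}, Act n g L → ∀ i < 5,
      (∀ p < 256, lin L p % 256 = lk 8 255 (vtt.get (2 * i + 1)) p) → ThO.P i ∈ ρ.range :=
    fun {g} hg {L} ha i hi hL => ⟨⟨g, hg⟩, Equiv.ext fun p => by
      by_cases hp : p < 256
      · rw [vok.apply i hp]
        refine Eq.trans ?_ (hL p hp)
        have e := (hρ ⟨g, hg⟩).2 p hp
        rw [ha.all E hg (by omega)] at e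
        exact md_inj E (ThO.lt_of_fix (hρ _).1.1 hp) (Nat.mod_lt _ (by decide))
          (md_trans h.toHyp0 (md_symm h.toHyp0 e) (md_mod E (ha.lt p)))
      · rw [(hρ _).1.1 p (by omega), (ThO.mem i hi).1 p (by omega)]⟩
  have le : gp ThO.P (sing 5) ≤ ρ.range := gp_le.2 fun w hw => by
    obtain ⟨i, hi, rfl⟩ := List.mem_map.1 hw
    rw [wval_single]
    rcases Nat.lt_succ_iff_lt_or_eq.1 (List.mem_range.1 hi) with hi | rfl
    · obtain ⟨l1, l2, l3⟩ := LP_ok i hi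
      obtain ⟨g, g1, g2, -⟩ := lift h E l1 _ l2
      exact rng g1 g2 i (by omega) l3
    · exact rng hg ha 4 (by decide) hL
  have : Finite ρ.range := Finite.of_surjective _ ρ.rangeRestrict_surjective
  have := Finite.of_injective _ (inclusion_injective le)
  have c1 : 348364800 ≤ Nat.card ρ.range :=
    (vTM.le_card (f := ThO.P) (MonoidHom.id _) fun _ _ => rfl).trans (card_le_of_le le)
  have c2 : Q.subgroupOf (centralizer {z}) ≤ ρ.ker := fun q hq => Equiv.ext fun p => by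
    by_cases hp : p < 256
    · have e := (hρ q).2 p hp
      refine md_inj E (ThO.lt_of_fix (hρ _).1.1 hp) hp (md_trans h.toHyp0 (md_symm h.toHyp0 e) ?_)
      rcases h.com _ hq _ (E.mem p (by omega)) with c | c
      · exact .inl (mul_inv_eq_iff_eq_mul.2 c)
      · exact .inr (mul_inv_eq_iff_eq_mul.2 (c.trans (mul_assoc _ _ _).symm))
    · exact (hρ _).1.1 p (by omega)
  have c3 := card_le_of_le c2
  rw [Nat.card_congr (subgroupOfEquivOfLe h.le).toEquiv, h.cQ] at c3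
  have c4 := ρ.ker.index_mul_card
  rw [index_ker, h.cH] at c4
  have := Nat.mul_le_mul c1 c3
  omega

/-- The forms outside the commutator subgroup. -/
def OD : List (List ℕ × List ℕ × ℕ × List ℕ × ℕ) := [([1, 2, 4, 8, 16, 32, 128, 64], [22, 17, 183, 25, 9, 51, 128, 345], 3, [381, 26, 100, 10, 24, 351, 64, 136], 3), ([257, 258, 4, 8, 16, 32, 128, 64], [380, 33, 393, 382, 318, 392, 356, 296], 3, [265, 292, 126, 422, 487, 38, 134, 280], 4), ([1, 2, 8, 4, 64, 128, 16, 32], [293, 66, 18, 221, 68, 439, 22, 189], 3, [86, 409, 246, 68, 84, 37, 82, 476], 4), ([257, 258, 8, 4, 64, 128, 16, 32], [325, 381, 393, 36, 221, 31, 379, 220], 4, [443, 144, 375, 249, 104, 227, 389, 497], 4)]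

theorem OD_ok : ∀ e ∈ OD, BasL e.2.1 ∧ (List.map (lin e.2.1))^[2 * e.2.2.1] e.2.1 = L0 ∧
    BasL e.2.2.2.1 ∧ (List.map (lin e.2.2.2.1))^[2 * e.2.2.2.2] e.2.2.2.1 = L0 ∧
    ∀ p < 256, lin ((e.2.2.2.1.map (lin e.2.1)).map (lin e.1)) p % 256 =
      lk 8 255 (vtt.get (2 * 4 + 1)) p := by
  decide +kernel

theorem LV_cases : ∀ L ∈ LV, L ∈ Co1W.NF ∨ L ∈ OD.map Prod.fst ∨ ∃ u < 4, L.map (lin L) = L0 ∧
    ∀ i < 8, qm u (2 ^ i) = qm (L.getD i 0) u := by decide +kernel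

theorem nf [Finite G] (h : Hyp z Q) (ht : t ∈ centralizer ({z} : Set G)) (t2 : t * t = 1)
    (tQ : t ∉ Q) : ∃ n, Enc z Q n ∧ ∃ L ∈ Co1W.NF, Act n t L := by
  obtain ⟨n0, E0⟩ := Co1Q2.exists_enc h
  obtain ⟨n, E, L, hL, ha⟩ := tree h.toHyp0 ht t2 117 (by decide) n0 E0 (by
    rw [show getD [] PS 117 = [] from by decide +kernel]; simp)
  rcases LV_cases L hL with c | c | ⟨u, hu, c1, c2⟩
  · exact ⟨n, E, L, c, ha⟩
  · obtain ⟨e, he, rfl⟩ := List.mem_map.1 c
    obtain ⟨a1, a2, b1, b2, c⟩ := OD_ok e he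
    obtain ⟨x, x1, x2, -⟩ := lift h E a1 _ a2
    obtain ⟨y, y1, y2, -⟩ := lift h E b1 _ b2
    exact (no_odd h E (mul_mem ht (mul_mem x1 y1)) (ha.mul (x2.mul y2 E x1) E ht) c).elim
  · have uQ := E.mem u (by omega)
    have au : Act n (n u) L := ⟨ha.1, ha.2.1, fun i hi => by
      rw [mul_inv_eq_iff_eq_mul, E.mul _ (by omega) _ (pl i hi), c2 i hi,
        E.mul _ (getD_lt ha.2.1 i) _ (by omega)]⟩
    have := of_act h.toHyp0 E (mul_mem (h.le uQ) ht) (c1 ▸ au.mul ha E (h.le uQ))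
    refine (tQ ((mul_mem_cancel_left uQ).1 ?_)).elim
    rcases this with e | e <;> rw [e]
    exacts [one_mem _, h.mem]

end Cfsg.Agent.Lib.Co1W1
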