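import Cfsg.Agent.Lib.Co1W0

/-! Tools for actions on the extraspecial group of order `2 ^ 9`; two commuting conjugates. -/

set_option autoImplicit false
set_option maxRecDepth 100000

namespace Cfsg.Agent.Lib.Co1W

open Subgroup Cfsg.Agent.Lib.Co1Defs Cfsg.Agent.Lib.Co1Q Cfsg.Agent.Lib.Co1Fq Cfsg.Agent.Lib.PermNet
open Cfsg.Agent.Lib.ThDefs hiding Hyp
open Cfsg.Agent.Lib.ThCl (Md)

/-- Evaluate the entries of a list. -/
noncomputable def fL (l : List ℕ) : (List ℕ → Bool) → Bool :=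
  List.rec (motive := fun _ => (List ℕ → Bool) → Bool) (fun k => k [])
    (fun a _ ih k => forceB a fun a => ih fun r => k (a :: r)) l

theorem fL_eq (l : List ℕ) (k : List ℕ → Bool) : fL l k = k l := by
  induction l generalizing k with
  | nil => rfl
  | cons a l ih => exact ih _

/-- The codes commute. -/
noncomputable def cq (a b : ℕ) : Bool := Nat.beq (qm a b) (qm b a)

/-- The composition. -/
noncomputable def ml (L M : List ℕ) : List ℕ := M.map (lin L)

/-- The action modulo the centre. -/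
def vv (L : List ℕ) : List ℕ := L.map (· % 256)

/-- The relations of `x` hold for `y`. -/
noncomputable def ok (x y : ℕ) (P I : List ℕ) : Bool :=
  Nat.beq (qm y y) (qm x x) && (P.zip I).all fun e => cq y e.2 == cq x e.1

/-- The search for the images. -/
noncomputable def srch (L : List ℕ) (fin : List ℕ → Bool) (st : List (ℕ × List ℕ × List (ℕ × ℕ))) :
    List ℕ → List ℕ → Bool :=
  List.rec (motive := fun _ => List ℕ → List ℕ → Bool) (fun _ I => fin I)
    (fun s _ ih P I => s.2.1.all fun y => !ok s.1 y P I ||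
      (s.2.2.any (fun e => !Nat.beq (lin L (lin (y :: I) e.1)) (lin (y :: I) e.2)) ||
        ih (s.1 :: P) (y :: I))) st

/-- The plan of the search is correct. -/
noncomputable def valid (L P0 I0 : List ℕ) : List (ℕ × List ℕ × List (ℕ × ℕ)) → List ℕ → Bool
  | [], _ => true
  | s :: r, P => Nat.blt s.1 512 && (List.range 512).all (fun y => !ok s.1 y P0 I0 || s.2.1.contains y) &&
      s.2.2.all (fun e => Nat.beq (lin L (lin (s.1 :: P) e.1)) (lin (s.1 :: P) e.2)) && valid L P0 I0 r (s.1 :: P)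

variable {G : Type*} [Group G] {z t g k : G} {Q Q' : Subgroup G} {n n' : ℕ → G} {L M P I : List ℕ}

/-- The images of the codes `P` are the codes `I`. -/
abbrev Rel (n : ℕ → G) (g : G) (P I : List ℕ) : Prop :=
  List.Forall₂ (fun a b => a < 512 ∧ b < 512 ∧ g * n a * g⁻¹ = n b) P I

/-- The action modulo inner automorphisms. -/
def Av (Q : Subgroup G) (n : ℕ → G) (g : G) (L : List ℕ) : Prop := ∃ q ∈ Q, Act n (g * q) L

theorem cz (hg : g ∈ centralizer ({z} : Set G)) : g * z * g⁻¹ = z := by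
  rw [mem_centralizer_singleton_iff.1 hg]; simp

theorem cq_iff (E : Enc z Q n) {a b : ℕ} (ha : a < 512) (hb : b < 512) :
    cq a b = true ↔ n a * n b = n b * n a := by
  rw [E.mul a ha b hb, E.mul b hb a ha, cq, Nat.beq_eq]
  exact ⟨fun e => by rw [e], E.inj _ (qm_lt ha hb) _ (qm_lt hb ha)⟩

theorem z_mul (E : Enc z Q n) {a : ℕ} (ha : a < 512) : z * n a = n (qm 256 a) := by
  rw [← E.z256, E.mul _ (by decide) _ ha]

theorem md_iff (E : Enc z Q n) {a b : ℕ} (ha : a < 512) (hb : b < 512) :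
    Md z (n a) (n b) ↔ a % 256 = b % 256 := by
  have := (by decide +kernel : ∀ b < 512, qm 256 b = (b + 256) % 512) b hb
  rw [Md, z_mul E hb, this]
  refine ⟨fun e => ?_, fun e => ?_⟩
  · rcases e with e | e <;> have := E.inj _ ha _ (by omega) e <;> omega
  · rcases (by omega : a = b ∨ a = (b + 256) % 512) with e | e <;> simp [← e]

theorem act_uniq (E : Enc z Q n) (h1 : Act n g L) (h2 : Act n g M) : L = M :=
  List.ext_getElem (h1.1.trans h2.1.symm) fun i a b => by
    rw [← List.getD_eq_getElem _ 0 a, ← List.getD_eq_getElem _ 0 b]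
    exact E.inj _ (getD_lt h1.2.1 i) _ (getD_lt h2.2.1 i)
      ((h1.2.2 i (h1.1 ▸ a)).symm.trans (h2.2.2 i (h1.1 ▸ a)))

theorem act_one : Act n 1 L0 := ⟨rfl, by decide, fun i hi => by interval_cases i <;> simp [L0]⟩

variable (h : Hyp0 z Q) (E : Enc z Q n)
include h E

theorem act_eq (hg : g ∈ centralizer ({z} : Set G)) (hk : k ∈ centralizer ({z} : Set G))
    (h1 : Act n g L) (h2 : Act n k L) : Md z g k := by
  have := h.cen (g * k⁻¹) (mul_mem hg (inv_mem hk)) fun q hq => by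
    obtain ⟨a, ha, e⟩ := E.surj _ (h.nor _ (inv_mem hk) q hq)
    have := (h1.all E hg ha).trans (h2.all E hk ha).symm
    rw [e] at this
    simpa [mul_assoc] using congrArg (· * g * k⁻¹) this
  exact this.imp mul_inv_eq_one.1 mul_inv_eq_iff_eq_mul.1

theorem ok_of (hg : g ∈ centralizer ({z} : Set G)) (r : Rel n g P I) {x y : ℕ} (hx : x < 512)
    (hy : y < 512) (e : g * n x * g⁻¹ = n y) : ok x y P I = true := by
  refine Bool.and_eq_true_iff.2 ⟨Nat.beq_eq.mpr (E.inj _ (qm_lt hy hy) _ (qm_lt hx hx) ?_),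
    List.all_eq_true.2 fun p hp => ?_⟩
  · rw [← E.mul _ hy _ hy, ← E.mul _ hx _ hx, ← e, conj_mul]
    rcases sq_or h (E.mem x hx) with e | e <;> simp [e, cz hg]
  · obtain ⟨a, b, c⟩ := List.forall₂_zip r hp
    rw [beq_iff_eq, Bool.eq_iff_iff, cq_iff E hy b, cq_iff E hx a, ← e, ← c, conj_mul, conj_mul]
    simp

theorem srch_sound (ht : t ∈ centralizer ({z} : Set G)) (hL : Act n t L)
    (hg : g ∈ centralizer ({z} : Set G)) (c : g * t = t * g) {P0 I0 : List ℕ} (r0 : Rel n g P0 I0)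
    {fin : List ℕ → Bool} (st : List (ℕ × List ℕ × List (ℕ × ℕ))) (r : Rel n g P I)
    (hv : valid L P0 I0 st P = true) (hs : srch L fin st P I = true) :
    ∃ I', Rel n g ((st.map Prod.fst).reverse ++ P) I' ∧ fin I' = true := by
  induction st generalizing P I with
  | nil => exact ⟨I, r, hs⟩
  | cons s st ih =>
    simp only [valid, Bool.and_eq_true, Nat.blt_eq, List.all_eq_true, List.mem_range, Bool.or_eq_true,
      Bool.not_eq_true', List.contains_iff_mem, Nat.beq_eq] at hv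
    obtain ⟨⟨⟨hx, hc⟩, hr⟩, hv⟩ := hv
    obtain ⟨y, hy, e⟩ := E.surj _ (h.nor g hg _ (E.mem _ hx))
    have r' : Rel n g (s.1 :: P) (y :: I) := .cons ⟨hx, hy, e.symm⟩ r
    have := List.all_eq_true.1 hs y ((hc y hy).resolve_left (by simp [ok_of h E hg r0 hx hy e.symm]))
    simp only [ok_of h E hg r hx hy e.symm, Bool.not_true, Bool.false_or, Bool.or_eq_true,
      List.any_eq_true] at this
    rcases this with ⟨p, hp, e⟩ | this
    · obtain ⟨a1, a2, a3⟩ := E.conj (cz hg) r' p.1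
      obtain ⟨-, b2, b3⟩ := E.conj (cz hg) r' p.2
      rw [← hr p hp, ← hL.all E ht a1, ← mul_assoc, ← mul_assoc, c] at b3
      rw [E.inj _ (hL.lt _) _ b2 (by
        rw [← hL.all E ht a2, ← a3, ← b3, mul_assoc _ t⁻¹, ← mul_inv_rev, c]; group)] at e
      simp at e
    · simpa using ih r' hv this

theorem enum (ht : t ∈ centralizer ({z} : Set G)) (hL : Act n t L)
    (hg : g ∈ centralizer ({z} : Set G)) (c : g * t = t * g) (r : Rel n g P I) {fin : List ℕ → Bool}
    (st : List (ℕ × List ℕ × List (ℕ × ℕ))) (ms : List ℕ)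
    (hv : (valid L P I st P && (ml ((st.map Prod.fst).reverse ++ P) ms == L0) &&
      srch L (fun J => fL (ml J ms) fun M => fL (ml M L) (fun a => fL (ml L M) fun b => a != b) || fin M)
      st P I) = true) : ∃ M, Act n g M ∧ fin M = true := by
  simp only [Bool.and_eq_true, beq_iff_eq] at hv
  obtain ⟨J, r', hJ⟩ := srch_sound h E ht hL hg c r st r hv.1.1 hv.2
  have l : ms.length = 8 := by simpa [ml, L0] using congrArg List.length hv.1.2
  have a : Act n g (ml J ms) := ⟨by simp [ml, l], fun a ha => by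
    obtain ⟨m, -, rfl⟩ := List.mem_map.1 ha
    exact (E.conj (cz hg) r' m).2.1, fun i hi => by
    have := congrArg (·.getD i 0) hv.1.2
    rw [(by decide : ∀ i < 8, L0.getD i 0 = 2 ^ i) i hi, ml, List.getD_eq_getElem _ _ (by simpa [l]),
      List.getElem_map] at this
    rw [ml, List.getD_eq_getElem _ _ (by simpa [l]), List.getElem_map, ← this]
    exact (E.conj (cz hg) r' _).2.2⟩
  simp only [fL_eq, Bool.or_eq_true, bne_iff_ne] at hJ
  exact ⟨_, a, hJ.resolve_left (not_not.2 (act_uniq E (a.mul hL E hg) (c ▸ hL.mul a E ht)))⟩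

theorem av_of (hg : g ∈ centralizer ({z} : Set G)) (a : Av Q n g M) (h1 : L.length = 8)
    (h2 : ∀ a ∈ L, a < 512) (e : vv M = vv L) : Av Q n g L := by
  obtain ⟨q, hq, a⟩ := a
  obtain ⟨r, hr, b⟩ := adjust h E (mul_mem hg (h.le hq)) h1 h2 fun i hi => by
    rw [a.2.2 i hi, md_iff E (getD_lt a.2.1 i) (getD_lt h2 i)]
    simpa [vv, a.1, h1, hi] using congrArg (·.getD i 0) e
  exact ⟨q * r, mul_mem hq hr, mul_assoc g q r ▸ b⟩

omit h E in
theorem _root_.Cfsg.Agent.Lib.ThDefs.Act.av (a : Act n g L) : Av Q n g L :=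
  ⟨1, one_mem _, by simpa using a⟩

theorem Av.mul (hg : g ∈ centralizer ({z} : Set G)) (hk : k ∈ centralizer ({z} : Set G))
    (a : Av Q n g L) (b : Av Q n k M) : Av Q n (g * k) (ml L M) := by
  obtain ⟨q, hq, a⟩ := a
  obtain ⟨r, hr, b⟩ := b
  refine ⟨_, mul_mem (h.nor _ (inv_mem hk) q hq) hr, ?_⟩
  rw [show g * k * (k⁻¹ * q * k⁻¹⁻¹ * r) = g * q * (k * r) by group]
  exact a.mul b E (mul_mem hg (h.le hq))

theorem Av.uniq (hg : g ∈ centralizer ({z} : Set G)) (a : Av Q n g L) (b : Av Q n g M) :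
    vv L = vv M := by
  have key : ∀ {L}, Av Q n g L → ∀ i < 8, Md z (n (L.getD i 0)) (g * n (2 ^ i) * g⁻¹) :=
    fun ⟨q, hq, a⟩ i hi => by
      rw [← a.2.2 i hi]
      rcases h.com q hq _ (E.mem _ (pl i hi)) with e | e
      · exact .inl (by rw [mul_assoc g, e]; group)
      · exact .inr (by rw [mul_assoc g, e, ← mul_assoc g, mem_centralizer_singleton_iff.1 hg]; group)
  obtain ⟨_, -, a'⟩ := id a
  obtain ⟨_, -, b'⟩ := id b
  refine List.ext_getElem (by simp [vv, a'.1, b'.1]) fun i c d => ?_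
  have hi : i < 8 := by simpa [vv, a'.1] using c
  simpa [vv, a'.1, b'.1, hi] using (md_iff E (getD_lt a'.2.1 i) (getD_lt b'.2.1 i)).1
    (md_trans h (key a i hi) (md_symm h (key b i hi)))

theorem Av.mem (hg : g ∈ centralizer ({z} : Set G)) (hk : k ∈ centralizer ({z} : Set G))
    (a : Av Q n g L) (b : Av Q n k M) (e : vv L = vv M) : k⁻¹ * g ∈ Q := by
  obtain ⟨r, hr, b⟩ := b
  obtain ⟨q, hq, a⟩ := av_of h E hg a b.1 b.2.1 e
  rcases act_eq h E (mul_mem hg (h.le hq)) (mul_mem hk (h.le hr)) a b with e | e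
  · rw [eq_mul_inv_of_mul_eq e, mul_assoc k, inv_mul_cancel_left]
    exact mul_mem hr (inv_mem hq)
  · rw [eq_mul_inv_of_mul_eq e, ← mul_assoc z, ← mem_centralizer_singleton_iff.1 hk, mul_assoc k,
      mul_assoc k, inv_mul_cancel_left]
    exact mul_mem (mul_mem h.mem hr) (inv_mem hq)

/-- An involution in the coset of an involution with a commutator space of dimension `4`. -/
theorem exact_of (hg : g ∈ centralizer ({z} : Set G)) (a : Act n g L) (hL : L = c4 ∨ L = a4) {q : G}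
    (hq : q ∈ Q) (e : g * q * (g * q) = 1) : ∃ r ∈ Q, Md z (g * q) (r * g * r⁻¹) := by
  obtain ⟨u, hu, rfl⟩ := E.surj q hq
  have c := mem_centralizer_singleton_iff.1 hg
  have g2 : Md z (g * g) 1 := act_eq h E (mul_mem hg hg) (one_mem _) (by
    convert a.mul a E hg using 1; rcases hL with rfl | rfl <;> decide +kernel) act_one
  have gi : ∀ v < 512, g⁻¹ * n v * g = n (lin L v) := fun v hv => by
    rw [← a.all E hg hv, eq_comm, mul_inv_eq_iff_eq_mul, mul_assoc, mul_assoc, eq_inv_mul_iff_mul_eq,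
      ← mul_assoc]
    rcases g2 with e | e <;> simp [e, nz h E hv]
  obtain ⟨v, hv, e⟩ := (by rcases hL with rfl | rfl <;> decide +kernel : ∀ u < 512,
      qm (lin L u) u % 256 = 0 % 256 → ∃ v < 512, qm u v % 256 = lin L v % 256) u hu
    ((md_iff E (qm_lt (a.lt _) hu) (by decide)).1 (by
      rw [← E.mul _ (a.lt _) _ hu, ← gi u hu, E.zero, show g⁻¹ * n u * g * n u = (g * g)⁻¹ by
        simpa [mul_assoc] using congrArg (fun x => g⁻¹ * g⁻¹ * x) e]
      rcases g2 with e | e <;> simp [e, Md, inv_eq_of_mul_eq_one_right h.zz]))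
  refine ⟨_, E.mem v hv, ?_⟩
  rw [← md_iff E (qm_lt hu hv) (a.lt _), ← gi v hv, ← E.mul _ hu _ hv] at e
  exact e.imp (fun e => by rw [eq_mul_inv_of_mul_eq e]; group) fun e => by
    rw [eq_mul_inv_of_mul_eq e, ← mul_assoc g, ← mul_assoc g, c]; group

omit h in
/-- An element of odd order that commutes with `t`. -/
theorem clift [Finite G] (h : Hyp z Q) (ht : t ∈ centralizer ({z} : Set G)) (hL : Act n t L) (j : ℕ)
    (hb : BasL M ∧ (List.map (lin M))^[2 * j] M = L0 ∧ ml M L = ml L M) :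
    ∃ g ∈ centralizer ({z} : Set G), Act n g M ∧ g ^ (2 * j + 1) = 1 ∧ g * t = t * g := by
  obtain ⟨g, hg, a, o⟩ := lift h E hb.1 j hb.2.1
  refine ⟨g, hg, a, o, mul_inv_eq_iff_eq_mul.1 (Eq.symm ?_) |>.symm⟩
  refine BT.rigid h.zz (mem_centralizer_singleton_iff.1 (mul_mem (mul_mem ht hg) (inv_mem ht))) o
    (by rw [conj_pow, o]; simp) ((BT.mem_zpowers_two h.zz).2 ?_)
  refine (act_eq h.toHyp0 E (mul_mem hg ht) (mul_mem ht hg) (a.mul hL E hg)
    (show Act n _ (ml M L) from hb.2.2 ▸ hL.mul a E ht)).imp (fun e => ?_) fun e => ?_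
  all_goals rw [mul_inv_rev, inv_inv, ← mul_assoc, e]; group

end Cfsg.Agent.Lib.Co1W
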