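import Cfsg.Agent.Lib.Co1WD

/-! Two commuting conjugates of the central involution: the intersection of the two extraspecial
groups. -/

set_option autoImplicit false
set_option maxRecDepth 100000

namespace Cfsg.Agent.Lib.Co1W

open Subgroup Cfsg.Agent.Lib.Co1Defs Cfsg.Agent.Lib.Co1Q Cfsg.Agent.Lib.Co1Fq Cfsg.Agent.Lib.PermNet
open Cfsg.Agent.Lib.ThDefs hiding Hyp
open Cfsg.Agent.Lib.ThCl (Md)

variable {G : Type*} [Group G] {z t g b : G} {Q Q' : Subgroup G} {n n' : ℕ → G} {L M : List ℕ}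

/-- Two commuting involutions that are weakly closed in their extraspecial groups. -/
structure Pr (z : G) (Q : Subgroup G) (t : G) (Q' : Subgroup G) : Prop where
  h : Hyp z Q
  h' : Hyp t Q'
  wc : ∀ q ∈ Q, IsConj z q → q = z
  wc' : ∀ q ∈ Q', IsConj t q → q = t
  c : t ∈ centralizer ({z} : Set G)
  nQ : t ∉ Q
  nQ' : z ∉ Q'

theorem Pr.symm (X : Pr z Q t Q') : Pr t Q' z Q :=
  ⟨X.h', X.h, X.wc', X.wc, mem_centralizer_singleton_iff.2 (mem_centralizer_singleton_iff.1 X.c).symm,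
    X.nQ', X.nQ⟩

/-- The code is central or a commutator. -/
noncomputable def bad (L K : List ℕ) (e : ℕ) : Bool := forceB e fun e =>
  Nat.beq e 256 || (!Nat.beq e 0 && K.any fun q => Nat.blt q 512 && Nat.beq (qm q e) (lin L q))

/-- The list describes an element of odd order that commutes with the involution. -/
def Od (L : List ℕ) (j : ℕ) (M : List ℕ) : Prop :=
  BasL M ∧ (List.map (lin M))^[2 * j] M = L0 ∧ ml M L = ml L M

noncomputable instance (L : List ℕ) (j : ℕ) : DecidablePred (Od L j) :=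
  fun _ => inferInstanceAs (Decidable (_ ∧ _))

variable (X : Pr z Q t Q') (E : Enc z Q n) (hL : Act n t L)
include X E hL

theorem fix_mem {a : ℕ} (ha : a < 512) (e : lin L a = a) : n a ∈ centralizer ({t} : Set G) :=
  mem_centralizer_singleton_iff.2 (mul_inv_eq_iff_eq_mul.1 (by rw [hL.all E X.c ha, e])).symm

theorem not_bad {K : List ℕ} {e : ℕ} (he : e < 512) (h : n e ∈ Q') : bad L K e = false := by
  refine Bool.eq_false_iff.2 fun hb => ?_
  simp only [bad, forceB_eq, Bool.or_eq_true, Nat.beq_eq, Bool.and_eq_true, Bool.not_eq_true',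
    List.any_eq_true, Nat.blt_eq] at hb
  rcases hb with rfl | ⟨h0, q, -, hq, e1⟩
  · exact X.nQ' (E.z256 ▸ h)
  have e2 := hL.all E X.c hq
  rw [← e1, ← E.mul _ hq _ he] at e2
  have := X.wc' _ (mul_mem h X.h'.mem) (isConj_iff.2 ⟨(n q)⁻¹, by
    rw [eq_inv_mul_of_mul_eq e2.symm]; group⟩)
  rw [E.inj _ he 0 (by decide) (by rw [E.zero]; simpa using this)] at h0
  simp at h0

theorem killD [Finite G] (Ag K Dl : List ℕ) (Th : List (List ℕ))
    (h1 : (∀ a ∈ Ag, a < 512 ∧ lin L a = a) ∧ ∀ M ∈ Th, Od L 7 M)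
    (h2 : (List.range 512).all (fun d => !(Nat.beq (lin L d) d && Nat.beq (qm d d) 0 && Ag.all (cq d)) ||
      (Dl.contains d || bad L K d || Th.any fun a => bad L K (qm d (lin a d)) ||
        Th.any fun b => bad L K (qm (qm d (lin a d)) (lin b d)))) = true)
    {d : G} (hd : d ∈ Q) (hd' : d ∈ Q') : ∃ c ∈ Dl, c < 512 ∧ d = n c := by
  obtain ⟨c, hc, rfl⟩ := E.surj d hd
  have k : ∀ M ∈ Th, lin M c < 512 ∧ n (lin M c) ∈ Q' := fun M hM => by
    obtain ⟨g, hg, a, -, e⟩ := clift E X.h X.c hL 7 (h1.2 M hM)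
    exact ⟨a.lt _, a.all E hg hc ▸ X.h'.nor g (mem_centralizer_singleton_iff.2 e) _ hd'⟩
  have := List.all_eq_true.1 h2 c (List.mem_range.2 hc)
  simp only [Bool.or_eq_true, Bool.not_eq_true', List.contains_iff_mem, List.any_eq_true] at this
  rcases this with e | (e | e) | ⟨a, ha, e | ⟨b, hb, e⟩⟩
  · refine absurd (Bool.and_eq_true_iff.2 ⟨Bool.and_eq_true_iff.2 ⟨Nat.beq_eq.mpr ?_, Nat.beq_eq.mpr ?_⟩,
      List.all_eq_true.2 fun a ha => ?_⟩) (Bool.eq_false_iff.1 e)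
    · refine E.inj _ (hL.lt _) _ hc ?_
      rw [← hL.all E X.c hc, ← zc X.h'.toHyp0 hd', mul_inv_cancel_right]
    · refine E.inj _ (qm_lt hc hc) _ (by decide) ?_
      rw [← E.mul _ hc _ hc, E.zero]
      exact (sq_or X.h.toHyp0 hd).resolve_right fun e => X.nQ' (e ▸ mul_mem hd' hd')
    · obtain ⟨a1, a2⟩ := h1.1 a ha
      refine (cq_iff E hc a1).2 (by_contra fun e => X.nQ' ?_)
      have := X.h'.nor _ (fix_mem X E hL a1 a2) _ hd'
      rw [anti X.h.toHyp0 (E.mem a a1) hd (Ne.symm e)] at this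
      exact (mul_mem_cancel_right hd').1 this
  · exact ⟨c, e, hc, rfl⟩
  · simp [not_bad X E hL hc hd'] at e
  · simp [not_bad X E hL (qm_lt hc (k a ha).1) (E.mul _ hc _ (k a ha).1 ▸ mul_mem hd' (k a ha).2)] at e
  · simp [not_bad X E hL (qm_lt (qm_lt hc (k a ha).1) (k b hb).1) (by
      rw [← E.mul _ (qm_lt hc (k a ha).1) _ (k b hb).1, ← E.mul _ hc _ (k a ha).1]
      exact mul_mem (mul_mem hd' (k a ha).2) (k b hb).2)] at e

theorem comm_mem (hb : b ∈ Q') (hz : b ∈ centralizer ({z} : Set G)) {a : ℕ} (ha : a < 512)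
    (e : lin L a = a) : (n a)⁻¹ * (b * n a * b⁻¹) ∈ Q ∧ (n a)⁻¹ * (b * n a * b⁻¹) ∈ Q' :=
  ⟨mul_mem (inv_mem (E.mem a ha)) (X.h.nor b hz _ (E.mem a ha)), by
    simpa [mul_assoc] using mul_mem (X.h'.nor _ (inv_mem (fix_mem X E hL ha e)) b hb) (inv_mem hb)⟩

theorem excl [Finite G] (h4 : L = c4) {R H : List ℕ} (hR : BasL H ∧ (List.map (lin H))^[2 * 7] H = L0 ∧
    vv (ml R H) = vv (ml H L) ∧ vv (ml R R) ≠ vv L ∧ vv R ≠ vv L) (hb : b ∈ Q')
    (hz : b ∈ centralizer ({z} : Set G)) (a : Av Q n b R) : False := by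
  have h := X.h.toHyp0
  have b2 : b * b = 1 := (sq_or X.h'.toHyp0 hb).resolve_right fun e =>
    hR.2.2.2.1 (Av.uniq h E X.c (e ▸ a.mul h E hz hz a) hL.av)
  obtain ⟨g, hg, ag, -⟩ := lift X.h E hR.1 7 hR.2.1
  obtain ⟨r, hr, e⟩ := exact_of h E X.c hL (.inl h4) (Av.mem h E (mul_mem hz hg) (mul_mem hg X.c)
    (a.mul h E hz hg ag.av) (ag.mul hL E hg).av hR.2.2.1) (by
      rw [show t * ((g * t)⁻¹ * (b * g)) = g⁻¹ * b * g⁻¹⁻¹ by group, conj_mul, b2]; simp)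
  rw [show t * ((g * t)⁻¹ * (b * g)) = g⁻¹ * b * g⁻¹⁻¹ by group] at e
  have c1 : IsConj t (z * t) := isConj_iff.2 ⟨(n 3)⁻¹, by
    have := hL.all E X.c (show 3 < 512 by decide)
    rw [show lin L 3 = qm 256 3 by rw [h4]; decide +kernel, ← z_mul E (by decide),
      mul_inv_eq_iff_eq_mul] at this
    rw [inv_inv, mul_assoc, this, ← nz h E (show 3 < 512 by decide)]; group⟩
  have c2 : IsConj t (g⁻¹ * b * g⁻¹⁻¹) := by
    rcases e with e | e <;> rw [e]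
    · exact isConj_iff.2 ⟨r, rfl⟩
    · exact c1.trans (isConj_iff.2 ⟨r, by rw [← mul_assoc r, zc h hr]; group⟩)
  obtain rfl := X.wc' b hb (c2.trans (isConj_iff.2 ⟨g⁻¹, rfl⟩).symm)
  exact hR.2.2.2.2 (Av.uniq h E X.c a hL.av)

theorem small [Finite G] (hD : ∀ d ∈ Q, d ∈ Q' → d = 1) (f : Fin 16 → G) (hf : Function.Injective f)
    (hB : ∀ i, f i ∈ Q' ∧ f i ∈ centralizer ({z} : Set G)) (Ag ms : List ℕ)
    (st : List (ℕ × List ℕ × List (ℕ × ℕ))) (S : List (List ℕ × ℕ)) (Ex : List (List ℕ × List ℕ))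
    (h1 : (∀ a ∈ Ag, a < 512 ∧ lin L a = a) ∧ (∀ e ∈ Ex, L = c4 ∧ e.1.length = 8 ∧ (∀ a ∈ e.1, a < 512) ∧
      BasL e.2 ∧ (List.map (lin e.2))^[2 * 7] e.2 = L0 ∧ vv (ml e.1 e.2) = vv (ml e.2 L) ∧
      vv (ml e.1 e.1) ≠ vv L ∧ vv e.1 ≠ vv L) ∧ ∀ e ∈ S, e.2 < 15 ∧ e.1.length = 8 ∧ (∀ a ∈ e.1, a < 512) ∧
      ∀ e' ∈ S, e.2 = e'.2 → e.1 = e'.1 ∨ ∀ e'' ∈ S, vv (ml e.1 e'.1) ≠ vv e''.1)
    (h2 : (valid L Ag Ag st Ag && (ml ((st.map Prod.fst).reverse ++ Ag) ms == L0) &&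
      srch L (fun J => fL (ml J ms) fun M => fL (ml M L) (fun a => fL (ml L M) fun b => a != b) ||
        (fL (vv M) (fun a => S.any (a == vv ·.1) || Ex.any (a == vv ·.1)) ||
          fL (vv (ml M L)) (fun a => Ex.any (a == vv ·.1)) || fL (ml M M) fun a => a != L0 && a != L))
      st Ag Ag) = true) : False := by
  have h := X.h.toHyp0
  have key : ∀ b ∈ Q', b ∈ centralizer ({z} : Set G) → ∃ e ∈ S, Av Q n b e.1 := fun b hb hz => by
    obtain ⟨M, a, hM⟩ := enum h E X.c hL hz (zc X.h'.toHyp0 hb) (List.forall₂_same.2 fun a ha => by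
      obtain ⟨a1, a2⟩ := h1.1 a ha
      obtain ⟨c1, c2⟩ := comm_mem X E hL hb hz a1 a2
      exact ⟨a1, a1, (inv_mul_eq_one.1 (hD _ c1 c2)).symm⟩) st ms h2
    simp only [fL_eq, Bool.or_eq_true, List.any_eq_true, beq_iff_eq, Bool.and_eq_true, bne_iff_ne] at hM
    rcases hM with ((⟨e, he, c⟩ | ⟨e, he, c⟩) | ⟨e, he, c⟩) | c
    · exact ⟨e, he, av_of h E hz a.av (h1.2.2 e he).2.1 (h1.2.2 e he).2.2.1 c⟩
    · obtain ⟨p1, p2, p3, p4⟩ := h1.2.1 e he
      exact (excl X E hL p1 p4 hb hz (av_of h E hz a.av p2 p3 c)).elim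
    · obtain ⟨p1, p2, p3, p4⟩ := h1.2.1 e he
      exact (excl X E hL p1 p4 (mul_mem hb X.h'.mem) (mul_mem hz X.c)
        (av_of h E (mul_mem hz X.c) (a.mul hL E hz).av p2 p3 c)).elim
    · rcases sq_or X.h'.toHyp0 hb with e | e
      · exact absurd (act_uniq E (a.mul a E hz) (e ▸ act_one)) c.1
      · exact absurd (act_uniq E (a.mul a E hz) (e ▸ hL)) c.2
  choose s s1 s2 using fun i => key _ (hB i).1 (hB i).2
  obtain ⟨i, j, ij, e⟩ := Fintype.exists_ne_map_eq_of_card_lt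
    (fun i => (⟨(s i).2, (h1.2.2 _ (s1 i)).1⟩ : Fin 15)) (by simp)
  rcases (h1.2.2 _ (s1 i)).2.2.2 _ (s1 j) (congrArg Fin.val e) with e | e
  · exact ij (hf (inv_mul_eq_one.1 (hD _ (Av.mem h E (hB j).2 (hB i).2 (s2 j) (s2 i) (by rw [e]))
      (mul_mem (inv_mem (hB i).1) (hB j).1))))
  · obtain ⟨r, r1, r2⟩ := key _ (mul_mem (hB i).1 (hB j).1) (mul_mem (hB i).2 (hB j).2)
    exact e r r1 (Av.uniq h E (mul_mem (hB i).2 (hB j).2) ((s2 i).mul h E (hB i).2 (hB j).2 (s2 j)) r2)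

theorem dbot [Finite G] (hm : L ∈ NF) (h20 : L ≠ a20) {d : G} (hd : d ∈ Q) (hd' : d ∈ Q') : d = 1 := by
  suffices ∃ c ∈ [0], c < 512 ∧ d = n c by
    obtain ⟨c, hc, -, rfl⟩ := this
    rw [List.mem_singleton.1 hc, E.zero]
  simp only [NF, List.mem_cons, List.not_mem_nil, or_false] at hm
  rcases hm with rfl | rfl | rfl | rfl | rfl | rfl | rfl
  · exact killD X E hL Ac2p Kc2p _ Tc2p (by decide +kernel) (by decide +kernel) hd hd'
  · exact killD X E hL Ac2m Kc2m _ Tc2m (by decide +kernel) (by decide +kernel) hd hd'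
  · exact killD X E hL Ac4 Kc4 _ Tc4 (by decide +kernel) (by decide +kernel) hd hd'
  · exact absurd rfl h20
  · exact killD X E hL Aa2s Ka2s _ Ta2s (by decide +kernel) (by decide +kernel) hd hd'
  · exact killD X E hL Aa2n Ka2n _ Ta2n (by decide +kernel) (by decide +kernel) hd hd'
  · exact killD X E hL Aa4 Ka4 _ Ta4 (by decide +kernel) (by decide +kernel) hd hd'

theorem big (hm : L ∈ NF) : ∃ f : Fin 16 → G, Function.Injective f ∧
    ∀ i, f i ∈ Q ∧ f i ∈ centralizer ({t} : Set G) := by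
  obtain ⟨F, -, h1, h2⟩ := (by decide +kernel : ∀ L ∈ NF, ∃ F ∈ [Fc2p, Fc2m, Fc4, Fa20, Fa2s, Fa2n, Fa4],
    (∀ i : Fin 16, F.getD i 0 < 512 ∧ lin L (F.getD i 0) = F.getD i 0) ∧
      ∀ i j : Fin 16, F.getD i 0 = F.getD j 0 → i = j) L hm
  exact ⟨fun i => n (F.getD i 0), fun i j e => h2 i j (E.inj _ (h1 i).1 _ (h1 j).1 e),
    fun i => ⟨E.mem _ (h1 i).1, fix_mem X E hL (h1 i).1 (h1 i).2⟩⟩

theorem is_a4 [Finite G] (hm : L ∈ NF) (hD : ∀ d ∈ Q, d ∈ Q' → d = 1) (f : Fin 16 → G)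
    (hf : Function.Injective f) (hB : ∀ i, f i ∈ Q' ∧ f i ∈ centralizer ({z} : Set G)) : L = a4 := by
  simp only [NF, List.mem_cons, List.not_mem_nil, or_false] at hm
  rcases hm with rfl | rfl | rfl | rfl | rfl | rfl | rfl
  · exact (small X E hL hD f hf hB Ac2p Mc2p Pc2p Sc2p Ec2p (by decide +kernel) (by decide +kernel)).elim
  · exact (small X E hL hD f hf hB Ac2m Mc2m Pc2m Sc2m Ec2m (by decide +kernel) (by decide +kernel)).elim
  · exact (small X E hL hD f hf hB Ac4 Mc4 Pc4 Sc4 Ec4 (by decide +kernel) (by decide +kernel)).elim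
  · exact (small X E hL hD f hf hB Aa20 Ma20 Pa20 Sa20 Ea20 (by decide +kernel) (by decide +kernel)).elim
  · exact (small X E hL hD f hf hB Aa2s Ma2s Pa2s Sa2s Ea2s (by decide +kernel) (by decide +kernel)).elim
  · exact (small X E hL hD f hf hB Aa2n Ma2n Pa2n Sa2n Ea2n (by decide +kernel) (by decide +kernel)).elim
  · rfl

end Cfsg.Agent.Lib.Co1W
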