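import Cfsg.Agent.Lib.Co1W6a
import Cfsg.Agent.Lib.AutSylowC
import Cfsg.Agent.Lib.ConjCount

/-! The centraliser of a maximal elementary abelian subgroup of the extraspecial group of order `2 ^ 9`. -/

set_option autoImplicit false
set_option maxRecDepth 100000
set_option linter.unusedSectionVars false

namespace Cfsg.Agent.Lib.Co1W6

open Subgroup Cfsg.Agent.Lib.Co1Defs Cfsg.Agent.Lib.Co1Q Cfsg.Agent.Lib.Co1W
open Cfsg.Agent.Lib.ThDefs hiding Hyp

variable {G : Type*} [Group G] {z x y g : G} {Q : Subgroup G} {n : ℕ → G} {L L' : List ℕ} {m : ℕ}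

/-- The centraliser. -/
abbrev CE (z : G) (n : ℕ → G) : Subgroup G := centralizer {z, n 2, n 4, n 32, n 64}

theorem mem_CE : x ∈ CE z n ↔ x ∈ centralizer ({z} : Set G) ∧ ∀ a ∈ [2, 4, 32, 64], x * n a * x⁻¹ = n a := by
  simp only [mem_centralizer_iff, Set.mem_insert_iff, Set.mem_singleton_iff, forall_eq_or_imp, forall_eq,
    List.mem_cons, List.not_mem_nil, or_false, mul_inv_eq_iff_eq_mul]
  simp only [eq_comm]

theorem CE_le (hx : x ∈ CE z n) : x ∈ centralizer ({z} : Set G) := (mem_CE.1 hx).1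

theorem of_LX (hx : x ∈ centralizer ({z} : Set G)) (ha : Act n x (LX m)) : x ∈ CE z n := by
  refine mem_CE.2 ⟨hx, ?_⟩
  simp only [List.mem_cons, List.not_mem_nil, or_false, forall_eq_or_imp, forall_eq]
  exact ⟨ha.2.2 1 (by decide), ha.2.2 2 (by decide), ha.2.2 5 (by decide), ha.2.2 6 (by decide)⟩

theorem LX_inj {a b : ℕ} (ha : a < 1024) (hb : b < 1024) (e : LX a = LX b) : a = b := by
  rw [← dec_LX a ha, e, dec_LX b hb]

theorem act_uniq (E : Enc z Q n) (h1 : Act n x L) (h2 : Act n x L') : L = L' :=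
  List.ext_getElem (h1.1.trans h2.1.symm) fun i a b => by
    rw [← List.getD_eq_getElem _ 0 a, ← List.getD_eq_getElem _ 0 b]
    exact E.inj _ (getD_lt h1.2.1 i) _ (getD_lt h2.2.1 i)
      ((h1.2.2 i (h1.1 ▸ a)).symm.trans (h2.2.2 i (h1.1 ▸ a)))

theorem act_one : Act n 1 L0 := ⟨rfl, by decide, fun i hi => by
  rw [(by decide : ∀ i < 8, L0.getD i 0 = 2 ^ i) i hi]; simp⟩

theorem orb {α : Type*} (f : ℕ → α) (hf : ∀ j < 3, ∀ m p,
    cjl (MM.getD j []) (MI.getD j []) (LX p) = LX m → cjl (MI.getD j []) (MM.getD j []) (LX m) = LX p → f m = f p) :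
    ∀ m < 1024, f m = f (rep (cl m)) := fun m hm => by
  induction hn : rk m using Nat.strong_induction_on generalizing m with | _ k ih =>
  rcases (tab m hm).2 with e | ⟨a, b, c, d, e1, e2⟩
  · rw [← e]
  · rw [hf _ b _ _ e1 e2, ih _ (hn ▸ d) _ a rfl, c]

section
variable (h : Hyp0 z Q) (E : Enc z Q n)
include h E

theorem act_z (hx : Act n x L) : Act n (x * z) L := ⟨hx.1, hx.2.1, fun i hi => by
  rw [← hx.2.2 i hi, mul_assoc x, ← nz h E (pl i hi)]; group⟩

theorem fib (hx : x ∈ centralizer ({z} : Set G)) (hy : y ∈ centralizer ({z} : Set G)) (h1 : Act n x L)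
    (h2 : Act n y L) : y = x ∨ y = x * z := by
  refine (of_act h E (mul_mem (inv_mem hx) hy) ⟨rfl, by decide, fun i hi => ?_⟩).imp
    (fun e => (inv_mul_eq_one.1 e).symm) fun e => inv_mul_eq_iff_eq_mul.1 e
  rw [(by decide : ∀ i < 8, L0.getD i 0 = 2 ^ i) i hi, show x⁻¹ * y * n (2 ^ i) * (x⁻¹ * y)⁻¹ =
    x⁻¹ * (y * n (2 ^ i) * y⁻¹) * x by group, h2.2.2 i hi, ← h1.2.2 i hi]
  group

theorem basl (hx : x ∈ centralizer ({z} : Set G)) (ha : Act n x L) : BasL L := by
  have l := getD_lt ha.2.1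
  obtain p := (by decide +kernel : ∀ i < 8, qm (2 ^ i) (2 ^ i) = 0 ∧ ∀ j < i, qm (2 ^ i) (2 ^ j) =
    qm (if i = j + 1 ∧ j % 2 = 0 then 256 else 0) (qm (2 ^ j) (2 ^ i)))
  refine ⟨ha.1, ha.2.1, fun i hi => ⟨E.inj _ (qm_lt (l i) (l i)) _ (by decide) ?_, fun j hj => ?_⟩⟩
  · rw [← E.mul _ (l i) _ (l i), ← ha.2.2 i hi, conj_mul, E.mul _ (pl i hi) _ (pl i hi), (p i hi).1, E.zero]
    simp
  · have hj' : j < 8 := by omega
    have c : (if i = j + 1 ∧ j % 2 = 0 then 256 else 0) < 512 := by split_ifs <;> decide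
    refine E.inj _ (qm_lt (l i) (l j)) _ (qm_lt c (qm_lt (l j) (l i))) ?_
    rw [← E.mul _ c _ (qm_lt (l j) (l i)), ← E.mul _ (l i) _ (l j), ← E.mul _ (l j) _ (l i), ← ha.2.2 i hi,
      ← ha.2.2 j hj', conj_mul, conj_mul, E.mul _ (pl i hi) _ (pl j hj'), (p i hi).2 j hj,
      ← E.mul _ c _ (qm_lt (pl j hj') (pl i hi)), E.mul _ (pl j hj') _ (pl i hi)]
    split_ifs
    · rw [E.z256, ← mul_assoc, mem_centralizer_singleton_iff.1 hx]; simp only [mul_assoc]
    · rw [E.zero, one_mul, one_mul]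

theorem code (hx : x ∈ CE z n) : ∃ m < 1024, Act n x (LX m) := by
  obtain ⟨hz, hc⟩ := mem_CE.1 hx
  choose a a1 a2 using fun i : Fin 8 => E.surj _ (h.nor x hz _ (E.mem _ (pl i i.2)))
  have ha : Act n x [a 0, 2, 4, a 3, a 4, 32, 64, a 7] := ⟨rfl, by simp [a1], fun i hi => by
    interval_cases i
    exacts [(a2 0).symm, hc 2 (by simp), hc 4 (by simp), (a2 3).symm, (a2 4).symm, hc 32 (by simp),
      hc 64 (by simp), (a2 7).symm]⟩
  have R := (basl h E hz ha).2.2
  have r := fun i j (e : j < i ∧ i < 8) => (R i e.2).2 j e.1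
  obtain ⟨b1, b2⟩ := s4
    _ (s0 _ (a1 0) (R 0 (by decide)).1 (r 2 0 (by decide)) (r 5 0 (by decide)) (r 6 0 (by decide)) (r 1 0 (by decide)))
    _ (s1 _ (a1 3) (R 3 (by decide)).1 (r 3 1 (by decide)) (r 5 3 (by decide)) (r 6 3 (by decide)) (r 3 2 (by decide)))
    (r 3 0 (by decide))
    _ (s2 _ (a1 4) (R 4 (by decide)).1 (r 4 1 (by decide)) (r 4 2 (by decide)) (r 6 4 (by decide)) (r 5 4 (by decide)))
    (r 4 0 (by decide)) (r 4 3 (by decide))
    _ (s3 _ (a1 7) (R 7 (by decide)).1 (r 7 1 (by decide)) (r 7 2 (by decide)) (r 7 5 (by decide)) (r 7 6 (by decide)))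
    (r 7 0 (by decide)) (r 7 3 (by decide)) (r 7 4 (by decide))
  exact ⟨_, b1, b2 ▸ ha⟩

omit h in
theorem act_cj {M M' : List ℕ} (hg : g ∈ centralizer ({z} : Set G)) (hx : x ∈ centralizer ({z} : Set G))
    (h1 : Act n g M) (h2 : Act n g⁻¹ M') (h3 : Act n x L) : Act n (g * x * g⁻¹) (cjl M M' L) := by
  have := h1.mul (h3.mul h2 E hx) E hg
  rwa [List.map_map, ← mul_assoc] at this

theorem cj_mem {M' : List ℕ} (hg : g ∈ centralizer ({z} : Set G)) (h2 : Act n g⁻¹ M')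
    (hW : ∀ i ∈ [1, 2, 5, 6], M'.getD i 0 ∈ WL) (hx : x ∈ CE z n) : g * x * g⁻¹ ∈ CE z n := by
  obtain ⟨m, hm, ha⟩ := code h E hx
  have key : ∀ i ∈ [1, 2, 5, 6], g * x * g⁻¹ * n (2 ^ i) * (g * x * g⁻¹)⁻¹ = n (2 ^ i) := fun i hi => by
    have e := h2.2.2 i (by revert i; decide)
    have := ha.all E (CE_le hx) (getD_lt h2.2.1 i)
    rw [fixW m hm _ (hW i hi), ← e] at this
    rw [show g * x * g⁻¹ * n (2 ^ i) * (g * x * g⁻¹)⁻¹ = g * (x * (g⁻¹ * n (2 ^ i) * g⁻¹⁻¹) * x⁻¹) * g⁻¹ by group,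
      this]
    group
  refine mem_CE.2 ⟨mul_mem (mul_mem hg (CE_le hx)) (inv_mem hg), ?_⟩
  simp only [List.mem_cons, List.not_mem_nil, or_false, forall_eq_or_imp, forall_eq] at key ⊢
  exact key

theorem act_z0 : Act n z L0 := by simpa using act_z h E (act_one (n := n))

theorem z_mem : z ∈ CE z n := of_LX (m := 0) (h.le h.mem) (act_z0 h E)

theorem act_inn {i : ℕ} (hi : i < 4) : Act n (n ([2, 4, 32, 64].getD i 0)) (LX (2 ^ i)) ∧
    n ([2, 4, 32, 64].getD i 0) * n ([2, 4, 32, 64].getD i 0) = 1 := by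
  obtain ⟨a, b⟩ := (by decide +kernel : ∀ i < 4, [2, 4, 32, 64].getD i 0 < 512 ∧
    qm ([2, 4, 32, 64].getD i 0) ([2, 4, 32, 64].getD i 0) = 0) i hi
  have e : n ([2, 4, 32, 64].getD i 0) * n ([2, 4, 32, 64].getD i 0) = 1 := by rw [E.mul _ a _ a, b, E.zero]
  exact ⟨⟨(LX_lt _).1, (LX_lt _).2, fun k hk => by
    rw [inv_eq_of_mul_eq_one_right e, E.mul _ a _ (pl k hk), E.mul _ (qm_lt a (pl k hk)) _ a, inn i hi k hk]⟩, e⟩

theorem card_le [Finite G] : Nat.card (CE z n) ≤ 2048 := by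
  classical
  choose c c1 c2 using fun x : CE z n => code h E x.2
  have r : ∀ m : ℕ, ∃ y : G, ∀ x : CE z n, c x = m → x = y ∨ x = y * z := fun m => by
    by_cases e : ∃ y, c y = m
    · obtain ⟨y, rfl⟩ := e
      exact ⟨y, fun x e => fib h E (CE_le y.2) (CE_le x.2) (c2 y) (e ▸ c2 x)⟩
    · exact ⟨1, fun x e' => absurd ⟨x, e'⟩ e⟩
  choose r hr using r
  refine (Nat.card_le_card_of_injective (β := Fin 1024 × Bool)
    (fun x => (⟨c x, c1 x⟩, decide (x = r (c x)))) fun x y e => Subtype.ext ?_).trans (by simp)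
  simp only [Prod.mk.injEq, Fin.mk.injEq, decide_eq_decide] at e
  obtain ⟨e1, e2⟩ := e
  rw [e1] at e2
  rcases hr _ x e1 with a | a <;> rcases hr _ y rfl with b | b
  exacts [a.trans b.symm, a.trans (e2.1 a).symm, (e2.2 b).trans b.symm, a.trans b.symm]

end

theorem gen [Finite G] (h : Hyp z Q) (E : Enc z Q n) {j : ℕ} (hj : j < 3) : ∃ g ∈ centralizer ({z} : Set G),
    Act n g (MM.getD j []) ∧ Act n g⁻¹ (MI.getD j []) ∧ g ∈ normalizer (CE z n : Set G) ∧
    g ^ (2 * MK.getD j 0 + 1) = 1 := by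
  obtain ⟨a, b, c, d, e, f⟩ := gens j hj
  obtain ⟨g, hg, h1, h2⟩ := lift h E a _ b
  have h3 : Act n g⁻¹ (MI.getD j []) := ⟨c, d, fun i hi => by
    rw [← e i hi, ← h1.all E hg (getD_lt d i)]; group⟩
  refine ⟨g, hg, h1, h3, mem_normalizer_iff.2 fun x => ⟨cj_mem h.toHyp0 E hg h3 fun i hi => (f i hi).1, fun hx => ?_⟩, h2⟩
  simpa [mul_assoc] using cj_mem h.toHyp0 E (inv_mem hg) (by rwa [inv_inv]) (fun i hi => (f i hi).2) hx

theorem beta [Finite G] {b : G} (h : Hyp z Q) (E : Enc z Q n) (hb : b ∈ centralizer ({z} : Set G)) (b2 : b * b = 1)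
    (ha : Act n b a4) : (∀ x ∈ centralizer ({z, n 2, n 4, n 32, n 64} : Set G), x * x = 1) ∧
    Nat.card (centralizer ({z, n 2, n 4, n 32, n 64} : Set G)) = 2048 := by
  have h0 := h.toHyp0
  have cz : ∀ {x}, x ∈ centralizer ({z} : Set G) → Commute x z := fun hx => mem_centralizer_singleton_iff.1 hx
  have c4 : ∀ m < 1024, cl m = 4 → ∃ x ∈ centralizer ({z} : Set G), Act n x (LX m) ∧ x * x = 1 := fun m hm e => by
    rw [orb (fun m => ∃ x ∈ centralizer ({z} : Set G), Act n x (LX m) ∧ x * x = 1) (fun j hj m p e1 e2 => ?_) m hm, e]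
    · exact ⟨b, hb, ha, b2⟩
    obtain ⟨g, hg, g1, g2, -⟩ := gen h E hj
    refine propext ⟨fun ⟨x, hx, x1, x2⟩ => ⟨g⁻¹ * x * g⁻¹⁻¹, mul_mem (mul_mem (inv_mem hg) hx) (inv_mem (inv_mem hg)),
      e2 ▸ act_cj E (inv_mem hg) hx g2 (by rwa [inv_inv]) x1, by rw [conj_mul, x2]; simp⟩,
      fun ⟨x, hx, x1, x2⟩ => ⟨g * x * g⁻¹, mul_mem (mul_mem hg hx) (inv_mem hg), e1 ▸ act_cj E hg hx g1 g2 x1,
      by rw [conj_mul, x2]; simp⟩⟩
  have c4' : ∀ m < 1024, cl m = 4 → ∀ x ∈ centralizer ({z} : Set G), Act n x (LX m) → x * x = 1 :=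
    fun m hm e x hx x1 => by
      obtain ⟨y, hy, y1, y2⟩ := c4 m hm e
      rcases fib h0 E hy hx y1 x1 with rfl | rfl
      · exact y2
      · rw [(cz hy).symm.mul_mul_mul_comm, y2, h.zz, one_mul]
  have p2 : ∀ i < 10, 2 ^ i < 1024 := by decide
  have ex : ∀ i : ℕ, ∃ s ∈ centralizer ({z} : Set G), i < 10 → Act n s (LX (2 ^ i)) ∧ s * s = 1 ∧
      (i < 4 → ∀ x ∈ CE z n, Commute s x) := fun i => by
    by_cases hi : i < 4
    · have l : [2, 4, 32, 64].getD i 0 ∈ [2, 4, 32, 64] := by revert i; decide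
      exact ⟨_, h.le (E.mem _ (getD_lt (by decide) i)), fun _ => ⟨(act_inn h0 E hi).1, (act_inn h0 E hi).2,
        fun _ x hx => (mul_inv_eq_iff_eq_mul.1 ((mem_CE.1 hx).2 _ l)).symm⟩⟩
    by_cases hi' : i < 10
    · obtain ⟨s, a1, a2, a3⟩ := c4 _ (p2 i hi') (bas4 i hi' (by omega)).1
      exact ⟨s, a1, fun _ => ⟨a2, a3, fun e => absurd e hi⟩⟩
    · exact ⟨1, one_mem _, fun e => absurd e hi'⟩
  choose s s1 s2 using ex
  have sC : ∀ i < 10, s i ∈ CE z n := fun i hi => of_LX (s1 i) (s2 i hi).1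
  have com : ∀ i < 10, ∀ j < 10, Commute (s i) (s j) := fun i hi j hj => by
    by_cases e1 : i < 4
    · exact (s2 i hi).2.2 e1 _ (sC j hj)
    by_cases e2 : j < 4
    · exact ((s2 j hj).2.2 e2 _ (sC i hi)).symm
    rcases (bas4 i hi (by omega)).2 j hj (by omega) with rfl | ⟨a1, a2, a3⟩
    · rfl
    have := c4' _ a2 a1 _ (mul_mem (s1 i) (s1 j)) (a3 ▸ (s2 i hi).1.mul (s2 j hj).1 E (s1 i))
    rw [commute_iff_eq, ← inv_eq_of_mul_eq_one_right this, mul_inv_rev,
      inv_eq_of_mul_eq_one_right (s2 i hi).2.1, inv_eq_of_mul_eq_one_right (s2 j hj).2.1]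
  have all : ∀ m < 1024, ∃ x ∈ centralizer ({z} : Set G), Act n x (LX m) ∧ x * x = 1 ∧
      ∀ i < 10, Commute (s i) x := fun m hm => by
    induction m using Nat.strong_induction_on with | _ m ih =>
    rcases step m hm with rfl | ⟨a1, a2, a3⟩
    · exact ⟨1, one_mem _, act_one, by simp, fun _ _ => Commute.one_right _⟩
    obtain ⟨x, hx, x1, x2, x3⟩ := ih _ a2 (by omega)
    exact ⟨s _ * x, mul_mem (s1 _) hx, a3 ▸ (s2 _ a1).1.mul x1 E (s1 _),
      by rw [(x3 _ a1).symm.mul_mul_mul_comm, (s2 _ a1).2.1, x2, one_mul],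
      fun i hi => (com i hi _ a1).mul_right (x3 i hi)⟩
  refine ⟨fun x hx => ?_, le_antisymm (card_le h0 E) ?_⟩
  · obtain ⟨m, hm, x1⟩ := code h0 E hx
    obtain ⟨y, hy, y1, y2, -⟩ := all m hm
    rcases fib h0 E hy (CE_le hx) y1 x1 with rfl | rfl
    · exact y2
    · rw [(cz hy).symm.mul_mul_mul_comm, y2, h.zz, one_mul]
  · choose x x1 x2 _ using fun m : Fin 1024 => all m m.2
    have a : ∀ (m : Fin 1024) (c : Bool), Act n (x m * if c then z else 1) (LX m) := fun m c => by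
      cases c
      exacts [by simpa using x2 m, act_z h0 E (x2 m)]
    refine le_trans (by simp) (Nat.card_le_card_of_injective (α := Fin 1024 × Bool) (β := CE z n)
      (fun p => ⟨x p.1 * if p.2 then z else 1, of_LX (mul_mem (x1 _) (by
        split_ifs; exacts [h.le h.mem, one_mem _])) (a p.1 p.2)⟩) ?_)
    rintro ⟨m, c⟩ ⟨m', c'⟩ e
    have e : (x m * if c then z else 1) = x m' * if c' then z else 1 := congrArg Subtype.val e
    obtain rfl : m = m' := Fin.ext (LX_inj m.2 m'.2 (act_uniq E (a m c) (e ▸ a m' c')))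
    have e := mul_left_cancel e
    cases c <;> cases c' <;> simp_all [h.ne, h.ne.symm]

theorem gamma [Finite G] (h : Hyp z Q) (E : Enc z Q n) (wc : ∀ q ∈ Q, IsConj z q → q = z) {X : Subgroup G}
    (hX : ∀ x ∈ X, x * x = 1) (cX : Nat.card X = 2048)
    (le : X ≤ centralizer ({z, n 2, n 4, n 32, n 64} : Set G)) :
    normalizer (X : Set G) ≤ centralizer ({z} : Set G) := by
  classical
  have h0 := h.toHyp0
  obtain rfl : X = CE z n := eq_of_le_of_card_ge le ((card_le h0 E).trans cX.ge)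
  set N := normalizer (CE z n : Set G)
  have := Fintype.ofFinite N
  let z' : N := ⟨z, le_normalizer (z_mem h0 E)⟩
  have inC : ∀ y : N, IsConj z' y → (y : G) ∈ CE z n := fun y hy => by
    obtain ⟨g, rfl⟩ := isConj_iff.1 hy
    exact (mem_normalizer_iff.1 g.2 z).1 (z_mem h0 E)
  obtain ⟨F, mF⟩ : ∃ F : ℕ → Finset N, ∀ {m y}, y ∈ F m ↔ IsConj z' y ∧ Act n (y : G) (LX m) :=
    ⟨fun m => Finset.univ.filter fun y => IsConj z' y ∧ Act n (y : G) (LX m), by simp⟩
  have le1 : ∀ (g : N) (M M' : List ℕ) m p, (g : G) ∈ centralizer ({z} : Set G) → Act n (g : G) M →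
      Act n (g : G)⁻¹ M' → cjl M M' (LX p) = LX m → (F p).card ≤ (F m).card := fun g M M' m p hg g1 g2 e =>
    Finset.card_le_card_of_injOn (fun y => g * y * g⁻¹) (fun y hy => by
      obtain ⟨a, b⟩ := mF.1 hy
      exact mF.2 ⟨a.trans (isConj_iff.2 ⟨g, rfl⟩), e ▸ act_cj E hg (CE_le (inC y a)) g1 g2 b⟩)
      fun a _ b _ e => by simpa using e
  have ob := orb (fun m => (F m).card) fun j hj m p e1 e2 => by
    obtain ⟨g, hg, g1, g2, g3, -⟩ := gen h E hj
    exact le_antisymm (le1 (⟨g, g3⟩ : N)⁻¹ _ _ _ _ (inv_mem hg) g2 (by simpa using g1) e2)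
      (le1 ⟨g, g3⟩ _ _ _ _ hg g1 g2 e1)
  have two : ∀ m, ∀ x ∈ centralizer ({z} : Set G), Act n x (LX m) → ∀ y ∈ F m, (y : G) = x ∨ (y : G) = x * z :=
    fun m x hx x1 y hy => fib h0 E hx (CE_le (inC y (mF.1 hy).1)) x1 (mF.1 hy).2
  have le2 : ∀ m, (F m).card < 3 := fun m => by
    rcases (F m).eq_empty_or_nonempty with e | ⟨x, hx⟩
    · simp [e]
    have : F m ⊆ {x, x * z'} := fun y hy => by
      rw [Finset.mem_insert, Finset.mem_singleton]
      exact (two m x (CE_le (inC x (mF.1 hx).1)) (mF.1 hx).2 y hy).imp Subtype.ext Subtype.ext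
    exact Nat.lt_succ_of_le ((Finset.card_le_card this).trans Finset.card_le_two)
  have f0 : (F 0).card = 1 := Finset.card_eq_one.2 ⟨z', Finset.eq_singleton_iff_unique_mem.2
    ⟨mF.2 ⟨IsConj.refl _, act_z0 h0 E⟩, fun y hy => by
      rcases two 0 1 (one_mem _) act_one y hy with e | e
      · have a := N.subtype.map_isConj (mF.1 hy).1
        rw [subtype_apply, subtype_apply, e] at a
        exact absurd (isConj_one_left.1 a) h.ne
      · exact Subtype.ext (e.trans (one_mul z))⟩⟩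
  have f1 : (F 1).card = 0 := Finset.card_eq_zero.2 (Finset.eq_empty_of_forall_notMem fun y hy => by
    have a := (act_inn h0 E (i := 0) (by decide)).1
    have q : n 2 ∈ Q := E.mem _ (by decide)
    have : (y : G) = z := wc _ (by
      rcases two 1 _ (h.le q) a y hy with e | e <;> rw [e]
      exacts [q, mul_mem q h.mem]) (N.subtype.map_isConj (mF.1 hy).1)
    have b := (mF.1 hy).2
    rw [this] at b
    exact absurd (act_uniq E b (act_z0 h0 E)) (by decide))
  have f3 : (F 228).card ≠ 1 := fun e => by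
    obtain ⟨y, e⟩ := Finset.card_eq_one.1 e
    obtain ⟨a, b⟩ := mF.1 (e ▸ Finset.mem_singleton_self y)
    have q : n 16 ∈ Q := E.mem _ (by decide)
    have hy := CE_le (inC y a)
    have qN : n 16 ∈ N := by
      have k : ∀ r ∈ Q, ∀ x ∈ CE z n, r * x * r⁻¹ ∈ CE z n := fun r hr x hx => by
        refine mem_CE.2 ⟨mul_mem (mul_mem (h.le hr) (CE_le hx)) (inv_mem (h.le hr)), fun a ha => ?_⟩
        have c := mul_inv_eq_iff_eq_mul.1 ((mem_CE.1 hx).2 a ha)
        have cz := mem_centralizer_singleton_iff.1 (CE_le hx)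
        have : Commute x (r⁻¹ * n a * r) := by
          rcases h.com _ (E.mem a ((by decide : ∀ a ∈ [2, 4, 32, 64], a < 512) a ha)) r hr with e | e <;> rw [mul_assoc, e]
          · rw [inv_mul_cancel_left]; exact c
          · rw [← mul_assoc, mem_centralizer_singleton_iff.1 (h.le (inv_mem hr)), mul_assoc, inv_mul_cancel_left]
            exact Commute.mul_right cz c
        rw [show r * x * r⁻¹ * n a * (r * x * r⁻¹)⁻¹ = r * (x * (r⁻¹ * n a * r)) * x⁻¹ * r⁻¹ by group, this.eq]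
        group
      exact mem_normalizer_iff.2 fun x => ⟨k _ q x, fun hx => by simpa [mul_assoc] using k _ (inv_mem q) _ hx⟩
    have c := b.all E hy (m := 16) (by decide)
    rw [show lin (LX 228) 16 = qm 16 256 by decide +kernel, ← E.mul _ (by decide) _ (by decide), E.z256] at c
    have d : y * z' ∈ F 228 := mF.2 ⟨a.trans (isConj_iff.2 ⟨(⟨n 16, qN⟩ : N)⁻¹, Subtype.ext (by
      change (n 16)⁻¹ * y * (n 16)⁻¹⁻¹ = y * z
      rw [mem_centralizer_singleton_iff.1 hy, inv_inv, mul_assoc, mul_inv_eq_iff_eq_mul.1 c]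
      group)⟩), act_z h0 E b⟩
    rw [e, Finset.mem_singleton, mul_eq_left] at d
    exact h.ne (congrArg Subtype.val d)
  have tot : (Finset.univ.filter fun y : N => IsConj z' y).card =
      1 + 140 * (F 224).card + 420 * (F 228).card + 448 * (F 16).card := by
    rw [show (Finset.univ.filter fun y : N => IsConj z' y) = (Finset.range 1024).biUnion F from
      Finset.ext fun y => ?_, Finset.card_biUnion fun a ha b hb e => ?_,
      Finset.sum_congr rfl fun m hm => ob m (Finset.mem_range.1 hm),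
      ← Finset.sum_fiberwise_of_maps_to (t := Finset.range 5) (g := cl)
        fun m hm => Finset.mem_range.2 (tab m (Finset.mem_range.1 hm)).1,
      Finset.sum_congr rfl fun k hk => (Finset.sum_congr rfl fun m hm => by
        rw [(Finset.mem_filter.1 hm).2]).trans ((Finset.sum_const _).trans (by rw [cnt k (Finset.mem_range.1 hk)]))]
    · simp [Finset.sum_range_succ, rep, reps, f0, f1]
    · exact Finset.disjoint_left.2 fun y h1 h2 => e (LX_inj (Finset.mem_range.1 ha) (Finset.mem_range.1 hb)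
        (act_uniq E (mF.1 h1).2 (mF.1 h2).2))
    · simp only [Finset.mem_filter, Finset.mem_univ, true_and, Finset.mem_biUnion, Finset.mem_range, mF]
      exact ⟨fun a => (code h0 E (inC y a)).imp fun m hm => ⟨hm.1, a, hm.2⟩, fun ⟨_, _, a, _⟩ => a⟩
  have cc : (Finset.univ.filter fun y : N => IsConj z' y).card * Nat.card (centralizer ({z'} : Set N)) =
      Nat.card N := by convert ConjCount.card_filter_isConj_mul z'
  have d3 : 3 ∣ Nat.card (centralizer ({z'} : Set N)) := by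
    obtain ⟨g, hg, g1, -, g3, g4⟩ := gen h E (j := 0) (by decide)
    haveI := Fact.mk Nat.prime_three
    have := orderOf_dvd_natCard (⟨⟨g, g3⟩, mem_centralizer_singleton_iff.2
      (Subtype.ext (mem_centralizer_singleton_iff.1 hg))⟩ : centralizer ({z'} : Set N))
    rwa [orderOf_eq_prime (p := 3) (Subtype.ext (Subtype.ext g4)) fun e => by
      obtain rfl : g = 1 := congrArg (fun x => x.1.1) e
      exact absurd (act_uniq E g1 act_one) (by decide)] at this
  have dN : Nat.card N ∣ 2048 * ∏ i : Fin 11, (2 ^ 11 - 2 ^ (i : ℕ)) := by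
    have ea : IsElementaryAbelian 2 (CE z n) := ⟨⟨⟨fun a b => Subtype.ext (by
      have := hX _ (mul_mem a.2 b.2)
      rw [coe_mul, coe_mul, ← inv_eq_of_mul_eq_one_right this, mul_inv_rev,
        inv_eq_of_mul_eq_one_right (hX _ a.2), inv_eq_of_mul_eq_one_right (hX _ b.2)])⟩⟩,
      fun a ha => by rw [sq, hX a ha]⟩
    rw [← (CE z n).normalizerMonoidHom.ker.card_mul_index, index_ker]
    refine Nat.mul_dvd_mul ?_ ((card_subgroup_dvd_card _).trans (AutSylow.card_mulAut_dvd ea cX))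
    rw [normalizerMonoidHom_ker, ← cX, ← Nat.card_congr (subgroupOfEquivOfLe (le_normalizer (H := CE z n))).toEquiv]
    refine card_dvd_of_le (comap_mono (centralizer_le ?_))
    rintro _ (rfl | rfl | rfl | rfl | rfl)
    exacts [z_mem h0 E, of_LX (h.le (E.mem _ (by decide))) (act_inn h0 E (i := 0) (by decide)).1,
      of_LX (h.le (E.mem _ (by decide))) (act_inn h0 E (i := 1) (by decide)).1,
      of_LX (h.le (E.mem _ (by decide))) (act_inn h0 E (i := 2) (by decide)).1,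
      of_LX (h.le (E.mem _ (by decide))) (act_inn h0 E (i := 3) (by decide)).1]
  have := ari _ (le2 224) _ (le2 228) f3 _ (le2 16) (by
    rw [← tot, mul_comm]
    exact (Nat.mul_dvd_mul_left _ d3).trans (cc ▸ dN))
  rw [tot, this, one_mul] at cc
  intro g hg
  have : (⟨g, hg⟩ : N) ∈ centralizer ({z'} : Set N) := (eq_top_of_card_eq _ cc).ge (mem_top _)
  exact mem_centralizer_singleton_iff.2 (congrArg Subtype.val (mem_centralizer_singleton_iff.1 this))

end Cfsg.Agent.Lib.Co1W6
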