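import Cfsg.Agent.Lib.Co1W4a
import Cfsg.Agent.Lib.Co1W6

/-! Two commuting conjugates of the central involution: the intersection of order `4`. -/

set_option autoImplicit false
set_option maxRecDepth 100000

namespace Cfsg.Agent.Lib.Co1W

open Subgroup Cfsg.Agent.Lib.Co1Defs Cfsg.Agent.Lib.Co1Q Cfsg.Agent.Lib.Co1Fq Cfsg.Agent.Lib.PermNet
open Cfsg.Agent.Lib.ThDefs hiding Hyp
open Cfsg.Agent.Lib.ThCl (Md)

variable {G : Type*} [Group G] {z t g k b : G} {Q Q' : Subgroup G} {n n' : ℕ → G} {L M P I J : List ℕ}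

theorem Rel.ml (E : Enc z Q n) (hg : g ∈ centralizer ({z} : Set G)) (r : Rel n g P I) (ms : List ℕ) :
    Rel n g (ml P ms) (ml I ms) :=
  List.forall₂_map_left_iff.2 (List.forall₂_map_right_iff.2 (List.forall₂_same.2 fun m _ =>
    E.conj (cz hg) r m))

theorem Rel.comp (r : Rel n k P I) (s : Rel n g I J) : Rel n (g * k) P J := by
  induction r generalizing J with
  | nil => cases s; exact .nil
  | cons a _ ih =>
    cases s with | cons c s =>
    exact .cons ⟨a.1, c.2.1, by rw [← c.2.2, ← a.2.2]; group⟩ (ih s)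

theorem Rel.inv (r : Rel n g P I) : Rel n g⁻¹ I P :=
  (r.imp fun _ _ a => ⟨a.2.1, a.1, by rw [← a.2.2]; group⟩).flip

theorem Rel.uniq (E : Enc z Q n) (r : Rel n g P I) (s : Rel n g P J) : I = J := by
  induction r generalizing J with
  | nil => cases s; rfl
  | cons a _ ih =>
    cases s with | cons c s => rw [ih s, E.inj _ a.2.1 _ c.2.1 (a.2.2.symm.trans c.2.2)]

theorem Pr.dcomm (X : Pr z Q t Q') {d : G} (hd : d ∈ Q) (hd' : d ∈ Q') (hb : b ∈ Q')
    (hz : b ∈ centralizer ({z} : Set G)) : b * d = d * b := by_contra fun e =>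
  X.nQ ((mul_mem_cancel_right hd).1 (anti X.h'.toHyp0 hb hd' e ▸ X.h.nor b hz d hd))

theorem endX [Finite G] (X : Pr z Q t Q') (E : Enc z Q n) (E' : Enc t Q' n')
    (hb : b ∈ centralizer ({z} : Set G)) (b2 : b * b = 1) (ha : Act n b a4)
    (hm : ∀ y ∈ ({t, n' 2, n' 4, n' 32, n' 64} : Set G),
      y ∈ centralizer ({z, n 2, n 4, n 32, n 64} : Set G)) : False := by
  obtain ⟨h1, h2⟩ := Co1W6.beta X.h E hb b2 ha
  have h3 := Co1W6.gamma X.h' E' X.wc' h1 h2 fun x hx y hy => by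
    rw [← inv_eq_of_mul_eq_one_right (h1 _ (mul_mem (hm y hy) hx)), mul_inv_rev,
      inv_eq_of_mul_eq_one_right (h1 x hx), inv_eq_of_mul_eq_one_right (h1 y (hm y hy))]
  have h4 : ∀ y ∈ ({z, n 2, n 4, n 32, n 64} : Set G), y ∈ Q := by
    rintro _ (rfl | rfl | rfl | rfl | rfl)
    exacts [X.h.mem, E.mem _ (by decide), E.mem _ (by decide), E.mem _ (by decide), E.mem _ (by decide)]
  refine X.nQ ((X.h.cen t X.c fun q hq => (mem_centralizer_singleton_iff.1 (h3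
    (mem_normalizer_fintype fun x hx y hy => ?_))).symm).elim (· ▸ one_mem _) (· ▸ X.h.mem))
  have e1 := hx y hy
  have e2 := hx z (.inl rfl)
  have e3 := zc X.h.toHyp0 hq
  rcases X.h.com q hq y (h4 y hy) with e | e
  · exact ((Commute.mul_right e.symm e1).mul_right (Commute.inv_right e.symm) :)
  · have e4 : y * q = q * (z * y) := by
      rw [← mul_assoc, e3, mul_assoc, e, ← mul_assoc, X.h.zz, one_mul]
    have e5 : q⁻¹ * y = z * y * q⁻¹ := by rw [eq_mul_inv_iff_mul_eq, mul_assoc, e4]; group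
    rw [← mul_assoc, ← mul_assoc, e4, mul_assoc (q * x), e5, mul_assoc q, mul_assoc z, e1, ← mul_assoc z,
      e2]; group

variable [Finite G] (X : Pr z Q t Q') (E : Enc z Q n) (hL : Act n t a20)
include X E hL

theorem dle {d : G} (hd : d ∈ Q) (hd' : d ∈ Q') : ∃ c ∈ D4, c < 512 ∧ d = n c :=
  killD X E hL Aa20 Ka20 _ [] (by decide +kernel) (by decide +kernel) hd hd'

theorem dfull (hD : ∃ d ∈ Q, d ∈ Q' ∧ d ≠ 1) : ∀ c ∈ D4, n c ∈ Q' := fun c hc => by
  obtain ⟨d, hd, hd', d1⟩ := hD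
  obtain ⟨a, ha, l, rfl⟩ := dle X E hL hd hd'
  rcases (by decide +kernel : ∀ a ∈ D4, ∀ c ∈ D4, a = 0 ∨ c = 0 ∨ ∃ e ∈ TH, lin e.1 a = c) a ha c hc with
    rfl | rfl | ⟨e, he, rfl⟩
  · exact absurd E.zero d1
  · exact E.zero ▸ one_mem _
  · obtain ⟨g, hg, s, -, c⟩ := clift E X.h X.c hL 1 (th e he).1
    exact s.all E hg l ▸ X.h'.nor g (mem_centralizer_singleton_iff.2 c) _ hd'

theorem cen20 (hg : g ∈ centralizer ({z} : Set G)) (c : g * t = t * g) (r : Rel n g PA PA) :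
    g ∈ Q ∨ t⁻¹ * g ∈ Q := by
  obtain ⟨M, a, hM⟩ := enum X.h.toHyp0 E X.c hL hg c r (fin := fun M => vv M == vv L0 || vv M == vv a20)
    Pa20 Ma20 (by decide +kernel)
  simp only [Bool.or_eq_true, beq_iff_eq] at hM
  exact hM.imp (fun e => by simpa using Av.mem X.h.toHyp0 E hg (one_mem _) a.av act_one.av e)
    (Av.mem X.h.toHyp0 E hg X.c a.av hL.av)

theorem cjR {e : List ℕ × List ℕ} (he : e ∈ TH) : ∃ g ∈ centralizer ({z} : Set G), Act n g e.1 ∧
    g ^ 3 = 1 ∧ g * t = t * g ∧ ∀ {b I}, b ∈ Q' → b ∈ centralizer ({z} : Set G) → Rel n b PA I →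
      g * b * g⁻¹ ∈ Q' ∧ g * b * g⁻¹ ∈ centralizer ({z} : Set G) ∧ Rel n (g * b * g⁻¹) PA (cj e I) := by
  obtain ⟨g, hg, s, o, c⟩ := clift E X.h X.c hL 1 (th e he).1
  refine ⟨g, hg, s, o, c, fun hb hz r => ⟨X.h'.nor g (mem_centralizer_singleton_iff.2 c) _ hb,
    mul_mem (mul_mem hg hz) (inv_mem hg), ?_⟩⟩
  refine (th e he).2 ▸ Rel.ml E (mul_mem (mul_mem hg hz) (inv_mem hg)) (List.forall₂_map_left_iff.2
    (List.forall₂_map_right_iff.2 (r.imp fun x y a => ⟨s.lt _, s.lt _, ?_⟩))) _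
  rw [← s.all E hg a.1, ← s.all E hg a.2.1, ← a.2.2]; group

variable (E' : Enc t Q' n') (hL' : Act n' z a20) (hD : ∃ d ∈ Q, d ∈ Q' ∧ d ≠ 1)
include E' hL' hD

theorem zrel {c : ℕ} (hc : c ∈ Z8) : Rel n (n' c) PA PA := by
  have h := dfull X.symm E' hL' (hD.imp fun _ h => ⟨h.2.1, h.1, h.2.2⟩)
  refine List.forall₂_same.2 fun a ha => ?_
  obtain ⟨a1, a2⟩ := pa a ha
  have f := fix_mem X E hL a1 a2
  refine ⟨a1, a1, mul_inv_eq_iff_eq_mul.2 ?_⟩
  obtain ⟨d, hd, l, rfl | rfl⟩ := z8 c hc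
  · exact (X.symm.dcomm (E'.mem _ l) (h _ hd) (E.mem a a1) f).symm
  · rw [← z_mul E' l]
    exact (Commute.mul_left (mem_centralizer_singleton_iff.1 f).symm
      (X.symm.dcomm (E'.mem _ l) (h _ hd) (E.mem a a1) f).symm :)

theorem mu (hb : b ∈ Q') (hz : b ∈ centralizer ({z} : Set G)) :
    ∃ m ∈ T0 ++ T2, Rel n b PA (IA m) := by
  have h := dfull X E hL hD
  have k : ∀ a < 512, lin a20 a = a → ∃ c ∈ D4, qm a c < 512 ∧ b * n a * b⁻¹ = n (qm a c) :=
    fun a a1 a2 => by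
      obtain ⟨c, hc, l, e⟩ := dle X E hL (comm_mem X E hL hb hz a1 a2).1 (comm_mem X E hL hb hz a1 a2).2
      exact ⟨c, hc, qm_lt a1 l, by rw [← E.mul _ a1 _ l, ← e]; group⟩
  have k2 : ∀ c ∈ D4, c < 512 → b * n (qm 256 c) * b⁻¹ = n (qm 256 c) := fun c hc l => by
    rw [← z_mul E l, ← conj_mul, cz hz, X.dcomm (E.mem c l) (h c hc) hb hz, mul_inv_cancel_right]
  obtain ⟨c0, h0, r0⟩ := k 16 (by decide) (by decide +kernel)
  obtain ⟨c1, h1, r1⟩ := k 32 (by decide) (by decide +kernel)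
  obtain ⟨c2, h2, r2⟩ := k 64 (by decide) (by decide +kernel)
  obtain ⟨c3, h3, r3⟩ := k 128 (by decide) (by decide +kernel)
  obtain ⟨hm, e⟩ := ia c0 h0 c1 h1 c2 h2 c3 h3
  generalize D4.idxOf c0 + 4 * D4.idxOf c1 + 16 * D4.idxOf c2 + 64 * D4.idxOf c3 = m at hm e
  have r : Rel n b PA (IA m) := by
    rw [← e]
    exact .cons ⟨by decide, by decide, k2 258 (by decide) (by decide)⟩
      (.cons ⟨by decide, by decide, k2 260 (by decide) (by decide)⟩ (.cons ⟨by decide, r0⟩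
      (.cons ⟨by decide, r1⟩ (.cons ⟨by decide, r2⟩ (.cons ⟨by decide, r3⟩ .nil)))))
  refine ⟨m, by_contra fun hn => ?_, r⟩
  have nd := (nd17 m hm).resolve_left hn
  rw [fL_eq, fL_eq, decide_eq_true_eq] at nd
  choose g _ _ _ _ hg using fun i : Fin 17 => cjR X E hL (th17 i)
  choose β l hβ using fun i => E'.surj _ (hg i hb hz r).1
  obtain ⟨i, j, ij, e⟩ := Fintype.exists_ne_map_eq_of_card_lt
    (fun i => (⟨β i / 16 % 16, Nat.mod_lt _ (by decide)⟩ : Fin 16)) (by simp)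
  have fx : ∀ i, ∃ c ∈ Z8, g i * b * (g i)⁻¹ = n' (16 * (β i / 16 % 16)) * n' c := fun i => by
    obtain ⟨c, hc, l', e⟩ := keys _ (l i) (E'.inj _ (hL'.lt _) _ (l i) (by
      rw [← hL'.all E' X.symm.c (l i), hβ, ← mem_centralizer_singleton_iff.1 (hg i hb hz r).2.1,
        mul_inv_cancel_right]))
    exact ⟨c, hc, by rw [E'.mul _ (by omega) _ l', ← e, hβ]⟩
  obtain ⟨c, hc, e1⟩ := fx i
  obtain ⟨d, hd, e2⟩ := fx j
  have := ((zrel X E hL E' hL' hD hc).comp (zrel X E hL E' hL' hD hd).inv).comp (hg j hb hz r).2.2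
  rw [e2, ← show β i / 16 % 16 = β j / 16 % 16 from congrArg Fin.val e, mul_assoc, mul_inv_cancel_left,
    ← e1] at this
  exact ij (List.inj_on_of_nodup_map nd (List.mem_finRange i) (List.mem_finRange j)
    (congrArg hs ((hg i hb hz r).2.2.uniq E this)))

theorem zB (hb : b ∈ Q') (hz : b ∈ centralizer ({z} : Set G)) (r : Rel n b PA PA) :
    ∃ d ∈ Q, d ∈ Q' ∧ (b = d ∨ b = t * d) :=
  (cen20 X E hL hz (zc X.h'.toHyp0 hb) r).elim (fun h => ⟨b, h, hb, .inl rfl⟩) fun h =>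
    ⟨_, h, mul_mem (inv_mem X.h'.mem) hb, .inr (by group)⟩

theorem caseV (hb : b ∈ Q') (hz : b ∈ centralizer ({z} : Set G)) {v : ℕ × ℕ} (hv : v ∈ RV)
    (r : Rel n b PA (IA v.1)) : False := by
  obtain ⟨he, h1, h2, h3⟩ := rv v hv
  obtain ⟨g, hg, s, o, c, hc⟩ := cjR X E hL he
  have key : ∀ a ∈ Q', a ∈ centralizer ({z} : Set G) → g * a * g⁻¹ = a := fun a ha az => by
    obtain ⟨m, hm, ra⟩ := mu X E hL E' hL' hD ha az
    obtain ⟨c1, c2, c3⟩ := hc ha az ra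
    rw [(h3 m hm).resolve_right fun ⟨e, he, h⟩ => ?_] at c3
    · obtain ⟨d, hd, hd', e⟩ := zB X E hL E' hL' hD (mul_mem (inv_mem ha) c1) (mul_mem (inv_mem az) c2)
        (c3.comp ra.inv)
      obtain ⟨u, hu, l, rfl⟩ := dle X E hL hd hd'
      have e1 := s.all E hg l
      rw [h2 u hu] at e1
      have e2 : g * t * g⁻¹ = t := by rw [c, mul_inv_cancel_right]
      have e3 : n u * n u = 1 := (sq_or X.h.toHyp0 hd).resolve_right fun e => X.nQ' (e ▸ mul_mem hd' hd')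
      obtain ⟨w, w1, w2, w3⟩ : ∃ w, g * a * g⁻¹ = a * w ∧ g * w * g⁻¹ = w ∧ w * w = 1 := by
        refine ⟨a⁻¹ * (g * a * g⁻¹), by group, ?_⟩
        rcases e with e | e <;> rw [e]
        · exact ⟨e1, e3⟩
        · exact ⟨by rw [← conj_mul, e1, e2], by
            rw [mul_assoc, ← mul_assoc (n u), zc X.h'.toHyp0 hd', mul_assoc, e3, mul_one, X.h'.zz]⟩
      have : g ^ 3 * a * (g ^ 3)⁻¹ = g * (g * (g * a * g⁻¹) * g⁻¹) * g⁻¹ := by
        simp [pow_succ, mul_assoc]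
      rw [o, w1, ← conj_mul (b := g) (a := a) (c := w), w1, w2, mul_assoc a, w3, mul_one, w1] at this
      rw [w1, ← this]; simp
    · obtain ⟨k, -, -, -, -, hk⟩ := cjR X E hL he
      obtain ⟨k1, k2, k3⟩ := hk hb hz r
      simp only [fL_eq, Bool.and_eq_true, beq_iff_eq, List.all_eq_true, bne_iff_ne] at h
      obtain ⟨m', hm', r'⟩ := mu X E hL E' hL' hD (mul_mem ha k1) (mul_mem az k2)
      have := ra.ml E az ((cj e (IA v.1)).map mk)
      rw [h.1] at this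
      exact h.2 m' hm' ((k3.comp this).uniq E r')
  have gz := mem_centralizer_singleton_iff.1 hg
  have h4 : g * g ∈ Q' := by
    rcases cen20 X.symm E' hL' (mem_centralizer_singleton_iff.2 c) gz (List.forall₂_same.2 fun a ha => by
      obtain ⟨a1, a2⟩ := pa a ha
      exact ⟨a1, a1, key _ (E'.mem a a1) (fix_mem X.symm E' hL' a1 a2)⟩) with e | e
    · exact mul_mem e e
    · have := mul_mem e e
      rwa [inv_eq_of_mul_eq_one_right X.h.zz, mul_assoc, ← mul_assoc g, gz, mul_assoc, ← mul_assoc z,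
        X.h.zz, one_mul] at this
  have h5 : g * g * (g * g) = g := by
    rw [show g * g * (g * g) = g ^ 3 * g by simp [pow_succ, mul_assoc], o, one_mul]
  have h6 : g = 1 := by
    rcases sq_or X.h'.toHyp0 h4 with e | e <;> rw [h5] at e
    · exact e
    · rw [← h5, e, X.h'.zz, one_mul]
  exact h1 (act_uniq E s (h6 ▸ act_one))

theorem caseS (hb : b ∈ Q') (hz : b ∈ centralizer ({z} : Set G)) {m : ℕ}
    {st : List (ℕ × List ℕ × List (ℕ × ℕ))} {ms R C ks : List ℕ} {e : List ℕ × List ℕ}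
    (H : SOK m st ms R C e ks) (r : Rel n b PA (IA m)) : False := by
  obtain ⟨h1, ⟨R1, R2, R3, hC, he⟩, h2, h3, h4, h5, h6⟩ := H
  have h := X.h.toHyp0
  obtain ⟨b, hb, hz, r, a⟩ : ∃ b ∈ Q', b ∈ centralizer ({z} : Set G) ∧ Rel n b PA (IA m) ∧ Av Q n b R := by
    obtain ⟨M, a, hM⟩ := enum h E X.c hL hz (zc X.h'.toHyp0 hb) r st ms h1
    simp only [Bool.or_eq_true, beq_iff_eq] at hM
    rcases hM with e | e
    · exact ⟨b, hb, hz, r, av_of h E hz a.av R1 R2 e⟩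
    · exact ⟨_, mul_mem hb X.h'.mem, mul_mem hz X.c,
        (E'.z256 ▸ zrel X E hL E' hL' hD (c := 256) (by decide)).comp r,
        av_of h E (mul_mem hz X.c) (a.mul hL E hz).av R1 R2 e⟩
  have b2 : b * b = 1 := (sq_or X.h'.toHyp0 hb).resolve_right fun e =>
    R3 (Av.uniq h E X.c (e ▸ a.mul h E hz hz a) hL.av)
  obtain ⟨n2, E2, e2⟩ := rebase h E hC
  have lC := lin_lt hC.2.1
  obtain ⟨q, hq, a0⟩ := a
  have bq := mul_mem hz (h.le hq)
  obtain ⟨p, hp, a⟩ := adjust h E2 bq (L := a4) rfl (by decide) fun i hi => by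
    rw [e2 _ (pl i hi), e2 _ (getD_lt (by decide) i), a0.all E bq (lC _), md_iff E (a0.lt _) (lC _)]
    exact h2 i hi
  have bs := mul_mem bq (h.le hp)
  generalize hs : b * q * p = s at a bs
  have e3 : s * (q * p)⁻¹ = b := by rw [← hs]; group
  obtain ⟨u, hu, e4⟩ := exact_of h E2 bs a (.inr rfl) (inv_mem (mul_mem hq hp)) (by rw [e3, b2])
  rw [e3] at e4
  have us := mul_mem (mul_mem (h.le hu) bs) (inv_mem (h.le hu))
  have s2 : s * s = 1 := by
    have := md_mul h e4 (md_symm h e4) (mem_centralizer_singleton_iff.1 us)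
    rcases e4 with e | e
    · simpa [e, conj_mul] using b2
    · rw [e, mul_assoc, ← mul_assoc _ z, mem_centralizer_singleton_iff.1 us, mul_assoc, ← mul_assoc z,
        h.zz, one_mul, conj_mul] at b2
      simpa using b2
  have c1 : ∀ k < 512, lin a4 k = k → n2 k * b = b * n2 k := fun k hk e => by
    have c : Commute s (n2 k) := mul_inv_eq_iff_eq_mul.1 (by rw [a.all E2 bs hk, e])
    have cz : Commute z (n2 k) := (nz h E2 hk).symm
    have : Commute (u * s * u⁻¹) (n2 k) := by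
      have : Commute s (u⁻¹ * n2 k * u⁻¹⁻¹) := by
        by_cases e : u⁻¹ * n2 k = n2 k * u⁻¹
        · rwa [e, mul_inv_cancel_right]
        · rw [anti h (inv_mem hu) (E2.mem k hk) e]
          exact Commute.mul_right (mem_centralizer_singleton_iff.1 bs) c
      simpa [mul_assoc] using this.conj u
    rcases e4 with e | e <;> rw [e]
    exacts [this.symm, (cz.mul_left this).symm]
  obtain ⟨g, hg, ag, -, c, hc⟩ := cjR X E hL he
  obtain ⟨g1, g2, g3⟩ := hc hb hz r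
  have mem : ∀ y ∈ centralizer ({z} : Set G), (∀ x ∈ [2, 4, 32, 64], n2 x * y = y * n2 x) →
      y ∈ centralizer ({z, n2 2, n2 4, n2 32, n2 64} : Set G) := fun y hy k => by
    rintro _ (rfl | rfl | rfl | rfl | rfl)
    exacts [(mem_centralizer_singleton_iff.1 hy).symm, k _ (by simp), k _ (by simp), k _ (by simp),
      k _ (by simp)]
  have l4 : ∀ x ∈ [2, 4, 32, 64], x < 512 ∧ lin a4 x = x := by decide +kernel
  have m1 := mem t X.c fun x hx => by
    rw [e2 x (l4 x hx).1]; exact mem_centralizer_singleton_iff.1 (fix_mem X E hL (lC x) (h3 x hx).1)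
  have m2 := mem b hz fun x hx => c1 x (l4 x hx).1 (l4 x hx).2
  have m3 := mem _ g2 fun x hx => by
    obtain ⟨k, -, k1, k2, k3⟩ := (h3 x hx).2.2
    rw [e2 x (l4 x hx).1, ← k3, ← ag.all E hg (lC k), ← e2 k k1, conj_mul, conj_mul, c1 k k1 k2]
  have m4 : ∀ c ∈ D4, c < 512 → n' (qm 256 c) ∈ centralizer ({z, n2 2, n2 4, n2 32, n2 64} : Set G) :=
    fun c hc l => by
      have := dfull X.symm E' hL' (hD.imp fun _ h => ⟨h.2.1, h.1, h.2.2⟩) c hc
      obtain ⟨d, hd, l', e⟩ := dle X E hL this (E'.mem c l)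
      rw [← z_mul E' l]
      exact mul_mem m1 (mem _ (h.le this) fun x hx => by
        rw [e2 x (l4 x hx).1, e]; exact (cq_iff E (lC x) l').1 ((h3 x hx).2.1 d hd))
  have m5 : n' 2 ∈ _ := m4 258 (by decide) (by decide)
  have m6 : n' 4 ∈ _ := m4 260 (by decide) (by decide)
  have sq := (Co1W6.beta X.h E2 bs s2 a).1
  have cm : ∀ x ∈ centralizer ({z, n2 2, n2 4, n2 32, n2 64} : Set G),
      ∀ y ∈ centralizer ({z, n2 2, n2 4, n2 32, n2 64} : Set G), x * y = y * x := fun x hx y hy => by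
    rw [← inv_eq_of_mul_eq_one_right (sq _ (mul_mem hx hy)), mul_inv_rev,
      inv_eq_of_mul_eq_one_right (sq x hx), inv_eq_of_mul_eq_one_right (sq y hy)]
  have s0 : ∀ {n : ℕ → G} (E : Enc t Q' n) {a}, a < 512 → n a * n a = 1 → Nat.beq (qm a a) 0 = true :=
    fun E a ha e => Nat.beq_eq.mpr (E.inj _ (qm_lt ha ha) _ (by decide) (by rw [← E.mul _ ha _ ha, e, E.zero]))
  obtain ⟨β, l, rfl⟩ := E'.surj b hb
  rcases w5.2 β l (by
    rw [s0 E' l b2, (cq_iff E' l (by decide)).2 (cm _ m2 _ m5), (cq_iff E' l (by decide)).2 (cm _ m2 _ m6)]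
    rfl) with e | ⟨W, hW, e⟩
  · exact h4 (r.uniq E (zrel X E hL E' hL' hD e))
  obtain ⟨n3, E3, e3⟩ := rebase X.h'.toHyp0 E' (w5.1 W hW).1
  have f1 : ∀ c ∈ Z8, n3 c = n' c := fun c hc => by
    rw [e3 c (by revert c; decide), (w5.1 W hW).2 c hc]
  have f2 : n3 32 = n' β := by rw [e3 _ (by decide), e]
  rw [← f1 _ (by decide)] at m5 m6
  rw [← f2] at m2
  obtain ⟨γ, l', e5⟩ := E3.surj _ g1
  rw [← e5] at m3 g3
  rcases w6.2 γ l' (by
    rw [s0 E3 l' (sq _ m3), (cq_iff E3 l' (by decide)).2 (cm _ m3 _ m5),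
      (cq_iff E3 l' (by decide)).2 (cm _ m3 _ m6), (cq_iff E3 l' (by decide)).2 (cm _ m3 _ m2)]
    rfl) with ⟨c, hc, l'', rfl | rfl⟩ | ⟨W, hW, e⟩
  · exact h5 (g3.uniq E (f1 _ hc ▸ zrel X E hL E' hL' hD hc))
  · rw [← E3.mul _ (by decide) _ l'', f2, f1 c hc] at g3
    exact h6 (g3.uniq E ((zrel X E hL E' hL' hD hc).comp r))
  obtain ⟨n4, E4, e4⟩ := rebase X.h'.toHyp0 E3 (w6.1 W hW).1
  refine endX X E2 E4 bs s2 a ?_
  rintro _ (rfl | rfl | rfl | rfl | rfl)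
  · exact m1
  · rwa [e4 _ (by decide), (w6.1 W hW).2 _ (by decide)]
  · rwa [e4 _ (by decide), (w6.1 W hW).2 _ (by decide)]
  · rwa [e4 _ (by decide), (w6.1 W hW).2 _ (by decide)]
  · rwa [e4 _ (by decide), e]

theorem d20 : False := by
  choose m m1 m2 using fun k : Fin 16 => mu X E hL E' hL' hD (E'.mem _ (k16 k).1)
    (fix_mem X.symm E' hL' (k16 k).1 (k16 k).2.1)
  by_cases h : ∃ k, m k ∈ T2
  · obtain ⟨k, hk⟩ := h
    obtain ⟨e, he, h⟩ := t2 _ hk
    obtain ⟨g, -, -, -, -, hg⟩ := cjR X E hL he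
    obtain ⟨g1, g2, g3⟩ := hg (E'.mem _ (k16 k).1) (fix_mem X.symm E' hL' (k16 k).1 (k16 k).2.1) (m2 k)
    simp only [fL_eq, Bool.or_eq_true, List.any_eq_true, beq_iff_eq] at h
    rcases h with ⟨v, hv, e⟩ | ⟨s, hs, e⟩ <;> rw [e] at g3
    · exact caseV X E hL E' hL' hD g1 g2 hv g3
    · exact caseS X E hL E' hL' hD g1 g2 (rs s hs) g3
  have h0 : ∀ k, m k ∈ T0 := fun k => (List.mem_append.1 (m1 k)).resolve_right fun e => h ⟨k, e⟩
  obtain ⟨i, j, ij, e⟩ := Fintype.exists_ne_map_eq_of_card_lt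
    (fun k => (⟨T0.idxOf (m k), List.idxOf_lt_length_of_mem (h0 k)⟩ : Fin T0.length)) (by decide)
  have e : m i = m j := (List.idxOf_inj (h0 i)).1 (congrArg Fin.val e)
  obtain ⟨d, hd, hd', e⟩ := zB X E hL E' hL' hD
    (mul_mem (inv_mem (E'.mem _ (k16 j).1)) (E'.mem _ (k16 i).1))
    (mul_mem (inv_mem (fix_mem X.symm E' hL' (k16 j).1 (k16 j).2.1))
      (fix_mem X.symm E' hL' (k16 i).1 (k16 i).2.1)) ((m2 i).comp (e ▸ m2 j).inv)
  obtain ⟨c, hc, l, rfl⟩ := dle X.symm E' hL' hd' hd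
  rw [z_mul E' l, inv_mul_eq_iff_eq_mul, inv_mul_eq_iff_eq_mul, E'.mul _ (k16 j).1 _ l,
    E'.mul _ (k16 j).1 _ (qm_lt (by decide) l)] at e
  exact ij ((k16 i).2.2 j c hc (e.imp (E'.inj _ (k16 i).1 _ (qm_lt (k16 j).1 l))
    (E'.inj _ (k16 i).1 _ (qm_lt (k16 j).1 (qm_lt (by decide) l)))))

end Cfsg.Agent.Lib.Co1W
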