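import Cfsg.Agent.Lib.Co1W4
import Cfsg.Agent.Lib.Co1W1
import Cfsg.Agent.Lib.ZStar

/-! The central involution is not weakly closed in the extraspecial group. -/

set_option autoImplicit false

namespace Cfsg.Agent.Lib.Co1W

open Subgroup Cfsg.Agent.Lib.Co1Defs Cfsg.Agent.Lib.Co1Q Cfsg.Agent.Lib.Co1Fq
open Cfsg.Agent.Lib.ThDefs hiding Hyp

variable {G : Type*} [Group G] [Finite G] {z t : G} {Q Q' : Subgroup G}

theorem Pr.false (X : Pr z Q t Q') : False := by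
  obtain ⟨n, E, L, hm, hL⟩ := Co1W1.nf X.h X.c X.h'.zz X.nQ
  obtain ⟨n', E', L', hm', hL'⟩ := Co1W1.nf X.h' X.symm.c X.h.zz X.nQ'
  by_cases hD : ∃ d ∈ Q, d ∈ Q' ∧ d ≠ 1
  · obtain ⟨d, hd, hd', d1⟩ := id hD
    obtain rfl : L = a20 := by_contra fun e => d1 (dbot X E hL hm e hd hd')
    obtain rfl : L' = a20 := by_contra fun e => d1 (dbot X.symm E' hL' hm' e hd' hd)
    exact d20 X E hL E' hL' hD
  have h1 : ∀ d ∈ Q, d ∈ Q' → d = 1 := fun d hd hd' => by_contra fun e => hD ⟨d, hd, hd', e⟩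
  obtain ⟨f, f1, f2⟩ := big X E hL hm
  obtain ⟨f', f1', f2'⟩ := big X.symm E' hL' hm'
  obtain rfl := is_a4 X E hL hm h1 f' f1' f2'
  obtain rfl := is_a4 X.symm E' hL' hm' (fun d hd hd' => h1 d hd' hd) f f1 f2
  have l4 : ∀ x ∈ [2, 4, 32, 64], x < 512 ∧ lin a4 x = x := by decide +kernel
  have k : ∀ b ∈ Q', b ∈ centralizer ({z} : Set G) →
      b ∈ centralizer ({z, n 2, n 4, n 32, n 64} : Set G) := fun b hb hz => by
    have : ∀ x ∈ [2, 4, 32, 64], n x * b = b * n x := fun x hx => by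
      obtain ⟨c1, c2⟩ := comm_mem X E hL hb hz (l4 x hx).1 (l4 x hx).2
      exact (mul_inv_eq_iff_eq_mul.1 (inv_mul_eq_one.1 (h1 _ c1 c2)).symm).symm
    rintro _ (rfl | rfl | rfl | rfl | rfl)
    exacts [(mem_centralizer_singleton_iff.1 hz).symm, this _ (by simp), this _ (by simp),
      this _ (by simp), this _ (by simp)]
  have k' : ∀ x ∈ [2, 4, 32, 64], n' x ∈ centralizer ({z, n 2, n 4, n 32, n 64} : Set G) := fun x hx =>
    k _ (E'.mem x (l4 x hx).1) (fix_mem X.symm E' hL' (l4 x hx).1 (l4 x hx).2)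
  refine endX X E E' X.c X.h'.zz hL ?_
  rintro _ (rfl | rfl | rfl | rfl | rfl)
  exacts [k _ X.h'.mem X.c, k' _ (by simp), k' _ (by simp), k' _ (by simp), k' _ (by simp)]

theorem fusion (h : Hyp z Q) (hz : ¬ IsIsolated z) : ∃ g : G, g * z * g⁻¹ ∈ Q ∧ g * z * g⁻¹ ≠ z := by
  by_contra hn
  have wc : ∀ q ∈ Q, IsConj z q → q = z := fun q hq c => by
    obtain ⟨g, rfl⟩ := isConj_iff.1 c
    exact by_contra fun e => hn ⟨g, hq, e⟩
  obtain ⟨g, c, ne⟩ : ∃ g : G, Commute z (g * z * g⁻¹) ∧ g * z * g⁻¹ ≠ z := by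
    simpa [IsIsolated] using hz
  refine Pr.false (t := MulAut.conj g z) (Q' := Q.map (MulAut.conj g).toMonoidHom) ⟨h,
    ⟨hyp_map h.toHyp0 _, ?_⟩, wc, ?_, mem_centralizer_singleton_iff.2 c.symm,
    fun e => hn ⟨g, e, ne⟩, ?_⟩
  · rw [← h.cH]
    exact (Nat.card_congr ((MulAut.conj g).toEquiv.subtypeEquiv fun _ => (mc _).symm)).symm
  · rintro _ ⟨q, hq, rfl⟩ e
    exact congrArg _ (wc q hq ((isConj_iff.2 ⟨g, rfl⟩).trans (e.trans (isConj_iff.2 ⟨g, rfl⟩).symm)))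
  · rintro ⟨q, hq, e⟩
    exact ne ((congrArg (g * · * g⁻¹) (wc q hq (isConj_iff.2 ⟨g, e⟩).symm)).symm.trans e)

end Cfsg.Agent.Lib.Co1W
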