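import Cfsg.Agent.Lib.Co1Defs
import Cfsg.Agent.Lib.Co3A

/-! Interfaces for the recognition of the second Conway group. -/

set_option autoImplicit false

namespace Cfsg.Agent.Lib.Co2Defs

open Subgroup Cfsg.Agent.Lib.ThDefs

variable {G : Type*} [Group G]

/-- The hypothesis, inside `G`. -/
structure Hyp (z : G) (Q : Subgroup G) (φ : centralizer ({z} : Set G) →* Co3A.X) : Prop
    extends Co1Defs.Hyp0 z Q where
  ker : ∀ g, φ g = 1 ↔ (g : G) ∈ Q
  sur : Function.Surjective φ

/-- The spin module: the images of the generators of `Q` under the six letters. -/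
def LS : List (List ℕ) :=
  [[388, 266, 165, 2, 72, 416, 90, 32], [401, 416, 496, 392, 265, 426, 351, 8],
   [400, 422, 500, 17, 137, 494, 123, 24], [129, 336, 416, 24, 8, 165, 90, 1],
   [389, 24, 37, 66, 88, 129, 82, 292], [17, 420, 340, 129, 1, 106, 261, 152]]

/-- The letters, their images in the symplectic group and their action on `Q`. -/
structure St {z : G} (φ : centralizer ({z} : Set G) →* Co3A.X) (n f : ℕ → G) : Prop where
  mem : ∀ i < 6, f i ∈ centralizer ({z} : Set G)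
  ph : ∀ i (hi : i < 6), φ ⟨f i, mem i hi⟩ = Co3A.f i
  act : ∀ i < 6, Act n (f i) (LS.getD i [])
  o3 : ∀ i < 6, f i ^ 3 = 1

/-- The natural module: a normal cyclic subgroup of order four. -/
structure Nt (z : G) (Q : Subgroup G) (q : G) : Prop where
  mem : q ∈ Q
  sq : q * q = z
  nor : ∀ g ∈ centralizer ({z} : Set G), g * q * g⁻¹ = q ∨ g * q * g⁻¹ = q⁻¹
  inn : ∀ g ∈ centralizer ({z} : Set G), (∀ r ∈ Q, g * r * g⁻¹ = r ∨ g * r * g⁻¹ = z * r) → g ∈ Q
  irr : ∀ j ∈ Q, ∀ u ∈ Q, j * j = 1 → j ≠ 1 → j ≠ z → j * q = q * j → u * u = 1 → u * j = j * u →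
    u * q ≠ q * u → ∃ k ∈ centralizer ({z} : Set G), k * j = j * k ∧
      u * (k * u * k⁻¹) ≠ k * u * k⁻¹ * u

theorem Hyp.cH [Finite G] {z : G} {Q : Subgroup G} {φ : centralizer ({z} : Set G) →* Co3A.X}
    (h : Hyp z Q φ) : Nat.card (centralizer ({z} : Set G)) = 743178240 := by
  have e : φ.ker = Q.subgroupOf _ := by ext g; rw [MonoidHom.mem_ker, h.ker, mem_subgroupOf]
  rw [← φ.ker.index_mul_card, index_ker, MonoidHom.range_eq_top.2 h.sur, card_top, Co3A.card_X, e,
    Nat.card_congr (subgroupOfEquivOfLe h.le).toEquiv, h.cQ]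

end Cfsg.Agent.Lib.Co2Defs
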