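import Cfsg.Agent.Lib.Co2Cl2
import Cfsg.Agent.Lib.Co2Defs

/-! The action of `Sp₆(2)` on an extraspecial group of order `2 ^ 9`: the spin module or the natural module. -/

set_option autoImplicit false
set_option maxRecDepth 100000
set_option synthInstance.maxSize 2048

namespace Cfsg.Agent.Lib.Co2Cl

open Subgroup Cfsg.Agent.Lib.PermNet Cfsg.Agent.Lib.Words Cfsg.Agent.Lib.PermGroup Cfsg.Agent.Lib.DCE
  Cfsg.Agent.Lib.PermModel Cfsg.Agent.Lib.BT Cfsg.Agent.Lib.Co2V Cfsg.Agent.Lib.MatChk Cfsg.Agent.Lib.Co2Defs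
open Cfsg.Agent.Lib.ThDefs (qm lin L0 Enc Act)
open Cfsg.Agent.Lib.ThO (lt_of_fix xl ind)
open Cfsg.Agent.Lib.ThCl (Md md_mod)
open Cfsg.Agent.Lib.Co1Defs (Hyp0)
open Cfsg.Agent.Lib.Co1Q (md_trans md_symm md_mul)

theorem relX (w : List ℕ) (h : (w.all (fun l => decide (l < 12)) && eqB (arZ 2 6) Co3A.ms w [] 1) = true) :
    wval Co3A.f w = 1 := Co3A.ρ_inj (by
  rw [Bool.and_eq_true] at h
  rw [wval, Co3A.sm.map_prod Co3A.ρ Co3A.hF h.1, Co3A.sm.wm_eq_one Co3A.hw h.2, map_one]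
  rfl)

theorem neX (w : List ℕ) (v : ℕ) (h : w.all (fun l => decide (l < 12)) = true ∧ v < 64 ∧
    apR (arZ 2 6) Co3A.ms w.reverse v < 64 ∧ apR (arZ 2 6) Co3A.ms w.reverse v ≠ v) : wval Co3A.f w ≠ 1 := fun e => by
  have h1 := Co3A.sm.vec_apR Co3A.hw w.reverse v
  rw [List.reverse_reverse, ← Co3A.sm.map_prod Co3A.ρ Co3A.hF h.1, show (w.map (lval Co3A.f)).prod = 1 from e,
    map_one, Matrix.one_mulVec] at h1
  exact h.2.2.2 (Co3A.sm.vec_inj h.2.2.1 h.2.1 h1)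

/-- Three generators. -/
noncomputable def xs (i : ℕ) : Co3A.X := wval Co3A.f (DW.getD i [])

theorem x_rel : ∀ r ∈ RR, wval xs r = 1 := fun r hr =>
  (wval_subst Co3A.f DW r).symm.trans (relX _ (by revert r; decide +kernel))

theorem x_gen : ∀ i < 6, wval xs (WF.getD i []) = Co3A.f i := fun i hi => by
  have := relX ((2 * i + 1) :: subst DW (WF.getD i [])) (by revert i; decide +kernel)
  rw [wval_odd, inv_mul_eq_one, wval_subst] at this
  exact this.symm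

theorem x_ne : xs 0 ≠ 1 := neX _ 1 (by decide +kernel)

variable {G : Type*} [Group G] {z : G} {Q : Subgroup G} {n : ℕ → G} {s : ℕ → ℕ}
  {φ : centralizer ({z} : Set G) →* Co3A.X} {ρ : centralizer ({z} : Set G) →* Equiv.Perm ℕ}
  {y : ℕ → centralizer ({z} : Set G)}

theorem md_mem {S : Subgroup G} (hz : z ∈ S) {a b : G} (e : Md z a b) : a ∈ S ↔ b ∈ S := by
  rcases e with rfl | rfl
  exacts [Iff.rfl, S.mul_mem_cancel_left hz]

/-- The polar form in coordinates. -/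
def Pol (s : ℕ → ℕ) : Prop := ∀ i < 8, ∀ a < 256, bl s (2 ^ i) a = 0 ↔ a.testBit (i ^^^ 1) = true → False

theorem inn (h : Hyp0 z Q) (E : EW s z Q n) (k : OK s) (pol : Pol s) {g : G} (hg : g ∈ centralizer ({z} : Set G))
    (h1 : ∀ r ∈ Q, Md z (g * r * g⁻¹) r) : g ∈ Q := by
  classical
  obtain ⟨a, ha, e⟩ : ∃ a < 256, ∀ i < 8, (n (2 ^ i) * n a = n a * n (2 ^ i) ↔ g * n (2 ^ i) * g⁻¹ = n (2 ^ i)) :=
    ⟨Nat.ofBits fun j : Fin 8 => decide (g * n (2 ^ (j.1 ^^^ 1)) * g⁻¹ ≠ n (2 ^ (j.1 ^^^ 1))),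
      Nat.ofBits_lt_two_pow _, fun i hi => by
        rw [E.com_iff h k (p8 i hi) (Nat.ofBits_lt_two_pow _) (.inl rfl) (.inl rfl),
          pol i hi _ (Nat.ofBits_lt_two_pow _),
          Nat.testBit_ofBits_lt _ _ ((by decide : ∀ i < 8, i ^^^ 1 < 8) i hi)]
        simp⟩
  have hz : z ∈ centralizer ({(n a)⁻¹ * g} : Set G) := mem_centralizer_singleton_iff.2
    (mem_centralizer_singleton_iff.1 (mul_mem (inv_mem (h.le (E.mem a ha))) hg)).symm
  have h2 : ∀ m < 256, n m ∈ centralizer ({(n a)⁻¹ * g} : Set G) :=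
    ind ((md_mem hz E.zero).2 (one_mem _)) fun i hi m hm _ ih => by
      refine (md_mem hz (E.mul _ (p8 i hi) m hm)).1 (mul_mem (mem_centralizer_singleton_iff.2 ?_) ih)
      have : g * n (2 ^ i) * g⁻¹ = n a * n (2 ^ i) * (n a)⁻¹ := by
        by_cases c : n (2 ^ i) * n a = n a * n (2 ^ i)
        · rw [(e i hi).1 c, ← c]; simp
        · rw [(h1 _ (E.mem _ (p8 i hi))).resolve_left fun e' => c ((e i hi).2 e'),
            (h.com _ (E.mem a ha) _ (E.mem _ (p8 i hi))).resolve_left (Ne.symm c)]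
          group
      rw [mul_assoc, ← mul_left_inj g⁻¹, mul_assoc _ (g * _), this]
      group
  rw [← Q.mul_mem_cancel_left (inv_mem (E.mem a ha))]
  rcases h.cen _ (mul_mem (inv_mem (h.le (E.mem a ha))) hg) fun q hq => by
    obtain ⟨m, hm, e⟩ := E.surj q hq
    exact (mem_centralizer_singleton_iff.1 ((md_mem hz e).2 (h2 m hm))).symm with e | e <;> rw [e]
  exacts [one_mem _, h.mem]

section
variable (h : Hyp z Q φ) (E : EW s z Q n) (R : Rho s n ρ)
include h E R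

theorem k1 {g : centralizer ({z} : Set G)} (hg : φ g = 1) : ρ g = 1 := Equiv.ext fun p => by
  by_cases hp : p < 256
  · exact E.inj _ (lt_of_fix (R g).1.1 hp) p hp (md_trans h.toHyp0 (md_symm h.toHyp0 ((R g).2 p hp))
      ((h.com _ ((h.ker g).1 hg) _ (E.mem p hp)).imp (fun e => by rw [e]; simp) fun e => by rw [e]; simp [mul_assoc]))
  · exact (R g).1.1 p (by omega)

theorem pre (k : OK s) (pol : Pol s) (hy : ∀ i, φ (y i) = xs i) :
    (∀ r ∈ RR, wval (fun i => ρ (y i)) r = 1) ∧ ρ (y 0) ≠ 1 :=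
  ⟨fun r hr => (map_wval ρ y r).symm.trans (k1 h E R (by rw [map_wval, funext hy, x_rel r hr])),
    fun e => x_ne (by
      rw [← hy 0, h.ker]
      refine inn h.toHyp0 E k pol (y 0).2 fun r hr => ?_
      obtain ⟨m, hm, e1⟩ := E.surj r hr
      have := (R (y 0)).2 m hm
      rw [e] at this
      exact md_trans h.toHyp0 (e1.conj (y 0).2) (md_trans h.toHyp0 this (md_symm h.toHyp0 e1)))⟩

omit h E R in
theorem app {tt : TT} (ok : Good (MonoidHom.id _) (nat_lit 256) (nat_lit 8) (nat_lit 255) tt (P tt))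
    {W : List (List ℕ)} (hW : ∀ i < 3, ρ (y i) = wval (P tt) (W.getD i [])) {w : List ℕ} (hw : lt2 3 w = true)
    {p : ℕ} (hp : p < 256) : ρ (wval y w) p = ap1i (nat_lit 8) (nat_lit 255) tt (subst W w) p := by
  rw [map_wval, wval_congr hW (by simpa using hw), ← wval_subst, ap1i_eq ok _ hp, MonoidHom.id_apply]

theorem nat (k : OK s) (pol : Pol s) (hy : ∀ i, φ (y i) = xs i) {tt : TT}
    (ok : Good (MonoidHom.id _) (nat_lit 256) (nat_lit 8) (nat_lit 255) tt (P tt))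
    {W : List (List ℕ)} (hW : ∀ i < 3, ρ (y i) = wval (P tt) (W.getD i [])) (v : ℕ) (T K : List (List ℕ))
    (c1 : v < 256 ∧ s v = 256 ∧ ∀ i < 6, lt2 3 (WF.getD i []) = true ∧
      ap1i (nat_lit 8) (nat_lit 255) tt (subst W (WF.getD i [])) v = v)
    (c2 : ∀ j < 256, ¬ (s j = 0 ∧ j ≠ 0 ∧ bl s j v = 0) ∨ ∀ u < 256, ¬ (s u = 0 ∧ bl s u j = 0 ∧ bl s u v ≠ 0) ∨
      ∃ c ∈ K, lt2 3 (invW (T.getD j []) ++ c ++ T.getD j []) = true ∧
        ap1i (nat_lit 8) (nat_lit 255) tt (subst W (invW (T.getD j []) ++ c ++ T.getD j [])) j = j ∧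
        bl s u (ap1i (nat_lit 8) (nat_lit 255) tt (subst W (invW (T.getD j []) ++ c ++ T.getD j [])) u) ≠ 0) :
    Nt z Q (n v) := by
  have h0 := h.toHyp0
  have sq : n v * n v = z := by rw [E.sq v c1.1, c1.2.1, ch1]
  have s0 : ∀ {x a}, a < 256 → Md z x (n a) → x * x = 1 → s a = 0 := fun {x a} ha e e1 =>
    ch_inj h0 (k.val a ha) (.inl rfl) (by rw [← E.sq a ha, ← md_sq h0 e (zc h0 (E.mem a ha)), e1, ch0])
  refine ⟨E.mem v c1.1, sq, fun g hg => ?_, fun g hg => inn h0 E k pol hg, fun j hj u hu j2 j1 jz jq u2 uj uq => ?_⟩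
  · have : ⊤ ≤ ((MulAction.stabilizer (Equiv.Perm ℕ) v).comap ρ).map φ := Co3A.gp_top ▸ gp_le.2 fun w hw => by
      obtain ⟨i, hi, rfl⟩ := List.mem_map.1 hw
      have hi := List.mem_range.1 hi
      exact ⟨wval y (WF.getD i []), (app ok hW (c1.2.2 i hi).1 c1.1).trans (c1.2.2 i hi).2, by
        rw [map_wval, funext hy, x_gen i hi, wval_single]⟩
    obtain ⟨x, hx, e⟩ := this (mem_top (φ ⟨g, hg⟩))
    have e1 := k1 h E R (g := x⁻¹ * ⟨g, hg⟩) (by rw [map_mul, map_inv, e, inv_mul_cancel])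
    rw [map_mul, map_inv, inv_mul_eq_one] at e1
    have := (R ⟨g, hg⟩).2 v c1.1
    rw [← e1, show ρ x v = v from hx] at this
    exact this.imp_right fun e => e.trans (eq_inv_of_mul_eq_one_left (by rw [mul_assoc, sq, h.zz]))
  · obtain ⟨a, ha, ea⟩ := E.surj j hj
    obtain ⟨b, hb, eb⟩ := E.surj u hu
    obtain ⟨c, -, d1, d2, d3⟩ := ((c2 a ha).resolve_left (not_not.2 ⟨s0 ha ea j2, by
        rintro rfl
        rcases md_trans h0 ea E.zero with e | e
        exacts [j1 e, jz (by simpa using e)], (E.com_iff h0 k ha c1.1 ea (.inl rfl)).1 jq⟩) b hb).resolve_left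
      (not_not.2 ⟨s0 hb eb u2, (E.com_iff h0 k hb ha eb ea).1 uj, mt (E.com_iff h0 k hb c1.1 eb (.inl rfl)).2 uq⟩)
    rw [← app ok hW d1 ha] at d2
    rw [← app ok hW d1 hb] at d3
    generalize wval y _ = g at d2 d3
    have key : ∀ p ∈ Q, g * p * j = j * (g * p) → ∃ k ∈ centralizer ({z} : Set G), k * j = j * k ∧
        u * (k * u * k⁻¹) ≠ k * u * k⁻¹ * u := fun p hp e =>
      ⟨g * p, mul_mem g.2 (h.le hp), e, mt (E.com_iff h0 k hb (lt_of_fix (R g).1.1 hb) eb (by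
        refine md_trans h0 ?_ (md_trans h0 (eb.conj g.2) ((R g).2 b hb))
        have : Md z (p * u * p⁻¹) u :=
          (h.com p hp u hu).imp (fun e => by rw [e]; simp) fun e => by rw [e]; simp [mul_assoc]
        simpa [mul_assoc] using this.conj g.2)).1 d3⟩
    have := (R g).2 a ha
    rw [d2] at this
    rcases md_trans h0 (ea.conj g.2) (md_trans h0 this (md_symm h0 ea)) with e | e
    · exact key 1 (one_mem _) (by simpa [mul_inv_eq_iff_eq_mul] using e)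
    · obtain ⟨p, hp, e1⟩ : ∃ p ∈ Q, j * p ≠ p * j := by
        by_contra! c
        exact (h.cen j (h.le hj) c).elim j1 jz
      refine key p hp ?_
      rw [mul_inv_eq_iff_eq_mul] at e
      rw [mul_assoc, (h.com p hp j hj).resolve_left e1.symm, ← mul_assoc, mem_centralizer_singleton_iff.1 g.2,
        mul_assoc z, ← mul_assoc (g : G), e, ← mul_assoc, ← mul_assoc, ← mul_assoc, h.zz]
      group

end

theorem spin [Finite G] (h : Hyp z Q φ) (E : EW sp z Q n) (R : Rho sp n ρ) (hy : ∀ i, φ (y i) = xs i)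
    (hW : ∀ i < 3, ρ (y i) = wval (P ptt) ([[0], [2], [4]].getD i [])) : ∃ n f, Enc z Q n ∧ St φ n f := by
  have h0 := h.toHyp0
  obtain ⟨n2, E2, e⟩ := Co1Q.of_basis0 h0 (q := fun i => n (2 ^ i)) (fun i hi => E.mem _ (p8 i hi)) fun i hi =>
    ⟨by rw [E.sq _ (p8 i hi), (by decide +kernel : ∀ i < 8, sp (2 ^ i) = 0) i hi, ch0], fun j hj => by
      rw [E.com h0 ok_p (p8 i hi) (p8 j (by omega)), (by decide +kernel : ∀ i < 8, ∀ j < i,
        bl sp (2 ^ i) (2 ^ j) = if i = j + 1 ∧ j % 2 = 0 then 256 else 0) i hi j hj]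
      split_ifs
      exacts [by rw [ch1, pow_one], by rw [ch0, pow_zero]]⟩
  have m2 : ∀ m < 256, Md z (n2 m) (n m) := ind (E2.zero ▸ md_symm h0 E.zero) fun i hi m hm e1 ih => by
    have := p8 i hi
    refine md_trans h0 ?_ (E.mul _ this m hm)
    rw [← e1, ← E2.mul _ (by omega) _ (by omega), e i hi]
    exact md_mul h0 (.inl rfl) ih (zc h0 (E.mem _ this))
  have key : ∀ i < 6, ∃ g, ∃ hg : g ∈ centralizer ({z} : Set G), φ ⟨g, hg⟩ = Co3A.f i ∧ Act n2 g (LS.getD i []) ∧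
      g ^ 3 = 1 := fun i hi => by
    obtain ⟨a1, a2, a3, a4, a5⟩ := (by decide +kernel : ∀ i < 6, (LS.getD i []).length = 8 ∧
      (∀ a ∈ LS.getD i [], a < 512) ∧ lt2 3 (WF.getD i []) = true ∧
      (List.map (lin (LS.getD i [])))^[2 * 1] (LS.getD i []) = L0 ∧ ∀ k < 8,
        ap1i (nat_lit 8) (nat_lit 255) ptt (subst [[0], [2], [4]] (WF.getD i [])) (2 ^ k) =
          (LS.getD i []).getD k 0 % 256) i hi
    obtain ⟨q, hq, b⟩ := Co1Q.adjust h0 E2 (wval y (WF.getD i [])).2 a1 a2 fun k hk => by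
      rw [e k hk]
      refine md_trans h0 ((R _).2 _ (p8 k hk)) (md_symm h0 ?_)
      rw [app pok.good hW a3 (p8 k hk), a5 k hk]
      exact md_trans h0 (md_mod E2 (Co1Q.getD_lt a2 k)) (m2 _ (Nat.mod_lt _ (by decide)))
    have hg := mul_mem (wval y (WF.getD i [])).2 (h.le hq)
    have b1 : φ ⟨_, hg⟩ = Co3A.f i := by
      rw [show (⟨_ * q, hg⟩ : centralizer {z}) = wval y (WF.getD i []) * ⟨q, h.le hq⟩ from rfl, map_mul,
        (h.ker ⟨q, _⟩).2 hq, mul_one, map_wval, funext hy, x_gen i hi]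
    obtain ⟨g, g1, g2, g3, g4⟩ := Co1Q.odd_fix h0 E2 hg b 1 a4
    refine ⟨g, g1, ?_, g3, g4⟩
    rcases g2 with rfl | rfl
    · exact b1
    · rw [← b1, show (⟨_ * z, g1⟩ : centralizer {z}) = ⟨_, hg⟩ * ⟨z, h.le h.mem⟩ from rfl, map_mul,
        (h.ker ⟨z, _⟩).2 h.mem, mul_one]
  choose! f f1 f2 using key
  exact ⟨n2, f, E2, f1, fun i hi => (f2 i hi).1, fun i hi => (f2 i hi).2.1, fun i hi => (f2 i hi).2.2⟩

theorem pol_p : Pol sp := by unfold Pol; decide +kernel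

theorem pol_m : Pol sm := by unfold Pol; decide +kernel

/-- The classification. -/
theorem cl [Finite G] (h : Hyp z Q φ) : (∃ n f, Enc z Q n ∧ St φ n f) ∨ ∃ q, Nt z Q q := by
  choose y hy using fun i => h.sur (xs i)
  rcases exists_ew h.toHyp0 with ⟨n, E⟩ | ⟨n, E⟩
  · obtain ⟨ρ, R⟩ := exists_rho h.toHyp0 E ok_p
    obtain ⟨h1, h2⟩ := pre h E R ok_p pol_p hy
    obtain ⟨a, ha, e | e⟩ := plus (fun i => (R (y i)).1) h1 h2
    · exact .inl (spin h (E.rebase (inv_mem ha)) (R.rebase ha) hy e)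
    · exact .inr ⟨_, nat h (E.rebase (inv_mem ha)) (R.rebase ha) ok_p pol_p hy pok.good e 135 pT pK
        (by decide +kernel) (by decide +kernel)⟩
  · obtain ⟨ρ, R⟩ := exists_rho h.toHyp0 E ok_m
    obtain ⟨h1, h2⟩ := pre h E R ok_m pol_m hy
    obtain ⟨a, ha, e⟩ := minus (fun i => (R (y i)).1) h1 h2
    exact .inr ⟨_, nat h (E.rebase (inv_mem ha)) (R.rebase ha) ok_m pol_m hy mok.good e 192 mT mK
      (by decide +kernel) (by decide +kernel)⟩

end Cfsg.Agent.Lib.Co2Cl
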