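import Cfsg.Agent.Lib.Co1Q2

/-! Coordinates modulo the centre for an extraspecial group of order `2 ^ 9` of either type. -/

set_option autoImplicit false
set_option maxRecDepth 100000

namespace Cfsg.Agent.Lib.Co2Cl

open Subgroup Cfsg.Agent.Lib.Co1Defs Cfsg.Agent.S3085
open Cfsg.Agent.Lib.ThDefs (qm L0)
open Cfsg.Agent.Lib.ThQ (bits ins)
open Cfsg.Agent.Lib.ThO (lt_of_fix xl ind)
open Cfsg.Agent.Lib.ThCl (Md)
open Cfsg.Agent.Lib.Co1Q (md_trans md_symm md_mul)
open Cfsg.Agent.Lib.SuzG1 (Nd split pairD sq_mul)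

/-- The polar form. -/
def bl (s : ℕ → ℕ) (a b : ℕ) : ℕ := s a ^^^ s b ^^^ s (a ^^^ b)

/-- A non-degenerate quadratic form on the codes. -/
structure OK (s : ℕ → ℕ) : Prop where
  val : ∀ a < 256, s a = 0 ∨ s a = 256
  zero : s 0 = 0
  lin : ∀ i < 8, ∀ j < 8, ∀ m < 256, bl s (2 ^ i) (2 ^ j ^^^ m) = bl s (2 ^ i) (2 ^ j) ^^^ bl s (2 ^ i) m
  nd : ∀ c < 256, c = 0 ∨ ∃ i < 8, bl s (2 ^ i) c = 256

/-- The form of plus type. -/
noncomputable def sp (a : ℕ) : ℕ := qm a a

/-- The form of minus type. -/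
noncomputable def sm (a : ℕ) : ℕ := Nat.xor (qm a a) (Nat.shiftLeft (Nat.land (Nat.xor (Nat.shiftRight a (nat_lit 6))
  (Nat.shiftRight a (nat_lit 7))) (nat_lit 1)) (nat_lit 8))

theorem ok_p : OK sp := ⟨by decide +kernel, by decide +kernel, by decide +kernel, by decide +kernel⟩

theorem ok_m : OK sm := ⟨by decide +kernel, by decide +kernel, by decide +kernel, by decide +kernel⟩

theorem p8 : ∀ i < 8, 2 ^ i < 256 := by decide

theorem bl_comm (s : ℕ → ℕ) (a b : ℕ) : bl s a b = bl s b a := by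
  rw [bl, bl, Nat.xor_comm a, Nat.xor_comm (s a)]

theorem OK.bv {s : ℕ → ℕ} (k : OK s) {a b : ℕ} (ha : a < 256) (hb : b < 256) : bl s a b = 0 ∨ bl s a b = 256 := by
  rw [bl]
  rcases k.val a ha with e | e <;> rcases k.val b hb with e' | e' <;> rcases k.val _ (xl ha hb) with e'' | e'' <;>
    rw [e, e', e''] <;> decide

variable {G : Type*} [Group G] {z : G} {Q : Subgroup G} {q n : ℕ → G} {s : ℕ → ℕ}

/-- The central element with a given code. -/
def ch (z : G) (k : ℕ) : G := if k = 0 then 1 else z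

theorem ch0 : ch z 0 = 1 := if_pos rfl

theorem ch1 : ch z 256 = z := if_neg (by decide)

theorem ch_or (k : ℕ) : ch z k = 1 ∨ ch z k = z := by
  unfold ch; split_ifs
  exacts [.inl rfl, .inr rfl]

theorem ch_c {x : G} (hx : x * z = z * x) (k : ℕ) : x * ch z k = ch z k * x := by
  rcases ch_or (z := z) k with e | e <;> rw [e]
  exacts [by simp, hx]

theorem md_ch (k : ℕ) (x : G) : Md z (ch z k * x) x := (ch_or k).imp (fun e => by rw [e, one_mul]) fun e => by rw [e]

/-- Coordinates modulo `z`. -/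
structure EW (s : ℕ → ℕ) (z : G) (Q : Subgroup G) (n : ℕ → G) : Prop where
  mem : ∀ a < 256, n a ∈ Q
  mul : ∀ a < 256, ∀ b < 256, Md z (n a * n b) (n (a ^^^ b))
  surj : ∀ q ∈ Q, ∃ a < 256, Md z q (n a)
  inj : ∀ a < 256, ∀ b < 256, Md z (n a) (n b) → a = b
  sq : ∀ a < 256, n a * n a = ch z (s a)

section
variable (h : Hyp0 z Q)
include h

theorem zc {a : G} (ha : a ∈ Q) : a * z = z * a := mem_centralizer_singleton_iff.1 (h.le ha)

theorem ch_x {a b : ℕ} (ha : a = 0 ∨ a = 256) (hb : b = 0 ∨ b = 256) : ch z (a ^^^ b) = ch z a * ch z b := by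
  rcases ha with rfl | rfl <;> rcases hb with rfl | rfl <;> simp [ch, h.zz]

theorem ch_inj {a b : ℕ} (ha : a = 0 ∨ a = 256) (hb : b = 0 ∨ b = 256) (e : ch z a = ch z b) : a = b := by
  rcases ha with rfl | rfl <;> rcases hb with rfl | rfl <;> simp only [ch0, ch1] at e ⊢
  exacts [absurd e.symm h.ne, absurd e h.ne]

theorem ch_sq (k : ℕ) : ch z k * ch z k = 1 := by
  rcases ch_or (z := z) k with e | e <;> rw [e]
  exacts [by simp, h.zz]

theorem md_sq {x y : G} (e : Md z x y) (hy : y * z = z * y) : x * x = y * y := by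
  rcases e with rfl | rfl
  exacts [rfl, by rw [mul_assoc, ← mul_assoc y, hy, ← mul_assoc, ← mul_assoc, h.zz, one_mul]]

omit h in
theorem md_com {x y x' y' : G} {k : ℕ} (e : Md z x x') (e' : Md z y y') (hx : x' * z = z * x') (hy : y' * z = z * y')
    (c : x' * y' = ch z k * (y' * x')) : x * y = ch z k * (y * x) := by
  have c0 := ch_c (z := z) rfl k
  rcases e with rfl | rfl <;> rcases e' with rfl | rfl
  · exact c
  · rw [← mul_assoc, hx, mul_assoc, c, ← mul_assoc, c0]; group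
  · rw [mul_assoc, c, ← mul_assoc, c0, ← mul_assoc y, hy]; group
  · rw [mul_assoc, ← mul_assoc x', hx, mul_assoc, c, mul_assoc z y', ← mul_assoc y', hy, ← mul_assoc z (ch z k), c0,
      mul_assoc, ← mul_assoc z (ch z k), c0]
    group

theorem swap {x y : G} {k : ℕ} (c : x * y = ch z k * (y * x)) : y * x = ch z k * (x * y) := by
  rw [c, ← mul_assoc, ch_sq h, one_mul]

theorem sq_prod {x y : G} {k : ℕ} (hx : x * z = z * x) (c : x * y = ch z k * (y * x)) :
    x * y * (x * y) = ch z k * (x * x * (y * y)) := by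
  rw [mul_assoc, ← mul_assoc y, swap h c, ← mul_assoc, ← mul_assoc, ch_c hx]; group

theorem EW.com (E : EW s z Q n) (k : OK s) {a b : ℕ} (ha : a < 256) (hb : b < 256) :
    n a * n b = ch z (bl s a b) * (n b * n a) := by
  obtain ⟨c, hc, e⟩ : ∃ c, (c = 0 ∨ c = 256) ∧ n a * n b = ch z c * (n b * n a) := by
    rcases h.com _ (E.mem a ha) _ (E.mem b hb) with e | e
    exacts [⟨0, .inl rfl, by rw [ch0, one_mul, e]⟩, ⟨256, .inr rfl, by rw [ch1, e]⟩]
  have := sq_prod h (zc h (E.mem a ha)) e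
  rw [md_sq h (E.mul a ha b hb) (zc h (E.mem _ (xl ha hb))), E.sq _ (xl ha hb), E.sq a ha, E.sq b hb] at this
  rw [e, bl, ch_x h ?_ (k.val _ (xl ha hb)), this, ch_x h (k.val a ha) (k.val b hb), ← mul_assoc (_ * _) (ch z c),
    ← ch_x h (k.val a ha) (k.val b hb), ch_c (ch_c rfl _).symm, mul_assoc (ch z c), ch_sq h, mul_one]
  rcases k.val a ha with e | e <;> rcases k.val b hb with e' | e' <;> rw [e, e'] <;> decide

theorem EW.com_iff (E : EW s z Q n) (k : OK s) {a b : ℕ} (ha : a < 256) (hb : b < 256) {x y : G}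
    (hx : Md z x (n a)) (hy : Md z y (n b)) : x * y = y * x ↔ bl s a b = 0 := by
  rw [md_com hx hy (zc h (E.mem a ha)) (zc h (E.mem b hb)) (E.com h k ha hb), mul_eq_right]
  rcases k.bv ha hb with e | e <;> rw [e]
  exacts [by simp [ch0], by simp [ch1, h.ne]]

omit h in
theorem EW.zero (E : EW s z Q n) : Md z (n 0) 1 := by
  rcases E.mul 0 (by decide) 0 (by decide) with e | e
  exacts [.inl (mul_eq_right.1 e), .inr (by rw [mul_one]; exact mul_right_cancel e)]

theorem of_basis [Finite G] (k : OK s) (hq : ∀ i < 8, q i ∈ Q) (h2 : ∀ i < 8, q i * q i = ch z (s (2 ^ i)))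
    (hc : ∀ i < 8, ∀ j < i, q i * q j = ch z (bl s (2 ^ i) (2 ^ j)) * (q j * q i)) : ∃ n, EW s z Q n := by
  have hc' : ∀ i < 8, ∀ j < 8, q i * q j = ch z (bl s (2 ^ i) (2 ^ j)) * (q j * q i) := fun i hi j hj => by
    rcases lt_trichotomy i j with e | rfl | e
    exacts [bl_comm s _ _ ▸ swap h (hc j hj i e), by simp [bl, k.zero, ch0], hc i hi j e]
  have hp : ∀ l : List ℕ, (∀ j ∈ l, j < 8) → (l.map q).prod ∈ Q := fun l hl => Q.list_prod_mem fun x hx => by
    obtain ⟨i, hi, rfl⟩ := List.mem_map.1 hx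
    exact hq i (hl i hi)
  have m0 : ∀ i < 8, ∀ l : List ℕ, (∀ j ∈ l, j < 8) → Md z (q i * (l.map q).prod) ((ins i l).2.map q).prod := by
    intro i hi l hl
    induction l with
    | nil => exact .inl (by simp [ins])
    | cons j l ih =>
      rw [ins]
      split_ifs with h1 h3
      · rw [List.map_cons, List.prod_cons, ← mul_assoc, ← h1, h2 i hi]; exact md_ch _ _
      · exact .inl (by simp)
      all_goals
        rw [List.map_cons, List.prod_cons, ← mul_assoc, hc' i hi j (hl j (by simp)), mul_assoc, mul_assoc]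
        exact md_trans h (md_ch _ _) (md_mul h (.inl rfl) (ih fun x hx => hl x (by simp [hx]))
          (zc h (hq j (hl j (by simp)))))
  have hb : ∀ m, ∀ j ∈ bits m, j < 8 := fun m j hj => List.mem_range.1 (List.mem_filter.1 hj).1
  let n : ℕ → G := fun m => ((bits m).map q).prod
  have mem : ∀ a, n a ∈ Q := fun a => hp _ (hb a)
  have n0 : n 0 = 1 := by simp [n, show bits 0 = [] by decide]
  have m1 : ∀ i < 8, ∀ b < 256, Md z (n (2 ^ i ^^^ b)) (q i * n b) := fun i hi b hb' => md_symm h (by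
    have := m0 i hi _ (hb b)
    rwa [(by decide +kernel : ∀ i < 8, ∀ b < 256, (ins i (bits b)).2 = bits (2 ^ i ^^^ b)) i hi b hb'] at this)
  have cz : ∀ i < 8, ∀ b, q i * n b * z = z * (q i * n b) := fun i hi b => zc h (mul_mem (hq i hi) (mem b))
  have mul : ∀ a < 256, ∀ b < 256, Md z (n a * n b) (n (a ^^^ b)) :=
    ind (fun b _ => .inl (by rw [n0, one_mul, Nat.zero_xor])) fun i hi m hm _ ih b hb' => by
      refine md_trans h (md_mul h (m1 i hi m hm) (.inl rfl) (cz i hi m)) ?_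
      rw [mul_assoc, Nat.xor_assoc]
      exact md_trans h (md_mul h (.inl rfl) (ih b hb') (zc h (hq i hi))) (md_symm h (m1 i hi _ (xl hm hb')))
  have c1 : ∀ i < 8, ∀ m < 256, q i * n m = ch z (bl s (2 ^ i) m) * (n m * q i) := fun i hi =>
    ind (by simp [n0, bl, k.zero, ch0]) fun j hj m hm _ ih => by
      refine md_com (.inl rfl) (m1 j hj m hm) (zc h (hq i hi)) (cz j hj m) ?_
      rw [k.lin i hi j hj m hm, ch_x h (k.bv (p8 i hi) (p8 j hj)) (k.bv (p8 i hi) hm), ← mul_assoc, hc' i hi j hj,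
        mul_assoc, mul_assoc, ih, ← mul_assoc (q j), ch_c (zc h (hq j hj))]
      group
  have sq : ∀ a < 256, n a * n a = ch z (s a) := ind (by rw [n0, k.zero, ch0, one_mul]) fun i hi m hm _ ih => by
    rw [md_sq h (m1 i hi m hm) (cz i hi m), sq_prod h (zc h (hq i hi)) (c1 i hi m hm), h2 i hi, ih,
      ← ch_x h (k.val _ (p8 i hi)) (k.val m hm), ← ch_x h (k.bv (p8 i hi) hm) (by
        rcases k.val _ (p8 i hi) with e | e <;> rcases k.val m hm with e' | e' <;> rw [e, e'] <;> decide), bl,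
      Nat.xor_comm, Nat.xor_xor_cancel_left]
  have inj : ∀ a < 256, ∀ b < 256, Md z (n a) (n b) → a = b := fun a ha b hb' e => by
    rcases k.nd _ (xl ha hb') with e1 | ⟨i, hi, e1⟩
    · exact Nat.xor_eq_zero_iff.1 e1
    have a1 : Md z (n (a ^^^ b)) 1 := md_trans h (md_symm h (mul a ha b hb'))
      (md_trans h (md_mul h e (.inl rfl) (zc h (mem b))) (by rw [sq b hb']; simpa using md_ch (z := z) (s b) 1))
    have := c1 i hi _ (xl ha hb')
    rw [e1, ch1, md_com (k := 0) (.inl rfl) a1 (zc h (hq i hi)) (by simp) (by simp [ch0]), ch0, one_mul] at this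
    exact absurd (by simpa using this) h.ne
  refine ⟨n, fun a _ => mem a, mul, fun g hg => ?_, inj, sq⟩
  obtain ⟨a, e⟩ := (Function.Injective.bijective_of_nat_card_le
    (f := fun a : Fin 256 × Fin 2 => (⟨ch z a.2 * n a.1, mul_mem (by
      rcases ch_or (z := z) a.2 with e | e <;> rw [e]
      exacts [one_mem _, h.mem]) (mem _)⟩ : Q))
    (fun a b e => by
      have e' : ch z a.2 * n a.1 = ch z b.2 * n b.1 := congrArg Subtype.val e
      have e1 : a.1 = b.1 := Fin.ext (inj _ a.1.2 _ b.1.2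
        (md_trans h (md_symm h (md_ch a.2 _)) (by rw [e']; exact md_ch _ _)))
      rw [e1, mul_left_inj] at e'
      refine Prod.ext e1 ?_
      revert e'
      have := h.ne
      generalize a.2 = x; generalize b.2 = y
      fin_cases x <;> fin_cases y <;> simp [ch, this, this.symm]) (by simp [h.cQ])).2 ⟨g, hg⟩
  exact ⟨a.1, a.1.2, (show _ = g from congrArg Subtype.val e) ▸ md_ch _ _⟩

theorem exists_ew [Finite G] : (∃ n, EW sp z Q n) ∨ ∃ n, EW sm z Q n := by
  have x := Co1Q2.ex_of h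
  have n0 : Nd (⊤ : Subgroup Q) := fun c _ hc => mem_center_iff.2 fun g => hc g trivial
  obtain ⟨a, -, b, -, a2, b2, ab⟩ := pairD x n0 (by rw [card_top, h.cQ]; omega)
  obtain ⟨K1, k1, c1, d1, n1, -⟩ := split x n0 (mem_top a) (mem_top b) ab
  rw [card_top, h.cQ] at d1
  obtain ⟨c, hc, d, hd, c2, d2, cd⟩ := pairD x n1 (by omega)
  obtain ⟨K2, k2, e1, f1, n2, -⟩ := split x n1 hc hd cd
  obtain ⟨u, hu, v, hv, u2, v2, uv⟩ := pairD x n2 (by omega)
  obtain ⟨K3, k3, f1', f3, n3, -⟩ := split x n2 hu hv uv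
  have key : ∀ s, OK s → (∀ i < 8, ∀ j < i, bl s (2 ^ i) (2 ^ j) = if i = j + 1 ∧ j % 2 = 0 then 256 else 0) →
      (∀ i < 6, s (2 ^ i) = 0) → ∀ x ∈ K3, ∀ y ∈ K3, x * y ≠ y * x → (x * x : G) = ch z (s 64) →
      (y * y : G) = ch z (s 128) → ∃ n, EW s z Q n := fun s k h1 h2 w hx y hy xy x2 y2 => by
    refine of_basis h k (q := fun i => (([a, b, c, d, u, v, w, y] : List Q).getD i 1).1) (fun i _ => Subtype.prop _)
      (fun i hi => ?_) fun i hi j hj => ?_
    · have t : ∀ {x : Q} i, i < 6 → x * x = 1 → (x : G) * x = ch z (s (2 ^ i)) := fun i hi e => by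
        rw [h2 i hi, ch0]; exact congrArg Subtype.val e
      interval_cases i
      exacts [t 0 (by decide) a2, t 1 (by decide) b2, t 2 (by decide) c2, t 3 (by decide) d2,
        t 4 (by decide) u2, t 5 (by decide) v2, x2, y2]
    · rw [h1 i hi j hj]
      have t : ∀ {x y : Q}, x * y = y * x → (y : G) * x = ch z 0 * (x * y) := fun e => by
        rw [ch0, one_mul]; exact congrArg Subtype.val e.symm
      have t1 : ∀ {x y : Q}, x * y ≠ y * x → (y : G) * x = ch z 256 * (x * y) := fun e => by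
        rw [ch1]; exact congrArg Subtype.val (x.anti e.symm)
      have p := fun g hg => c1 g (k2 hg)
      have p2 := fun g hg => c1 g (k2 (k3 hg))
      have p3 := fun g hg => e1 g (k3 hg)
      interval_cases i <;> interval_cases j
      exacts [t1 ab, t (c1 c hc).1, t (c1 c hc).2, t (c1 d hd).1, t (c1 d hd).2, t1 cd,
        t (p u hu).1, t (p u hu).2, t (e1 u hu).1, t (e1 u hu).2,
        t (p v hv).1, t (p v hv).2, t (e1 v hv).1, t (e1 v hv).2, t1 uv,
        t (p2 w hx).1, t (p2 w hx).2, t (p3 w hx).1, t (p3 w hx).2, t (f1' w hx).1, t (f1' w hx).2,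
        t (p2 y hy).1, t (p2 y hy).2, t (p3 y hy).1, t (p3 y hy).2, t (f1' y hy).1, t (f1' y hy).2, t1 xy]
  obtain ⟨w, hx, y, hy, x2, e, -⟩ := x.step (by omega) n3
  by_cases y2 : y * y = 1
  · refine .inl (key _ ok_p (by decide +kernel) (by decide +kernel) _ (mul_mem hx hy) y hy (x.ac e.symm rfl).symm ?_ ?_)
    · rw [show sp 64 = 0 by decide +kernel, ch0]
      exact congrArg Subtype.val (show w * y * (w * y) = 1 by rw [sq_mul x e, x2, y2, mul_one, x.zz])
    · rw [show sp 128 = 0 by decide +kernel, ch0]; exact congrArg Subtype.val y2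
  · refine .inr (key _ ok_m (by decide +kernel) (by decide +kernel) w hx y hy e ?_ ?_)
    · rw [show sm 64 = 256 by decide +kernel, ch1]; exact congrArg Subtype.val x2
    · rw [show sm 128 = 256 by decide +kernel, ch1]; exact congrArg Subtype.val (x.sq y2)

end

/-- The isometries of the space of codes below `256`. -/
def OW (s : ℕ → ℕ) : Subgroup (Equiv.Perm ℕ) where
  carrier := {g | (∀ p, 256 ≤ p → g p = p) ∧ ∀ a < 256, s (g a) = s a ∧ ∀ b < 256, g (a ^^^ b) = g a ^^^ g b}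
  one_mem' := ⟨fun _ _ => rfl, fun _ _ => ⟨rfl, fun _ _ => rfl⟩⟩
  mul_mem' := fun {g k} hg hk => ⟨fun p hp => by rw [Equiv.Perm.mul_apply, hk.1 p hp, hg.1 p hp],
    fun a ha => ⟨((hg.2 _ (lt_of_fix hk.1 ha)).1).trans (hk.2 a ha).1, fun b hb => by
      simp only [Equiv.Perm.mul_apply]
      rw [(hk.2 a ha).2 b hb, (hg.2 _ (lt_of_fix hk.1 ha)).2 _ (lt_of_fix hk.1 hb)]⟩⟩
  inv_mem' := fun {g} hg => by
    have h : ∀ p, 256 ≤ p → g⁻¹ p = p := fun p hp => by rw [Equiv.Perm.inv_eq_iff_eq, hg.1 p hp]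
    refine ⟨h, fun a ha => ⟨by simpa using (hg.2 _ (lt_of_fix h ha)).1.symm, fun b hb => ?_⟩⟩
    rw [Equiv.Perm.inv_eq_iff_eq, (hg.2 _ (lt_of_fix h ha)).2 _ (lt_of_fix h hb)]
    simp

theorem EW.rebase (E : EW s z Q n) {a : Equiv.Perm ℕ} (ha : a ∈ OW s) : EW s z Q fun m => n (a m) where
  mem m hm := E.mem _ (lt_of_fix ha.1 hm)
  mul x hx y hy := (ha.2 x hx).2 y hy ▸ E.mul _ (lt_of_fix ha.1 hx) _ (lt_of_fix ha.1 hy)
  surj q hq := by
    obtain ⟨m, hm, e⟩ := E.surj q hq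
    exact ⟨a⁻¹ m, lt_of_fix (inv_mem ha).1 hm, by simpa using e⟩
  inj x hx y hy e := a.injective (E.inj _ (lt_of_fix ha.1 hx) _ (lt_of_fix ha.1 hy) e)
  sq x hx := (ha.2 x hx).1 ▸ E.sq _ (lt_of_fix ha.1 hx)

/-- The action of the centraliser on the codes. -/
def Rho (s : ℕ → ℕ) (n : ℕ → G) (ρ : centralizer ({z} : Set G) →* Equiv.Perm ℕ) : Prop :=
  ∀ g, ρ g ∈ OW s ∧ ∀ p < 256, Md z (g * n p * (g : G)⁻¹) (n (ρ g p))

theorem exists_rho (h : Hyp0 z Q) (E : EW s z Q n) (k : OK s) :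
    ∃ ρ : centralizer ({z} : Set G) →* Equiv.Perm ℕ, Rho s n ρ := by
  choose! A A1 A2 using fun (g : centralizer ({z} : Set G)) p (hp : p < 256) =>
    E.surj _ (h.nor g g.2 _ (E.mem p hp))
  let b : centralizer ({z} : Set G) → ℕ → ℕ := fun g p => if p < 256 then A g p else p
  have b1 : ∀ g, ∀ p < 256, b g p = A g p := fun g p hp => if_pos hp
  have b2 : ∀ g p, 256 ≤ p → b g p = p := fun g p hp => if_neg (by omega)
  have bm : ∀ g k p, b (g * k) p = b g (b k p) := fun g k p => by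
    by_cases hp : p < 256
    · rw [b1 _ p hp, b1 k p hp, b1 g _ (A1 k p hp)]
      refine E.inj _ (A1 _ p hp) _ (A1 g _ (A1 k p hp)) (md_trans h (md_symm h (A2 _ p hp))
        (md_trans h ?_ (A2 g _ (A1 k p hp))))
      simpa [mul_assoc] using (A2 k p hp).conj g.2
    · rw [b2 _ p (by omega), b2 k p (by omega), b2 g p (by omega)]
  have b0 : ∀ p, b 1 p = p := fun p => by
    by_cases hp : p < 256
    · rw [b1 _ p hp]
      exact E.inj _ (A1 1 p hp) p hp (md_symm h (by simpa using A2 1 p hp))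
    · exact b2 _ p (by omega)
  refine ⟨MonoidHom.mk' (fun g => ⟨b g, b g⁻¹, fun p => by rw [← bm, inv_mul_cancel, b0],
    fun p => by rw [← bm, mul_inv_cancel, b0]⟩) fun g k => Equiv.ext (bm g k),
    fun g => ⟨⟨b2 g, fun a ha => ⟨?_, fun c hc => ?_⟩⟩, fun p hp => ?_⟩⟩
  · change s (b g a) = _
    rw [b1 g a ha]
    refine ch_inj h (k.val _ (A1 g a ha)) (k.val a ha) ?_
    rw [← E.sq _ (A1 g a ha), ← md_sq h (A2 g a ha) (zc h (E.mem _ (A1 g a ha))), conj_mul, E.sq a ha,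
      ch_c (mem_centralizer_singleton_iff.1 g.2), mul_inv_cancel_right]
  · change b g _ = b g a ^^^ b g c
    rw [b1 g a ha, b1 g c hc, b1 g _ (xl ha hc)]
    refine E.inj _ (A1 g _ (xl ha hc)) _ (xl (A1 g a ha) (A1 g c hc)) (md_trans h (md_symm h (A2 g _ (xl ha hc)))
      (md_trans h (md_symm h ((E.mul a ha c hc).conj g.2)) (md_trans h ?_ (E.mul _ (A1 g a ha) _ (A1 g c hc)))))
    rw [← conj_mul]
    exact md_mul h (A2 g a ha) (A2 g c hc) (zc h (E.mem _ (A1 g a ha)))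
  · change Md z _ (n (b g p))
    rw [b1 g p hp]
    exact A2 g p hp

theorem Rho.rebase {ρ : centralizer ({z} : Set G) →* Equiv.Perm ℕ} (R : Rho s n ρ) {a : Equiv.Perm ℕ}
    (ha : a ∈ OW s) : Rho s (fun m => n (a⁻¹ m)) ((MulAut.conj a).toMonoidHom.comp ρ) := fun g =>
  ⟨mul_mem (mul_mem ha (R g).1) (inv_mem ha), fun p hp => by
    simpa using (R g).2 _ (lt_of_fix (inv_mem ha).1 hp)⟩

end Cfsg.Agent.Lib.Co2Cl
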