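import Cfsg.Agent.Lib.Co2Cl1
import Cfsg.Agent.Lib.Co2V

/-! The subgroups `Sp₆(2)` of the orthogonal groups in dimension eight over two elements. -/

set_option autoImplicit false
set_option maxRecDepth 100000

namespace Cfsg.Agent.Lib.Co2Cl

open Subgroup Cfsg.Agent.Lib.PermNet Cfsg.Agent.Lib.Words Cfsg.Agent.Lib.PermGroup Cfsg.Agent.Lib.DCE
  Cfsg.Agent.Lib.BT Cfsg.Agent.Lib.Co2V
open Cfsg.Agent.Lib.ThDefs (L0)
open Cfsg.Agent.Lib.ThO (lt_of_fix xl ind)

variable {s : ℕ → ℕ}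

theorem zero {g : Equiv.Perm ℕ} (h : g ∈ OW s) : g 0 = 0 := by
  simpa using (h.2 0 (by decide)).2 0 (by decide)

instance : Finite (OW s) := Finite.of_injective
  (fun g : OW s => fun p : Fin 256 => (⟨g.1 p, lt_of_fix g.2.1 p.2⟩ : Fin 256)) fun a b e =>
    Subtype.ext (Equiv.ext fun p => by
      by_cases hp : p < 256
      · exact congrArg Fin.val (congrFun e ⟨p, hp⟩)
      · rw [a.2.1 p (by omega), b.2.1 p (by omega)])

noncomputable def bd (s : ℕ → ℕ) : List ℕ → List ℕ → ℕ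
  | [], _ => 1
  | b :: r, bs => ((List.range 256).filter fun y => y != 0 && (s y == s b &&
      bs.all fun x => s (y ^^^ x) == s (b ^^^ x))).length * bd s r (b :: bs)

theorem le_bd (r bs : List ℕ) (h : ∀ b ∈ r ++ bs, b ≠ 0 ∧ b < 256) :
    Nat.card (fixer (OW s) bs) ≤ bd s r bs * Nat.card (fixer (OW s) (r.reverse ++ bs)) := by
  induction r generalizing bs with
  | nil => simp [bd]
  | cons b r ih =>
    rw [card_fixer bs b, bd, mul_assoc, List.reverse_cons, List.append_assoc]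
    refine Nat.mul_le_mul (le_trans ?_ (List.toFinset_card_le _)) (ih _ fun x hx => h x (by
      simp only [List.mem_append, List.mem_cons] at hx ⊢; tauto))
    rw [← Set.ncard_coe_finset]
    refine Set.ncard_le_ncard ?_
    rintro _ ⟨⟨g, hg, h1⟩, rfl⟩
    obtain ⟨b0, hb⟩ := h b (by simp)
    simp only [List.coe_toFinset, List.mem_filter, List.mem_range, Set.mem_ofPred_eq, Bool.and_eq_true,
      bne_iff_ne, beq_iff_eq, List.all_eq_true]
    refine ⟨lt_of_fix hg.1 hb, fun e => b0 (g.injective (e.trans (zero hg).symm)), (hg.2 b hb).1,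
      fun x hx => ?_⟩
    have hx' := (h x (by simp [hx])).2
    have := (hg.2 _ (xl hb hx')).1
    rwa [(hg.2 b hb).2 x hx', h1 x hx] at this

theorem card_le : Nat.card (OW s) ≤ bd s L0 [] := by
  have := le_bd (s := s) L0 [] (by decide)
  rw [fixer_nil, show fixer (OW s) (L0.reverse ++ []) = ⊥ from eq_bot_iff.2 fun g hg => Equiv.ext fun p => by
      by_cases hp : p < 256
      · refine ind (p := fun m => g m = m) (zero hg.1) (fun i hi m hm _ e => ?_) p hp
        have := (by decide : ∀ i < 8, 2 ^ i ∈ L0.reverse ++ [] ∧ 2 ^ i < 256) i hi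
        rw [(hg.1.2 _ this.2).2 m hm, e, hg.2 _ this.1]
      · exact hg.1.1 p (by omega)] at this
  simpa using this

/-- The permutations. -/
noncomputable abbrev P (tt : TT) : ℕ → Equiv.Perm ℕ := tp (nat_lit 256) (nat_lit 8) (nat_lit 255) tt

/-- The tables are isometries. -/
noncomputable def linB (s : ℕ → ℕ) (tt : TT) : Bool := allR (fun i => forceB (tt.get (2 * i + 1)) fun T =>
  allR (fun a => forceB (lk 8 255 T a) fun a' => band (Nat.beq (s a') (s a)) (allR (fun b =>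
    Nat.beq (lk 8 255 T (Nat.xor a b)) (Nat.xor a' (lk 8 255 T b))) 0 256)) 0 256) 0 5

theorem model {m idT T : ℕ} {th : TT} {defs : List (List ℕ)} {ch : List Lv}
    (D : TM 5 (nat_lit 256) (nat_lit 8) (nat_lit 255) m idT T th defs ch) (hb : bd s L0 [] = T)
    (hl : linB s (tabs m th idT) = true) : Nat.card (OW s) = T ∧
    ∃ M : Model (ext (P (tabs m th idT)) 5 defs) (OW s) ⊥ (nat_lit 256) (nat_lit 8) (nat_lit 255) (tabs m th idT)
      (ch.map Lv.b) T, M.Ch (OW s) ch := by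
  have mem : ∀ i < 5, P (tabs m th idT) i ∈ OW s := fun i hi => by
    refine ⟨fun p hp => by simpa [wval, lval] using tp_fix (tabs m th idT) [2 * i] hp, fun a ha => ?_⟩
    have := allR_all hl i i.zero_le hi
    rw [forceB_eq] at this
    obtain ⟨h1, h2⟩ := band_eq (allR_all this a a.zero_le ha)
    refine ⟨by rw [D.ok.apply i ha]; exact beq_eq h1, fun b hb => ?_⟩
    rw [D.ok.apply i ha, D.ok.apply i hb, D.ok.apply i (xl ha hb)]
    exact beq_eq (allR_all h2 b b.zero_le hb)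
  have h : gp (P (tabs m th idT)) (sing 5) ≤ OW s := gp_le.2 fun w hw => by
    obtain ⟨i, hi, rfl⟩ := List.mem_map.1 hw
    exact wval_single (P (tabs m th idT)) i ▸ mem i (List.mem_range.1 hi)
  have := Finite.of_injective _ (inclusion_injective h)
  have hc : Nat.card (OW s) = T := (hb ▸ card_le).antisymm
    ((D.le_card (f := P (tabs m th idT)) (MonoidHom.id _) fun _ _ => rfl).trans (card_le_of_le h))
  obtain ⟨M, -⟩ := D.mk_model (f := P (tabs m th idT)) (Z := ⊥) (OW s).subtype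
    (fun i => if h : i < 5 then ⟨P _ i, mem i h⟩ else 1) (fun i hi => by simp [hi])
    (fun i hi => by simp [hi]) (fun g p hp => lt_of_fix g.2.1 hp)
    (by rw [range_subtype, hc]; exact ⟨hc ▸ Nat.card_pos.ne', le_rfl⟩) fun _ g => mem_bot.symm
  have h0 := D.h0
  simp only [Bool.and_eq_true] at h0
  exact ⟨hc, M, M.ch_top ch (by rw [D.hc, h0.2])⟩

section
variable {X : Type*} [Group X] {F Y : ℕ → X} {H : Subgroup X} {tt : TT} {ch : List Lv} {T : ℕ}
  (M : Model F H ⊥ (nat_lit 256) (nat_lit 8) (nat_lit 255) tt (ch.map Lv.b) T)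
include M

theorem first [Finite H] (hc : ¬ 7 ^ 2 ∣ Nat.card H) {x : X} (hx : x ∈ H) (x7 : x ^ 7 = 1) (x1 : x ≠ 1)
    (h : (band (fixW (nat_lit 8) (nat_lit 255) tt (ch.map Lv.b) (rep 7 [0]))
      (band (bnot (fixW (nat_lit 8) (nat_lit 255) tt (ch.map Lv.b) [0])) (allR (fun i =>
        fixW (nat_lit 8) (nat_lit 255) tt (ch.map Lv.b)
          ((NW.getD i [] ++ rep i [0] ++ invW (NW.getD i [])) ++ invW [0])) 1 6))) = true) :
    ∃ a ∈ H, a * x * a⁻¹ = wval F [0] := by
  have p7 := M.pow [0] 7 (band_eq h).1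
  have p1 := M.ne_one _ (band_eq (band_eq h).2).1
  obtain ⟨a, ha, e⟩ := SuzG1.sylow_conj (H := H) (p := 7) (by norm_num) hc (M.mem [0]) hx p7 p1 x7 x1
  have o7 : orderOf (wval F [0]) = 7 :=
    have := Fact.mk (show Nat.Prime 7 by norm_num); orderOf_eq_prime p7 p1
  obtain ⟨i, hi, h1⟩ : ∃ i < 7, wval F [0] ^ i = a * x * a⁻¹ := by
    classical
    simpa [o7] using (orderOf_pos_iff.1 (o7 ▸ by decide)).mem_zpowers_iff_mem_range_orderOf.1
      (e.le (mem_zpowers _))
  have i0 : i ≠ 0 := by rintro rfl; exact x1 (by simpa using h1.symm)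
  refine ⟨wval F (NW.getD i []) * a, mul_mem (M.mem _) ha, ?_⟩
  rw [← M.cj (NW.getD i []) (rep i [0]) [0] (allR_all (band_eq (band_eq h).2).2 i (by omega) (by omega)),
    wval_rep, h1]
  group

theorem next (hch : M.Ch H ch) {x y : List ℕ} {eqs reps : List (List ℕ)} {KL : List ℕ} {ts : List Tst} {ct : CT}
    (h : srch tt ch [x] [y] eqs reps KL ts ct = true) (W R : List (List ℕ)) (p p' : List ℕ) (n : ℕ)
    (hd : W.length = n ∧ x = subst W p ∧ y = subst W p' ∧ eqs = R.map (subst (W ++ [[1000]])) ∧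
      lt2 n p = true ∧ lt2 n p' = true ∧ R.all (lt2 (n + 1)) = true ∧ ([x] ++ [y]).all (lt2 500) = true ∧
      W.all (lt2 500) = true)
    (hK : allL (fun w => allL (fun i => fixW (nat_lit 8) (nat_lit 255) tt (ch.map Lv.b)
      (([2 * i] ++ w) ++ invW (w ++ [2 * i]))) KL) W = true)
    (hY : Y n ∈ H) (hW : ∀ i < n, Y i = wval F (W.getD i []))
    (hP : Y n * wval Y p * (Y n)⁻¹ = wval Y p') (hR : ∀ r ∈ R, wval Y r = 1) :
    ∃ b ∈ H, ∃ j < reps.length, ∀ i < n + 1, b * Y i * b⁻¹ = wval F ((W ++ [reps.getD j []]).getD i []) := by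
  obtain ⟨rfl, rfl, rfl, rfl, d1, d2, d3, d4, d5⟩ := hd
  obtain ⟨u, hu, e⟩ := M.find1 hch h d4 hY (by simp)
    (.cons (by
      rw [mem_bot, wval_subst, wval_subst, ← wval_congr hW (by simpa [lt2] using d1),
        ← wval_congr hW (by simpa [lt2] using d2), hP, mul_inv_cancel]) .nil)
    (fun u hu => by
      obtain ⟨r, hr, rfl⟩ := List.mem_map.1 hu
      rw [mem_bot, wval_subst, ← hR r hr]
      refine wval_congr (n := W.length + 1) (fun i hi => ?_) (by simpa [lt2] using List.all_eq_true.1 d3 r hr)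
      rcases Nat.lt_succ_iff_lt_or_eq.1 hi with hi | rfl
      · rw [List.getD_append _ _ _ _ hi, hW i hi, wval_upd]
        rw [List.getD_eq_getElem _ _ hi]
        exact List.all_eq_true.1 d5 _ (List.getElem_mem _)
      · rw [List.getD_append_right _ _ _ _ le_rfl, Nat.sub_self]
        exact (wval_single _ 500).trans (Function.update_self ..)) (by simp)
  rw [wval_mkC] at e
  refine ⟨(wval F u.tail)⁻¹, inv_mem (M.mem _), _, blt_lt (band_eq hu).1, fun i hi => ?_⟩
  rcases Nat.lt_succ_iff_lt_or_eq.1 hi with hi | rfl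
  · rw [List.getD_append _ _ _ _ hi, hW i hi, inv_inv, mul_assoc, ← comm_word KL (fun k hk =>
      wval_single F k ▸ M.comm [2 * k] _ (allL_all (allL_all hK _ (by
        rw [List.getD_eq_getElem _ _ hi]; exact List.getElem_mem _)) k hk)) (band_eq hu).2]
    simp
  · rw [List.getD_append_right _ _ _ _ le_rfl, Nat.sub_self, e]
    simp [mul_assoc]

end

/-- The relations that are used. -/
def RR : List (List ℕ) := rep 7 [0] :: [2, 0, 0, 3, 1] :: [2, 2, 2] :: [4, 2, 5, 3] :: RX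

theorem cj_rel {X : Type*} [Group X] {Y : ℕ → X} (h : ∀ r ∈ RR, wval Y r = 1) (a : X) :
    ∀ r ∈ RR, wval (fun i => a * Y i * a⁻¹) r = 1 := fun r hr =>
  (map_wval (MulAut.conj a).toMonoidHom Y r).symm.trans (by rw [h r hr, map_one])

theorem r7 {X : Type*} [Group X] {Y : ℕ → X} (h : ∀ r ∈ RR, wval Y r = 1) : Y 0 ^ 7 = 1 ∧
    Y 1 * wval Y [0, 0] * (Y 1)⁻¹ = wval Y [0] ∧ Y 2 * wval Y [2] * (Y 2)⁻¹ = wval Y [2] := by
  refine ⟨wval_single Y 0 ▸ (wval_rep _ 7 _).symm.trans (h _ List.mem_cons_self), ?_, ?_⟩ <;> rw [← mul_inv_eq_one]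
  · simpa [wval, lval, mul_assoc] using h [2, 0, 0, 3, 1] (by decide)
  · simpa [wval, lval, mul_assoc] using h [4, 2, 5, 3] (by decide)

theorem cj2 {X : Type*} [Group X] (a b y : X) : a * (b * y * b⁻¹) * a⁻¹ = a * b * y * (a * b)⁻¹ := by group

theorem plus {Y : ℕ → Equiv.Perm ℕ} (hY : ∀ i, Y i ∈ OW sp) (h : ∀ r ∈ RR, wval Y r = 1) (h1 : Y 0 ≠ 1) :
    ∃ a ∈ OW sp, (∀ i < 3, a * Y i * a⁻¹ = wval (P ptt) ([[0], [2], [4]].getD i [])) ∨
      ∀ i < 3, a * Y i * a⁻¹ = wval (P ptt) ([[0], [2], [6]].getD i []) := by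
  obtain ⟨hc, M, hch⟩ := model (s := sp) pTM (by decide +kernel) (by decide +kernel)
  have cj : ∀ {a y : Equiv.Perm ℕ}, a ∈ OW sp → y ∈ OW sp → a * y * a⁻¹ ∈ OW sp := fun ha hy =>
    mul_mem (mul_mem ha hy) (inv_mem ha)
  obtain ⟨a, ha, e⟩ := first M (by rw [hc]; decide) (hY 0) (r7 h).1 h1 (by decide +kernel)
  have ra := cj_rel h a
  obtain ⟨b, hb, j, hj, e⟩ := next M hch s_pt [[0]] [[2, 2, 2]] [0, 0] [0] 1 (by decide) (by decide +kernel)
    (cj ha (hY 1)) (fun i hi => by interval_cases i; exact e) (r7 ra).2.1 fun r hr => ra r (by revert r; decide)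
  obtain rfl : j = 0 := by simpa using hj
  have rb := cj_rel ra b
  obtain ⟨c, hc, j, hj, e⟩ := next M hch s_px [[0], [2]] RX [2] [2] 2 (by decide) (by decide +kernel)
    (cj hb (cj ha (hY 2))) e (r7 rb).2.2 fun r hr => rb r (by revert r; decide)
  refine ⟨c * (b * a), mul_mem hc (mul_mem hb ha), ?_⟩
  simp only [cj2] at e
  change j < 2 at hj
  interval_cases j
  · exact .inl fun i hi => (e i hi).trans (wval_ext _ 5 _ _ (by revert i; decide))
  · exact .inr fun i hi => (e i hi).trans (wval_ext _ 5 _ _ (by revert i; decide))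

theorem minus {Y : ℕ → Equiv.Perm ℕ} (hY : ∀ i, Y i ∈ OW sm) (h : ∀ r ∈ RR, wval Y r = 1) (h1 : Y 0 ≠ 1) :
    ∃ a ∈ OW sm, ∀ i < 3, a * Y i * a⁻¹ = wval (P mtt) ([[0], [2], [4]].getD i []) := by
  obtain ⟨hc, M, hch⟩ := model (s := sm) mTM (by decide +kernel) (by decide +kernel)
  have cj : ∀ {a y : Equiv.Perm ℕ}, a ∈ OW sm → y ∈ OW sm → a * y * a⁻¹ ∈ OW sm := fun ha hy =>
    mul_mem (mul_mem ha hy) (inv_mem ha)
  obtain ⟨a, ha, e⟩ := first M (by rw [hc]; decide) (hY 0) (r7 h).1 h1 (by decide +kernel)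
  have ra := cj_rel h a
  obtain ⟨b, hb, j, hj, e⟩ := next M hch s_mt [[0]] [[2, 2, 2]] [0, 0] [0] 1 (by decide) (by decide +kernel)
    (cj ha (hY 1)) (fun i hi => by interval_cases i; exact e) (r7 ra).2.1 fun r hr => ra r (by revert r; decide)
  have rb := cj_rel ra b
  change j < 2 at hj
  interval_cases j
  · obtain ⟨c, hc, j, hj, e⟩ := next M hch s_mx [[0], [2]] RX [2] [2] 2 (by decide) (by decide +kernel)
      (cj hb (cj ha (hY 2))) e (r7 rb).2.2 fun r hr => rb r (by revert r; decide)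
    obtain rfl : j = 0 := by simpa using hj
    simp only [cj2] at e
    exact ⟨c * (b * a), mul_mem hc (mul_mem hb ha), fun i hi =>
      (e i hi).trans (wval_ext _ 5 _ _ (by revert i; decide))⟩
  · obtain ⟨c, hc, j, hj, e⟩ := next M hch s_my [[0], [2, 6]] RX [2] [2] 2 (by decide) (by decide +kernel)
      (cj hb (cj ha (hY 2))) e (r7 rb).2.2 fun r hr => rb r (by revert r; decide)
    simp at hj

end Cfsg.Agent.Lib.Co2Cl
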