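import Cfsg.Agent.Lib.Co2Tw

/-! The classes of involutions in the involution centraliser of the second Conway group. -/

set_option autoImplicit false
set_option maxRecDepth 100000

namespace Cfsg.Agent.Lib.Co2Cls

open Subgroup Cfsg.Agent.Lib.PermNet Cfsg.Agent.Lib.Words Cfsg.Agent.Lib.PermGroup Cfsg.Agent.Lib.DCE
  Cfsg.Agent.Lib.BT Cfsg.Agent.Lib.ThDefs Cfsg.Agent.Lib.Co2W Cfsg.Agent.Lib.Co2Tw

variable {G : Type*} [Group G] {z : G} {Q : Subgroup G}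
  {φ : centralizer ({z} : Set G) →* Co3A.X} {n f F : ℕ → G}

/-- A word for a code. -/
def qw (p : ℕ) : List ℕ := (if p / 256 % 2 = 1 then [12, 14, 12, 14] else []) ++
  ((List.range 8).filter fun i => p / 2 ^ i % 2 = 1).map fun i => 12 + 2 * i

/-- The word is trivial in the split extension. -/
noncomputable def oneB (w : List ℕ) : Bool := band (lt2 14 w && lt2 6 (nq w)) (band (Nat.beq (col w) 0)
  (fixW (nat_lit 8) (nat_lit 255) Co2WM.wtt Co2WM.B2 (nq w)))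

/-- Codes, conjugating words and classes. -/
def ce : List (List (ℕ × List ℕ × ℕ)) := [[(0, [2, 10, 9, 6, 4, 0, 6, 3, 9], 3), (5, [2, 10, 9, 6, 4, 0, 6, 3, 9, 12], 3), (26, [2, 10, 9, 6, 4, 0, 6, 3, 9, 14], 3), (31, [2, 10, 9, 6, 4, 0, 6, 3, 9, 12, 14], 4), (33, [2, 10, 9, 6, 4, 0, 6, 3, 9, 12, 26], 4), (36, [2, 10, 9, 6, 4, 0, 6, 3, 9, 26], 4), (59, [2, 10, 9, 6, 4, 0, 6, 3, 9, 14, 2], 4), (62, [2, 10, 9, 6, 4, 0, 6, 3, 9, 14, 26], 3), (64, [2, 10, 9, 6, 4, 0, 6, 3, 9, 20], 4), (69, [2, 10, 9, 6, 4, 0, 6, 3, 9, 12, 20], 4), (90, [2, 10, 9, 6, 4, 0, 6, 3, 9, 18], 4), (95, [2, 10, 9, 6, 4, 0, 6, 3, 9, 12, 18], 3), (97, [2, 10, 9, 6, 4, 0, 6, 3, 9, 12, 3], 4), (100, [2, 10, 9, 6, 4, 0, 6, 3, 9, 12, 8, 2, 7, 1, 5, 7, 8, 11, 2, 10, 7, 9, 1, 4, 7, 3, 9], 4), (123, [2, 10, 9, 6, 4, 0, 6, 3, 9, 18, 10], 4), (126, [2, 10, 9, 6, 4, 0, 6,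 3, 9, 18, 26], 3), (256, [2, 10, 9, 6, 4, 0, 6, 3, 9], 4), (261, [2, 10, 9, 6, 4, 0, 6, 3, 9, 12], 4), (282, [2, 10, 9, 6, 4, 0, 6, 3, 9, 14], 4), (287, [2, 10, 9, 6, 4, 0, 6, 3, 9, 12, 14], 3), (289, [2, 10, 9, 6, 4, 0, 6, 3, 9, 12, 26], 3), (292, [2, 10, 9, 6, 4, 0, 6, 3, 9, 26], 3), (315, [2, 10, 9, 6, 4, 0, 6, 3, 9, 14, 2], 3), (318, [2, 10, 9, 6, 4, 0, 6, 3, 9, 14, 26], 4), (320, [2, 10, 9, 6, 4, 0, 6, 3, 9, 20], 3), (325, [2, 10, 9, 6, 4, 0, 6, 3, 9, 12, 20], 3), (346, [2, 10, 9, 6, 4, 0, 6, 3, 9, 18], 3), (351, [2, 10, 9, 6, 4, 0, 6, 3, 9, 12, 18], 4), (353, [2, 10, 9, 6, 4, 0, 6, 3, 9, 12, 3], 3), (356, [2, 10, 9, 6, 4, 0, 6, 3, 9, 12, 8, 2, 7, 1, 5, 7, 8, 11, 2, 10, 7, 9, 1, 4, 7, 3, 9], 3), (379, [2, 10, 9, 6, 4, 0, 6, 3, 9, 18, 10], 3), (382, [2, 10, 9, 6, 4, 0, 6, 3, 9, 18, 26], 4)],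
  [(0, [3, 10, 8, 4, 18], 6), (5, [3, 10, 4, 4, 10, 5, 7, 0, 4, 8, 7, 3, 9], 7), (17, [3, 10, 4, 4, 10], 7), (20, [3, 10, 4, 16, 5, 7, 0, 4, 6], 7), (26, [3, 10, 4, 1, 5, 7, 0, 4, 8, 7, 3, 9], 7), (31, [3, 10, 4, 14, 5, 7, 0, 4, 8, 7, 3, 9], 7), (33, [3, 10, 4, 24, 5, 7, 0, 4, 8, 7, 3, 9], 7), (36, [3, 10, 4, 18, 1, 5, 7, 0, 4, 8, 7, 3, 9], 7), (42, [3, 10, 7, 0, 4, 6], 7), (47, [3, 10, 4, 14, 4, 10], 7), (59, [3, 10, 4, 14, 4, 10, 5, 7, 0, 4, 8, 7, 3, 9], 7), (62, [3, 10, 8, 4, 12], 5), (64, [3, 10, 4, 14, 5, 7, 0, 4, 8, 7, 3, 9, 3], 7), (69, [3, 10, 8, 4, 14], 6), (81, [3, 10, 7, 0, 4, 4, 10], 7), (84, [3, 10, 4, 14, 0], 7), (90, [3, 10, 4, 18, 5, 7, 0, 4, 8, 7, 3, 9], 7), (95, [3, 10, 4, 12, 2, 5, 7, 0, 4, 8, 7, 3, 9], 7), (97, [3, 10, 4, 14, 2, 5, 7, 0, 4, 8, 7, 3, 9], 7), (100, [3, 10, 4, 16, 5, 7, 0, 4, 8, 7, 3, 9], 7), (106,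 [3, 10, 4, 12, 4, 10], 7), (111, [3, 10, 4, 14, 5, 7, 0, 4, 4, 10], 7), (123, [3, 10, 8, 4], 6), (126, [3, 10, 4, 12, 4, 10, 5, 7, 0, 4, 8, 7, 3, 9], 7), (130, [3, 10, 4, 14, 1, 5, 7, 0, 4], 7), (137, [3, 10, 4], 7), (150, [3, 10, 4, 18, 5, 7, 0, 4], 7), (152, [3, 10, 4, 2], 7), (166, [3, 10, 4, 18, 2], 7), (168, [3, 10, 4, 12, 5, 7, 0, 4], 7), (183, [3, 10, 4, 26], 7), (188, [3, 10, 4, 14, 2, 5, 7, 0, 4], 7), (199, [3, 10, 4, 18, 2, 5, 7, 0, 4], 7), (204, [3, 10, 4, 12], 7), (211, [3, 10, 4, 14, 5, 7, 0, 4], 7), (221, [3, 10, 4, 12, 1], 7), (227, [3, 10, 4, 14, 1], 7), (237, [3, 10, 7, 0, 4], 7), (242, [3, 10, 4, 12, 14], 7), (249, [3, 10, 4, 18, 1, 5, 7, 0, 4], 7), (256, [3, 10, 8, 4, 18], 5), (261, [3, 10, 4, 14, 5, 7, 0, 4, 8, 7, 3, 9, 4, 10], 7), (273, [3, 10, 4, 16, 0], 7), (276, [3, 10, 4, 4, 10, 5, 7, 0, 4], 7), (282, [3,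 10, 4, 18, 2, 5, 7, 0, 4, 8, 7, 3, 9], 7), (287, [3, 10, 4, 26, 5, 7, 0, 4, 8, 7, 3, 9], 7), (289, [3, 10, 7, 0, 4, 8, 7, 3, 9], 7), (292, [3, 10, 4, 2, 5, 7, 0, 4, 8, 7, 3, 9], 7), (298, [3, 10, 4, 14, 4, 10, 5, 7, 0, 4], 7), (303, [3, 10, 4, 0], 7), (315, [3, 10, 7, 0, 4, 8, 7, 3, 9, 4, 10], 7), (318, [3, 10, 8, 4, 12], 6), (320, [3, 10, 7, 0, 4, 4, 10, 8, 7, 3, 9], 7), (325, [3, 10, 8, 4, 14], 5), (337, [3, 10, 4, 14, 5, 7, 0, 4, 6], 7), (340, [3, 10, 4, 26, 0], 7), (346, [3, 10, 7, 0, 4, 18, 8, 7, 3, 9], 7), (351, [3, 10, 4, 14, 1, 5, 7, 0, 4, 8, 7, 3, 9], 7), (353, [3, 10, 4, 12, 1, 5, 7, 0, 4, 8, 7, 3, 9], 7), (356, [3, 10, 4, 12, 5, 7, 0, 4, 8, 7, 3, 9], 7), (362, [3, 10, 4, 14, 3], 7), (367, [3, 10, 4, 12, 4, 10, 5, 7, 0, 4], 7), (379, [3, 10, 8, 4], 5), (382, [3, 10, 4, 14, 5, 7, 0, 4, 4, 10, 8, 7, 3, 9], 7), (386, [3, 10,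 4, 12, 2, 5, 7, 0, 4], 7), (393, [3, 10, 4, 24], 7), (406, [3, 10, 7, 0, 4, 18], 7), (408, [3, 10, 4, 18, 1], 7), (422, [3, 10, 4, 1], 7), (424, [3, 10, 4, 16, 5, 7, 0, 4], 7), (439, [3, 10, 4, 14], 7), (444, [3, 10, 4, 12, 1, 5, 7, 0, 4], 7), (455, [3, 10, 4, 1, 5, 7, 0, 4], 7), (460, [3, 10, 4, 16], 7), (467, [3, 10, 4, 26, 5, 7, 0, 4], 7), (477, [3, 10, 4, 14, 2], 7), (483, [3, 10, 4, 12, 2], 7), (493, [3, 10, 4, 24, 5, 7, 0, 4], 7), (498, [3, 10, 4, 18], 7), (505, [3, 10, 4, 2, 5, 7, 0, 4], 7)],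
  [(0, [2, 10, 6, 0, 4], 8), (20, [2, 10, 6, 0, 4, 12, 5, 1, 6, 10, 5, 10, 7, 0, 4], 8), (42, [2, 10, 6, 0, 4, 18], 9), (62, [2, 10, 6, 0, 4, 16, 22], 8), (69, [2, 10, 6, 0, 4, 12, 22], 8), (81, [2, 10, 6, 0, 4, 12, 4, 10], 9), (111, [2, 10, 6, 0, 4, 12, 14], 8), (123, [2, 10, 6, 0, 4, 24], 8), (130, [2, 10, 6, 0, 4, 14], 8), (150, [2, 10, 6, 0, 4, 16], 8), (168, [2, 10, 6, 0, 4, 22], 9), (188, [2, 10, 6, 0, 4, 14, 0, 7], 8), (199, [2, 10, 6, 0, 4, 12, 18], 9), (211, [2, 10, 6, 0, 4, 16, 0, 7], 8), (237, [2, 10, 6, 0, 4, 12], 9), (249, [2, 10, 6, 0, 4, 14, 24], 9), (256, [2, 10, 6, 0, 4], 9), (276, [2, 10, 6, 0, 4, 12, 5, 1, 6, 10, 5, 10, 7, 0, 4], 9), (298, [2, 10, 6, 0, 4, 18], 8), (318, [2, 10, 6, 0, 4, 16, 22], 9), (325, [2, 10, 6, 0, 4, 12, 22], 9), (337, [2, 10, 6, 0, 4, 12, 4, 10], 8), (367, [2, 10, 6, 0, 4, 12, 14], 9), (379,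 [2, 10, 6, 0, 4, 24], 9), (386, [2, 10, 6, 0, 4, 14], 9), (406, [2, 10, 6, 0, 4, 16], 9), (424, [2, 10, 6, 0, 4, 22], 8), (444, [2, 10, 6, 0, 4, 14, 0, 7], 9), (455, [2, 10, 6, 0, 4, 12, 18], 8), (467, [2, 10, 6, 0, 4, 16, 0, 7], 9), (493, [2, 10, 6, 0, 4, 12], 8), (505, [2, 10, 6, 0, 4, 14, 24], 8)],
  [(0, [10, 1], 10), (7, [10, 1, 12, 26], 10), (26, [10, 1, 14], 10), (29, [10, 1, 16, 26], 10), (35, [10, 1, 14, 16], 10), (36, [10, 1, 24], 10), (57, [10, 1, 16], 10), (62, [10, 1, 14, 26], 10), (192, [10, 1, 16, 0, 2], 10), (199, [10, 1, 16, 20], 10), (218, [10, 1, 20, 26], 10), (221, [10, 1, 12, 20], 10), (227, [10, 1, 12, 18, 24], 10), (228, [10, 1, 18], 10), (249, [10, 1, 24, 8, 7, 3, 9], 10), (254, [10, 1, 12, 16, 18], 10), (256, [10, 1, 24, 26], 10), (263, [10, 1, 12, 24], 10), (282, [10, 1, 12, 16], 10), (285, [10, 1, 12, 5,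 11], 10), (291, [10, 1, 12], 10), (292, [10, 1, 26], 10), (313, [10, 1, 12, 14], 10), (318, [10, 1, 14, 24], 10), (448, [10, 1, 18, 24], 10), (455, [10, 1, 12, 18], 10), (474, [10, 1, 16, 8, 7, 3, 9], 10), (477, [10, 1, 16, 18], 10), (483, [10, 1, 12, 18, 26], 10), (484, [10, 1, 12, 0, 2], 10), (505, [10, 1, 26, 8, 7, 3, 9], 10), (510, [10, 1, 20], 10)]]

theorem ce_ok : ∀ i < 4, (lt2 6 (Co2WM.reps.getD i []) = true ∧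
    oneB (Co2WM.reps.getD i [] ++ Co2WM.reps.getD i []) = true ∧
    ∀ p < 512, qm p (pw (Co2WM.reps.getD i []) p) = 0 → ∃ c ∈ ce.getD i [], c.1 = p) ∧
    ∀ c ∈ ce.getD i [], c.2.2 < 11 ∧ lt2 14 c.2.1 = true ∧ oneB (c.2.1 ++ (qw c.1 ++
      Co2WM.reps.getD i []) ++ invW c.2.1 ++ invW (Co2SB.reps.getD c.2.2 [])) = true := by
  decide +kernel

variable [Finite G] (E : Enc z Q n) (S : Co2Defs.St φ n f) (h : Co2Defs.Hyp z Q φ)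
include E S

omit [Finite G] in
theorem qwE {p : ℕ} (hp : p < 512) : wval (FF n f) (qw p) = n p := by
  obtain ⟨a, b, c⟩ := (by decide +kernel : ∀ p < 512, lt2 14 (qw p) = true ∧ col (qw p) = p ∧
    nq (qw p) = []) p hp
  rw [(colE E S a).2, b, c, wval_nil, mul_one]

include h

theorem one (ω : wval f [2, 0, 2, 0] = 1) (w : List ℕ) (hw : oneB w = true) :
    wval (FF n f) w = 1 := by
  obtain ⟨a, b⟩ := band_eq hw
  rw [Bool.and_eq_true] at a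
  obtain ⟨M, -⟩ := exists_cx h E S
  have hQ := M.rel _ (band_eq b).2
  rw [wval_ext f 6 _ _ a.2] at hQ
  rw [(colE E S a.1).2, beq_eq (band_eq b).1, E.zero, one_mul]
  let ψ := φ.comp (inclusion (gp_le.2 fun w hw => memH S (by revert w; decide) :
    gp f (sing 6) ≤ centralizer {z}))
  have r : ψ.range = ⊤ := eq_top_iff.2 (Co3A.gp_top ▸ gp_le.2 fun w hw => by
    obtain ⟨i, hi, rfl⟩ := List.mem_map.1 hw
    have hi := List.mem_range.1 hi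
    exact ⟨⟨f i, mem_sing f hi⟩, (S.ph i hi).trans (wval_single _ i).symm⟩)
  have c := (Co3A.card_le' f (List.forall_mem_cons.2 ⟨ω, relK E S h⟩)).2
  rw [← ψ.ker.index_mul_card, index_ker, r, card_top, Co3A.card_X] at c
  have m : wval f (nq w) ∈ gp f (sing 6) := wval_mem fun l hl => mem_sing f (by
    have := List.all_eq_true.1 a.2 l hl
    simp only [decide_eq_true_eq] at this
    omega)
  exact congrArg Subtype.val (mem_bot.1 ((eq_bot_of_card_le ψ.ker (by omega)).le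
    (show ⟨_, m⟩ ∈ ψ.ker from (h.ker _).2 hQ)))

theorem nb (hF : ∀ i < 14, F i = FF n f i) : ¬ IsConj z (F 6) := fun k => by
  rw [hF 6 (by decide)] at k
  exact absurd (E.inj 1 (by decide) 256 (by decide)
    ((wcQ E S h k (E.mem 1 (by decide))).trans E.z256.symm)) (by decide)

/-- The eleven classes. -/
theorem cls11 (hF : ∀ i < 14, F i = FF n f i) (B : Co2SB.SB z F) :
    ∀ v ∈ centralizer ({z} : Set G), v * v = 1 → ∃ k ∈ centralizer ({z} : Set G), ∃ i < 11,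
      k * v * k⁻¹ = wval F (Co2SB.reps.getD i []) := fun v hv vv => by
  have wF : ∀ {w}, lt2 14 w = true → wval F w = wval (FF n f) w := fun hw =>
    wval_congr hF (by simpa using hw)
  have lo : ∀ {w}, lt2 6 w = true → wval (FF n f) w = wval f w := fun hw =>
    wval_congr (n := 6) (fun _ hi => if_pos hi) (by simpa using hw)
  have ω : wval f [2, 0, 2, 0] = 1 := by
    rw [← lo (by decide), ← wF (by decide)]
    exact B.rel _ (List.mem_append_left _ List.mem_cons_self)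
  rcases cls h E S hv vv with hQ | ⟨k, hk, i, hi, p, hp, e⟩
  · by_cases v1 : v = 1
    · exact ⟨1, one_mem _, 0, by decide, by simp [v1, Co2SB.reps]⟩
    by_cases vz : v = z
    · exact ⟨1, one_mem _, 1, by decide, by rw [vz, one_mul, inv_one, mul_one]; exact B.zw.symm⟩
    obtain ⟨M, C⟩ := exists_cx h E S
    obtain ⟨k, hk, e⟩ := C.trans hQ vv v1 vz
    refine ⟨k⁻¹, inv_mem hk, 2, by decide, ?_⟩
    rw [← e, show Co2SB.reps.getD 2 [] = [2 * 6] from rfl, wval_single, hF 6 (by decide)]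
    simp [mul_assoc, FF]
  · obtain ⟨⟨a1, a2, a3⟩, a4⟩ := ce_ok i hi
    have r2 := one E S h ω _ a2
    obtain ⟨b1, b2⟩ := pwE E S a1 hp
    rw [wval_append, lo a1] at r2
    obtain ⟨c, hc, rfl⟩ := a3 p hp (E.inj _ (qm_lt hp b1) _ (by decide) (by
      rw [← E.mul _ hp _ b1, E.zero, ← mul_one (n _ * _), ← r2, mul_assoc,
        ← mul_assoc (n (pw _ p)), ← b2, mul_assoc, ← mul_assoc, ← e, conj_mul, vv, r2]; simp))
    obtain ⟨c1, c2, c3⟩ := a4 c hc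
    have := one E S h ω _ c3
    rw [wval_append, wval_append, wval_append, wval_append, wval_invW, wval_invW, mul_inv_eq_one,
      qwE E S hp, lo a1, ← e, ← wF c2, ← wF ((by decide : ∀ i < 11,
        lt2 14 (Co2SB.reps.getD i []) = true) _ c1)] at this
    refine ⟨wval F c.2.1 * k, mul_mem (B.top ▸ wval_mem fun l hl => mem_sing F (by
      have := List.all_eq_true.1 c2 l hl
      simp only [decide_eq_true_eq] at this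
      omega)) hk, _, c1, by rw [← this]; group⟩

end Cfsg.Agent.Lib.Co2Cls
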