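import Cfsg.Agent.Lib.InvEmb
import Cfsg.Agent.Lib.CoprimeSylow

/-! A subgroup that controls the three classes of involutions of a group of type `Co₂` is the whole group. -/

set_option autoImplicit false

namespace Cfsg.Agent.Lib.Co2E

open Subgroup

variable {G : Type*} [Group G] {M : Subgroup G} {z y b : G} {T : Finset G}

theorem cj {s : G} (k : G) (h : IsConj z s) : IsConj z (k * s * k⁻¹) := h.trans (isConj_iff.2 ⟨k, rfl⟩)

theorem uniq (hC : ∀ g, g * z = z * g → g ∈ M) (h1 : ∀ v ∈ M, IsConj z v → ∃ m ∈ M, m * z * m⁻¹ = v) {v g : G}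
    (h : IsConj z v) (hv : v ∈ M) (hg : g * v * g⁻¹ ∈ M) : g ∈ M := by
  obtain ⟨m, hm, rfl⟩ := h1 v hv h
  obtain ⟨n, hn, e⟩ := h1 _ hg (cj g h)
  have := hC (n⁻¹ * g * m) (by
    calc _ = n⁻¹ * (g * (m * z * m⁻¹) * g⁻¹) * (g * m) := by group
      _ = _ := by rw [← e]; group)
  simpa [mul_assoc] using mul_mem (mul_mem hn this) (inv_mem hm)

theorem czp {a x k : G} (h : Commute a x) (hk : k ∈ zpowers x) : Commute a k := by
  obtain ⟨n, rfl⟩ := hk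
  exact h.zpow_right n

theorem eq_one_of_odd {x : G} (h : Odd (orderOf x)) {k : ℕ} (e : x ^ 2 ^ k = 1) : x = 1 :=
  orderOf_eq_one_iff.1 (Nat.eq_one_of_dvd_coprimes ((Nat.coprime_two_right.2 h).pow_right k) dvd_rfl
    (orderOf_dvd_of_pow_eq_one e))

theorem syl [Finite G] {L : Subgroup G} {s w : G} (hs : s ∈ L) (hw : w ∈ L) (ss : s * s = 1) (ww : w * w = 1) :
    ∃ n ∈ L, ∃ k, (s * (n * w * n⁻¹)) ^ 2 ^ k = 1 := by
  have key : ∀ x : L, x.1 * x.1 = 1 → ∃ P : Sylow 2 L, x ∈ P := fun x hx =>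
    (IsPGroup.of_card_dvd_pow (p := 2) (n := 1) (G := zpowers x) (by
      rw [Nat.card_zpowers]; exact orderOf_dvd_of_pow_eq_one (Subtype.ext ((sq _).trans hx)))).exists_le_sylow.imp
      fun _ h => h (mem_zpowers x)
  obtain ⟨P, hP⟩ := key ⟨s, hs⟩ ss
  obtain ⟨R, hR⟩ := key ⟨w, hw⟩ ww
  obtain ⟨n, rfl⟩ := MulAction.exists_smul_eq L R P
  obtain ⟨k, hk⟩ := (n • R).2 ⟨_, mul_mem hP (smul_mem_pointwise_smul _ (MulAut.conj n) _ hR)⟩
  exact ⟨n, n.2, k, congrArg (fun x => (x.1.1 : G)) hk⟩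

theorem two (hC : ∀ g, g * z = z * g → g ∈ M) (h1 : ∀ v ∈ M, IsConj z v → ∃ m ∈ M, m * z * m⁻¹ = v)
    (zz : z * z = 1) (k : ℕ) : ∀ w, w * w = 1 → (z * w) ^ 2 ^ k = 1 → w ∈ M := by
  induction k with
  | zero => exact fun w _ h => (M.mul_mem_cancel_left (hC z rfl)).1 (by rw [show z * w = 1 by simpa using h]; exact one_mem M)
  | succ k ih =>
    refine fun w ww h => uniq hC h1 (IsConj.refl z) (hC z rfl) (ih _ (by rw [conj_mul, zz]; simp) ?_)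
    rw [← h, pow_succ', pow_mul, sq, inv_eq_of_mul_eq_one_right ww]
    simp only [mul_assoc]

theorem cen_c [Finite G] (zz : z * z = 1) (yz : y * z = z * y) (y1 : y ≠ z)
    (hy : ∃ t ∈ M, t * z * t⁻¹ = y ∧ t * y * t⁻¹ = z) (hC : ∀ g, g * z = z * g → g ∈ M)
    (h1 : ∀ v ∈ M, IsConj z v → ∃ m ∈ M, m * z * m⁻¹ = v) (nc : ¬ IsConj z (z * y))
    (c1 : ∀ v, IsConj z v → IsConj z (v * (z * y)) → v * (z * y) = z * y * v →
      (v * z * v⁻¹ = z ∨ v * z * v⁻¹ = y) → v = z ∨ v = y)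
    (c2 : ∃ a : Fin 5 → G, (∀ i, a i ∈ M ∧ IsConj z (a i) ∧ a i * (z * y) = z * y * a i ∧
      ∀ k, a i * a k = a k * a i) ∧ a 0 * a 1 * a 2 * a 3 * a 4 = 1) {g : G} (hg : g * (z * y) = z * y * g) :
    g ∈ M := by
  obtain ⟨t, -, ty, -⟩ := hy
  have zy : IsConj z y := isConj_iff.2 ⟨t, ty⟩
  have yy := InvolCount.sq_of_isConj zz zy
  have z1 : z ≠ 1 := by rintro rfl; exact y1 (by simp [← ty])
  have ey : z * (z * y) = y := by rw [← mul_assoc, zz, one_mul]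
  have cc : z * y * (z * y) = 1 := by rw [mul_assoc, ← mul_assoc y, yz, mul_assoc, yy, mul_one, zz]
  have cM : z * y ∈ M := hC _ (by rw [mul_assoc, yz])
  have zc : z * (z * y) = z * y * z := by rw [mul_assoc, yz]
  generalize z * y = c at *
  let C := centralizer ({c} : Set G)
  have mC : ∀ {x}, x * c = c * x → x ∈ C := mem_centralizer_singleton_iff.2
  let Z : Subgroup C := zpowers ⟨c, mC rfl⟩
  have : Z.Normal := ⟨fun n hn g => by
    rwa [(czp (show Commute g ⟨c, mC rfl⟩ from Subtype.ext (mem_centralizer_singleton_iff.1 g.2)) hn).eq,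
      mul_inv_cancel_right]⟩
  have mZ : ∀ x y : C, (x : C ⧸ Z) = y → y.1 = x ∨ y.1 = x * c := fun x y e => by
    obtain ⟨k, hk⟩ := QuotientGroup.eq.1 e
    have hk : c ^ k = x.1⁻¹ * y.1 := by simpa using congrArg Subtype.val hk
    rw [← Int.emod_add_mul_ediv k 2, zpow_add, zpow_mul, zpow_two, cc, one_zpow, mul_one,
      eq_inv_mul_iff_mul_eq] at hk
    rcases Int.emod_two_eq_zero_or_one k with e | e <;> rw [e] at hk
    exacts [.inl (by simpa using hk.symm), .inr (by simpa using hk.symm)]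
  have mM : ∀ x : C, (x : C ⧸ Z) ∈ (M.subgroupOf C).map (QuotientGroup.mk' Z) → x.1 ∈ M := fun x ⟨y, hy, e⟩ => by
    rcases mZ y x e with e | e <;> rw [e]
    exacts [hy, mul_mem hy cM]
  have iso : IsIsolated ((⟨z, mC zc⟩ : C) : C ⧸ Z) := fun g hg => by
    obtain ⟨g, rfl⟩ := QuotientGroup.mk_surjective g
    have gc := mem_centralizer_singleton_iff.1 g.2
    have vc := mem_centralizer_singleton_iff.1 (g * ⟨z, mC zc⟩ * g⁻¹).2
    have := mZ ⟨z, mC zc⟩ (g * ⟨z, mC zc⟩ * g⁻¹ * ⟨z, mC zc⟩ * (g * ⟨z, mC zc⟩ * g⁻¹)⁻¹) (by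
      simp only [QuotientGroup.mk_mul, QuotientGroup.mk_inv]
      rw [← hg.eq, mul_inv_cancel_right])
    rcases c1 (g * z * g.1⁻¹) (cj _ (IsConj.refl z)) (by
      rw [show g * z * g.1⁻¹ * c = g * (z * c) * g.1⁻¹ by rw [← mul_assoc, mul_assoc _ c, mul_assoc _ _ c,
        (show Commute g.1 c from gc).inv_left.eq], ey]; exact cj _ zy) vc (ey ▸ this) with e | e
    · exact congrArg _ (Subtype.ext e : g * ⟨z, mC zc⟩ * g⁻¹ = ⟨z, mC zc⟩)
    · exact (QuotientGroup.eq.2 ⟨1, Subtype.ext (by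
        change c ^ (1 : ℤ) = z⁻¹ * (g * z * g.1⁻¹); rw [e, ← ey]; simp)⟩ :
          ((⟨z, mC zc⟩ : C) : C ⧸ Z) = (g * ⟨z, mC zc⟩ * g⁻¹ : C)).symm
  have hZ := ZStar.zstar _ _ (by rw [← QuotientGroup.mk_pow, sq]; exact congrArg _ (Subtype.ext zz)) iso
  obtain ⟨a, ha, a1⟩ := c2
  let a' : Fin 5 → C ⧸ Z := fun i => (⟨a i, mC (ha i).2.2.1⟩ : C)
  have a2 : ∀ i, a' i * a' i = 1 := fun i =>
    congrArg (QuotientGroup.mk (s := Z)) (Subtype.ext (InvolCount.sq_of_isConj zz (ha i).2.1))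
  have a3 : ∀ i k, a' i * a' k = a' k * a' i := fun i k =>
    congrArg (QuotientGroup.mk (s := Z)) (Subtype.ext ((ha i).2.2.2 k))
  have a4 : a' 0 * a' 1 * a' 2 * a' 3 * a' 4 = 1 := congrArg (QuotientGroup.mk (s := Z)) (Subtype.ext a1)
  have am : ∀ i, a' i ∈ closure (Set.range a') := fun i => subset_closure ⟨i, rfl⟩
  have F1 : IsMulCommutative (closure (Set.range a')) := isMulCommutative_closure (by
    rintro _ ⟨i, rfl⟩ _ ⟨k, rfl⟩; exact a3 i k)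
  have F2 : ∀ x ∈ closure (Set.range a'), x ^ 2 = 1 := fun x hx => by
    induction hx using closure_induction with
    | mem x hx => obtain ⟨i, rfl⟩ := hx; rw [sq, a2]
    | one => simp
    | mul x y hx hy h k =>
      rw [Commute.mul_pow (congrArg Subtype.val (F1.is_comm.comm ⟨x, hx⟩ ⟨y, hy⟩)), h, k, mul_one]
    | inv x _ h => rw [inv_pow, h, inv_one]
  have hO := PCoreResidual.coprime_card_pPrimeCore 2 (C ⧸ Z)
  have OM : pPrimeCore 2 (C ⧸ Z) ≤ (M.subgroupOf C).map (QuotientGroup.mk' Z) := by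
    refine CoprimeSylow.le_of_centralizer_hyperplane_le (p := 2) F1 F2 (fun e => ?_) le_normalizer_of_normal ?_
      fun B hB hi x hx => ?_
    · rcases mZ 1 _ (mem_bot.1 (e ▸ am 0)).symm with e | e
      · exact z1 (isConj_one_left.1 ((show a 0 = 1 from e) ▸ (ha 0).2.1))
      · exact nc ((show a 0 = c by simpa using e) ▸ (ha 0).2.1)
    · obtain ⟨n, hn⟩ := IsPGroup.iff_card.1 (show IsPGroup 2 (closure (Set.range a')) from fun x =>
        ⟨1, Subtype.ext (F2 x x.2)⟩)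
      rw [hn]
      exact hO.symm.pow_left n
    obtain ⟨i, hi⟩ : ∃ i, a' i ∈ B := by
      by_contra! hn
      have k := fun x y => mul_mem_iff_of_index_two (H := B.subgroupOf (closure (Set.range a'))) hi (a := x) (b := y)
      have : (⟨_, am 0⟩ * ⟨_, am 1⟩ * ⟨_, am 2⟩ * ⟨_, am 3⟩ * ⟨_, am 4⟩ : closure (Set.range a')) ∈
          B.subgroupOf _ := by
        change a' 0 * a' 1 * a' 2 * a' 3 * a' 4 ∈ B
        rw [a4]; exact one_mem _
      simp only [k, mem_subgroupOf, hn] at this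
      simp at this
    obtain ⟨x, rfl⟩ := QuotientGroup.mk_surjective x
    have x2 : x.1 * x.1 ∈ M := by
      refine uniq hC h1 (ha i).2.1 (ha i).1 ?_
      have := mZ ⟨a i, mC (ha i).2.2.1⟩ (x * ⟨a i, mC (ha i).2.2.1⟩ * x⁻¹) (by
        simp only [QuotientGroup.mk_mul, QuotientGroup.mk_inv]
        exact eq_mul_inv_of_mul_eq (hx.2 _ hi))
      change x.1 * a i * x.1⁻¹ = a i ∨ x.1 * a i * x.1⁻¹ = a i * c at this
      rw [show x.1 * x.1 * a i * (x.1 * x.1)⁻¹ = x * (x * a i * x.1⁻¹) * x.1⁻¹ by group]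
      rcases this with e | e
      · rw [e, e]; exact (ha i).1
      · rw [e, ← conj_mul, e, mem_centralizer_singleton_iff.1 x.2, mul_inv_cancel_right]
        exact mul_mem (mul_mem (ha i).1 cM) cM
    obtain ⟨k, hk⟩ := Nat.coprime_two_right.1 hO
    have e : (x : C ⧸ Z) ^ (2 * k + 1) = 1 :=
      congrArg Subtype.val (hk ▸ pow_card_eq_one' (x := (⟨_, hx.1⟩ : pPrimeCore 2 (C ⧸ Z))))
    rw [pow_succ, pow_mul, mul_eq_one_iff_inv_eq] at e
    rw [← e]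
    exact inv_mem (pow_mem (mem_map.2 ⟨x * x, x2, by simp [sq]⟩) k)
  have := mM ((⟨g, mC hg⟩ : C) * (⟨z, mC zc⟩ : C) * (⟨g, mC hg⟩ : C)⁻¹ * (⟨z, mC zc⟩ : C)⁻¹)
    (OM (hZ (⟨g, mC hg⟩ : C)))
  exact uniq hC h1 (IsConj.refl z) (hC z rfl) ((M.mul_mem_cancel_right (inv_mem (hC z rfl))).1 this)

theorem nconj {c : G} (hC : ∀ g, g * z = z * g → g ∈ M) (h1 : ∀ v ∈ M, IsConj z v → ∃ m ∈ M, m * z * m⁻¹ = v)
    (bz : b * z = z * b) (hc : ∀ g, g * c = c * g → g ∈ M) (nbc : ∀ m ∈ M, m * b * m⁻¹ ≠ c) : ¬ IsConj b c := fun h => by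
  obtain ⟨g, rfl⟩ := isConj_iff.1 h
  exact nbc g (uniq hC h1 (IsConj.refl z) (hC z rfl) (hc _ (by rw [conj_mul, conj_mul, bz]))) rfl

/-- The class of `z` in the centraliser of `b`. -/
def D (z b v : G) : Prop := ∃ x, x * b = b * x ∧ x * z * x⁻¹ = v

/-- The hypotheses on the centraliser of `b`. -/
structure Hy (z b : G) (T : Finset G) : Prop where
  zz : z * z = 1
  bb : b * b = 1
  bz : b * z = z * b
  t1 : T.card = 15
  t2 : ∀ v, v ∈ T ↔ D z b v ∧ v * z = z * v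
  t4 : ∀ v ∈ T, ∀ w ∈ T, v * w = w * v ∧ (v ≠ w → v * w * b ∈ T)

theorem D.refl : D z b z := ⟨1, by simp, by simp⟩

theorem D.conj {v x : G} (h : D z b v) (hx : Commute x b) : D z b (x * v * x⁻¹) := by
  obtain ⟨k, h1, rfl⟩ := h
  exact ⟨x * k, hx.mul_left h1, by group⟩

theorem cc {u v : G} (x : G) : Commute (x * u * x⁻¹) (x * v * x⁻¹) ↔ Commute u v := Commute.conj_iff x

namespace Hy

variable (H : Hy z b T)
include H

theorem sq {v : G} (h : D z b v) : v * v = 1 := h.elim fun x h => by rw [← h.2, conj_mul, H.zz]; simp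

theorem cb {v : G} (h : D z b v) : Commute v b := h.elim fun _ h =>
  h.2 ▸ (Commute.mul_left h.1 H.bz.symm).mul_left (Commute.inv_left h.1)

theorem tr {u v w : G} (hu : D z b u) (hv : D z b v) (hw : D z b w) (h1 : Commute v u) (h2 : Commute w u) :
    Commute v w ∧ (v ≠ w → D z b (v * w * b)) := by
  obtain ⟨x, hx, rfl⟩ := hu
  have k : ∀ {v}, D z b v → Commute v (x * z * x⁻¹) → x⁻¹ * v * x⁻¹⁻¹ ∈ T := fun hv h =>
    (H.t2 _).2 ⟨hv.conj (Commute.inv_left hx), by simpa [mul_assoc] using ((cc x⁻¹).2 h).eq⟩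
  obtain ⟨a, a'⟩ := H.t4 _ (k hv h1) _ (k hw h2)
  refine ⟨(cc x⁻¹).1 a, fun e => ?_⟩
  convert ((H.t2 _).1 (a' fun e' => e (by simpa using e'))).1.conj hx using 1
  rw [conj_mul, inv_inv, mul_assoc _ x b, hx]
  group

variable [Finite G]

omit [Finite G] in
theorem dih {s s' x : G} (h : D z b s) (h' : D z b s') (hx : x ∈ zpowers (s * s')) : D z b (x * s) := by
  obtain ⟨k, hk, e⟩ := ZStar.dihedral ((_root_.sq _).trans (H.sq h)) ((_root_.sq _).trans (H.sq h')) hx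
  have : Commute k b := (czp ((H.cb h).mul_left (H.cb h')).symm hk).symm
  rcases e with e | e <;> rw [e]
  exacts [h.conj this, h'.conj this]

theorem odd {s s' : G} (h : D z b s) (h' : D z b s') (e : ¬ Commute s s') : Odd (orderOf (s * s')) := by
  by_contra ho
  obtain ⟨v, hv, v1, v2⟩ := InvolCount.exists_invol ho
  obtain ⟨c1, c2⟩ := InvolCount.comm_of_mem (H.sq h) (H.sq h') v1 hv
  have vb : D z b (v * b) := by
    have := (H.tr h (H.dih h h' hv) h (Commute.mul_left c1.symm rfl) rfl).2 (by simpa using v2)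
    rwa [mul_assoc v, H.sq h, mul_one] at this
  exact e (H.tr vb h h' (Commute.mul_right c1 (H.cb h)) (Commute.mul_right c2 (H.cb h'))).1

theorem fix {u w : G} (hu : D z b u) (hw : D z b w) (e : Commute (w * u * w⁻¹) u) : Commute w u := by
  by_contra hn
  have := eq_one_of_odd (H.odd hw hu hn) (k := 2) (by
    rw [show 2 ^ 2 = 2 * 2 from rfl, pow_mul, show (w * u) ^ 2 = w * u * w⁻¹ * u by
      rw [inv_eq_of_mul_eq_one_right (H.sq hw), pow_two]; group, e.mul_pow, pow_two, pow_two,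
      H.sq (hu.conj (H.cb hw)), H.sq hu, mul_one])
  exact hn (by rw [eq_inv_of_mul_eq_one_left this]; exact (Commute.refl u).inv_left)

theorem swap {u v : G} (hu : D z b u) (hv : D z b v) (e : ¬ Commute u v) :
    ∃ ρ, D z b ρ ∧ ρ * u * ρ⁻¹ = v ∧ ∀ k, Commute k u → Commute k v → Commute k ρ := by
  obtain ⟨k, hk, e⟩ := ZStar.exists_conj_of_odd ((_root_.sq _).trans (H.sq hu)) ((_root_.sq _).trans (H.sq hv))
    (H.odd hu hv e)
  exact ⟨k⁻¹ * u, H.dih hu hv (inv_mem hk), by rw [← e]; group,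
    fun x h1 h2 => (czp (h1.mul_right h2) (inv_mem hk)).mul_right h1⟩

/-- The stabiliser of the class of `z`. -/
def N : Subgroup G where
  carrier := {g | Commute g b ∧ Commute (g * z * g⁻¹) z}
  one_mem' := ⟨Commute.one_left b, by simp⟩
  mul_mem' := fun {g k} hg hk => ⟨hg.1.mul_left hk.1, (H.tr (D.refl.conj hg.1) (D.refl.conj (hg.1.mul_left hk.1))
    D.refl (by simpa only [mul_assoc, mul_inv_rev] using (cc g).2 hk.2) hg.2.symm).1⟩
  inv_mem' := fun {g} hg => ⟨hg.1.inv_left, by simpa [mul_assoc] using (cc g⁻¹).2 hg.2.symm⟩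

omit [Finite G] in
theorem conj_T {g v : G} (hg : g ∈ H.N) (hv : v ∈ T) : g * v * g⁻¹ ∈ T :=
  have h := ((H.t2 v).1 hv).1.conj hg.1
  (H.t2 _).2 ⟨h, (H.tr (D.refl.conj hg.1) h D.refl ((cc g).2 ((H.t2 v).1 hv).2) hg.2.symm).1⟩

omit [Finite G] in
theorem exists_fix {g : G} (hg : g ∈ H.N) {p : ℕ} (hp : p.Prime) (h : ¬ p ∣ 15) (e : g ^ p = 1) :
    ∃ v ∈ T, g * v * g⁻¹ = v := by
  have := Fact.mk hp
  letI : MulAction H.N T :=
    { smul := fun g v => ⟨_, H.conj_T g.2 v.2⟩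
      one_smul := fun v => Subtype.ext (by change 1 * v.1 * 1⁻¹ = v; simp)
      mul_smul := fun g k v => Subtype.ext (by
        change g.1 * k.1 * v.1 * (g.1 * k.1)⁻¹ = g.1 * (k.1 * v.1 * k.1⁻¹) * g.1⁻¹; group) }
  obtain ⟨v, hv⟩ := Equiv.Perm.exists_fixed_point_of_prime (p := p) (n := 1) (α := T)
    (by rwa [Fintype.card_coe, H.t1]) (σ := MulAction.toPermHom H.N T ⟨g, hg⟩) (by
      rw [← map_pow, pow_one, show (⟨g, hg⟩ : H.N) ^ p = 1 from Subtype.ext e, map_one])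
  exact ⟨v, v.2, congrArg Subtype.val hv⟩

theorem exists_tau {s : G} (hs : D z b s) (sz : ¬ Commute s z) :
    ∃ τ ∈ H.N, τ ^ 3 = 1 ∧ τ * z ≠ z * τ ∧ s * τ * s⁻¹ = τ⁻¹ := by
  classical
  have si := inv_eq_of_mul_eq_one_right (H.sq hs)
  have nz : ∀ u ∈ T, ∀ v ∈ T, ¬ Commute u (s * v * s⁻¹) := fun u hu v hv e => by
    obtain ⟨u1, u2⟩ := (H.t2 u).1 hu
    obtain ⟨v1, v2⟩ := (H.t2 v).1 hv
    have v3 := v1.conj (H.cb hs)
    exact sz (H.fix D.refl hs (H.tr v3 (D.refl.conj (H.cb hs)) D.refl ((cc s).2 v2.symm)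
      (H.tr u1 D.refl v3 u2.symm e.symm).1).1)
  have zT : z ∈ T := (H.t2 z).2 ⟨D.refl, rfl⟩
  let K : Set G := {k | k ∈ H.N ∧ D z b (s * k)}
  have inv : ∀ k ∈ K, s * k * s⁻¹ = k⁻¹ := fun k hk => by
    rw [si, eq_inv_iff_mul_eq_one, mul_assoc _ s, H.sq hk.2]
  have oS : ∀ k ∈ K, ∀ k' ∈ K, Odd (orderOf (s * k * (s * k'))) := fun k hk k' hk' => by
    by_contra ho
    have c : Commute (s * k) (s * k') := by_contra fun e => ho (H.odd hk.2 hk'.2 e)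
    have w := (H.tr hk.2 hk.2 hk'.2 rfl c.symm).2 fun e => ho (by rw [← e, H.sq hk.2]; simp)
    have e1 : s * k * (s * k') = k⁻¹ * k' := by rw [← inv k hk, si]; group
    have e2 : s * k * (s * k') = s * (k * k'⁻¹) * s⁻¹ := by rw [← inv k' hk', si]; simp [mul_assoc, H.sq hs]
    have cw : ∀ u, D z b u → s * k * (s * k') * b * u * (s * k * (s * k') * b)⁻¹ =
        s * k * (s * k') * u * (s * k * (s * k'))⁻¹ := fun u hu => by
      rw [mul_assoc _ b, ← (H.cb hu).eq]; group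
    have z' := D.refl (z := z).conj (H.cb hs)
    refine nz z zT z zT (H.tr w D.refl z' (H.fix D.refl w ?_).symm (H.fix z' w ?_).symm).1
    · rw [cw _ D.refl, e1]
      exact (mul_mem (inv_mem hk.1) hk'.1).2
    · rw [cw _ z', e2]
      simpa [mul_assoc] using (cc s).2 (mul_mem hk.1 (inv_mem hk'.1)).2
  have ex : ∀ u ∈ T, ∀ v ∈ T, ∃ k ∈ K, k * u * k⁻¹ = v ∧ ∀ k' ∈ K, k' * u * k'⁻¹ = v → k' = k := fun u hu v hv => by
    obtain ⟨u1, u2⟩ := (H.t2 u).1 hu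
    obtain ⟨v1, v2⟩ := (H.t2 v).1 hv
    obtain ⟨ρ, r1, r2, r3⟩ := H.swap u1 (v1.conj (H.cb hs)) (nz u hu v hv)
    have r4 : s⁻¹ * ρ * u * (s⁻¹ * ρ)⁻¹ = v := by
      rw [show s⁻¹ * ρ * u * (s⁻¹ * ρ)⁻¹ = s⁻¹ * (ρ * u * ρ⁻¹) * s by group, r2]; group
    have cb := (H.cb hs).inv_left.mul_left (H.cb r1)
    have hk : s⁻¹ * ρ ∈ K := ⟨⟨cb, (H.tr v1 (D.refl.conj cb) D.refl (r4 ▸ (cc _).2 u2.symm) v2.symm).1⟩,
      by simpa using r1⟩
    refine ⟨_, hk, r4, fun k' hk' e => ?_⟩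
    have o := oS k' hk' _ hk
    rw [mul_inv_cancel_left] at o
    have a1 : s * k' * u * (s * k')⁻¹ = s * v * s⁻¹ := by rw [← e]; group
    have i1 := inv_eq_of_mul_eq_one_right (H.sq hk'.2)
    have i2 := inv_eq_of_mul_eq_one_right (H.sq r1)
    rw [eq_inv_mul_iff_mul_eq]
    generalize s * k' = σ at *
    generalize s * v * s⁻¹ = v' at *
    have a2 : σ * v' * σ⁻¹ = u := by
      rw [← a1, i1, ← mul_assoc, ← mul_assoc, mul_assoc _ σ σ, eq_inv_iff_mul_eq_one.1 i1.symm]; simp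
    have a3 : ρ * v' * ρ⁻¹ = u := by
      rw [← r2, i2, ← mul_assoc, ← mul_assoc, mul_assoc _ ρ ρ, H.sq r1]; simp
    have c : Commute (σ * ρ) ρ := r3 _ (by
      rw [Commute, SemiconjBy, ← mul_inv_eq_iff_eq_mul, show σ * ρ * u * (σ * ρ)⁻¹ = σ * (ρ * u * ρ⁻¹) * σ⁻¹ by group,
        r2, a2]) (by
      rw [Commute, SemiconjBy, ← mul_inv_eq_iff_eq_mul, show σ * ρ * v' * (σ * ρ)⁻¹ = σ * (ρ * v' * ρ⁻¹) * σ⁻¹ by group,
        a3, a1])
    have c' : Commute σ ρ := by simpa using c.mul_left (Commute.refl ρ).inv_left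
    rw [← i2]
    exact eq_inv_of_mul_eq_one_left (eq_one_of_odd o (k := 1) (by
      rw [pow_one, c'.mul_pow, pow_two, pow_two, eq_inv_iff_mul_eq_one.1 i1.symm, H.sq r1, mul_one]))
  have one : 1 ∈ K := ⟨one_mem _, by simpa using hs⟩
  have semi : ∀ k ∈ K, ∀ u ∈ T, k * u * k⁻¹ = u → k = 1 := fun k hk u hu e => by
    obtain ⟨k0, -, -, h⟩ := ex u hu u hu
    rw [h k hk e, h 1 one (by simp)]
  have pw : ∀ k ∈ K, ∀ x ∈ zpowers k, x ∈ K := fun k hk x hx => ⟨zpowers_le.2 hk.1 hx, by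
    have e : s * (s * k) = k := by rw [← mul_assoc, H.sq hs, one_mul]
    have := (H.dih hs hk.2 (e.symm ▸ hx)).conj (H.cb hs)
    rwa [← mul_assoc, mul_inv_cancel_right] at this⟩
  have cK : K.ncard = 15 := by
    rw [← H.t1, ← Set.ncard_coe_finset]
    refine Set.ncard_congr (fun k _ => k * z * k⁻¹) (fun k hk => H.conj_T hk.1 zT) (fun k k' hk hk' e => ?_)
      fun v hv => (ex z zT v hv).elim fun k h => ⟨k, h.1, h.2.1⟩
    obtain ⟨k0, -, -, h⟩ := ex z zT _ (H.conj_T hk'.1 zT)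
    rw [h k hk e, h k' hk' rfl]
  by_contra! hn
  have o5 : ∀ k ∈ K, k ≠ 1 → orderOf k = 5 := fun k hk k1 => by
    have a1 : orderOf k ≤ 15 := by
      rw [← Nat.card_zpowers, ← cK]
      exact Set.ncard_le_ncard (pw k hk)
    have a2 : ∀ p, p.Prime → p ∣ orderOf k → p ∣ 15 ∧ p ≠ 3 := fun p hp hd => by
      have o := orderOf_pow_orderOf_div (orderOf_pos k).ne' hd
      have m := pw k hk _ (npow_mem_zpowers k (orderOf k / p))
      generalize k ^ (orderOf k / p) = x at o m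
      have x1 : x ≠ 1 := fun e => hp.one_lt.ne (by rw [← o, e, orderOf_one])
      refine ⟨by_contra fun h => ?_, ?_⟩
      · obtain ⟨v, hv, e⟩ := H.exists_fix m.1 hp h (o ▸ pow_orderOf_eq_one x)
        exact x1 (semi x m v hv e)
      · rintro rfl
        exact hn x m.1 (o ▸ pow_orderOf_eq_one x) (fun e => x1 (semi x m z zT (by rw [e]; simp))) (inv x m)
    have a3 := orderOf_pos k
    have a4 : orderOf k ≠ 1 := mt orderOf_eq_one_iff.1 k1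
    have b2 := a2 2 (by norm_num)
    have b3 := a2 3 (by norm_num)
    have b7 := a2 7 (by norm_num)
    have b11 := a2 11 (by norm_num)
    have b13 := a2 13 (by norm_num)
    generalize orderOf k = n at *
    interval_cases n <;> simp_all
  have f : (K \ {1}).Finite := Set.toFinite _
  have c14 : f.toFinset.card = 14 := by
    rw [← Set.ncard_eq_toFinset_card _ f, Set.ncard_sdiff_singleton_of_mem one, cK]
  have : 4 ∣ f.toFinset.card := by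
    rw [Finset.card_eq_sum_card_image zpowers]
    refine Finset.dvd_sum fun Z hZ => dvd_of_eq ?_
    obtain ⟨k, hk, rfl⟩ := Finset.mem_image.1 hZ
    obtain ⟨hk, k1⟩ := f.mem_toFinset.1 hk
    have : (4 : ℕ) = ((zpowers k : Set G) \ {1}).ncard := by
      rw [Set.ncard_sdiff_singleton_of_mem (one_mem (zpowers k))]
      change _ = Nat.card (zpowers k) - 1
      rw [Nat.card_zpowers, o5 k hk k1]
    rw [this, ← Set.ncard_coe_finset]
    congr 1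
    ext x
    simp only [Finset.coe_filter, f.mem_toFinset, Set.mem_ofPred_eq]
    exact ⟨fun h => ⟨⟨pw k hk x h.1, h.2⟩, eq_of_le_of_card_ge (zpowers_le.2 h.1) (by
      rw [Nat.card_zpowers, Nat.card_zpowers, o5 k hk k1, o5 x (pw k hk x h.1) h.2])⟩,
      fun h => ⟨h.2 ▸ mem_zpowers x, h.1.2⟩⟩
  omega

/-- An element of order three that is inverted by `z`. -/
theorem exists_pair {P : G → Prop} {L : Subgroup G} (hL : ∀ g, Commute g b → g ∈ L)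
    (hP : ∀ w, ∀ n ∈ L, P w → P (n * w * n⁻¹))
    (t5 : ∀ τ, τ * b = b * τ → τ * z * τ⁻¹ ∈ T → τ ^ 3 = 1 → τ * z ≠ z * τ →
      ∃ w ∈ L, w * w = 1 ∧ w * τ = τ * w ∧ P w) {s : G} (hs : D z b s) (sz : ¬ Commute s z) :
    ∃ τ, ∃ w ∈ L, τ ≠ 1 ∧ Commute τ b ∧ τ ^ 3 = 1 ∧ z * τ * z = τ⁻¹ ∧ w * w = 1 ∧ Commute w τ ∧ P w ∧
      ∃ k, (z * w) ^ 2 ^ k = 1 := by
  obtain ⟨τ, hτ, t3, tz, st⟩ := H.exists_tau hs sz
  obtain ⟨w, hw, ww, wt, pw⟩ := t5 τ hτ.1 (H.conj_T hτ ((H.t2 z).2 ⟨D.refl, rfl⟩)) t3 tz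
  have nor : ∀ g, g * τ * g⁻¹ ∈ zpowers τ → g ∈ normalizer (zpowers τ : Set G) := fun g hg =>
    mem_normalizer_fintype (by
      rintro _ ⟨k, rfl⟩
      rw [← conj_zpow]
      exact zpow_mem hg k)
  obtain ⟨n, hn, k, e⟩ := syl (L := L ⊓ normalizer (zpowers τ : Set G)) (s := s) (w := w)
    ⟨hL s (H.cb hs), nor s (st ▸ inv_mem (mem_zpowers τ))⟩ ⟨hw, nor w (by simp [wt])⟩ (H.sq hs) ww
  obtain ⟨x, hx, rfl⟩ := hs
  have xL := inv_mem (hL x hx)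
  refine ⟨x⁻¹ * τ * x⁻¹⁻¹, x⁻¹ * (n * w * n⁻¹) * x⁻¹⁻¹, mul_mem (mul_mem xL (mul_mem (mul_mem hn.1 hw) (inv_mem hn.1)))
    (inv_mem xL), fun e => tz (by simp [conj_eq_one_iff.1 e]),
    ((Commute.inv_left hx).mul_left hτ.1).mul_left (Commute.inv_left hx).inv_left, by rw [conj_pow, t3]; simp, ?_,
    by rw [conj_mul, conj_mul, ww]; simp, (cc _).2 ?_, hP _ _ xL (hP _ _ hn.1 pw), k, ?_⟩
  · rw [conj_inv, ← st]
    nth_rw 2 [← inv_eq_of_mul_eq_one_right H.zz]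
    group
  · have := czp (show Commute w τ from wt) ((mem_normalizer_iff.1 (inv_mem hn.2) τ).1 (mem_zpowers τ))
    simpa [mul_assoc] using (cc n).2 this
  · rw [show z * (x⁻¹ * (n * w * n⁻¹) * x⁻¹⁻¹) = x⁻¹ * (x * z * x⁻¹ * (n * w * n⁻¹)) * x⁻¹⁻¹ by group, conj_pow, e]
    simp

theorem commA (hC : ∀ g, g * z = z * g → g ∈ M) (h1 : ∀ v ∈ M, IsConj z v → ∃ m ∈ M, m * z * m⁻¹ = v)
    (t5 : ∀ τ, τ * b = b * τ → τ * z * τ⁻¹ ∈ T → τ ^ 3 = 1 → τ * z ≠ z * τ → ∃ w, IsConj z w ∧ w * τ = τ * w)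
    (t6 : ∀ m ∈ M, m * b = b * m → m ^ 3 = 1 → z * m * z = m⁻¹ → m = 1) {s : G} (hs : D z b s) : Commute s z := by
  by_contra sz
  obtain ⟨τ, w, -, a1, a2, a3, a4, a5, a6, a7, k, a8⟩ := H.exists_pair (P := IsConj z) (L := ⊤) (fun _ _ => trivial)
    (fun _ n _ => cj n) (fun τ a b c d => (t5 τ a b c d).imp fun w h =>
      ⟨trivial, InvolCount.sq_of_isConj H.zz h.1, h.2, h.1⟩) hs sz
  have wM := two hC h1 H.zz k w a5 a8
  exact a1 (t6 τ (uniq hC h1 a7 wM (by rwa [← a6.eq, mul_inv_cancel_right])) a2 a3 a4)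

theorem commB (t5 : ∀ τ, τ * b = b * τ → τ * z * τ⁻¹ ∈ T → τ ^ 3 = 1 → τ * z ≠ z * τ → ∃ w, w * w = 1 ∧ w * τ = τ * w ∧
      w * b = b * w ∧ ∀ v v', D z b v → D z b v' → v * w = w * v → v' * w = w * v' → v * v' = v' * v)
    {s : G} (hs : D z b s) : Commute s z := by
  by_contra sz
  obtain ⟨τ, w, hw, a1, a2, a3, a4, a5, a6, a7, k, a8⟩ := H.exists_pair
    (P := fun w => ∀ v v', D z b v → D z b v' → Commute v w → Commute v' w → Commute v v') (L := centralizer {b})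
    (fun _ => mem_centralizer_singleton_iff.2) (fun w n hn h v v' b1 b2 b3 b4 => by
      have hn : Commute n⁻¹ b := mem_centralizer_singleton_iff.1 (inv_mem hn)
      exact (cc n⁻¹).1 (h _ _ (b1.conj hn) (b2.conj hn) (by simpa [mul_assoc] using (cc n⁻¹).2 b3)
        (by simpa [mul_assoc] using (cc n⁻¹).2 b4)))
    (fun τ a b c d => (t5 τ a b c d).imp fun w h => ⟨mem_centralizer_singleton_iff.2 h.2.2.1, h.1, h.2.1, h.2.2.2⟩) hs sz
  have wb : Commute w b := mem_centralizer_singleton_iff.1 hw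
  have wN : w ∈ H.N := ⟨wb, by_contra fun e => e (by
    have := eq_one_of_odd (H.odd D.refl (D.refl.conj wb) fun h => e h.symm) (k := k) (by
      rw [show z * (w * z * w⁻¹) = (z * w) ^ 2 by rw [inv_eq_of_mul_eq_one_right a5, pow_two]; group, ← pow_mul,
        mul_comm, pow_mul, a8, one_pow])
    rw [eq_inv_of_mul_eq_one_right this]
    exact (Commute.refl z).inv_left)⟩
  obtain ⟨v, hv, e⟩ := H.exists_fix wN Nat.prime_two (by decide) ((pow_two w).trans a5)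
  obtain ⟨v1, v2⟩ := (H.t2 v).1 hv
  have vw : Commute v w := (mul_inv_eq_iff_eq_mul.1 e).symm
  have c1 := a7 v _ v1 (v1.conj a2) vw (by simpa [a6.symm.eq] using (cc τ).2 vw)
  have c2 := (H.tr (v1.conj a2) (D.refl.conj a2) D.refl ((cc τ).2 v2.symm)
    (H.tr v1 D.refl (v1.conj a2) v2.symm c1.symm).1).1
  have e1 : τ * z * τ⁻¹ = τ * τ * z := by rw [← a4, ← mul_assoc, ← mul_assoc, mul_assoc τ z, H.zz, mul_one]
  have e2 := c2.eq
  rw [e1, mul_assoc, H.zz, mul_one, show z * (τ * τ * z) = z * τ * z * (z * τ * z) by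
    rw [show z * τ * z * (z * τ * z) = z * τ * (z * z) * τ * z by group, H.zz]; group, a4] at e2
  refine a1 ?_
  calc τ = τ * τ ^ 3 := by rw [a3, mul_one]
    _ = τ * τ * (τ * τ) := by simp only [pow_succ, pow_zero, one_mul, mul_assoc]
    _ = 1 := by nth_rw 1 [e2]; group

end Hy

theorem eq_top0 [Finite G] (zz : z * z = 1) (bb : b * b = 1) (yz : y * z = z * y) (y1 : y ≠ z) (bz : b * z = z * b)
    (hy : ∃ t ∈ M, t * z * t⁻¹ = y ∧ t * y * t⁻¹ = z) (hC : ∀ g, g * z = z * g → g ∈ M)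
    (h1 : ∀ v ∈ M, IsConj z v → ∃ m ∈ M, m * z * m⁻¹ = v)
    (cls : ∀ v ∈ M, v * v = 1 → v = 1 ∨ ∃ m ∈ M, m * z * m⁻¹ = v ∨ m * b * m⁻¹ = v ∨ m * (z * y) * m⁻¹ = v)
    (nb : ¬ IsConj z b) (nc : ¬ IsConj z (z * y)) (nbc : ∀ m ∈ M, m * b * m⁻¹ ≠ z * y)
    (c1 : ∀ v, IsConj z v → IsConj z (v * (z * y)) → v * (z * y) = z * y * v →
      (v * z * v⁻¹ = z ∨ v * z * v⁻¹ = y) → v = z ∨ v = y)
    (c2 : ∃ a : Fin 5 → G, (∀ i, a i ∈ M ∧ IsConj z (a i) ∧ a i * (z * y) = z * y * a i ∧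
      ∀ k, a i * a k = a k * a i) ∧ a 0 * a 1 * a 2 * a 3 * a 4 = 1)
    (hD : ∀ s, D z b s → Commute s z) : M = ⊤ := by
  have hc := fun g => cen_c zz yz y1 hy hC h1 nc c1 c2 (g := g)
  have hb : ∀ g, g * b = b * g → g ∈ M := fun g hg =>
    uniq hC h1 (IsConj.refl z) (hC z rfl) (hC _ (hD _ (D.refl.conj hg)))
  have n := nconj hC h1 bz hc nbc
  generalize z * y = c at *
  have ne : ∀ {x v : G}, IsConj x v → v = 1 → x = 1 := fun h e => isConj_one_left.1 (e ▸ h)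
  refine eq_top_iff.2 fun g _ => ?_
  have b2 : g⁻¹ * b * g⁻¹⁻¹ * (g⁻¹ * b * g⁻¹⁻¹) = 1 := by rw [conj_mul, bb]; simp
  by_cases ho : Odd (orderOf (z * (g⁻¹ * b * g⁻¹⁻¹)))
  · obtain ⟨k, e⟩ := InvolCount.exists_conj_of_odd zz b2 ho
    exact absurd ((isConj_iff.2 ⟨_, e⟩).trans (isConj_iff.2 ⟨g⁻¹, rfl⟩).symm) nb
  obtain ⟨v, hv, v1, v2⟩ := InvolCount.exists_invol ho
  obtain ⟨a1, a2⟩ := InvolCount.comm_of_mem zz b2 v1 hv
  have vM := hC v a1.symm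
  have gM : g * v * g⁻¹ ∈ M := hb _ (by simpa [mul_assoc] using ((cc g).2 a2).symm.eq)
  have sq' : ∀ {x u : G}, IsConj x u → IsConj x v → u * u = 1 ∧ u ≠ 1 := fun h h' =>
    ⟨InvolCount.sq_of_isConj v1 (h'.symm.trans h), fun e => v2 (ne (h'.symm.trans h) e)⟩
  obtain ⟨m, -, e | e | e⟩ := (cls v vM v1).resolve_left v2 <;> have e := isConj_iff.2 ⟨m, e⟩
  · exact uniq hC h1 e vM gM
  · refine uniq hb (fun u hu h => ?_) e vM gM
    obtain ⟨m, hm, e' | e' | e'⟩ := (cls u hu (sq' h e).1).resolve_left (sq' h e).2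
    exacts [absurd ((isConj_iff.2 ⟨m, e'⟩).trans h.symm) nb, ⟨m, hm, e'⟩,
      absurd (h.trans (isConj_iff.2 ⟨m, e'⟩).symm) n]
  · refine uniq hc (fun u hu h => ?_) e vM gM
    obtain ⟨m, hm, e' | e' | e'⟩ := (cls u hu (sq' h e).1).resolve_left (sq' h e).2
    exacts [absurd ((isConj_iff.2 ⟨m, e'⟩).trans h.symm) nc, absurd ((isConj_iff.2 ⟨m, e'⟩).trans h.symm) n,
      ⟨m, hm, e'⟩]

theorem eq_top [Finite G] (T : Finset G) (zz : z * z = 1) (bb : b * b = 1) (yz : y * z = z * y) (y1 : y ≠ z)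
    (bz : b * z = z * b) (hy : ∃ t ∈ M, t * z * t⁻¹ = y ∧ t * y * t⁻¹ = z) (hC : ∀ g, g * z = z * g → g ∈ M)
    (h1 : ∀ v ∈ M, IsConj z v → ∃ m ∈ M, m * z * m⁻¹ = v)
    (cls : ∀ v ∈ M, v * v = 1 → v = 1 ∨ ∃ m ∈ M, m * z * m⁻¹ = v ∨ m * b * m⁻¹ = v ∨ m * (z * y) * m⁻¹ = v)
    (nb : ¬ IsConj z b) (nc : ¬ IsConj z (z * y)) (nbc : ∀ m ∈ M, m * b * m⁻¹ ≠ z * y)
    (c1 : ∀ v, IsConj z v → IsConj z (v * (z * y)) → v * (z * y) = z * y * v →
      (v * z * v⁻¹ = z ∨ v * z * v⁻¹ = y) → v = z ∨ v = y)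
    (c2 : ∃ a : Fin 5 → G, (∀ i, a i ∈ M ∧ IsConj z (a i) ∧ a i * (z * y) = z * y * a i ∧
      ∀ k, a i * a k = a k * a i) ∧ a 0 * a 1 * a 2 * a 3 * a 4 = 1)
    (t1 : T.card = 15) (t2 : ∀ v, v ∈ T ↔ (∃ x, x * b = b * x ∧ x * z * x⁻¹ = v) ∧ v * z = z * v)
    (t4 : ∀ v ∈ T, ∀ w ∈ T, v * w = w * v ∧ (v ≠ w → v * w * b ∈ T))
    (t5 : ∀ τ, τ * b = b * τ → τ * z * τ⁻¹ ∈ T → τ ^ 3 = 1 → τ * z ≠ z * τ → ∃ w, IsConj z w ∧ w * τ = τ * w)
    (t6 : ∀ m ∈ M, m * b = b * m → m ^ 3 = 1 → z * m * z = m⁻¹ → m = 1) : M = ⊤ :=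
  eq_top0 zz bb yz y1 bz hy hC h1 cls nb nc nbc c1 c2 fun _ => Hy.commA ⟨zz, bb, bz, t1, t2, t4⟩ hC h1 t5 t6

theorem eq_top2 [Finite G] (T : Finset G) (zz : z * z = 1) (bb : b * b = 1) (yz : y * z = z * y) (y1 : y ≠ z)
    (bz : b * z = z * b) (hy : ∃ t ∈ M, t * z * t⁻¹ = y ∧ t * y * t⁻¹ = z) (hC : ∀ g, g * z = z * g → g ∈ M)
    (h1 : ∀ v ∈ M, IsConj z v → ∃ m ∈ M, m * z * m⁻¹ = v)
    (cls : ∀ v ∈ M, v * v = 1 → v = 1 ∨ ∃ m ∈ M, m * z * m⁻¹ = v ∨ m * b * m⁻¹ = v ∨ m * (z * y) * m⁻¹ = v)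
    (nb : ¬ IsConj z b) (nc : ¬ IsConj z (z * y)) (nbc : ∀ m ∈ M, m * b * m⁻¹ ≠ z * y)
    (c1 : ∀ v, IsConj z v → IsConj z (v * (z * y)) → v * (z * y) = z * y * v →
      (v * z * v⁻¹ = z ∨ v * z * v⁻¹ = y) → v = z ∨ v = y)
    (c2 : ∃ a : Fin 5 → G, (∀ i, a i ∈ M ∧ IsConj z (a i) ∧ a i * (z * y) = z * y * a i ∧
      ∀ k, a i * a k = a k * a i) ∧ a 0 * a 1 * a 2 * a 3 * a 4 = 1)
    (t1 : T.card = 15) (t2 : ∀ v, v ∈ T ↔ (∃ x, x * b = b * x ∧ x * z * x⁻¹ = v) ∧ v * z = z * v)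
    (t4 : ∀ v ∈ T, ∀ w ∈ T, v * w = w * v ∧ (v ≠ w → v * w * b ∈ T))
    (t5 : ∀ τ, τ * b = b * τ → τ * z * τ⁻¹ ∈ T → τ ^ 3 = 1 → τ * z ≠ z * τ → ∃ w, w * w = 1 ∧ w * τ = τ * w ∧
      w * b = b * w ∧ ∀ v v', D z b v → D z b v' → v * w = w * v → v' * w = w * v' → v * v' = v' * v) : M = ⊤ :=
  eq_top0 zz bb yz y1 bz hy hC h1 cls nb nc nbc c1 c2 fun _ => Hy.commB ⟨zz, bb, bz, t1, t2, t4⟩ t5

end Cfsg.Agent.Lib.Co2E
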