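import Cfsg.Agent.Lib.Co2MT

/-! Certificates. -/

set_option autoImplicit false
set_option maxRecDepth 100000

namespace Cfsg.Agent.Lib.Co2M

open Cfsg.Agent.Lib.PermNet Cfsg.Agent.Lib.Words Cfsg.Agent.Lib.PermGroup Cfsg.Agent.Lib.DCE Cfsg.Agent.Lib.PermModel Cfsg.Agent.Lib.BT

theorem vok_id : idB (nat_lit 2300) (nat_lit 12) (nat_lit 4095) vid = true := by decide +kernel

theorem vok_0 : allR (fun i => okT (nat_lit 2300) (nat_lit 12) (nat_lit 4095) (vtt.get (2 * i)) (vtt.get (2 * i + 1))) (nat_lit 0) (nat_lit 8) = true := by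
  decide +kernel

theorem vok_8 : allR (fun i => okT (nat_lit 2300) (nat_lit 12) (nat_lit 4095) (vtt.get (2 * i)) (vtt.get (2 * i + 1))) (nat_lit 8) (nat_lit 8) = true := by
  decide +kernel

def vdL0 : List (List ℕ) := [[5, 0, 0, 0, 0, 0, 2, 1, 3, 0, 3, 1], [7, 1, 2, 1, 2, 1, 2, 0, 3, 0, 3, 1, 1, 3]]

theorem vd0 : allL (fixA (nat_lit 12) (nat_lit 4095) vtt (nat_lit 2300)) vdL0 = true := by decide +kernel

def vdL1 : List (List ℕ) := [[9, 2, 0, 0, 2, 1, 2, 0, 0, 2, 0, 3, 0, 3, 1, 3, 1, 1, 3], [11, 5, 6, 6, 4, 6]]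

theorem vd1 : allL (fixA (nat_lit 12) (nat_lit 4095) vtt (nat_lit 2300)) vdL1 = true := by decide +kernel

def vdL2 : List (List ℕ) := [[13, 6, 8, 8, 6, 6, 4], [15, 6, 5, 6, 5, 8, 5, 6, 8, 5, 5], [17, 10, 12, 10, 14, 10]]

theorem vd2 : allL (fixA (nat_lit 12) (nat_lit 4095) vtt (nat_lit 2300)) vdL2 = true := by decide +kernel

def vdL3 : List (List ℕ) := [[19, 11, 11, 14, 12, 15], [21, 12, 14, 11, 11, 14, 14, 11, 12, 12, 11], [23, 16, 18, 16, 21]]

theorem vd3 : allL (fixA (nat_lit 12) (nat_lit 4095) vtt (nat_lit 2300)) vdL3 = true := by decide +kernel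

def vdL4 : List (List ℕ) := [[25, 17, 20, 20, 18, 21], [27, 21, 19, 20, 16, 19], [29, 17, 21, 18, 17, 17, 17], [31, 22, 26, 22]]

theorem vd4 : allL (fixA (nat_lit 12) (nat_lit 4095) vtt (nat_lit 2300)) vdL4 = true := by decide +kernel

theorem vc : chB (nat_lit 12) (nat_lit 4095) vtt (nat_lit 2300) (fun _ => true) vch [] = true := by decide +kernel

theorem vok : TabsOK (nat_lit 2300) (nat_lit 12) (nat_lit 4095) (nat_lit 16) vth vid := ⟨vok_id, ((allR_of 0 8 8 (by decide) vok_0).trans (allR_of 8 8 16 (by decide) vok_8))⟩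

theorem vTM : TM 2 (nat_lit 2300) (nat_lit 12) (nat_lit 4095) (nat_lit 16) vid 42305421312000 vth vdefs vch :=
  ⟨vok, (all_append (vok.relsA _ vd0) (all_append (vok.relsA _ vd1) (all_append (vok.relsA _ vd2) (all_append (vok.relsA _ vd3) (vok.relsA _ vd4))))), vc, by decide +kernel⟩

theorem b0 : bfsM (nat_lit 12) (nat_lit 4095) vtt (nat_lit 2300) k0 c0 (pt 0) (Nat.beq (ivl 0 2300)) = true := by decide +kernel

theorem b1 : bfsM (nat_lit 12) (nat_lit 4095) vtt (nat_lit 2300) k1 c1 (pt 1) (Nat.beq (ivl 1 891)) = true := by decide +kernel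

theorem b2 : bfsM (nat_lit 12) (nat_lit 4095) vtt (nat_lit 2300) k1 c2 (pt 892) (Nat.beq (ivl 892 1408)) = true := by decide +kernel



end Cfsg.Agent.Lib.Co2M
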