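import Cfsg.Agent.Lib.Co2MG

/-! The action of a generator on the vectors. -/

set_option autoImplicit false
set_option maxRecDepth 100000

namespace Cfsg.Agent.Lib.Co2M

theorem g10 : okG 1 0 575 = true := by decide +kernel

theorem g11 : okG 1 575 575 = true := by decide +kernel

theorem g12 : okG 1 1150 575 = true := by decide +kernel

theorem g13 : okG 1 1725 575 = true := by decide +kernel

end Cfsg.Agent.Lib.Co2M
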