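import Cfsg.Agent.Lib.Co2MG0
import Cfsg.Agent.Lib.Co2MG1
import Cfsg.Agent.Lib.Co2MC
import Cfsg.Agent.Lib.Co2MN
import Cfsg.Agent.Lib.Co3Model

/-! The second Conway group: its order, its action on `2300` points, simplicity. -/

set_option autoImplicit false
set_option maxRecDepth 100000

namespace Cfsg.Agent.Lib.Co2M

open Subgroup Cfsg.Agent.Lib.Leech Cfsg.Agent.Lib.PermNet Cfsg.Agent.Lib.DCE Cfsg.Spor Cfsg.Agent.Lib.Words
  Cfsg.Agent.Lib.PermGroup Cfsg.Agent.Lib.BT Cfsg.Agent.Lib.LeechRep Equiv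
open Cfsg.Agent.Lib.CoM hiding dec c
open scoped Pointwise

theorem len_L (p : ℕ) : (L p).length = 24 := rfl

theorem hL {p : ℕ} (hp : p < 2300) : Chk (vec (L p)) ∧ ldot (L p) (L p) = 32 ∧ ldot (L p) ul = 16 ∧
    ix (enc (L p)) = p ∧ ix (enc (wl (L p))) = p ∧
    ldot (L p) (L 0) = if p = 0 then 32 else if p < 892 then 16 else 8 := by
  have : okP p = true := (lt_or_ge p 1150).elim (allR_all hP0 p p.zero_le) fun h => allR_all hP1 p h hp
  simp only [okP, forceL_eq, forceB_eq, Bool.and_eq_true, beq_iff_eq, Nat.beq_eq] at this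
  exact ⟨chk_of (len_L p) this.1.1.1.1.1, this.1.1.1.1.2, this.1.1.1.2, this.1.1.2, this.1.2, this.2⟩

/-- The chosen vector of the pair `p`. -/
noncomputable def x (p : ℕ) : leechLattice := if h : p < 2300 then ⟨vec (L p), mem_iff.2 (hL h).1⟩ else 0

theorem x_val {p : ℕ} (hp : p < 2300) : (x p).1 = vec (L p) := by rw [x, dif_pos hp]

/-- The other vector of a pair. -/
def w (y : leechLattice) : leechLattice := leechU - y

theorem w_w (y : leechLattice) : w (w y) = y := by simp [w]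

theorem vec_ul : leechU.1 = vec ul := by decide +kernel

theorem w_x {p : ℕ} (hp : p < 2300) : (w (x p)).1 = vec (wl (L p)) := funext fun r => by
  have := Golay.idx_lt r
  rw [w, AddSubgroup.coe_sub, vec_ul, x_val hp, Pi.sub_apply, vec, vec, vec,
    List.getD_eq_getElem (wl _) _ (by simp [wl, ul, len_L, this]), List.getD_eq_getElem _ _ (show _ < ul.length from this),
    List.getD_eq_getElem _ _ (show _ < (L p).length from this)]
  exact (List.getElem_zipWith ..).symm

theorem vec_inj {l m : List ℤ} (hl : l.length = 24) (hm : m.length = 24) (e : vec l = vec m) : l = m :=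
  List.ext_getElem (hl.trans hm.symm) fun i hi hi' => by
    have := congrFun e (Golay.pt i)
    rwa [vec, vec, Golay.idx_pt i (hl ▸ hi), List.getD_eq_getElem _ _ hi, List.getD_eq_getElem _ _ hi'] at this

/-- The inner product. -/
def D (a b : leechLattice) : ℤ := dotInt a.1 b.1

theorem D_comm (a b : leechLattice) : D a b = D b a := by
  simp only [D, dotInt, mul_comm]

theorem D_add (a b c : leechLattice) : D (a + b) c = D a c + D b c := by
  simp [D, dotInt, add_mul, Finset.sum_add_distrib, -Fintype.sum_option]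

theorem D_w (a b : leechLattice) : D (w a) b = D leechU b - D a b := by
  rw [eq_sub_iff_add_eq, ← D_add, w, sub_add_cancel]

theorem D_x {p q : ℕ} (hp : p < 2300) (hq : q < 2300) : D (x p) (x q) = ldot (L p) (L q) := by
  rw [D, x_val hp, x_val hq, dot_vec (len_L p).le]

theorem D_u {p : ℕ} (hp : p < 2300) : D leechU (x p) = 16 := by
  rw [D_comm, D, x_val hp, vec_ul, dot_vec (len_L p).le, (hL hp).2.2.1]

theorem D_s {s : Perm leechLattice} (hs : s ∈ Co0) (a b : leechLattice) : D (s a) (s b) = D a b := dot_eq hs a b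

theorem D_uu : D leechU leechU = 32 := by decide +kernel

theorem near' {y : leechLattice} (h₁ : D y y = 32) (h₂ : D y leechU = 16) : ∃ q < 2300, y = x q ∨ y = w (x q) :=
  (near y.2 ((sq_eq _).trans h₁) h₂).imp fun _ h => ⟨h.1, h.2.imp (fun e => Subtype.ext (e.trans (x_val h.1).symm))
    fun e => Subtype.ext (e.trans (w_x h.1).symm)⟩

theorem smul_w (s : Co2) (y : leechLattice) : s • w y = w (s • y) :=
  (map_sub (AddMonoidHom.mk' s.1 s.2.1.1) leechU y).trans (congrArg (fun z => z - s.1 y) s.2.2)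

/-- The pair `p`. -/
def lab (p : ℕ) : Set leechLattice := {x p, w (x p)}

theorem smul_lab (s : Co2) {p q : ℕ} (h : s • x p = x q ∨ s • x p = w (x q)) : s • lab p = lab q := by
  rw [lab, Set.smul_set_insert, Set.smul_set_singleton, smul_w]
  rcases h with h | h
  · rw [h, lab]
  · rw [h, w_w, lab, Set.pair_comm]

theorem lab_inj : Set.InjOn lab (Set.Iio 2300) := fun p hp q hq e => by
  rcases Set.mem_insert_iff.1 (e.le (Set.mem_insert _ _)) with h | h
  · rw [← (hL hp).2.2.2.1, vec_inj (len_L p) (len_L q) ((x_val hp).symm.trans ((congrArg Subtype.val h).trans (x_val hq))),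
      (hL hq).2.2.2.1]
  · rw [← (hL hp).2.2.2.1, vec_inj (len_L p) (m := wl (L q)) rfl
      ((x_val hp).symm.trans ((congrArg Subtype.val h).trans (w_x hq))), (hL hq).2.2.2.2.1]

theorem exists_y : ∃ y : ℕ → Co0, (∀ i < 4, ρ (y i) = MatRep.gen CoM.c ms i) ∧ ∀ i < 4, ∀ (a b : leechLattice) (l m : List ℤ),
    a.1 = vec l → b.1 = vec m → (rows (2 * i)).map (ldot · l) = m.map (8 * ·) → (y i).1 a = b := by
  obtain ⟨y, hy⟩ := exists_gens good hinv
  refine ⟨y, fun i hi => (hy i hi).1, fun i hi a b l m ha hb e => Subtype.ext (funext fun p => ?_)⟩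
  have := congrArg (·.getD (Golay.idx p) 0) e
  rw [show (m.map (8 * ·)).getD (Golay.idx p) 0 = 8 * vec m p from List.getD_map _ (0 : ℤ) (8 * ·),
    show ((rows (2 * i)).map (ldot · l)).getD (Golay.idx p) 0 = ldot (row As (2 * i) p) l by
      simp [rows, row, Golay.idx_lt], ← (hy i hi).2 a l ha p, ← hb] at this
  omega

/-- The permutations. -/
noncomputable abbrev P : ℕ → Perm ℕ := tp (nat_lit 2300) (nat_lit 12) (nat_lit 4095) vtt

/-- The action on the pairs. -/
structure Act (π : Co2 →* Perm ℕ) (f : ℕ → Co2) : Prop where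
  fix : ∀ s i, 2300 ≤ i → π s i = i
  img : ∀ s, ∀ p < 2300, s • x p = x (π s p) ∨ s • x p = w (x (π s p))
  gen : ∀ i < 2, π (f i) = P i
  mat : ∀ i < 2, ρ ⟨f i, (f i).2.1⟩ = MatRep.gen CoM.c ms i

theorem exists_act : ∃ π f, Act π f := by
  obtain ⟨π, h₁, h₂⟩ := Rk3Iso.exists_phi (S := Co2) lab lab_inj fun s p hp =>
    (near' (y := s • x p) ((D_s s.2.1 _ _).trans ((D_x hp hp).trans (hL hp).2.1)) (by
      have := D_s s.2.1 (x p) leechU
      rw [show s.1 leechU = leechU from s.2.2] at this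
      exact this.trans ((D_comm _ _).trans (D_u hp)))).imp fun q h => ⟨h.1, (smul_lab s h.2).symm⟩
  obtain ⟨y, hm, hy⟩ := exists_y
  have hu : ∀ i < 2, (y i).1 ∈ Co2 := fun i hi => ⟨(y i).2, hy i (by omega) _ _ _ _ vec_ul vec_ul (by
    interval_cases i
    exacts [fx.1, fx.2.1])⟩
  refine ⟨π, fun i => if h : i < 2 then ⟨_, hu i h⟩ else 1, h₁, fun s p hp =>
    (h₂ s p hp).ge (Set.smul_mem_smul_set (Set.mem_insert _ _)), fun i hi => Equiv.ext fun p => ?_,
    fun i hi => by simp only [dif_pos hi]; exact hm i (by omega)⟩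
  by_cases hp : p < 2300
  · rw [vok.apply i hp, dif_pos hi]
    have hq := ((vok.tok i).symm p hp).1
    refine lab_inj (Rk3Aut.lt_of_fix (h₁ _) hp) hq ((h₂ _ p hp).trans (smul_lab _ ?_))
    have k : ∀ lo, okG i lo 575 = true → lo ≤ p → p < lo + 575 → _ := fun lo h a b => by
      rw [okG, forceM_eq] at h
      exact allR_all h p a b
    have : _ := (by omega : (0 ≤ p ∧ p < 0 + 575 ∨ 575 ≤ p ∧ p < 575 + 575) ∨
        1150 ≤ p ∧ p < 1150 + 575 ∨ 1725 ≤ p ∧ p < 1725 + 575).elim (·.elim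
      (fun h => k _ (by interval_cases i; exacts [g00, g10]) h.1 h.2)
      fun h => k _ (by interval_cases i; exacts [g01, g11]) h.1 h.2) (·.elim
      (fun h => k _ (by interval_cases i; exacts [g02, g12]) h.1 h.2)
      fun h => k _ (by interval_cases i; exacts [g03, g13]) h.1 h.2)
    simp only [forceL_eq, forceB_eq, Bool.or_eq_true, beq_iff_eq] at this
    exact this.imp (hy i (by omega) _ _ _ _ (x_val hp) (x_val hq)) (hy i (by omega) _ _ _ _ (x_val hp) (w_x hq))
  · rw [h₁ _ p (not_lt.1 hp)]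
    simpa [wval, lval] using (tp_fix (wb := nat_lit 12) (mask := nat_lit 4095) vtt [2 * i] (not_lt.1 hp)).symm

namespace Act

variable {π : Co2 →* Perm ℕ} {f : ℕ → Co2} (A : Act π f)
include A

theorem lt (s : Co2) {p : ℕ} (hp : p < 2300) : π s p < 2300 := Rk3Aut.lt_of_fix (A.fix s) hp

theorem good : DCE.Good π (nat_lit 2300) (nat_lit 12) (nat_lit 4095) vtt (ext f 2 vdefs) := fun l p hp => by
  rw [map_lval, funext (map_ext' π f _ A.gen vTM.hd (by decide +kernel) fun i hi => vok.one hi)]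
  exact vok.good l p hp

theorem orb {K : Subgroup Co2} {ks : List (List ℕ)} {ct : List (ℕ × ℕ)} {b n : ℕ}
    (hk : ∀ w ∈ ks, wval (ext f 2 vdefs) w ∈ K)
    (h : bfsM (nat_lit 12) (nat_lit 4095) vtt (nat_lit 2300) ks ct (pt b) (Nat.beq (ivl b n)) = true) {p : ℕ}
    (h1 : b ≤ p) (h2 : p < b + n) : ∃ g ∈ K, π g b = p := by
  obtain ⟨m, hm, e⟩ := bfsM_sound A.good hk (m0 := pt b) ct _ _ (fun p hp => ⟨1, one_mem _, by simpa using hp⟩) h
  obtain ⟨g, hg, e⟩ := hm p (by rw [← Nat.eq_of_beq_eq_true e, testBit_ivl]; simp [h1, h2])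
  rw [testBit_pt, decide_eq_true_eq] at e
  exact ⟨g⁻¹, inv_mem hg, by rw [← e, map_inv]; simp⟩

theorem tr {p : ℕ} (hp : p < 2300) : ∃ g, π g 0 = p :=
  (A.orb (K := ⊤) (fun _ _ => trivial) b0 p.zero_le (by omega)).imp fun _ h => h.2

theorem D_img (s : Co2) (v : leechLattice) {p : ℕ} (hp : p < 2300) : D (x (π s p)) (s • v) = D (x p) v ∨
    D (x (π s p)) (s • v) = D leechU v - D (x p) v := by
  have e := D_s s.2.1 (x p) v
  have e' := D_s s.2.1 leechU v
  rw [show s.1 leechU = leechU from s.2.2] at e'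
  refine (A.img s p hp).imp (fun h => by rw [← h]; exact e) fun h => ?_
  rw [show s.1 (x p) = _ from h, D_w, e'] at e
  change D _ (s.1 v) = _
  omega

theorem adj (s : Co2) {p q : ℕ} (hp : p < 2300) (hq : q < 2300) :
    D (x (π s p)) (x (π s q)) = 8 ↔ D (x p) (x q) = 8 := by
  have e := A.D_img s (x q) hp
  rw [D_u hq] at e
  rcases A.img s q hq with h | h <;> rw [h] at e
  · omega
  · rw [D_comm, D_w, D_u (A.lt s hp), D_comm] at e
    omega

theorem card_aux : Nat.card Co2 ≠ 0 ∧ Nat.card Co2 ≤ 42305421312000 := by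
  classical
  have h := (MulAction.stabilizer Co2 leechV).index_mul_card
  have e : Nat.card (MulAction.stabilizer Co2 leechV) = 898128000 :=
    Co3Model.card_McL ▸ Nat.card_congr (subgroupOfEquivOfLe (show McL ≤ Co2 from fun _ h => ⟨h.1.1, h.2⟩)).toEquiv ▸
      congrArg (fun H : Subgroup Co2 => Nat.card H) (Subgroup.ext fun g => ⟨fun h => ⟨⟨g.2.1, h⟩, g.2.2⟩, fun h => h.1.2⟩)
  have o : ∀ v ∈ MulAction.orbit Co2 leechV, D v v = 48 ∧ D leechU v = -24 := by
    rintro _ ⟨s, rfl⟩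
    have := D_s s.2.1 leechU leechV
    rw [show s.1 leechU = leechU from s.2.2] at this
    exact ⟨(D_s s.2.1 _ _).trans (by decide +kernel), this.trans (by decide +kernel)⟩
  let I : leechLattice → ℕ → Prop := fun v p => D (x p) v = 0 ∨ D (x p) v = -24
  have iv : ∀ s : Co2, ∀ v ∈ MulAction.orbit Co2 leechV, ∀ p < 2300, I v p → I (s • v) (π s p) := fun s v hv p hp h => by
    have := A.D_img s v hp
    rw [(o v hv).2] at this
    simp only [I] at h ⊢
    omega
  have ex : ∀ (g : Co0) (a : leechLattice), g.1 a = leechU → g.1 leechU = x 0 → ∃ F : Finset leechLattice,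
      F.card ≤ 2816 ∧ ∀ v ∈ MulAction.orbit Co2 leechV, D a v = 0 → v ∈ F := fun g a ha hu => by
    refine ⟨(((Finset.Ico 892 2300).image x ∪ (Finset.Ico 892 2300).image (w ∘ x))).image fun y => g.1.symm y - leechU,
      Finset.card_image_le.trans ((Finset.card_union_le _ _).trans
        ((Nat.add_le_add Finset.card_image_le Finset.card_image_le).trans (by simp))), fun v hv h0 => ?_⟩
    obtain ⟨o1, o2⟩ := o v hv
    have a1 : D leechU a = 16 := by rw [← D_s g.2, ha, hu, D_comm, D_u (by decide)]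
    have a2 : D (g.1 (v + leechU)) (x 0) = 8 := by rw [← hu, D_s g.2, D_add, D_comm, o2, D_uu]; rfl
    obtain ⟨q, hq, e⟩ := near' (y := g.1 (v + leechU))
      (by rw [D_s g.2, D_add, D_comm v, D_comm leechU, D_add, D_add, o1, o2, D_comm v, o2, D_uu]; rfl)
      ((congrArg (D _) ha.symm).trans (by rw [D_s g.2, D_add, D_comm v, h0, a1]; rfl))
    have a3 : q ∈ Finset.Ico 892 2300 := by
      have := (D_x hq (by decide)).trans (hL hq).2.2.2.2.2
      rw [Finset.mem_Ico]
      rcases e with e | e <;> rw [e] at a2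
      · split_ifs at this <;> omega
      · rw [D_w, D_u (by decide)] at a2
        split_ifs at this <;> omega
    exact Finset.mem_image.2 ⟨_, Finset.mem_union.2 (e.imp (fun e => Finset.mem_image.2 ⟨q, a3, e.symm⟩)
      fun e => Finset.mem_image.2 ⟨q, a3, e.symm⟩), by simp⟩
  have hF : ∀ p < 2300, ∃ F : Finset leechLattice, F.card ≤ 5632 ∧
      ∀ v ∈ MulAction.orbit Co2 leechV, I v p → v ∈ F := fun p hp => by
    obtain ⟨y, -, hy⟩ := exists_y
    obtain ⟨F, c1, m1⟩ := ex (y 2) (x 0) (hy 2 (by decide) _ _ _ _ (x_val (by decide)) vec_ul fx.2.2.1)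
      (hy 2 (by decide) _ _ _ _ vec_ul (x_val (by decide)) fx.2.2.2.1)
    obtain ⟨F', c2, m2⟩ := ex (y 3) (w (x 0)) (hy 3 (by decide) _ _ _ _ (w_x (by decide)) vec_ul fx.2.2.2.2.1)
      (hy 3 (by decide) _ _ _ _ vec_ul (x_val (by decide)) fx.2.2.2.2.2)
    obtain ⟨s, rfl⟩ := A.tr hp
    refine ⟨(F ∪ F').image (s • ·), Finset.card_image_le.trans ((Finset.card_union_le _ _).trans (by omega)),
      fun v hv h => Finset.mem_image.2 ⟨s⁻¹ • v, ?_, smul_inv_smul s v⟩⟩
    have hv' := MulAction.mapsTo_smul_orbit s⁻¹ leechV hv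
    have := iv s⁻¹ v hv _ hp h
    rw [show π s⁻¹ (π s 0) = 0 by simp] at this
    exact Finset.mem_union.2 (this.imp (m1 _ hv') fun e => m2 _ hv' (by rw [D_w, (o _ hv').2, e]; rfl))
  choose! F c1 m1 using hF
  have lo : ∀ v ∈ MulAction.orbit Co2 leechV, 275 ≤ ((Finset.range 2300).bipartiteAbove I v).card := by
    rintro _ ⟨s, rfl⟩
    rw [← len_inc, ← List.toFinset_card_of_nodup (show inc.Nodup from List.nodup_range.filter _)]
    refine Finset.card_le_card_of_injOn (π s) (fun p hp => ?_) (π s).injective.injOn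
    simp only [inc, Finset.mem_coe, List.mem_toFinset, List.mem_filter, List.mem_range, forceL_eq, Bool.or_eq_true,
      beq_iff_eq] at hp
    refine (Finset.mem_bipartiteAbove _).2 ⟨Finset.mem_range.2 (A.lt s hp.1), iv s _ (MulAction.mem_orbit_self _) p hp.1 ?_⟩
    simp only [I, D, x_val hp.1, show leechV.1 = vec vl from vec_vl, dot_vec (len_L p).le]
    exact hp.2
  have fi : (MulAction.orbit Co2 leechV).Finite := ((Finset.range 2300).biUnion F).finite_toSet.subset fun v hv => by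
    obtain ⟨p, hp⟩ := Finset.card_pos.1 ((show 0 < 275 by decide).trans_le (lo v hv))
    obtain ⟨h1, h2⟩ := (Finset.mem_bipartiteAbove _).1 hp
    exact Finset.mem_biUnion.2 ⟨p, h1, m1 p (Finset.mem_range.1 h1) v hv h2⟩
  have h₁ := Finset.card_mul_le_card_mul I (s := fi.toFinset) (t := Finset.range 2300) (m := 275) (n := 5632)
    (fun v hv => lo v (fi.mem_toFinset.1 hv)) fun p hp => (Finset.card_le_card fun v hv => by
      obtain ⟨h1, h2⟩ := (Finset.mem_bipartiteBelow _).1 hv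
      exact m1 p (Finset.mem_range.1 hp) v (fi.mem_toFinset.1 h1) h2).trans (c1 p (Finset.mem_range.1 hp))
  have h₂ := (Set.ncard_pos fi).2 ⟨_, MulAction.mem_orbit_self _⟩
  rw [← Set.ncard_eq_toFinset_card _ fi, Finset.card_range, ← MulAction.index_stabilizer] at h₁
  rw [← MulAction.index_stabilizer] at h₂
  rw [e] at h
  omega

end Act

instance : Finite Co2 := by
  obtain ⟨π, f, A⟩ := exists_act
  exact Nat.finite_of_card_ne_zero A.card_aux.1

theorem card_eq : Nat.card Co2 = 42305421312000 := by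
  obtain ⟨π, f, A⟩ := exists_act
  exact A.card_aux.2.antisymm ((vTM.le_card π A.gen).trans (card_le_card_group _))

namespace Act

variable {π : Co2 →* Perm ℕ} {f : ℕ → Co2} (A : Act π f)
include A

theorem top : gp f (sing 2) = ⊤ := eq_top_of_le_card _ (card_eq ▸ vTM.le_card π A.gen)

theorem model : Nonempty (Model (ext f 2 vdefs) ⊤ ⊥ (nat_lit 2300) (nat_lit 12) (nat_lit 4095) vtt (vch.map Lv.b)
    42305421312000) := vTM.hmodel A.top π A.gen card_eq.le

theorem inj : Function.Injective π := by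
  have hs := π.rangeRestrict_surjective
  have := Finite.of_surjective _ hs
  have e : gp (fun i => π (f i)) (sing 2) = π.range := by rw [← map_gp, A.top, MonoidHom.range_eq_map]
  have : Finite (gp (fun i => π (f i)) (sing 2)) := e ▸ this
  have := (hs.bijective_of_nat_card_le (by
    rw [card_eq, ← e]; exact vTM.le_card (MonoidHom.id _) A.gen)).1
  exact fun a b h => this (Subtype.ext h)

end Act

theorem exists_model : ∃ f : ℕ → Co2, gp f (sing 2) = ⊤ ∧
    Nonempty (Model (ext f 2 vdefs) ⊤ ⊥ (nat_lit 2300) (nat_lit 12) (nat_lit 4095) vtt (vch.map Lv.b)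
      42305421312000) := exists_act.elim fun _ h => h.imp fun _ A => ⟨A.top, A.model⟩

theorem rank3' {G : Type*} [Group G] {π : Co2 →* Perm ℕ} {f : ℕ → Co2} (A : Act π f) (e : G ≃* Co2) {H : Subgroup G}
    (hs : ∀ g, g ∈ H ↔ π.comp e.toMonoidHom g 0 = 0) : IsCoatom H ∧ H.index = 2300 ∧
      ∃ q₁ q₂ : G ⧸ H, (MulAction.orbit H q₁).ncard = 891 ∧ (MulAction.orbit H q₂).ncard = 1408 := by
  set φ := π.comp e.toMonoidHom
  have tr : ∀ p < 2300, ∃ g, φ g 0 = p := fun p hp => (A.tr hp).elim fun g h => ⟨e.symm g, by simpa [φ] using h⟩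
  have hk : ∀ w ∈ k1, wval (ext f 2 vdefs) w ∈ H.map e.toMonoidHom := fun w hw => ⟨e.symm _, (hs _).2 (by
    have := ap1_eq A.good w (p := 0) (by decide)
    rw [(by decide +kernel : ∀ w ∈ k1, ap1 (nat_lit 12) (nat_lit 4095) vtt w 0 = 0) w hw, eq_comm,
      Perm.inv_eq_iff_eq] at this
    simpa [φ] using this.symm), e.apply_symm_apply _⟩
  have c0 : ∀ p < 2300, D (x p) (x 0) = 8 ↔ 892 ≤ p := fun p hp => by
    rw [D_x hp (by decide), (hL hp).2.2.2.2.2]
    split_ifs <;> omega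
  have cl : ∀ h ∈ H, ∀ p < 2300, 892 ≤ φ h p ↔ 892 ≤ p := fun h hh p hp => by
    rw [← c0 p hp, ← A.adj (e h) hp (q := 0) (by decide), show π (e h) 0 = 0 from (hs h).1 hh]
    exact (c0 _ (A.lt (e h) hp)).symm
  have o1 : {i | ∃ h ∈ H, φ h 1 = i} = Set.Ico 1 892 := Set.ext fun p => ⟨by
    rintro ⟨h, hh, rfl⟩
    have := cl h hh 1 (by decide)
    have : φ h 1 ≠ φ h 0 := (φ h).injective.ne (by decide)
    rw [(hs h).1 hh] at this
    constructor <;> omega, fun hp => by
    obtain ⟨_, ⟨g, hg, rfl⟩, h⟩ := A.orb hk b1 hp.1 hp.2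
    exact ⟨g, hg, h⟩⟩
  have o2 : {i | ∃ h ∈ H, φ h 892 = i} = Set.Ico 892 2300 := Set.ext fun p => ⟨by
    rintro ⟨h, hh, rfl⟩
    exact ⟨(cl h hh 892 (by decide)).2 le_rfl, A.lt _ (by decide)⟩, fun hp => by
    obtain ⟨_, ⟨g, hg, rfl⟩, h⟩ := A.orb hk b2 hp.1 hp.2
    exact ⟨g, hg, h⟩⟩
  obtain ⟨g₁, h₁⟩ := tr 1 (by decide)
  obtain ⟨g₂, h₂⟩ := tr 892 (by decide)
  refine ⟨⟨fun h => absurd ((hs g₁).1 (h.ge trivial)) (by rw [h₁]; decide), fun K hK => ?_⟩, ?_, g₁, g₂, ?_, ?_⟩
  · let O : Set ℕ := {p | ∃ k ∈ K, φ k 0 = p}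
    have st : ∀ k ∈ K, ∀ p ∈ O, φ k p ∈ O := by
      rintro k hk _ ⟨l, hl, rfl⟩
      exact ⟨k * l, mul_mem hk hl, by rw [map_mul]; rfl⟩
    have sub : ∀ {b S}, {i | ∃ h ∈ H, φ h b = i} = S → ∀ p ∈ S, p ∈ O ↔ b ∈ O := fun e p hp => by
      obtain ⟨h, hh, rfl⟩ := e.ge hp
      exact ⟨fun h' => by simpa using st h⁻¹ (inv_mem (hK.le hh)) _ h', st h (hK.le hh) _⟩
    have back : ∀ k ∈ K, ∀ q < 2300, ∃ r < 2300, φ k r = q ∧ (r ∈ O → q ∈ O) := fun k hk q hq =>
      ⟨φ k⁻¹ q, A.lt _ hq, by simp, fun h => by simpa using st k hk _ h⟩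
    have z : 0 ∈ O := ⟨1, one_mem _, by simp⟩
    have i1 : 1 ∈ O → 892 ∈ O := fun h => by
      obtain ⟨k, hk, e0⟩ := id h
      obtain ⟨r, hr, e1, hO⟩ := back k hk 892 (by decide)
      have := A.adj (e k) hr (q := 0) (by decide)
      rw [show π (e k) r = 892 from e1, show π (e k) 0 = 1 from e0, c0 r hr, D_comm, D_x (by decide) (by decide)] at this
      rcases Nat.eq_zero_or_pos r with rfl | h0
      · exact hO z
      · exact hO ((sub o1 r ⟨h0, not_le.1 fun h => wit.1 (this.2 h)⟩).2 h)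
    have i2 : 892 ∈ O → 1 ∈ O := fun h => by
      obtain ⟨k, hk, e0⟩ := id h
      obtain ⟨r, hr, e1, hO⟩ := back k hk 4 (by decide)
      have := A.adj (e k) hr (q := 0) (by decide)
      rw [show π (e k) r = 4 from e1, show π (e k) 0 = 892 from e0, c0 r hr, D_comm, D_x (by decide) (by decide)] at this
      exact (sub o1 4 (by decide)).1 (hO ((sub o2 r ⟨this.1 wit.2, hr⟩).2 h))
    obtain ⟨k, hk, hn⟩ := SetLike.exists_of_lt hK
    have i3 : 1 ∈ O ∧ 892 ∈ O := by
      have l := A.lt (e k) (p := 0) (by decide)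
      have n := Nat.pos_of_ne_zero (mt (hs k).2 hn)
      rcases lt_or_ge (φ k 0) 892 with h | h
      · exact (fun h => ⟨h, i1 h⟩) ((sub o1 _ ⟨n, h⟩).1 ⟨k, hk, rfl⟩)
      · exact (fun h => ⟨i2 h, h⟩) ((sub o2 _ ⟨h, l⟩).1 ⟨k, hk, rfl⟩)
    refine top_le_iff.1 fun g _ => ?_
    obtain ⟨k, hk, e0⟩ : φ g 0 ∈ O := by
      have l := A.lt (e g) (p := 0) (by decide)
      rcases Nat.eq_zero_or_pos (φ g 0) with n | n
      · rwa [n]
      rcases lt_or_ge (φ g 0) 892 with h | h
      exacts [(sub o1 _ ⟨n, h⟩).2 i3.1, (sub o2 _ ⟨h, l⟩).2 i3.2]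
    exact mem_of_same_point hs hK.le hk e0
  · have : Set.range (toPt hs) = Set.Iio 2300 := Set.ext fun p => ⟨by
      rintro ⟨q, rfl⟩
      induction q using QuotientGroup.induction_on with | H g => exact A.lt (e g) (by decide),
      fun hp => (tr p hp).elim fun g h => ⟨g, h⟩⟩
    rw [index, ← Nat.card_range_of_injective (toPt_injective hs), this, Nat.card_coe_set_eq, Set.ncard_Iio_nat]
  · rw [← Set.ncard_image_of_injective _ (toPt_injective hs), image_orbit, h₁, o1]
    simp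
  · rw [← Set.ncard_image_of_injective _ (toPt_injective hs), image_orbit, h₂, o2]
    simp

theorem rank3 {G : Type*} [Group G] (e : G ≃* Co2) : ∃ H : Subgroup G, IsCoatom H ∧ H.index = 2300 ∧
    ∃ q₁ q₂ : G ⧸ H, (MulAction.orbit H q₁).ncard = 891 ∧ (MulAction.orbit H q₂).ncard = 1408 := by
  obtain ⟨π, f, A⟩ := exists_act
  exact ⟨(MulAction.stabilizer (Perm ℕ) 0).comap (π.comp e.toMonoidHom), rank3' A e fun _ => Iff.rfl⟩

theorem simple : IsSimpleGroup Co2 := by
  obtain ⟨π, f, A⟩ := exists_act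
  obtain ⟨M⟩ := A.model
  let H := (MulAction.stabilizer (Perm ℕ) 0).comap π
  obtain ⟨h1, h2, -⟩ := rank3' A (MulEquiv.refl _) (H := H) fun _ => Iff.rfl
  refine isSimpleGroup_of h1 (fun N hN hH => eq_bot_iff.2 fun g hg => A.inj (Equiv.ext fun p => ?_)) (p := 23)
    (by norm_num) ?_ fun N hN h => top_le_iff.1 (A.top ▸ gp_le.2 ?_)
  · rw [map_one]
    rcases lt_or_ge p 2300 with hp | hp
    · obtain ⟨s, rfl⟩ := A.tr hp
      have : π (s⁻¹ * g * s⁻¹⁻¹) 0 = 0 := hH (hN.conj_mem g hg s⁻¹)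
      rwa [inv_inv, map_mul, map_mul, map_inv, Perm.mul_apply, Perm.mul_apply, Perm.inv_eq_iff_eq] at this
    · exact A.fix g p hp
  · have := H.index_mul_card
    rw [h2, card_eq] at this
    omega
  · have a : wval (ext f 2 vdefs) [0] ∈ N := by
      rw [M.eq [0] (invW [1, 5, 1] ++ [1, 5]) (by decide +kernel), wval_append, wval_invW]
      exact mul_mem (inv_mem (h _ (M.pow _ 23 (by decide +kernel)))) (h _ (M.pow _ 23 (by decide +kernel)))
    have b : wval (ext f 2 vdefs) [2] ∈ N := mem_of_pow (pow_mem a 3) (n := 15) (m := 2) (by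
      rw [← wval_rep, ← wval_append]; exact M.pow _ 15 (by decide +kernel)) (M.pow _ 2 (by decide +kernel)) rfl
    rw [wval_ext _ _ _ _ (by decide)] at a b
    exact List.forall_mem_cons.2 ⟨a, List.forall_mem_singleton.2 b⟩

end Cfsg.Agent.Lib.Co2M
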