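import Cfsg.Agent.Lib.Co2SB
import Cfsg.Agent.Lib.Co2M

/-! The amalgam of the involution centraliser generates the second Conway group. -/

set_option autoImplicit false
set_option maxRecDepth 100000

namespace Cfsg.Agent.Lib.Co2Fin

open Subgroup Cfsg.Agent.Lib.PermNet Cfsg.Agent.Lib.Words Cfsg.Agent.Lib.PermGroup Cfsg.Agent.Lib.DCE
  Cfsg.Agent.Lib.BT

/-- All relators. -/
abbrev KR : List (List ℕ) := Co2TC.KH ++ Co2HD.RR

theorem index {X : Type*} [Group X] (x : ℕ → X) (h : ∀ w ∈ KR, wval x w = 1)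
    (ht : x 14 ∉ gp x (sing 14)) : (gp x (sing 14)).relIndex (gp x (sing 15)) = 56925 := by
  let y : ℕ → gp x (sing 15) := fun i => if h : i < 15 then ⟨x i, mem_sing x h⟩ else 1
  have hy : ∀ i < 15, (y i).1 = x i := fun i hi => by simp [y, hi]
  have hr : ∀ w ∈ KR, wval y w = 1 := fun w hw => Subtype.ext
    ((map_wval (Subgroup.subtype _) y w).trans ((wval_congr hy (by
      simpa using List.all_eq_true.1 (by decide +kernel : KR.all (lt2 15) = true) w hw)).trans (h w hw)))
  have ty : gp y (sing 15) = ⊤ := by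
    apply map_injective (gp x (sing 15)).subtype_injective
    rw [map_gp, ← MonoidHom.range_eq_map, range_subtype]
    exact gp_congr hy (by decide)
  have e : (gp y (sing 14)).map (gp x (sing 15)).subtype = gp x (sing 14) := by
    rw [map_gp]
    exact gp_congr (n := 14) (fun i hi => hy i (by omega)) (by decide)
  rw [relIndex, ← e, subgroupOf, comap_map_eq_self_of_injective (gp x (sing 15)).subtype_injective]
  exact Co2HD.ok.main y (fun w hw => hr w (List.mem_append_right _ hw)) ty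
    (Co2TC.card_le _ (rels_pair (fun w hw => hr w (List.mem_append_left _ hw))
      ((by decide +kernel : Co2HD.K1 = Co2TC.KH) ▸ Co2HD.hK1)))
    fun _ h => ht (e ▸ hy 14 (by decide) ▸ mem_map_of_mem _ h)

theorem card_eq {X : Type*} [Group X] (x : ℕ → X) (h : ∀ w ∈ KR, wval x w = 1)
    (ht : x 14 ∉ gp x (sing 14)) : Nat.card (gp x (sing 15)) = 56925 * Nat.card (gp x (sing 14)) := by
  rw [← index x h ht, ← ((gp x (sing 14)).subgroupOf (gp x (sing 15))).index_mul_card,
    Nat.card_congr (subgroupOfEquivOfLe (gp_mono (by decide))).toEquiv, relIndex]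

theorem card_le {X : Type*} [Group X] (x : ℕ → X) (h : ∀ w ∈ KR, wval x w = 1) :
    Nat.card (gp x (sing 15)) ≠ 0 ∧ Nat.card (gp x (sing 15)) ≤ 42305421312000 := by
  have h2 := Co2TC.card_le x fun w hw => h w (List.mem_append_left _ hw)
  by_cases ht : x 14 ∈ gp x (sing 14)
  · rw [show gp x (sing 15) = gp x (sing 14) from (gp_le.2 fun w hw => by
      rcases List.mem_append.1 (show w ∈ sing 14 ++ [[28]] from hw) with e | e
      · exact subset_closure ⟨w, e, rfl⟩
      · rwa [List.mem_singleton.1 e, show [28] = [2 * 14] from rfl, wval_single]).antisymm (gp_mono (by decide))]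
    omega
  · have := card_eq x h ht
    omega

theorem exists_phi : ∃ φ : ℕ → Spor.Co2, gp φ (sing 15) = ⊤ ∧ ∀ w ∈ KR, wval φ w = 1 := by
  obtain ⟨f, top, ⟨M⟩⟩ := Co2M.exists_model
  let W : List (List ℕ) := [[4, 9, 0, 5, 12, 11, 12, 17, 27, 29, 25, 23],
    [0, 4, 4, 1, 9, 25, 5, 19, 16, 11, 25, 23, 17, 29, 25, 23],
    [18, 1, 19, 19, 15, 31, 19, 31, 25, 23, 23, 31],
    [4, 10, 5, 1, 5, 25, 5, 5, 14, 21, 12, 11, 25, 16, 16, 31, 22, 31],
    [18, 1, 31, 21, 15, 27, 18, 22],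
    [18, 18, 1, 27, 17, 15, 21, 31, 21, 29, 31, 23, 31],
    [31, 1, 23, 21, 15, 23, 18, 17, 29, 23],
    [20, 19, 16, 25],
    [25, 13, 1, 11, 17, 13, 23, 23, 17, 29, 25, 22, 31],
    [1, 23, 21, 15, 21, 25, 16, 29, 25, 22, 31],
    [10, 5, 1, 15, 25, 5, 20, 18, 11, 18, 16, 16, 25, 31],
    [25, 13, 1, 11, 17, 13, 27, 25, 17, 23, 23],
    [1, 5, 1, 15, 25, 5, 19, 10, 14, 23, 19, 16, 31, 23, 31],
    [25, 21, 21, 31, 25, 31],
    [4, 21, 1, 29, 4, 22, 13, 13, 21, 18, 18, 29, 27, 31]]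
  refine ⟨fun i => wval (ext f 2 Co2M.vdefs) (W.getD i []), top_le_iff.1 (top ▸ gp_le.2 ?_), fun w hw => ?_⟩
  · have key : ∀ v u, (band (lt2 2 v && lt2 15 u) (fixW (nat_lit 12) (nat_lit 4095) Co2M.vtt
        (Co2M.vch.map Lv.b) (v ++ invW (subst W u)))) = true →
        wval f v ∈ gp (fun i => wval (ext f 2 Co2M.vdefs) (W.getD i [])) (sing 15) := fun v u h => by
      obtain ⟨h1, h2⟩ := band_eq h
      rw [Bool.and_eq_true] at h1
      rw [← wval_ext f 2 Co2M.vdefs v h1.1, M.eq _ _ h2, wval_subst]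
      exact wval_mem fun l hl => mem_sing _ (by
        have := List.all_eq_true.1 h1.2 l hl
        simp only [decide_eq_true_eq] at this
        omega)
    exact List.forall_mem_cons.2 ⟨key _ [18, 7, 28, 10, 1, 5, 7, 0, 4, 2, 0, 11, 8, 7, 3, 9, 5, 1, 7, 5, 2, 26, 22, 18, 12, 14, 12] (by decide +kernel),
      List.forall_mem_singleton.2 (key _ [10, 26, 1, 28, 1, 28, 4, 11, 6, 0, 4, 2, 0, 8, 7, 2, 10, 1, 2, 8, 7, 5, 2, 26, 22, 20, 18, 16, 14] (by decide +kernel))⟩
  · rw [← wval_subst]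
    exact M.rels (KR.map (subst W)) (by decide +kernel) _ (List.mem_map_of_mem hw)

theorem iso0 {G : Type*} [Group G] {F : ℕ → G} (h : ∀ w ∈ KR, wval F w = 1)
    (hc : Nat.card (gp F (sing 15)) = 42305421312000) : Nonempty (gp F (sing 15) ≃* Spor.Co2) := by
  obtain ⟨φ, top, hφ⟩ := exists_phi
  let x := fun i => (F i, φ i)
  have h1 := card_le x (rels_pair h hφ)
  have : Finite (gp x (sing 15)) := Nat.finite_of_card_ne_zero h1.1
  have e1 : (gp x (sing 15)).map (MonoidHom.fst _ _) = gp F (sing 15) := map_gp _ _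
  have e2 : (gp x (sing 15)).map (MonoidHom.snd _ _) = ⊤ := (map_gp _ _).trans top
  have b1 := ((MonoidHom.fst _ _).subgroupMap_surjective (gp x (sing 15))).bijective_of_nat_card_le
    (by rw [e1]; omega)
  have b2 := ((MonoidHom.snd _ _).subgroupMap_surjective (gp x (sing 15))).bijective_of_nat_card_le
    (by rw [e2, card_top, Co2M.card_eq]; omega)
  exact ⟨(((MulEquiv.subgroupCongr e1.symm).trans (MulEquiv.ofBijective _ b1).symm).trans
    (MulEquiv.ofBijective _ b2)).trans ((MulEquiv.subgroupCongr e2).trans topEquiv)⟩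

end Cfsg.Agent.Lib.Co2Fin
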