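import Cfsg.Agent.Lib.Co2F1
import Cfsg.Agent.Lib.Co2L
import Cfsg.Agent.Lib.Co2E
import Cfsg.Agent.Lib.BT7

/-! A finite group with the amalgam and the fusion of the second Conway group is that group. -/

set_option autoImplicit false
set_option maxRecDepth 100000

namespace Cfsg.Agent.Lib.Co2Fin

open Subgroup Cfsg.Agent.Lib.PermNet Cfsg.Agent.Lib.Words Cfsg.Agent.Lib.PermGroup Cfsg.Agent.Lib.DCE
  Cfsg.Agent.Lib.BT Cfsg.Agent.Lib.Co2SB

section
variable {G : Type*} [Group G] {F : ℕ → G} {H : Subgroup G} {N wb mask : ℕ} {tt : TT} {B : List ℕ} {T : ℕ}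

open Classical in
/-- The values of a list of words. -/
noncomputable def vals (F : ℕ → G) (ws : List (List ℕ)) : Finset G := (ws.map (wval F)).toFinset

theorem mem_vals {ws : List (List ℕ)} {v : G} : v ∈ vals F ws ↔ ∃ w ∈ ws, wval F w = v := by simp [vals]

theorem card_vals (M : Model F H ⊥ N wb mask tt B T) (ws ks : List (List ℕ))
    (h : ws.map (fun w => B.map (ap1 wb mask tt w)) = ks ∧ ks.Nodup) : (vals F ws).card = ws.length := by
  classical
  rw [vals, List.toFinset_card_of_nodup, List.length_map]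
  refine List.pairwise_map.2 ((List.pairwise_map.1 (h.1 ▸ h.2)).imp fun {u v} h e => h ?_)
  refine List.map_congr_left fun b hb => ?_
  rw [ap1_eq M.good _ (M.hB b hb), ap1_eq M.good _ (M.hB b hb),
    show wval M.y u = wval M.y v from Subtype.ext (by rw [M.val, M.val, e])]

theorem nrm (M : Model F H ⊥ N wb mask tt B T) (ws : List (List ℕ)) (L : List (ℕ × List ℕ))
    (h : allL (fun e => band (Nat.beq e.2.length ws.length) (allL (fun p => band (Nat.blt p.2 ws.length)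
      (fixW wb mask tt B (([2 * e.1] ++ p.1 ++ invW [2 * e.1]) ++ invW (ws.getD p.2 [])))) (ws.zip e.2))) L = true) :
    gp F (sl (L.map Prod.fst)) ≤ normalizer (vals F ws : Set G) := gp_le.2 fun w hw => by
  obtain ⟨_, hi, rfl⟩ := List.mem_map.1 hw
  obtain ⟨e, he, rfl⟩ := List.mem_map.1 hi
  obtain ⟨h1, h2⟩ := band_eq (allL_all h e he)
  refine mem_normalizer_fintype fun n hn => ?_
  obtain ⟨u, hu, rfl⟩ := mem_vals.1 hn
  rw [← List.map_fst_zip (beq_eq h1).ge] at hu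
  obtain ⟨p, hp, rfl⟩ := List.mem_map.1 hu
  obtain ⟨h3, h4⟩ := band_eq (allL_all h2 p hp)
  rw [M.cj _ _ _ h4]
  exact mem_vals.2 ⟨_, by rw [List.getD_eq_getElem _ _ (blt_lt h3)]; exact List.getElem_mem _, rfl⟩

theorem fixp {S : Finset G} {τ : G} (h : τ ∈ normalizer (S : Set G)) (h3 : τ ^ 3 = 1) (hS : ¬ 3 ∣ S.card) :
    ∃ w ∈ S, τ * w * τ⁻¹ = w := by
  have := Fact.mk Nat.prime_three
  obtain ⟨v, hv⟩ := Equiv.Perm.exists_fixed_point_of_prime (p := 3) (n := 1) (α := S) (by rwa [Fintype.card_coe])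
    (σ := (MulAut.toPerm G (MulAut.conj τ)).subtypePerm fun x => (mem_set_normalizer_iff.1 h x).symm)
      ((Equiv.Perm.subtypePerm_pow ..).trans <| Equiv.ext fun x => Subtype.ext (by
        change (MulAut.toPerm G (MulAut.conj τ) ^ 3 ^ 1) x = x
        rw [← map_pow, ← map_pow, pow_one, h3, map_one, map_one]; rfl))
  exact ⟨v, v.2, congrArg Subtype.val hv⟩

end

/-- Conjugates of the central involution. -/
def cz (k : List ℕ) : List ℕ := k ++ [30] ++ invW k

theorem wval_cz {G : Type*} [Group G] (F : ℕ → G) (k : List ℕ) :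
    wval F (cz k) = wval F k * wval F [30] * (wval F k)⁻¹ := by
  rw [cz, wval_append, wval_append, wval_invW]

variable {G : Type*} [Group G] {Φ : ℕ → G} {H : Subgroup G}
  (M : Model Φ H ⊥ (nat_lit 2300) (nat_lit 12) (nat_lit 4095) ltt (lch.map Lv.b) 42305421312000)
include M

theorem cenb {g : G} (hg : g ∈ H) (e : g * wval Φ [12] = wval Φ [12] * g) : g ∈ gp Φ (sl KLb) := by
  obtain ⟨k, hk, u, hu, z, rfl, rfl⟩ := M.solve (M.ch_top lch (by rw [lc]; decide +kernel)) (fun l _ => M.lmem _) sb hg hg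
    (.inl rfl) (comm_pairs _ (List.forall_mem_singleton.2 e)) (by simp) (by simp)
  exact mul_mem (mul_mem hk (wval_mem fun l hl => mem_of_okL _ (allL_all hu l hl))) (one_mem _)

theorem cenc {g : G} (hg : g ∈ H) (e : g * (wval Φ [30] * wval Φ [32]) = wval Φ [30] * wval Φ [32] * g) :
    g * wval Φ [30] * g⁻¹ = wval Φ [30] ∨ g * wval Φ [30] * g⁻¹ = wval Φ [32] := by
  have e1 := M.cj [62] [30] [64] (by decide +kernel)
  have e2 := M.cj [62] [32] [66] (by decide +kernel)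
  have e3 := M.eq ([64] ++ [66]) [68] (by decide +kernel)
  have hh := M.mem [62]
  have hg' := mul_mem (mul_mem hh hg) (inv_mem hh)
  obtain ⟨k, hk, u, hu, z, rfl, e4⟩ := M.solve (M.ch_top lchc (by rw [lcc]; decide +kernel)) (fun l _ => M.lmem _) sc
    hg' hg' (.inl rfl) (comm_pairs _ (List.forall_mem_singleton.2 (by
      rw [← e3, wval_append, ← e1, ← e2, conj_mul, conj_mul, conj_mul, e]))) (by simp) (by simp)
  have := (mem_set_normalizer_iff.1 (nrm M [[64], [66]] nC (by decide +kernel) (e4 ▸ mul_mem (mul_mem hk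
    (wval_mem fun l hl => mem_of_okL _ (allL_all hu l hl))) (one_mem _))) _).1 (mem_vals.2 ⟨[64], by simp, rfl⟩)
  obtain ⟨w, hw, e5⟩ := mem_vals.1 this
  rw [← e1, conj_inv, conj_mul, conj_mul] at e5
  simp only [List.mem_cons, List.not_mem_nil, or_false] at hw
  refine hw.imp (fun h => ?_) fun h => ?_
  · rw [h, ← e1] at e5
    simpa using e5.symm
  · rw [h, ← e2] at e5
    simpa using e5.symm

theorem rc (i : ℕ) (hi : i < 11) : let r := wval Φ (reps.getD i [])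
    (r = 1 ∨ r = wval Φ [30] ∨ r = wval Φ [32]) ∨ ((∃ m ∈ H, m * wval Φ [30] * m⁻¹ = r) ∧
      ∃ m ∈ H, m * wval Φ [12] * m⁻¹ = wval Φ [30] * r) ∨ (∃ m ∈ H, m * wval Φ [12] * m⁻¹ = r) ∨
      ∃ m ∈ H, m * wval Φ ([30] ++ [32]) * m⁻¹ = r := by
  have k : ∀ u v w, fixW (nat_lit 12) (nat_lit 4095) ltt (lch.map Lv.b) ((u ++ v ++ invW u) ++ invW w) = true →
      ∃ m ∈ H, m * wval Φ v * m⁻¹ = wval Φ w := fun u v w h => ⟨_, M.mem u, M.cj u v w h⟩
  interval_cases i
  exacts [.inl (.inl rfl), .inl (.inr (.inl (M.eq _ _ (by decide +kernel)))),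
    .inr (.inr (.inl (k [] _ _ (by decide +kernel)))), .inl (.inr (.inr (M.eq _ _ (by decide +kernel)))),
    .inr (.inr (.inr (k [] _ _ (by decide +kernel)))),
    .inr (.inl ⟨k [95, 78, 42] _ _ (by decide +kernel), wval_append Φ _ _ ▸
      k [53, 0, 36, 15, 57, 41, 53, 47, 101, 47, 56] _ _ (by decide +kernel)⟩),
    .inr (.inr (.inl (k [53, 0, 36, 15, 57, 41, 53, 47, 101, 47, 56] _ _ (by decide +kernel)))),
    .inr (.inr (.inr (k [33, 19, 103, 37, 15, 41, 81, 89, 47] _ _ (by decide +kernel)))),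
    .inr (.inr (.inl (k [76, 3, 55, 15, 49, 80, 105, 48, 58] _ _ (by decide +kernel)))),
    .inr (.inr (.inr (k [82, 31, 83, 39, 80, 89] _ _ (by decide +kernel)))),
    .inr (.inr (.inr (k [72, 72, 36, 84, 37, 96, 27, 49, 51, 85, 61] _ _ (by decide +kernel))))]

theorem top [Finite G] (hC : centralizer {wval Φ [30]} ≤ H) (hi : (centralizer {wval Φ [30]}).relIndex H = 56925)
    (cls : ∀ v ∈ centralizer {wval Φ [30]}, v * v = 1 → ∃ k ∈ centralizer {wval Φ [30]}, ∃ i < 11,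
      k * v * k⁻¹ = wval Φ (reps.getD i []))
    (nb : ¬ IsConj (wval Φ [30]) (wval Φ [12])) (nc : ¬ IsConj (wval Φ [30]) (wval Φ [30] * wval Φ [32])) : H = ⊤ := by
  have hC' : ∀ g, g * wval Φ [30] = wval Φ [30] * g → g ∈ H := fun g h => hC (mem_centralizer_singleton_iff.2 h)
  have zz : wval Φ [30] * wval Φ [30] = 1 := (wval_append ..).symm.trans (M.one _ (by decide +kernel))
  have z1 : wval Φ [30] ≠ 1 := M.ne_one _ (by decide +kernel)
  have ty := M.cj [28] [30] [32] (by decide +kernel)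
  have cl : ∀ v ∈ H, v * v = 1 → v = 1 ∨ ∃ m ∈ H, m * wval Φ [30] * m⁻¹ = v ∨ m * wval Φ [12] * m⁻¹ = v ∨
      m * (wval Φ [30] * wval Φ [32]) * m⁻¹ = v := fun v hv h => by
    obtain ⟨m, hm, h1⟩ := conj_into (H := centralizer {wval Φ [30]}) (k := 1) Nat.prime_two (by rw [hi]; decide)
      (zpowers_le.2 hv) (by
        rintro _ ⟨n, rfl⟩
        rw [← zpow_natCast, ← zpow_mul, mul_comm, zpow_mul, zpow_natCast, pow_one, sq, h, one_zpow])
    obtain ⟨k, hk, i, hi, e⟩ := cls _ (h1 v (mem_zpowers v)) (by rw [conj_mul, h]; simp)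
    have g : ∀ {x n}, n ∈ H → n * x * n⁻¹ = wval Φ (reps.getD i []) → m⁻¹ * k⁻¹ * n ∈ H ∧
        m⁻¹ * k⁻¹ * n * x * (m⁻¹ * k⁻¹ * n)⁻¹ = v := fun {x n} hn e' => ⟨mul_mem (mul_mem (inv_mem hm) (inv_mem (hC hk))) hn, by
      calc _ = m⁻¹ * k⁻¹ * (n * x * n⁻¹) * k * m := by group
        _ = v := by rw [e', ← e]; group⟩
    rcases rc M i hi with (h | h | h) | ⟨⟨n, hn, h⟩, -⟩ | ⟨n, hn, h⟩ | ⟨n, hn, h⟩
    · exact .inl (by simpa using e.trans h)
    · exact .inr ⟨_, (g (one_mem _) (by rw [h]; simp)).imp_right .inl⟩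
    · exact .inr ⟨_, (g (M.mem _) (ty.trans h.symm)).imp_right .inl⟩
    · exact .inr ⟨_, (g hn h).imp_right .inl⟩
    · exact .inr ⟨_, (g hn h).imp_right (.inr ∘ .inl)⟩
    · exact .inr ⟨_, (g hn (wval_append Φ _ _ ▸ h)).imp_right (.inr ∘ .inr)⟩
  have h1 : ∀ v ∈ H, IsConj (wval Φ [30]) v → ∃ m ∈ H, m * wval Φ [30] * m⁻¹ = v := fun v hv h => by
    rcases cl v hv (InvolCount.sq_of_isConj zz h) with rfl | ⟨m, hm, e | e | e⟩
    exacts [absurd (isConj_one_left.1 h) z1, ⟨m, hm, e⟩, absurd (h.trans (isConj_iff.2 ⟨m, e⟩).symm) nb,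
      absurd (h.trans (isConj_iff.2 ⟨m, e⟩).symm) nc]
  have nbc : ∀ m ∈ H, m * wval Φ [12] * m⁻¹ ≠ wval Φ [30] * wval Φ [32] := fun m hm e =>
    absurd (M.nfix_conj hm (e.trans (wval_append ..).symm)) (by decide +kernel)
  have zT : wval Φ [30] ∈ vals Φ (Tk.map cz) := mem_vals.2 ⟨[30], by decide +kernel, rfl⟩
  have nT' : ∀ g ∈ H, g * wval Φ [12] = wval Φ [12] * g → g * wval Φ [30] * g⁻¹ ∈ vals Φ (Tk.map cz) := fun g hg e =>
    (mem_set_normalizer_iff.1 (nrm M _ nT (by decide +kernel) (cenb M hg e)) _).1 zT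
  have t2 : ∀ v ∈ vals Φ (Tk.map cz), (∃ x, x * wval Φ [12] = wval Φ [12] * x ∧ x * wval Φ [30] * x⁻¹ = v) ∧
      v * wval Φ [30] = wval Φ [30] * v := fun v hv => by
    obtain ⟨_, hw, rfl⟩ := mem_vals.1 hv
    obtain ⟨k, hk, rfl⟩ := List.mem_map.1 hw
    obtain ⟨a, b⟩ := band_eq (allL_all (by decide +kernel : allL (fun k => band
      (cmW (nat_lit 12) (nat_lit 4095) ltt (lch.map Lv.b) k [12])
      (cmW (nat_lit 12) (nat_lit 4095) ltt (lch.map Lv.b) (cz k) [30])) Tk = true) k hk)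
    exact ⟨⟨_, M.comm _ _ a, (wval_cz _ _).symm⟩, M.comm _ _ b⟩
  refine Co2E.eq_top (vals Φ (Tk.map cz)) zz ((wval_append ..).symm.trans (M.one _ (by decide +kernel)))
    (M.comm _ _ (by decide +kernel)) (M.ne _ _ (by decide +kernel)) (M.comm _ _ (by decide +kernel))
    ⟨_, M.mem _, ty, M.cj _ _ _ (by decide +kernel)⟩ hC' h1 cl nb nc nbc (fun v a1 a2 a3 a4 => ?_)
    ⟨fun i => wval Φ (cz ([[], [28], [40], [26, 28], [45]].getD i [])), fun i => ⟨M.mem _,
      isConj_iff.2 ⟨_, (wval_cz _ _).symm⟩, wval_append Φ _ _ ▸ M.comm _ _ (by revert i; decide +kernel),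
      fun k => M.comm _ _ (by revert i k; decide +kernel)⟩, by
      simp only [← wval_append]; exact M.one _ (by decide +kernel)⟩
    (card_vals M _ kT (by decide +kernel)) (fun v => ⟨t2 v, ?_⟩) (fun v hv w hw => ?_) (fun τ a1 a2 a3 _ => ?_)
    fun m hm a1 a2 a3 => ?_
  · obtain ⟨m, hm, rfl⟩ := h1 v (Co2E.uniq hC' h1 (IsConj.refl _) (M.mem _) (by
      rcases a4 with e | e <;> rw [e] <;> exact M.mem _)) a1
    have a5 := Co2E.cj m⁻¹ a2
    generalize hc : wval Φ [30] * wval Φ [32] = c at *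
    obtain ⟨k, hk, i, hi, e⟩ := cls _ (mem_centralizer_singleton_iff.2 (by
      calc _ = m⁻¹ * (m * wval Φ [30] * m⁻¹ * (c * (m * wval Φ [30] * m⁻¹))) * m := by group
        _ = _ := by rw [← a3]; group)) (InvolCount.sq_of_isConj zz a5)
    have a6 := e ▸ Co2E.cj k a5
    have kz := mem_centralizer_singleton_iff.1 (inv_mem hk)
    have gz : m * k⁻¹ * wval Φ [30] * (m * k⁻¹)⁻¹ = m * wval Φ [30] * m⁻¹ := by rw [mul_assoc m, kz]; group
    have gc : m * k⁻¹ * (wval Φ [30] * wval Φ (reps.getD i [])) * (m * k⁻¹)⁻¹ = c := by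
      rw [← conj_mul, gz, ← e]
      calc _ = m * (wval Φ [30] * wval Φ [30]) * m⁻¹ * c := by group
        _ = c := by rw [zz]; simp
    have gH := mul_mem hm (inv_mem (hC hk))
    rcases rc M i hi with (h | h | h) | ⟨-, n, hn, h⟩ | ⟨n, hn, h⟩ | ⟨n, hn, h⟩
    · exact absurd (isConj_one_left.1 (h ▸ a6)) z1
    · rw [h, zz, ← hc, ← wval_append] at gc
      exact absurd (by simpa using gc.symm) (M.ne_one ([30] ++ [32]) (by decide +kernel))
    · rw [h, hc, mul_inv_eq_iff_eq_mul, ← hc] at gc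
      exact gz ▸ cenc M gH gc
    · exact absurd (by rw [← gc, ← h]; group) (nbc _ (mul_mem gH hn))
    · exact absurd (a6.trans (isConj_iff.2 ⟨n, h⟩).symm) nb
    · rw [wval_append, hc] at h
      exact absurd (a6.trans (isConj_iff.2 ⟨n, h⟩).symm) nc
  · rintro ⟨⟨x, a1, rfl⟩, a2⟩
    exact nT' x (Co2E.uniq hC' h1 (IsConj.refl _) (M.mem _) (hC' _ a2)) a1
  · obtain ⟨u, hu, rfl⟩ := mem_vals.1 hv
    obtain ⟨u', hu', rfl⟩ := mem_vals.1 hw
    obtain ⟨a, b⟩ := (by decide +kernel : ∀ u ∈ Tk.map cz, ∀ w ∈ Tk.map cz,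
      cmW (nat_lit 12) (nat_lit 4095) ltt (lch.map Lv.b) u w = true ∧ (u = w ∨ ∃ x ∈ Tk.map cz,
        fixW (nat_lit 12) (nat_lit 4095) ltt (lch.map Lv.b) (x ++ invW (u ++ w ++ [12])) = true)) u hu u' hu'
    refine ⟨M.comm _ _ a, fun e => ?_⟩
    obtain ⟨x, hx, h⟩ := b.resolve_left fun h => e (h ▸ rfl)
    exact mem_vals.2 ⟨x, hx, by rw [M.eq _ _ h, wval_append, wval_append]⟩
  · obtain ⟨w, hw, e⟩ := fixp (nrm M (Uk.map cz) nU (by decide +kernel) (cenb M
      (Co2E.uniq hC' h1 (IsConj.refl _) (M.mem _) (hC' _ (t2 _ a2).2)) a1)) a3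
      (by rw [card_vals M (Uk.map cz) kU (by decide +kernel)]; decide +kernel)
    obtain ⟨_, hu, rfl⟩ := mem_vals.1 hw
    obtain ⟨k, -, rfl⟩ := List.mem_map.1 hu
    exact ⟨_, isConj_iff.2 ⟨_, (wval_cz _ _).symm⟩, (mul_inv_eq_iff_eq_mul.1 e).symm⟩
  · have := (t2 _ (nT' m hm a1)).2
    generalize wval Φ [30] = z at *
    have e : z * m⁻¹ * z = m := by
      rw [← a3, ← mul_assoc, ← mul_assoc, zz, one_mul, mul_assoc, zz, mul_one]
    have e' : m * m = m⁻¹ * m⁻¹ := by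
      calc _ = m * z * m⁻¹ * z := by rw [mul_assoc m, mul_assoc m, e]
        _ = z * m * z * m⁻¹ := by rw [this]; group
        _ = _ := by rw [a3]
    calc m = m * m * (m * m) * (m ^ 3)⁻¹ := by group
      _ = 1 := by nth_rw 1 [e']; rw [a2]; group

omit M in
theorem iso [Finite G] {z : G} {F : ℕ → G} (T : TB z F) : Spor.IsoCo2 G := by
  have hr : ∀ w ∈ KR, wval F w = 1 := List.forall_mem_append.2 ⟨T.rel, T.rr⟩
  have ht : F 14 ∉ gp F (sing 14) := fun h => T.yz (by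
    rw [← T.tz, mem_centralizer_singleton_iff.1 (T.top.le h), mul_inv_cancel_right])
  have hc : Nat.card (gp F (sing 15)) = 42305421312000 := by rw [card_eq F hr ht, T.top, T.card]
  obtain ⟨M⟩ := lTM.fmodel rfl hr lrel card_le hc.ge
  obtain ⟨e⟩ := iso0 hr hc
  have ez : wval (ext F 15 ldefs) [30] = z := by
    rw [M.eq [30] zw (by decide +kernel), wval_ext _ _ _ _ (by decide), T.zw]
  have ey : wval (ext F 15 ldefs) [32] = wval F yw := by
    rw [M.eq [32] yw (by decide +kernel), wval_ext _ _ _ _ (by decide)]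
  have := top M (by rw [ez, ← T.top]; exact gp_mono (by decide)) (by rw [ez, ← T.top, index F hr ht])
    (fun v hv h => by
      rw [ez] at hv ⊢
      obtain ⟨k, hk, i, hi, e⟩ := T.cls v hv h
      exact ⟨k, hk, i, hi, e.trans (wval_ext _ _ _ _ (by clear e; revert i; decide +kernel)).symm⟩)
    (by rw [ez, wval_ext _ _ _ _ (by decide)]; exact wval_single (y := F) 6 ▸ T.nb) (by rw [ez, ey]; exact T.nc)
  exact ⟨(topEquiv.symm.trans (MulEquiv.subgroupCongr this.symm)).trans e⟩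

end Cfsg.Agent.Lib.Co2Fin
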