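import Cfsg.Agent.Lib.Co2MHC

/-! The faithful model of the involution centraliser of the second Conway group. -/

set_option autoImplicit false
set_option maxRecDepth 100000

namespace Cfsg.Agent.Lib.Co2H

open Subgroup Cfsg.Agent.Lib.PermNet Cfsg.Agent.Lib.Words Cfsg.Agent.Lib.PermGroup Cfsg.Agent.Lib.DCE
  Cfsg.Agent.Lib.BT Cfsg.Agent.Lib.Co2MH Cfsg.Agent.Lib.Co2SB

variable {G : Type*} [Group G] {z : G} {f : ℕ → G}

/-- All letters: `14 = z`, `15 = y`, `16 … 21` reflections, `22 … 25` sign changes,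
`26 … 31` their images under the swap. -/
abbrev FF (f : ℕ → G) : ℕ → G := ext f 14 hdefs

/-- The faithful model of the centraliser. -/
abbrev MH (z : G) (f : ℕ → G) := Model (FF f) (centralizer {z}) ⊥ (nat_lit 2033) (nat_lit 11)
  (nat_lit 2047) htt B0 743178240

theorem z14 (B : SB z f) : wval (FF f) [28] = z := by
  rw [wval_single _ 14, FF, letter_eq f 14 hdefs 14 zw (by decide), wval_ext f 14 hdefs _ (by decide), B.zw]

theorem model (B : SB z f) :
    ∃ M : MH z f, M.SC chK [28] [30] ∧ M.Ch (centralizer {z}) chT ∧ M.Ch (centralizer {z}) ch0 := by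
  obtain ⟨M⟩ := hTM.fmodel B.top B.rel hK (fun z => Co2TC.card_le z) B.card.ge
  let M' := M.rebase B0 (by decide +kernel)
  exact ⟨M', M'.mkSC (M'.ch_top _ (by rw [cchK]; decide +kernel))
    (fun g h => mem_centralizer_singleton_iff.2 (z14 B ▸ h)) _ _ fx,
    M'.ch_top _ (by rw [cchT]; decide +kernel), M'.ch_top _ (by rw [cch0]; decide +kernel)⟩

theorem y15 (B : SB z f) : wval (FF f) [30] = wval f yw := by
  obtain ⟨M, -⟩ := model B
  rw [← wval_ext f 14 hdefs yw (by decide)]
  exact M.eq _ _ (by decide +kernel)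

theorem zz (B : SB z f) : z * z = 1 := by
  obtain ⟨M, -⟩ := model B
  rw [← z14 B, ← wval_append]
  exact M.one _ (by decide +kernel)

/-- The word of the element of `E` with a given code. -/
def ew : List ℕ → ℕ → List ℕ
  | [], _ => []
  | a :: L, m => (if m % 2 = 1 then [2 * a] else []) ++ ew L (m / 2)

/-- The element of `E` with a given code; `1` is `z`, `32` is `y`, the codes below `32` lie in `Q`. -/
abbrev ee (f : ℕ → G) (p : ℕ) : G := wval (FF f) (ew eb p)

end Cfsg.Agent.Lib.Co2H
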