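import Cfsg.Agent.Lib.Co2HDR

set_option autoImplicit false
set_option maxRecDepth 100000

namespace Cfsg.Agent.Lib.Co2HD
open Cfsg.Agent.Lib.PermNet

theorem rels0_0 : RelsOn nets 1520 11 rels0 0 11 :=
  relsOn_of_B _ _ _ _ _ 11 _ (by decide +kernel) (by decide +kernel)

end Cfsg.Agent.Lib.Co2HD
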