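import Cfsg.Agent.Lib.Co2HDF0

set_option autoImplicit false
set_option maxRecDepth 100000

namespace Cfsg.Agent.Lib.Co2HD
open Cfsg.Agent.Lib.PermNet Cfsg.Agent.Lib.DCE

noncomputable def FF : FT := (.node (nat_lit 64) (.node (nat_lit 32) f0 f32) (.node (nat_lit 96) f64 (.node (nat_lit 128) f96 f128)))

def TM : List Tm := [⟨true, [], [(true, [])]⟩,
  ⟨false, [], [(false, []), (true, [])]⟩,
  ⟨true, [], [(false, [])]⟩,
  ⟨false, [2, 4, 27], [(false, [2, 4, 27]), (false, [12, 11, 6, 9, 2, 7, 1, 2, 10, 4, 7, 3, 9, 7, 4, 1, 4, 7, 1, 2, 4, 27]), (true, [2, 4, 27]), (true, [])]⟩,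
  ⟨false, [4, 0, 8, 6, 3, 10, 5, 7, 1, 2], [(false, [2, 4, 27]), (false, [0, 5, 10, 7, 5, 0, 9, 4, 0, 6, 0, 4]), (true, [26, 5, 3]), (true, [])]⟩,
  ⟨false, [26, 5, 3], [(false, [4, 0, 8, 6, 3, 10, 5, 7, 1, 2]), (false, [2, 4, 27]), (true, [0, 5, 10, 7, 5, 0, 9, 4, 0, 6, 0, 4]), (true, [])]⟩,
  ⟨true, [2, 4, 15], [(false, [2, 4, 15]), (true, [2, 4, 15]), (true, [2, 4, 15]), (true, [2, 4, 15]), (true, [2, 4, 15]), (true, [2, 4, 15]), (true, [2, 4, 15]), (true, [2, 4, 15]), (true, [2, 4, 15]), (true, [2, 4, 15])]⟩,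
  ⟨true, [4, 0, 8, 6, 3, 10, 5, 7, 1, 2], [(false, [2, 4, 27]), (false, [0, 5, 10, 7, 5, 0, 9, 4, 0, 6, 0, 4]), (true, [26, 5, 3])]⟩,
  ⟨false, [2, 4, 27], [(false, [2, 4, 27]), (false, [2, 4, 27]), (false, [12, 11, 6, 9, 2, 7, 1, 2, 10, 4, 7, 3, 9, 7, 4, 1, 4, 7, 1, 2, 4, 27]), (true, [])]⟩,
  ⟨true, [2, 4, 27], [(false, [2, 4, 27]), (false, [12, 11, 6, 9, 2, 7, 1, 2, 10, 4, 7, 3, 9, 7, 4, 1, 4, 7, 1, 2, 4, 27]), (true, [2, 4, 27])]⟩,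
  ⟨false, [2, 4, 15], [(false, [2, 4, 15]), (false, [2, 4, 15]), (false, [2, 4, 15]), (false, [2, 4, 15]), (false, [2, 4, 15]), (false, [2, 4, 15]), (false, [2, 4, 15]), (false, [2, 4, 15]), (false, [2, 4, 15]), (false, [2, 4, 15]), (true, [])]⟩,
  ⟨false, [26, 5, 3], [(false, [4, 0, 8, 6, 3, 10, 5, 7, 1, 2]), (false, [2, 4, 27]), (false, [0, 5, 10, 7, 5, 0, 9, 4, 0, 6, 0, 4]), (true, [])]⟩,
  ⟨false, [2, 4, 15], [(false, [2, 4, 15]), (false, [2, 4, 15]), (false, [2, 4, 15]), (false, [2, 4, 15]), (false, [2, 4, 15]), (false, [2, 4, 15]), (false, [2, 4, 15]), (false, [2, 4, 15]), (false, [2, 4, 15]), (true, [2, 4, 15]), (true, [])]⟩]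

def XW : List (List (List Nat)) := [[],
  [[]],
  [[], [14]],
  [[], [2, 0]],
  [[], [14, 2, 0]],
  [[], [0]],
  [[], [14], [14]],
  [[], [14], [6, 2]],
  [[], [14], [0]],
  [[], [2, 0], [14]],
  [[], [14, 2, 0], [2, 0]],
  [[], [14, 2, 0], [14, 2, 0]],
  [[], [14, 2, 0], [6]]]

def BB : List Nat := [(nat_lit 0), (nat_lit 3), (nat_lit 13), (nat_lit 16), (nat_lit 32)]



end Cfsg.Agent.Lib.Co2HD
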