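import Cfsg.Agent.Lib.Co1Q2
import Cfsg.Agent.Lib.Co2Defs
import Cfsg.Agent.Lib.FormSymp

/-! The hypothesis of the recognition theorem for the second Conway group, inside `G`. -/

set_option autoImplicit false

namespace Cfsg.Agent.Lib.Co2Hyp

open Subgroup Cfsg.Agent.Lib.FormMatrix Cfsg.Agent.Lib.FormSymp

theorem normal_odd {B : LinearMap.BilinForm (ZMod 2) (Fin 3 ⊕ Fin 3 → ZMod 2)} (hA : B.IsAlt)
    (hB : B.Nondegenerate) {N : Subgroup (symp B)} [hN : N.Normal] [Finite N]
    (ho : (Nat.card N).Coprime 2) : N = ⊥ := by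
  choose T hT using fun u => exists_sympTv hB.1 hA u 1
  simp only [one_mul] at hT
  have ext : ∀ {g g' : symp B}, (∀ x, g.1 x = g'.1 x) → g = g' := fun h => Subtype.ext (LinearEquiv.ext h)
  have mul : ∀ (g g' : symp B) x, (g * g').1 x = g.1 (g'.1 x) := fun _ _ _ => rfl
  have two : ∀ x : Fin 3 ⊕ Fin 3 → ZMod 2, x + x = 0 := fun x => CharTwo.add_self_eq_zero x
  have sym : ∀ x y, B x y = B y x := fun x y => by rw [← hA.neg_eq x y, CharTwo.neg_eq]
  have cj : ∀ (g : symp B) v, g * T v * g⁻¹ = T (g.1 v) := fun g v => mul_inv_eq_iff_eq_mul.2 (ext fun x => by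
    rw [mul, mul, hT, hT, map_add, map_smul, mem_symp.1 g.2])
  have tt : ∀ v, T v * T v = 1 := fun v => ext fun x => by
    rw [mul, hT, hT, map_add, LinearMap.add_apply, map_smul, LinearMap.smul_apply, hA.self_eq_zero, smul_zero,
      add_zero, add_assoc, two, add_zero]; rfl
  have k : ∀ u v, B u v = 0 → T u * T v ∈ N → u = v := fun u v h hm => by
    have c : T v * T u * (T v)⁻¹ = T u := by rw [cj, hT, h, zero_smul, add_zero]
    have h1 : (T u * T v) ^ 2 = 1 := by
      rw [pow_two, mul_assoc, ← mul_assoc (T v), mul_inv_eq_iff_eq_mul.1 c, mul_assoc, tt, mul_one, tt]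
    have h2 : T u * T v = 1 := congrArg Subtype.val (orderOf_eq_one_iff.1 (Nat.eq_one_of_dvd_coprimes ho
      (orderOf_dvd_natCard (⟨_, hm⟩ : N)) (orderOf_dvd_of_pow_eq_one (Subtype.ext h1))))
    have h3 : T u = T v := by rw [← mul_one (T u), ← tt v, ← mul_assoc, h2, one_mul]
    refine sub_eq_zero.1 (hB.1 _ fun x => ?_)
    have := (hT u x).symm.trans (h3 ▸ hT v x)
    rw [add_right_inj] at this
    rw [map_sub, LinearMap.sub_apply, sym u, sym v, sub_eq_zero]
    rcases Co1Q2.z2 (B x u) with a | a <;> rcases Co1Q2.z2 (B x v) with b | b <;> rw [a, b] at this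
    · rw [a, b]
    · rw [zero_smul, one_smul] at this; rw [← this, map_zero] at b; exact absurd b zero_ne_one
    · rw [zero_smul, one_smul] at this; rw [this, map_zero] at a; exact absurd a zero_ne_one
    · rw [a, b]
  refine eq_bot_iff.2 fun n hn => ext fun v => ?_
  have m1 : T (n.1 v) * T v ∈ N := by
    rw [← cj, mul_assoc, mul_assoc, ← mul_assoc (T v)]
    exact mul_mem hn (by simpa [inv_eq_of_mul_eq_one_right (tt v)] using hN.conj_mem _ (inv_mem hn) (T v))
  change n.1 v = v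
  generalize n.1 v = u at m1
  rcases Co1Q2.z2 (B u v) with h | h
  · exact k u v h m1
  obtain ⟨a, b, hab, e⟩ := Fintype.exists_ne_map_eq_of_card_lt
    (fun a : Fin 3 ⊕ Fin 3 → ZMod 2 => (B a u, B a v)) (by simp)
  obtain ⟨s, s0, s2, s3⟩ : ∃ s, s ≠ 0 ∧ B s u = 0 ∧ B s v = 0 :=
    ⟨a - b, sub_ne_zero.2 hab, by rw [map_sub]; exact sub_eq_zero.2 (congrArg Prod.fst e),
      by rw [map_sub]; exact sub_eq_zero.2 (congrArg Prod.snd e)⟩
  have g1 : (T (s + v) * T v).1 v = v := by
    simp [mul, hT, hA.self_eq_zero, sym v s, s3]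
  have g2 : (T (s + v) * T v).1 u = s + u := by
    simp only [mul, hT, h, one_smul, map_add, LinearMap.add_apply, hA.self_eq_zero, sym v s, sym u s, s2, s3,
      zero_add, add_zero]
    rw [show u + v + (s + v) = s + u + (v + v) by abel, two, add_zero]
  have m2 := hN.conj_mem _ m1 (T (s + v) * T v)
  rw [← conj_mul, cj, cj, g1, g2] at m2
  have m3 := mul_mem m2 (inv_mem m1)
  rw [mul_inv_rev, mul_assoc, mul_inv_cancel_left, inv_eq_of_mul_eq_one_right (tt u)] at m3
  exact absurd (add_eq_right.1 (k _ _ (by simp [s2, hA.self_eq_zero]) m3)) s0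

theorem core : pPrimeCore 2 Co3A.X = ⊥ := by
  have : Finite Co3A.X := Nat.finite_of_card_ne_zero (by rw [Co3A.card_X]; decide)
  have h : ((pPrimeCore 2 Co3A.X).map (spEquiv 3 (ZMod 2)).toMonoidHom).Normal :=
    Normal.map inferInstance _ (spEquiv 3 (ZMod 2)).surjective
  have : Finite (symp (sympB 3 (ZMod 2))) := Finite.of_equiv _ (spEquiv 3 (ZMod 2)).toEquiv
  have := normal_odd (sympB_isAlt 3) (sympB_nondegenerate 3) (hN := h)
    (PCoreResidual.coprime_card_map _ (PCoreResidual.coprime_card_pPrimeCore 2 Co3A.X))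
  rwa [map_eq_bot_iff_of_injective _ (spEquiv 3 (ZMod 2)).injective] at this

theorem hyp {G : Type*} [Group G] [Finite G] (t : G) (ht : orderOf t = 2)
    (hcon : IsPConstrained 2 (centralizer ({t} : Set G)))
    (hQ : IsExtraspecial 2 (pCore 2 (centralizer ({t} : Set G))))
    (hcard : Nat.card (pCore 2 (centralizer ({t} : Set G))) = 2 ^ 9)
    (e : centralizer ({t} : Set G) ⧸ pCore 2 (centralizer ({t} : Set G)) ≃*
      Matrix.symplecticGroup (Fin 3) (ZMod 2)) : ∃ Q φ, Co2Defs.Hyp t Q φ := by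
  have := Fact.mk Nat.prime_two
  refine ⟨_, e.toMonoidHom.comp (QuotientGroup.mk' _),
    Co1Q2.hyp0 ht _ (Co1Q2.charP_of hcon e core) hQ hcard, fun g => ?_,
    e.surjective.comp (QuotientGroup.mk'_surjective _)⟩
  refine (map_eq_one_iff e e.injective).trans ((QuotientGroup.eq_one_iff g).trans ⟨fun h => ⟨g, h, rfl⟩, ?_⟩)
  rintro ⟨k, hk, h⟩
  exact Subtype.ext (p := (· ∈ _)) h ▸ hk

end Cfsg.Agent.Lib.Co2Hyp
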