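import Cfsg.Agent.Lib.Co2LT

/-! Certificates. -/

set_option autoImplicit false
set_option maxRecDepth 100000

namespace Cfsg.Agent.Lib.Co2Fin

open Cfsg.Agent.Lib.PermNet Cfsg.Agent.Lib.Words Cfsg.Agent.Lib.PermGroup Cfsg.Agent.Lib.DCE Cfsg.Agent.Lib.PermModel Cfsg.Agent.Lib.BT

theorem lok_id : idB (nat_lit 2300) (nat_lit 12) (nat_lit 4095) lid = true := by decide +kernel

theorem lok_0 : allR (fun i => okT (nat_lit 2300) (nat_lit 12) (nat_lit 4095) (ltt.get (2 * i)) (ltt.get (2 * i + 1))) (nat_lit 0) (nat_lit 14) = true := by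
  decide +kernel

theorem lok_14 : allR (fun i => okT (nat_lit 2300) (nat_lit 12) (nat_lit 4095) (ltt.get (2 * i)) (ltt.get (2 * i + 1))) (nat_lit 14) (nat_lit 14) = true := by
  decide +kernel

theorem lok_28 : allR (fun i => okT (nat_lit 2300) (nat_lit 12) (nat_lit 4095) (ltt.get (2 * i)) (ltt.get (2 * i + 1))) (nat_lit 28) (nat_lit 14) = true := by
  decide +kernel

theorem lok_42 : allR (fun i => okT (nat_lit 2300) (nat_lit 12) (nat_lit 4095) (ltt.get (2 * i)) (ltt.get (2 * i + 1))) (nat_lit 42) (nat_lit 11) = true := by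
  decide +kernel

def ldL0 : List (List ℕ) := [[31, 12, 14, 12, 14], [33, 28, 30, 29], [35, 30, 32], [37, 8, 5], [39, 18, 28, 19], [41, 38, 26, 39], [43, 14, 37, 38, 26, 15, 39, 36, 15], [45, 14, 38, 26, 38, 14, 36, 27, 37, 39]]

theorem ld0 : allL (fixA (nat_lit 12) (nat_lit 4095) ltt (nat_lit 2300)) ldL0 = true := by decide +kernel

end Cfsg.Agent.Lib.Co2Fin
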