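import Cfsg.Agent.Lib.Co2LT

/-! Certificates. -/

set_option autoImplicit false
set_option maxRecDepth 100000

namespace Cfsg.Agent.Lib.Co2Fin

open Cfsg.Agent.Lib.PermNet Cfsg.Agent.Lib.Words Cfsg.Agent.Lib.PermGroup Cfsg.Agent.Lib.DCE Cfsg.Agent.Lib.PermModel Cfsg.Agent.Lib.BT

def ldL1 : List (List ℕ) := [[47, 40, 26, 42, 27, 41], [49, 45, 26, 40, 44, 43, 45], [51, 26, 42, 26, 44, 44, 41, 44], [53, 48, 48, 50, 49, 49], [55, 49, 46, 48, 48, 51, 47], [57, 46, 48, 48, 48, 51, 47, 49]]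

theorem ld1 : allL (fixA (nat_lit 12) (nat_lit 4095) ltt (nat_lit 2300)) ldL1 = true := by decide +kernel

def ldL2 : List (List ℕ) := [[59, 46, 49, 46, 50, 48, 47, 49, 47], [61, 56, 58, 58, 53], [63, 46, 59, 26, 54, 14, 0, 8, 12], [65, 62, 30, 63], [67, 62, 32, 63], [69, 64, 66]]

theorem ld2 : allL (fixA (nat_lit 12) (nat_lit 4095) ltt (nat_lit 2300)) ldL2 = true := by decide +kernel

def ldL3 : List (List ℕ) := [[71, 45, 23, 9, 1, 57, 48, 45, 41, 59, 49, 53, 47, 55, 59], [73, 39, 25, 39, 56, 48, 45, 53, 49, 57, 47, 55, 58, 53]]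

theorem ld3 : allL (fixA (nat_lit 12) (nat_lit 4095) ltt (nat_lit 2300)) ldL3 = true := by decide +kernel

def ldL4 : List (List ℕ) := [[75, 36, 61, 1, 56, 55, 39, 15, 44, 49, 44, 51, 53, 49, 47, 56, 61], [77, 5, 0, 36, 48, 37, 43, 53, 41, 53, 47, 51, 58]]

theorem ld4 : allL (fixA (nat_lit 12) (nat_lit 4095) ltt (nat_lit 2300)) ldL4 = true := by decide +kernel

def ldL5 : List (List ℕ) := [[79, 9, 47, 0, 53, 36, 43, 15, 47, 43, 55, 27, 51, 48, 47, 55], [81, 70, 73, 70, 70, 73, 70], [83, 72, 72, 71, 72, 70, 70, 73, 71], [85, 82, 80, 83, 80, 83, 80, 82]]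

theorem ld5 : allL (fixA (nat_lit 12) (nat_lit 4095) ltt (nat_lit 2300)) ldL5 = true := by decide +kernel

def ldL6 : List (List ℕ) := [[87, 80, 83, 80, 82, 80, 82, 80, 83, 80], [89, 82, 80, 82, 80, 82, 80, 82, 81, 82], [91, 78, 74, 77, 77], [93, 77, 79, 76, 74, 76], [95, 78, 77, 74, 78, 75], [97, 78, 78, 74, 74, 74]]

theorem ld6 : allL (fixA (nat_lit 12) (nat_lit 4095) ltt (nat_lit 2300)) ldL6 = true := by decide +kernel

def ldL7 : List (List ℕ) := [[99, 92, 90, 92], [101, 96, 96, 94], [103, 90, 96, 92, 97], [105, 90, 94, 96, 92, 96]]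

theorem ld7 : allL (fixA (nat_lit 12) (nat_lit 4095) ltt (nat_lit 2300)) ldL7 = true := by decide +kernel

end Cfsg.Agent.Lib.Co2Fin
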