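import Cfsg.Agent.Lib.Co2LT

/-! Certificates. -/

set_option autoImplicit false
set_option maxRecDepth 100000

namespace Cfsg.Agent.Lib.Co2Fin

open Cfsg.Agent.Lib.PermNet Cfsg.Agent.Lib.Words Cfsg.Agent.Lib.PermGroup Cfsg.Agent.Lib.DCE Cfsg.Agent.Lib.PermModel Cfsg.Agent.Lib.BT

def lrL5 : List (List ℕ) := [[20, 22, 20, 22, 12, 14, 12, 14], [20, 24, 20, 24], [20, 26, 20, 26], [22, 24, 22, 24], [22, 26, 22, 26], [24, 26, 24, 26, 12, 14, 12, 14], [0, 12, 1, 26, 16, 14, 12, 14, 12]]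

theorem lr5 : allL (fixA (nat_lit 12) (nat_lit 4095) ltt (nat_lit 2300)) lrL5 = true := by decide +kernel

def lrL6 : List (List ℕ) := [[0, 14, 1, 18, 14, 14, 12, 14, 12], [0, 16, 1, 26, 22, 16, 12], [0, 18, 1, 14], [0, 20, 1, 24, 18], [0, 22, 1, 26, 22, 14, 12, 14, 12], [0, 24, 1, 24, 20, 18, 14]]

theorem lr6 : allL (fixA (nat_lit 12) (nat_lit 4095) ltt (nat_lit 2300)) lrL6 = true := by decide +kernel

def lrL7 : List (List ℕ) := [[0, 26, 1, 22], [2, 12, 3, 26, 20, 12, 14, 12, 14, 12], [2, 14, 3, 26, 22, 14, 12, 14, 12], [2, 16, 3, 26, 24, 22, 20, 14, 12, 14, 12], [2, 18, 3, 26, 18, 14, 12, 14, 12]]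

theorem lr7 : allL (fixA (nat_lit 12) (nat_lit 4095) ltt (nat_lit 2300)) lrL7 = true := by decide +kernel

def lrL8 : List (List ℕ) := [[2, 20, 3, 18, 12, 14, 12, 14, 12], [2, 22, 3, 26, 22, 18, 14, 14, 12, 14, 12], [2, 24, 3, 24, 20, 18, 16, 14, 12, 14, 12, 14, 12], [2, 26, 3, 18]]

theorem lr8 : allL (fixA (nat_lit 12) (nat_lit 4095) ltt (nat_lit 2300)) lrL8 = true := by decide +kernel

def lrL9 : List (List ℕ) := [[4, 12, 5, 26, 20, 14, 12, 14, 12], [4, 14, 5, 26, 22, 16, 14, 14, 12, 14, 12], [4, 16, 5, 26, 24, 22, 20, 16, 14, 12, 14, 12], [4, 18, 5, 20, 12], [4, 20, 5, 26, 18, 12]]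

theorem lr9 : allL (fixA (nat_lit 12) (nat_lit 4095) ltt (nat_lit 2300)) lrL9 = true := by decide +kernel

end Cfsg.Agent.Lib.Co2Fin
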