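import Cfsg.Agent.Lib.Co2LT

/-! Certificates. -/

set_option autoImplicit false
set_option maxRecDepth 100000

namespace Cfsg.Agent.Lib.Co2Fin

open Cfsg.Agent.Lib.PermNet Cfsg.Agent.Lib.Words Cfsg.Agent.Lib.PermGroup Cfsg.Agent.Lib.DCE Cfsg.Agent.Lib.PermModel Cfsg.Agent.Lib.BT

def lrL10 : List (List ℕ) := [[4, 22, 5, 26, 24, 22, 18, 16, 14, 14, 12, 14, 12], [4, 24, 5, 24, 22, 20, 18, 14, 12], [4, 26, 5, 20, 18], [6, 12, 7, 26, 12], [6, 14, 7, 24, 20, 14, 12, 14, 12]]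

theorem lr10 : allL (fixA (nat_lit 12) (nat_lit 4095) ltt (nat_lit 2300)) lrL10 = true := by decide +kernel

def lrL11 : List (List ℕ) := [[6, 16, 7, 26, 22, 14, 12, 14, 12], [6, 18, 7, 20, 18], [6, 20, 7, 18], [6, 22, 7, 26, 22, 16, 12], [6, 24, 7, 24, 20, 18, 14], [6, 26, 7, 12]]

theorem lr11 : allL (fixA (nat_lit 12) (nat_lit 4095) ltt (nat_lit 2300)) lrL11 = true := by decide +kernel

def lrL12 : List (List ℕ) := [[8, 12, 9, 26, 16, 12, 14, 12, 14, 12], [8, 14, 9, 20, 18], [8, 16, 9, 22, 16, 12], [8, 18, 9, 24, 14], [8, 20, 9, 24, 20, 18], [8, 22, 9, 26, 12], [8, 24, 9, 24, 20, 14]]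

theorem lr12 : allL (fixA (nat_lit 12) (nat_lit 4095) ltt (nat_lit 2300)) lrL12 = true := by decide +kernel

def lrL13 : List (List ℕ) := [[8, 26, 9, 22, 16, 14, 12, 14, 12], [10, 12, 11, 20, 12], [10, 14, 11, 26, 22, 16, 14, 12, 14, 12], [10, 16, 11, 24, 20, 16, 14, 12, 14, 12], [10, 18, 11, 26, 12], [10, 20, 11, 12]]

theorem lr13 : allL (fixA (nat_lit 12) (nat_lit 4095) ltt (nat_lit 2300)) lrL13 = true := by decide +kernel

def lrL14 : List (List ℕ) := [[10, 22, 11, 24, 22, 18, 14], [10, 24, 11, 16, 12, 14, 12, 14, 12], [10, 26, 11, 26, 20, 18], [10, 3, 6, 4, 28, 21, 17, 13, 29], [3, 9, 6, 1, 2, 28, 3, 0, 7, 8, 2, 29]]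

theorem lr14 : allL (fixA (nat_lit 12) (nat_lit 4095) ltt (nat_lit 2300)) lrL14 = true := by decide +kernel

def lrL15 : List (List ℕ) := [[6, 9, 0, 6, 28, 3, 6, 3, 8, 2, 6, 9, 29], [0, 5, 1, 28, 0, 8, 2, 6, 5, 9, 10, 5, 1, 25, 29]]

theorem lr15 : allL (fixA (nat_lit 12) (nat_lit 4095) ltt (nat_lit 2300)) lrL15 = true := by decide +kernel

end Cfsg.Agent.Lib.Co2Fin
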