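import Cfsg.Agent.Lib.Co2MS
import Cfsg.Agent.Lib.Co2MT
import Cfsg.Agent.Lib.LeechRep

/-! Computations with the vectors. -/

set_option autoImplicit false
set_option maxRecDepth 100000

namespace Cfsg.Agent.Lib.Co2M

open Cfsg.Agent.Lib.Golay Cfsg.Agent.Lib.Leech Cfsg.Agent.Lib.PermNet Cfsg.Agent.Lib.DCE Cfsg.Spor
  Cfsg.Agent.Lib.MatRep Cfsg.Agent.Lib.LeechRep
open Cfsg.Agent.Lib.CoM hiding dec

noncomputable def okP (p : ℕ) : Bool := forceL (L 0) fun b => forceL (L p) fun l => chkL l && ldot l l == 32 &&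
  ldot l ul == 16 && forceB (enc l) (fun e => Nat.beq (ix e) p) && forceB (enc (wl l)) (fun e => Nat.beq (ix e) p) &&
  ldot l b == if p = 0 then 32 else if p < 892 then 16 else 8

theorem hP0 : allR okP 0 1150 = true := by decide +kernel

theorem hP1 : allR okP 1150 1150 = true := by decide +kernel

noncomputable def rows (k : ℕ) : List (List ℤ) := (List.range 24).map fun i => CoM.dec 24 ((getW As k).getD i 0)

noncomputable def okG (i lo n : ℕ) : Bool := forceM (rows (2 * i)) fun A => allR (fun p => forceL (L p) fun l =>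
  forceL (A.map (ldot · l)) fun z => forceB (lk (nat_lit 12) (nat_lit 4095) (vtt.get (2 * i + 1)) p) fun q =>
    forceL (L q) fun m => z == m.map (8 * ·) || z == (wl m).map (8 * ·)) lo n

noncomputable def inc : List ℕ :=
  (List.range 2300).filter fun p => forceL (L p) fun l => ldot l vl == 0 || ldot l vl == -24

theorem len_inc : inc.length = 275 := by decide +kernel

theorem ok : Ok c ms := ok_of_okB (by decide +kernel)

theorem hinv : RelOn c ms (invs 4) 0 24 := relOn ok _ 0 24 24 (by decide +kernel)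

theorem good : ∀ k < 2 * 4, Good As ms k := good_all (by decide +kernel)

theorem fx : (rows 0).map (ldot · ul) = ul.map (8 * ·) ∧ (rows 2).map (ldot · ul) = ul.map (8 * ·) ∧
    (rows 4).map (ldot · (L 0)) = ul.map (8 * ·) ∧ (rows 4).map (ldot · ul) = (L 0).map (8 * ·) ∧
    (rows 6).map (ldot · (wl (L 0))) = ul.map (8 * ·) ∧ (rows 6).map (ldot · ul) = (L 0).map (8 * ·) := by
  decide +kernel

theorem wit : ldot (L 1) (L 892) ≠ 8 ∧ ldot (L 892) (L 4) = 8 := by decide +kernel

end Cfsg.Agent.Lib.Co2M
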