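import Cfsg.Agent.Lib.Co2MHT

/-! Checks of the tables. -/

set_option autoImplicit false
set_option maxRecDepth 100000

namespace Cfsg.Agent.Lib.Co2MH

open Cfsg.Agent.Lib.PermNet Cfsg.Agent.Lib.Words Cfsg.Agent.Lib.PermGroup Cfsg.Agent.Lib.DCE Cfsg.Agent.Lib.PermModel Cfsg.Agent.Lib.BT

theorem cchT : chB (nat_lit 11) (nat_lit 2047) htt (nat_lit 2033) (fun _ => true) chT [] = true := by decide +kernel

theorem fx : fxB (nat_lit 11) (nat_lit 2047) htt B0 [30] KL chK = true := by decide +kernel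

def hkL0 : List (List ℕ) := [[2, 0, 2, 0], [0, 0, 0], [2, 2, 2], [4, 4, 4], [6, 6, 6], [8, 8, 8], [10, 10, 10], [0, 3, 0, 2, 1, 2], [0, 2, 4, 3, 1, 4], [0, 4, 0, 5, 1, 3], [0, 6, 0, 7, 1, 7], [0, 7, 4, 6, 1, 5], [4, 8, 5, 9], [0, 7, 8, 6, 1, 8], [0, 9, 0, 8, 1, 8], [6, 10, 7, 11], [8, 10, 9, 11], [2, 4, 10, 5, 3, 10], [2, 10, 2, 11, 3, 5], [12, 12], [14, 14], [16, 16], [18, 18], [20, 20]]

theorem hk0 : allL (fixA (nat_lit 11) (nat_lit 2047) htt (nat_lit 2033)) hkL0 = true := by decide +kernel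

def hkL1 : List (List ℕ) := [[22, 22], [24, 24], [26, 26], [12, 14, 12, 14, 12, 14, 12, 14], [12, 16, 12, 16], [12, 18, 12, 18], [12, 20, 12, 20], [12, 22, 12, 22], [12, 24, 12, 24], [12, 26, 12, 26], [14, 16, 14, 16], [14, 18, 14, 18], [14, 20, 14, 20], [14, 22, 14, 22], [14, 24, 14, 24], [14, 26, 14, 26], [16, 18, 16, 18, 12, 14, 12, 14], [16, 20, 16, 20], [16, 22, 16, 22], [16, 24, 16, 24], [16, 26, 16, 26], [18, 20, 18, 20], [18, 22, 18, 22], [18, 24, 18, 24]]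

theorem hk1 : allL (fixA (nat_lit 11) (nat_lit 2047) htt (nat_lit 2033)) hkL1 = true := by decide +kernel

def hkL2 : List (List ℕ) := [[18, 26, 18, 26], [20, 22, 20, 22, 12, 14, 12, 14], [20, 24, 20, 24], [20, 26, 20, 26], [22, 24, 22, 24], [22, 26, 22, 26], [24, 26, 24, 26, 12, 14, 12, 14], [0, 12, 1, 26, 16, 14, 12, 14, 12], [0, 14, 1, 18, 14, 14, 12, 14, 12], [0, 16, 1, 26, 22, 16, 12], [0, 18, 1, 14], [0, 20, 1, 24, 18], [0, 22, 1, 26, 22, 14, 12, 14, 12], [0, 24, 1, 24, 20, 18, 14], [0, 26, 1, 22]]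

theorem hk2 : allL (fixA (nat_lit 11) (nat_lit 2047) htt (nat_lit 2033)) hkL2 = true := by decide +kernel

end Cfsg.Agent.Lib.Co2MH
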