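import Cfsg.Agent.Lib.Co2MHT

/-! Checks of the tables. -/

set_option autoImplicit false
set_option maxRecDepth 100000

namespace Cfsg.Agent.Lib.Co2MH

open Cfsg.Agent.Lib.PermNet Cfsg.Agent.Lib.Words Cfsg.Agent.Lib.PermGroup Cfsg.Agent.Lib.DCE Cfsg.Agent.Lib.PermModel Cfsg.Agent.Lib.BT

def hkL3 : List (List ℕ) := [[2, 12, 3, 26, 20, 12, 14, 12, 14, 12], [2, 14, 3, 26, 22, 14, 12, 14, 12], [2, 16, 3, 26, 24, 22, 20, 14, 12, 14, 12], [2, 18, 3, 26, 18, 14, 12, 14, 12], [2, 20, 3, 18, 12, 14, 12, 14, 12], [2, 22, 3, 26, 22, 18, 14, 14, 12, 14, 12], [2, 24, 3, 24, 20, 18, 16, 14, 12, 14, 12, 14, 12], [2, 26, 3, 18], [4, 12, 5, 26, 20, 14, 12, 14, 12], [4, 14, 5, 26, 22, 16, 14, 14, 12, 14, 12]]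

theorem hk3 : allL (fixA (nat_lit 11) (nat_lit 2047) htt (nat_lit 2033)) hkL3 = true := by decide +kernel

def hkL4 : List (List ℕ) := [[4, 16, 5, 26, 24, 22, 20, 16, 14, 12, 14, 12], [4, 18, 5, 20, 12], [4, 20, 5, 26, 18, 12], [4, 22, 5, 26, 24, 22, 18, 16, 14, 14, 12, 14, 12], [4, 24, 5, 24, 22, 20, 18, 14, 12], [4, 26, 5, 20, 18], [6, 12, 7, 26, 12], [6, 14, 7, 24, 20, 14, 12, 14, 12], [6, 16, 7, 26, 22, 14, 12, 14, 12], [6, 18, 7, 20, 18], [6, 20, 7, 18], [6, 22, 7, 26, 22, 16, 12], [6, 24, 7, 24, 20, 18, 14]]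

theorem hk4 : allL (fixA (nat_lit 11) (nat_lit 2047) htt (nat_lit 2033)) hkL4 = true := by decide +kernel

def hkL5 : List (List ℕ) := [[6, 26, 7, 12], [8, 12, 9, 26, 16, 12, 14, 12, 14, 12], [8, 14, 9, 20, 18], [8, 16, 9, 22, 16, 12], [8, 18, 9, 24, 14], [8, 20, 9, 24, 20, 18], [8, 22, 9, 26, 12], [8, 24, 9, 24, 20, 14], [8, 26, 9, 22, 16, 14, 12, 14, 12], [10, 12, 11, 20, 12], [10, 14, 11, 26, 22, 16, 14, 12, 14, 12], [10, 16, 11, 24, 20, 16, 14, 12, 14, 12], [10, 18, 11, 26, 12], [10, 20, 11, 12], [10, 22, 11, 24, 22, 18, 14]]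

theorem hk5 : allL (fixA (nat_lit 11) (nat_lit 2047) htt (nat_lit 2033)) hkL5 = true := by decide +kernel

def hkL6 : List (List ℕ) := [[10, 24, 11, 16, 12, 14, 12, 14, 12], [10, 26, 11, 26, 20, 18]]

theorem hk6 : allL (fixA (nat_lit 11) (nat_lit 2047) htt (nat_lit 2033)) hkL6 = true := by decide +kernel

end Cfsg.Agent.Lib.Co2MH
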