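import Cfsg.Agent.Lib.Co2TC
import Cfsg.Agent.Lib.Co2HD

/-! Generators for the involution centraliser of the second Conway group. -/

set_option autoImplicit false

namespace Cfsg.Agent.Lib.Co2SB

open Subgroup Cfsg.Agent.Lib.PermNet Cfsg.Agent.Lib.Words Cfsg.Agent.Lib.PermGroup Cfsg.Agent.Lib.DCE

variable {G : Type*} [Group G]

/-- The central involution. -/
def zw : List ℕ := [12, 14, 12, 14]

/-- A commuting conjugate. -/
def yw : List ℕ := [11, 3, 9, 6, 0, 3, 10, 6, 3, 9, 1, 5, 7, 1, 2, 10, 2, 8, 7, 5, 1, 8, 7, 4, 2, 0, 6, 0, 4, 2, 1]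

/-- Another commuting conjugate. -/
def aw : List ℕ := [16, 11, 4, 7, 8, 2, 10, 7, 5, 0, 9, 6, 4, 2]

/-- Representatives of the classes of elements of order at most two:
`1, z, b, y, z y, a, z a, aC, cB, z cB, b3`. -/
def reps : List (List ℕ) := [[], zw, [12], yw, zw ++ yw, aw, zw ++ aw,
  [20, 11, 4, 7, 0, 4, 11, 2, 0, 6, 0, 4, 2], [11, 5, 7, 2], zw ++ [11, 5, 7, 2], [10, 7, 4, 0]]

/-- Generators of the centraliser. -/
structure SB (z : G) (f : ℕ → G) : Prop where
  top : gp f (sing 14) = centralizer {z}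
  rel : ∀ w ∈ Co2TC.KH, wval f w = 1
  zw : wval f zw = z
  card : Nat.card (centralizer ({z} : Set G)) = 743178240

/-- The amalgam and the fusion. -/
structure TB (z : G) (F : ℕ → G) : Prop extends SB z F where
  rr : ∀ w ∈ Co2HD.RR, wval F w = 1
  tz : F 14 * z * (F 14)⁻¹ = wval F yw
  yz : wval F yw ≠ z
  cls : ∀ v ∈ centralizer ({z} : Set G), v * v = 1 → ∃ k ∈ centralizer ({z} : Set G), ∃ i < 11,
    k * v * k⁻¹ = wval F (reps.getD i [])
  nb : ¬ IsConj z (F 6)
  nc : ¬ IsConj z (z * wval F yw)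

end Cfsg.Agent.Lib.Co2SB
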