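import Cfsg.Agent.Lib.Co2MHC0
import Cfsg.Agent.Lib.Co2MHC1
import Cfsg.Agent.Lib.Co2MHC2
import Cfsg.Agent.Lib.Co2SB

/-! A faithful model of the involution centraliser. -/

set_option autoImplicit false
set_option maxRecDepth 100000

namespace Cfsg.Agent.Lib.Co2MH

open Cfsg.Agent.Lib.PermNet Cfsg.Agent.Lib.Words Cfsg.Agent.Lib.PermGroup Cfsg.Agent.Lib.DCE Cfsg.Agent.Lib.PermModel Cfsg.Agent.Lib.BT

theorem hok : TabsOK (nat_lit 2033) (nat_lit 11) (nat_lit 2047) (nat_lit 41) hth hid := ⟨hok_id, ((allR_of 0 24 24 (by decide) hok_0).trans (allR_of 24 17 41 (by decide) hok_24))⟩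

theorem hTM : TM 14 (nat_lit 2033) (nat_lit 11) (nat_lit 2047) (nat_lit 41) hid 743178240 hth hdefs ch0 :=
  ⟨hok, (all_append (hok.relsA _ hd0) (all_append (hok.relsA _ hd1) (hok.relsA _ hd2))), cch0, by decide +kernel⟩

theorem hK : ∀ w ∈ Co2TC.KH, wval (tp (nat_lit 2033) (nat_lit 11) (nat_lit 2047) htt) w = 1 := by
  rw [show Co2TC.KH = hkL0 ++ (hkL1 ++ (hkL2 ++ (hkL3 ++ (hkL4 ++ (hkL5 ++ hkL6))))) by decide +kernel]
  exact (all_append (hok.relsA _ hk0) (all_append (hok.relsA _ hk1) (all_append (hok.relsA _ hk2) (all_append (hok.relsA _ hk3) (all_append (hok.relsA _ hk4) (all_append (hok.relsA _ hk5) (hok.relsA _ hk6)))))))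



end Cfsg.Agent.Lib.Co2MH
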