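import Cfsg.Agent.Lib.Co2MHT

/-! Checks of the tables. -/

set_option autoImplicit false
set_option maxRecDepth 100000

namespace Cfsg.Agent.Lib.Co2MH

open Cfsg.Agent.Lib.PermNet Cfsg.Agent.Lib.Words Cfsg.Agent.Lib.PermGroup Cfsg.Agent.Lib.DCE Cfsg.Agent.Lib.PermModel Cfsg.Agent.Lib.BT

theorem hok_id : idB (nat_lit 2033) (nat_lit 11) (nat_lit 2047) hid = true := by decide +kernel

theorem hok_0 : allR (fun i => okT (nat_lit 2033) (nat_lit 11) (nat_lit 2047) (htt.get (2 * i)) (htt.get (2 * i + 1))) (nat_lit 0) (nat_lit 24) = true := by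
  decide +kernel

theorem hok_24 : allR (fun i => okT (nat_lit 2033) (nat_lit 11) (nat_lit 2047) (htt.get (2 * i)) (htt.get (2 * i + 1))) (nat_lit 24) (nat_lit 17) = true := by
  decide +kernel

def hdL0 : List (List ℕ) := [[29, 12, 14, 12, 14], [31, 2, 10, 9, 6, 4, 0, 6, 3, 9, 11, 3, 6, 0, 3, 10, 6, 4, 2, 0, 6, 0, 4, 2, 0, 8, 2, 7, 1, 5, 7, 8, 11, 3], [33, 2, 0, 30, 1, 3], [35, 4, 2, 30, 3, 5], [37, 6, 2, 30, 3, 7], [39, 11, 8, 3, 30, 2, 9, 10], [41, 8, 2, 10, 6, 9, 4, 7, 2, 0, 30, 1, 3, 6, 5, 8, 7, 11, 3, 9], [43, 7, 0, 30, 1, 6], [45, 40, 42], [47, 38, 44, 38]]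

theorem hd0 : allL (fixA (nat_lit 11) (nat_lit 2047) htt (nat_lit 2033)) hdL0 = true := by decide +kernel

def hdL1 : List (List ℕ) := [[49, 36, 46, 36], [51, 34, 48, 34], [53, 12, 20, 24, 32, 36, 38, 36, 40, 38, 36], [55, 28, 32, 40, 38, 36, 34, 32, 42, 38, 36, 34, 32, 40, 38, 36, 42, 38, 40], [57, 28, 36, 34, 32, 38, 36, 34, 32, 42, 38, 36, 34, 32, 40, 38, 36, 34, 42, 38, 36], [59, 28, 12, 16, 24, 32, 38, 36, 40, 38, 42, 38, 36, 40, 38, 42], [61, 28, 34, 32, 36, 38, 36, 40, 38, 36, 34]]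

theorem hd1 : allL (fixA (nat_lit 11) (nat_lit 2047) htt (nat_lit 2033)) hdL1 = true := by decide +kernel

def hdL2 : List (List ℕ) := [[63, 12, 16, 20, 24, 34, 32, 36, 38, 36, 40, 38, 36, 34], [65, 56, 54, 34, 55, 57], [67, 34, 54, 35], [69, 28, 57], [71, 48, 25], [73, 36, 38, 37], [75, 32, 42, 35, 33], [77, 68, 74, 68, 75, 69], [79, 70, 68, 74, 73, 71], [81, 70, 68, 72, 68, 73, 69, 71]]

theorem hd2 : allL (fixA (nat_lit 11) (nat_lit 2047) htt (nat_lit 2033)) hdL2 = true := by decide +kernel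

theorem cch0 : chB (nat_lit 11) (nat_lit 2047) htt (nat_lit 2033) (fun _ => true) ch0 [] = true := by decide +kernel

theorem cchK : chB (nat_lit 11) (nat_lit 2047) htt (nat_lit 2033) (fun _ => true) chK [] = true := by decide +kernel

end Cfsg.Agent.Lib.Co2MH
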