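import Cfsg.Agent.Lib.Co2MS

/-! A part of the search. -/

set_option autoImplicit false
set_option maxRecDepth 100000

namespace Cfsg.Agent.Lib.Co2M

open Cfsg.Agent.Lib.Golay Cfsg.Agent.Lib.Leech Cfsg.Agent.Lib.PermNet Cfsg.Agent.Lib.DCE Cfsg.Spor
open Cfsg.Agent.Lib.CoM (forceI forceL forceL_eq sum_pt')

theorem all0 : allSp top gs (0) = true := by decide +kernel

theorem all1 : allSp top gs (0 ^^^ bm 4) = true := by decide +kernel

theorem all2 : allSp top gs (0 ^^^ bm 3) = true := by decide +kernel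

theorem all3 : allSp top gs (0 ^^^ bm 3 ^^^ bm 4) = true := by decide +kernel

theorem all4 : allSp top gs (0 ^^^ bm 2) = true := by decide +kernel

theorem all5 : allSp top gs (0 ^^^ bm 2 ^^^ bm 4) = true := by decide +kernel

theorem all6 : allSp top gs (0 ^^^ bm 2 ^^^ bm 3) = true := by decide +kernel

theorem all7 : allSp top gs (0 ^^^ bm 2 ^^^ bm 3 ^^^ bm 4) = true := by decide +kernel

end Cfsg.Agent.Lib.Co2M
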