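import Cfsg.Agent.Lib.Co1Fq
import Cfsg.Agent.Lib.Co2Defs

/-! The natural module does not occur in a group of type `Co₂`. -/

set_option autoImplicit false

namespace Cfsg.Agent.Lib.Co2N

open Subgroup Cfsg.Agent.Lib.Co1Defs Cfsg.Agent.Lib.Co1Fq
open Cfsg.Agent.Lib.Co2Defs (Nt)

variable {G : Type*} [Group G] {z j q q' g : G} {Q Q' : Subgroup G}

theorem nt_map (N : Nt z Q q) (e : G ≃* G) : Nt (e z) (Q.map e.toMonoidHom) (e q) where
  mem := ⟨q, N.mem, rfl⟩
  sq := by rw [← map_mul, N.sq]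
  nor := fun g hg => by
    obtain ⟨g, rfl⟩ := e.surjective g
    exact (N.nor g ((mc e).1 hg)).imp (fun e' => by simpa using congrArg e e') fun e' => by simpa using congrArg e e'
  inn := fun g hg hc => by
    obtain ⟨g, rfl⟩ := e.surjective g
    exact ⟨g, N.inn g ((mc e).1 hg) fun r hr => (hc _ ⟨r, hr, rfl⟩).imp
      (fun e' => e.injective (by simpa using e')) fun e' => e.injective (by simpa using e'), rfl⟩
  irr := by
    rintro _ ⟨j, hj, rfl⟩ _ ⟨u, hu, rfl⟩ a1 a2 a3 a4 a5 a6 a7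
    obtain ⟨k, k1, k2, k3⟩ := N.irr j hj u hu (e.injective (by simpa using a1)) (fun e' => a2 (by simp [e']))
      (fun e' => a3 (congrArg e e')) (e.injective (by simpa using a4)) (e.injective (by simpa using a5))
      (e.injective (by simpa using a6)) fun e' => a7 (by simpa using congrArg e e')
    exact ⟨e k, (mc e).2 k1, by simpa using congrArg e k2, fun e' => k3 (e.injective (by simpa using e'))⟩

theorem key (h : Hyp0 z Q) (α : G ≃* G) (hQ : ∀ x ∈ Q, α x ∈ Q) (hz : α z = z) (h4 : ∀ x, α (α (α (α x))) = x)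
    (hf : ∀ x ∈ Q, α (α x) = x → α x = x) {r : G} (hr : r ∈ Q) : α (α r) = r ∨ α (α r) = z * r := by
  have sqf : ∀ w ∈ Q, α w * α w = w * w := fun w hw => by
    rw [← map_mul]
    rcases sq_or h hw with e | e <;> rw [e]
    exacts [map_one α, hz]
  have L : ∀ w ∈ Q, α (α (w⁻¹ * α w)) = w⁻¹ * α w → Commute w (α w) → α w = w := fun w hw h1 h2 => by
    have h3 := hf _ (mul_mem (inv_mem hw) (hQ w hw)) h1
    refine hf w hw ?_
    rw [map_mul, map_inv, inv_mul_eq_iff_eq_mul] at h3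
    rw [h3, h2.inv_left.eq, ← mul_assoc, sqf w hw, mul_inv_cancel_right]
  have cr : ∀ {x a b : G}, x ∈ Q → a ∈ Q → b ∈ Q → (Commute x (a⁻¹ * b) ↔ (Commute x a ↔ Commute x b)) :=
    fun hx ha hb => (cm h hx (inv_mem ha) hb).trans (iff_congr Commute.inv_right_iff Iff.rfl)
  have cl : ∀ {x a b : G}, x ∈ Q → a ∈ Q → b ∈ Q → (Commute (a⁻¹ * b) x ↔ (Commute a x ↔ Commute b x)) :=
    fun hx ha hb => Commute.symm_iff.trans ((cr hx ha hb).trans (iff_congr Commute.symm_iff Commute.symm_iff))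
  have ci : ∀ x y, Commute (α x) (α y) ↔ Commute x y := fun x y => commute_map_iff α.injective
  have r1 := hQ _ hr
  have r2 := hQ _ r1
  have r3 := hQ _ r2
  have w1 := mul_mem (inv_mem hr) r2
  have c1 : Commute (r⁻¹ * α (α r)) (α (r⁻¹ * α (α r))) := by
    rw [map_mul, map_inv, cr w1 r1 r3, cl r1 hr r2, cl r3 hr r2, ci (α r), ci (α r), ci r (α r), ← ci r (α (α (α r))),
      h4, Commute.symm_iff (a := r)]
  have e1 : α (r⁻¹ * α (α r)) = r⁻¹ * α (α r) := L _ w1 (by
    have : α (α (r⁻¹ * α (α r))) = (r⁻¹ * α (α r))⁻¹ := by simp [h4]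
    have s := sqf _ w1
    generalize r⁻¹ * α (α r) = w at *
    rw [map_mul, map_inv, map_mul, map_inv, this, map_inv, inv_inv, mul_inv_eq_iff_eq_mul, mul_assoc, s,
      inv_mul_cancel_left]) c1
  have w2 := mul_mem (inv_mem hr) r1
  have e2 : (r⁻¹ * α r)⁻¹ * α (r⁻¹ * α r) = (α r)⁻¹ * r * ((α r)⁻¹ * r) * (r⁻¹ * α (α r)) := by
    simp only [map_mul, map_inv]; group
  have w3 := mul_mem (inv_mem r1) hr
  have e3 : α ((r⁻¹ * α r)⁻¹ * α (r⁻¹ * α r)) = (r⁻¹ * α r)⁻¹ * α (r⁻¹ * α r) := by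
    rw [e2, map_mul, e1, map_mul, sqf _ w3]
  have c2 : Commute (r⁻¹ * α r) (r⁻¹ * α (α r)) := by rw [cl w1 hr r1, ← ci r, e1]
  have e4 := L _ w2 (by rw [e3, e3]) (by
    have : Commute (r⁻¹ * α r) ((r⁻¹ * α r)⁻¹ * α (r⁻¹ * α r)) := by
      rw [e2]
      refine Commute.mul_right ?_ c2
      rcases sq_or h w3 with e | e <;> rw [e]
      exacts [Commute.one_right _, zc h w2]
    simpa only [mul_inv_cancel_left] using (Commute.refl _).mul_right this)
  rw [e4, inv_mul_cancel, eq_comm, mul_eq_one_iff_inv_eq, eq_inv_mul_iff_mul_eq] at e2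
  rw [← e2]
  rcases sq_or h w3 with e | e <;> rw [e]
  · simp
  · exact .inr (by rw [inv_eq_of_mul_eq_one_right h.zz, zc h hr])

theorem ne_inv (h : Hyp0 z Q) (N : Nt z Q q) : q ≠ q⁻¹ := fun e => h.ne (by rw [← N.sq]; nth_rw 2 [e]; simp)

theorem inv_eq (h : Hyp0 z Q) (N : Nt z Q q) : q⁻¹ = z * q := by
  rw [eq_comm, ← mul_eq_one_iff_eq_inv, mul_assoc, N.sq, h.zz]

/-- Commutators centralise `q`. -/
theorem com_q (N : Nt z Q q) {a b : G} (ha : a ∈ centralizer ({z} : Set G)) (hb : b ∈ centralizer ({z} : Set G)) :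
    a * b * a⁻¹ * b⁻¹ * q = q * (a * b * a⁻¹ * b⁻¹) := by
  have : a * b * q * (a * b)⁻¹ = b * a * q * (b * a)⁻¹ := by
    rw [show a * b * q * (a * b)⁻¹ = a * (b * q * b⁻¹) * a⁻¹ by group,
      show b * a * q * (b * a)⁻¹ = b * (a * q * a⁻¹) * b⁻¹ by group]
    rcases N.nor a ha with e | e <;> rcases N.nor b hb with e' | e' <;>
      simp only [e, e', ← conj_inv, inv_inv]
  have k : ∀ c ∈ centralizer ({z} : Set G), ∀ d, d * q = q * d → c * d * c⁻¹ * q = q * (c * d * c⁻¹) :=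
    fun c hc d hd => by
      have : Commute d (c⁻¹ * q * c⁻¹⁻¹) := by
        rcases N.nor _ (inv_mem hc) with e | e <;> rw [e]
        exacts [hd, Commute.inv_right hd]
      calc _ = c * (d * (c⁻¹ * q * c⁻¹⁻¹)) * c⁻¹ := by group
        _ = _ := by rw [this.eq]; group
  have := k _ (mul_mem hb ha) ((b * a)⁻¹ * (a * b)) (by
    calc _ = (b * a)⁻¹ * (a * b * q * (a * b)⁻¹) * (a * b) := by group
      _ = _ := by rw [this]; group)
  simpa [mul_assoc] using this

theorem cen_of (N : Nt z Q q) (N' : Nt j Q' q') (e : z * q' = q' * z) : j * q = q * j := by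
  have := N.nor q' (mem_centralizer_singleton_iff.2 e.symm)
  rw [← N'.sq, ← mul_inv_eq_iff_eq_mul, show q' * q' * q * (q' * q')⁻¹ = q' * (q' * q * q'⁻¹) * q'⁻¹ by group]
  rcases this with e | e <;> simp only [e, ← conj_inv, inv_inv]

theorem caseA (h : Hyp0 z Q) (N : Nt z Q q) (h' : Hyp0 j Q') (N' : Nt j Q' q') (e : z * q' = q' * z) : j ∈ Q := by
  by_contra hn
  have hq := mem_centralizer_singleton_iff.2 e.symm
  have a2 : ∀ x, MulAut.conj q' (MulAut.conj q' x) = j * x * j⁻¹ := fun x => by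
    rw [← N'.sq]; simp [mul_assoc]
  refine hn (N.inn j (N'.sq ▸ mul_mem hq hq) fun r hr => ?_)
  rw [← a2]
  refine key h _ (h.nor _ hq) (by simp [← e]) (fun x => ?_) (fun x hx e' => ?_) hr
  · rw [a2, a2, show j * (j * x * j⁻¹) * j⁻¹ = j * j * x * (j * j)⁻¹ by group, h'.zz]; simp
  · rw [a2, mul_inv_eq_iff_eq_mul] at e'
    rcases N'.nor x (mem_centralizer_singleton_iff.2 e'.symm) with e' | e'
    · rw [mul_inv_eq_iff_eq_mul] at e'
      simp [← e']
    · refine absurd ?_ hn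
      have := mul_mem hx (h.nor _ hq _ (inv_mem hx))
      rw [inv_eq h' N'] at e'
      rwa [← mul_assoc, ← mul_assoc, e', mul_inv_cancel_right] at this

theorem canon (h : Hyp0 z Q) {a b x : G} (e : a * z * a⁻¹ = b * z * b⁻¹) (hx : a⁻¹ * x * a ∈ Q) : b⁻¹ * x * b ∈ Q := by
  have := h.nor (b⁻¹ * a) (mem_centralizer_singleton_iff.2 (by
    calc _ = b⁻¹ * (a * z * a⁻¹) * a := by group
      _ = _ := by rw [e]; group)) _ hx
  simpa [mul_assoc] using this

theorem mem_conj {x : G} : x ∈ Q.map (MulAut.conj g).toMonoidHom ↔ g⁻¹ * x * g ∈ Q :=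
  ⟨by rintro ⟨y, hy, rfl⟩; simpa [mul_assoc] using hy, fun h => ⟨_, h, by simp [mul_assoc]⟩⟩

theorem caseII [Finite G] (h : Hyp0 z Q) (N : Nt z Q q) (hj : g * z * g⁻¹ ≠ z)
    (e : z * (g * q * g⁻¹) = g * q * g⁻¹ * z) : False := by
  have h' : Hyp0 (g * z * g⁻¹) _ := hyp_map h (MulAut.conj g)
  have N' : Nt (g * z * g⁻¹) _ (g * q * g⁻¹) := nt_map N (MulAut.conj g)
  have hQ' := fun x => mem_conj (Q := Q) (g := g) (x := x)
  generalize Q.map (MulAut.conj g).toMonoidHom = Q' at *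
  generalize hj' : g * z * g⁻¹ = j at *
  generalize g * q * g⁻¹ = q' at *
  have jq := cen_of N N' e
  have j1 := caseA h N h' N' e
  have z1 := caseA h' N' h N jq
  have ab : ∀ u ∈ Q ⊓ Q', ∀ v ∈ Q ⊓ Q', u * v = v * u := fun u hu v hv => by
    by_contra hn
    exact hj (mul_right_cancel (((h'.com u hu.2 v hv.2).resolve_left hn).symm.trans
      ((h.com u hu.1 v hv.1).resolve_left hn)))
  have nor : ∀ {z : G} {Q : Subgroup G}, Hyp0 z Q → ∀ {U : Subgroup G}, U ≤ Q → z ∈ U → ∀ x ∈ Q, ∀ u ∈ U,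
      x * u * x⁻¹ ∈ U := fun h U hU hz x hx u hu => by
    by_cases c : x * u = u * x
    · simpa [c] using hu
    · exact anti h hx (hU hu) c ▸ mul_mem hz hu
  have n1 := nor h (U := Q ⊓ Q') inf_le_left ⟨h.mem, z1⟩
  have n2 := nor h' (U := Q ⊓ Q') inf_le_right ⟨j1, h'.mem⟩
  obtain ⟨u, hu, uq⟩ : ∃ u ∈ Q ⊓ Q', u * q ≠ q * u := by
    by_contra! hU
    obtain ⟨r, hr, rj⟩ := exists_anti h j1 h'.ne hj
    obtain ⟨p, hp, pz⟩ := exists_anti h' z1 h.ne hj.symm
    have rj' := anti h hr j1 rj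
    have pz' := anti h' hp z1 pz
    let R := Q' ⊓ centralizer {z}
    let C := Q ⊓ centralizer {j} ⊓ centralizer {q}
    have c1 : Nat.card R = 256 := cardC h' z1 h.zz h.ne hj.symm
    have c2 : Nat.card C ≤ 128 := by
      obtain ⟨x, hx, xq⟩ : ∃ x ∈ Q ⊓ centralizer {j}, x * q ≠ q * x := by
        by_contra! hn
        have qq : ∀ y, q * y = 1 ∨ q * y = z → y * y = 1 → y * z = z * y → False := fun y hy yy yz => by
          refine h.ne ?_
          rw [← N.sq]
          rcases hy with e | e <;> rw [eq_mul_inv_of_mul_eq e, inv_eq_of_mul_eq_one_right yy]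
          · simpa using yy
          · rw [mul_assoc, ← mul_assoc y, yz, mul_assoc, yy, mul_one, h.zz]
        have dec : ∀ x ∈ Q, x * j ≠ j * x → (x * q = q * x ↔ r * q = q * r) := fun x hx xj => by
          have := hn (x * r) ⟨mul_mem hx hr, mem_centralizer_singleton_iff.2
            ((cm h j1 hx hr).2 (iff_of_false (Ne.symm xj) (Ne.symm rj))).symm⟩
          simpa only [eq_comm] using (cm h N.mem hx hr).1 this.symm
        by_cases rq : r * q = q * r
        · refine qq 1 ((mul_one q).symm ▸ h.cen q (h.le N.mem) fun x hx => ?_) (mul_one _) (by simp)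
          by_cases xj : x * j = j * x
          exacts [(hn x ⟨hx, mem_centralizer_singleton_iff.2 xj⟩).symm, ((dec x hx xj).2 rq).symm]
        · refine qq j (h.cen _ (h.le (mul_mem N.mem j1)) fun x hx => ((cm h hx N.mem j1).2 ?_).symm) h'.zz (zc h j1)
          by_cases xj : x * j = j * x
          exacts [iff_of_true (hn x ⟨hx, mem_centralizer_singleton_iff.2 xj⟩) xj,
            iff_of_false (fun e => rq ((dec x hx xj).1 e)) xj]
      have := SuzG1.two_mul_le (inf_le_left : C ≤ _) hx fun h => xq (mem_centralizer_singleton_iff.1 h.2)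
      rw [cardC h j1 h'.zz h'.ne hj] at this
      change 2 * Nat.card C ≤ _ at this
      omega
    have u1 : Q ⊓ Q' ≤ R := fun u hu => ⟨hu.2, h.le hu.1⟩
    have u2 : Q ⊓ Q' ≤ C := fun u hu => ⟨⟨hu.1, h'.le hu.2⟩, mem_centralizer_singleton_iff.2 (hU u hu)⟩
    have fm : ∀ a ∈ R, a * r * a⁻¹ * r⁻¹ ∈ C := fun a ha => by
      have m := h.nor a ha.2 r hr
      refine ⟨⟨Q.mul_mem m (inv_mem hr), mem_centralizer_singleton_iff.2 ((cm h j1 m (inv_mem hr)).2
        (iff_of_false (fun e => rj ?_) fun e => rj (Commute.inv_right_iff.1 e).symm)).symm⟩,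
        mem_centralizer_singleton_iff.2 (com_q N ha.2 (h.le hr))⟩
      have := zc h' ha.1
      calc _ = a⁻¹ * (a * r * a⁻¹ * (a * j)) := by group
        _ = a⁻¹ * (j * a * r) := by rw [this, ← mul_assoc (a * r * a⁻¹), ← e]; group
        _ = _ := by rw [← this]; group
    let F : R ⧸ (Q ⊓ Q').subgroupOf R → C ⧸ (Q ⊓ Q').subgroupOf C := fun x => (⟨_, fm x.out x.out.2⟩ : C)
    have inj : Function.Injective F := fun x y e => by
      rw [← x.out_eq', ← y.out_eq', QuotientGroup.eq]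
      have e : (x.out.1 * r * x.out.1⁻¹ * r⁻¹)⁻¹ * (y.out.1 * r * y.out.1⁻¹ * r⁻¹) ∈ Q ⊓ Q' :=
        (QuotientGroup.eq (s := (Q ⊓ Q').subgroupOf C)).1 e
      change x.out.1⁻¹ * y.out.1 ∈ Q ⊓ Q'
      have hc := Q'.mul_mem (Q'.inv_mem x.out.2.1) y.out.2.1
      have e := n1 _ hr _ (n2 _ (Q'.inv_mem x.out.2.1) _ (n1 _ (inv_mem hr) _ e))
      generalize x.out.1 = a at *
      generalize y.out.1 = b at *
      have e1 : r * (a⁻¹ * b)⁻¹ * r⁻¹ ∈ Q' := by
        simpa [mul_assoc] using mul_mem (inv_mem hc) e.2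
      have e2 : p⁻¹ * (a⁻¹ * b)⁻¹ * p ∈ Q := canon h (a := r⁻¹ * g) (by
        rw [pz', show r⁻¹ * g * z * (r⁻¹ * g)⁻¹ = r⁻¹ * (g * z * g⁻¹) * r⁻¹⁻¹ by group, hj',
          anti h (inv_mem hr) j1 fun e => rj (Commute.inv_left_iff.1 e), zc h j1]) (by
        simpa [mul_assoc] using (hQ' _).1 e1)
      simpa [mul_assoc] using inv_mem (n2 p hp _ ⟨e2, Q'.mul_mem (mul_mem (inv_mem hp) (inv_mem hc)) hp⟩)
    have k := Nat.mul_le_mul_right (Nat.card ↥(Q ⊓ Q')) (Nat.card_le_card_of_injective F inj)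
    nth_rw 1 [← Nat.card_congr (subgroupOfEquivOfLe u1).toEquiv] at k
    rw [← Nat.card_congr (subgroupOfEquivOfLe u2).toEquiv, ← card_eq_card_quotient_mul_card_subgroup,
      ← card_eq_card_quotient_mul_card_subgroup] at k
    omega
  obtain ⟨k, k1, k2, k3⟩ := N.irr j j1 u hu.1 h'.zz h'.ne hj jq
    ((sq_or h hu.1).resolve_right fun e => (sq_or h' hu.2).elim (fun e' => h.ne (e.symm.trans e'))
      fun e' => hj (e'.symm.trans e)) (zc h' hu.2) uq
  exact k3 (ab u hu _ ⟨h.nor k k1 u hu.1, h'.nor k (mem_centralizer_singleton_iff.2 k2) u hu.2⟩)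

theorem abel (h : Hyp0 z Q) (N' : Nt j Q' q') (e : z * q' ≠ q' * z) :
    ∀ a ∈ Q ⊓ centralizer {j}, ∀ b ∈ Q ⊓ centralizer {j}, a * b = b * a := fun a ha b hb =>
  (h.com a ha.1 b hb.1).resolve_right fun e' => e (by
    have := com_q N' ha.2 hb.2
    rwa [e', ← mul_assoc z b, mul_inv_cancel_right, mul_inv_cancel_right] at this)

theorem weak [Finite G] (h : Hyp0 z Q) (N : Nt z Q q) (hj : g * z * g⁻¹ ∈ Q) : g * z * g⁻¹ = z := by
  by_contra hn
  have h' : Hyp0 (g * z * g⁻¹) _ := hyp_map h (MulAut.conj g)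
  have := AB h inf_le_left (abel h (nt_map N (MulAut.conj g)) (caseII h N hn))
  change Nat.card ↥(Q ⊓ centralizer {g * z * g⁻¹}) ≤ _ at this
  rw [cardC h hj h'.zz h'.ne hn] at this
  omega

theorem nat [Finite G] (h : Hyp0 z Q) (N : Nt z Q q) {g : G} (hj : g * z * g⁻¹ ∈ centralizer ({z} : Set G)) :
    g * z * g⁻¹ = z := by
  by_contra hn
  have h' : Hyp0 (g * z * g⁻¹) _ := hyp_map h (MulAut.conj g)
  have N' : Nt (g * z * g⁻¹) _ (g * q * g⁻¹) := nt_map N (MulAut.conj g)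
  have e := caseII h N hn
  have hw := fun a => weak h' N' (g := a)
  have hQ' := fun x => mem_conj (Q := Q) (g := g) (x := x)
  generalize Q.map (MulAut.conj g).toMonoidHom = Q' at *
  generalize hj' : g * z * g⁻¹ = j at *
  generalize g * q * g⁻¹ = q' at *
  have jz := mem_centralizer_singleton_iff.1 hj
  have jq : j * q * j⁻¹ = q⁻¹ := (N.nor j hj).resolve_left fun e' =>
    e (cen_of N' N (mul_inv_eq_iff_eq_mul.1 e'))
  have zq : z * q' * z⁻¹ = q'⁻¹ := (N'.nor z (mem_centralizer_singleton_iff.2 jz.symm)).resolve_left fun e' =>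
    e (mul_inv_eq_iff_eq_mul.1 e')
  have ji := inv_eq_of_mul_eq_one_right h'.zz
  have zi := inv_eq_of_mul_eq_one_right h.zz
  have qj : q * j * q⁻¹ = z * j := by
    rw [← jq, ← N.sq]
    calc _ = q * (j * j) * q * j⁻¹ := by group
      _ = _ := by rw [h'.zz, ji, mul_one]
  have qz : q' * z * q'⁻¹ = j * z := by
    rw [← zq, ← N'.sq]
    calc _ = q' * (z * z) * q' * z⁻¹ := by group
      _ = _ := by rw [h.zz, zi, mul_one]
  obtain ⟨s, hs⟩ : ∃ s : G → G, ∀ r, s r = r * (j * r⁻¹ * j⁻¹) := ⟨_, fun _ => rfl⟩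
  have sm : ∀ r ∈ Q, s r ∈ Q := fun r hr => hs r ▸ mul_mem hr (h.nor j hj _ (inv_mem hr))
  have sq' : ∀ r ∈ Q, s (r * q) = s r * z := fun r hr => by
    calc _ = r * (q * j * q⁻¹) * r⁻¹ * j⁻¹ := by rw [hs]; group
      _ = _ := by rw [qj, ← mul_assoc, zc h hr, zc h (sm r hr), hs]; group
  have s1 : ∀ r ∈ Q, s r = 1 → r ∈ Q ⊓ centralizer {j} := fun r hr e => ⟨hr, mem_centralizer_singleton_iff.2 (by
    calc _ = s r * (j * r) := by rw [hs]; group
      _ = _ := by rw [e, one_mul])⟩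
  have fin : ∀ r ∈ Q, s r * q' = q' * s r → s r = 1 := fun r hr sq2 => by
    have a1 : s r * q = q * s r := by simpa only [hs, mul_assoc] using com_q N (h.le hr) hj
    have a2 : s r ∈ Q' := (hQ' _).2 (canon h (a := q * q') (by
      rw [hj', show q * q' * z * (q * q')⁻¹ = q * (q' * z * q'⁻¹) * q⁻¹ by group, qz, ← conj_mul, qj,
        zc h N.mem, mul_inv_cancel_right, mul_assoc, jz, ← mul_assoc, h.zz, one_mul]) (by
      rw [mul_inv_rev, mul_assoc, mul_assoc, ← mul_assoc (s r), a1, mul_assoc, inv_mul_cancel_left, sq2,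
        inv_mul_cancel_left]
      exact sm r hr))
    have a3 : r * j * r⁻¹ = s r * j := by rw [hs]; group
    have := hw r (a3 ▸ mul_mem a2 h'.mem)
    rwa [a3, mul_eq_right] at this
  have fin2 : ∀ r ∈ Q, s r * s r = 1 → r ∈ Q ⊓ centralizer {j} ∨ r * q ∈ Q ⊓ centralizer {j} := fun r hr ss => by
    have c : s r * j = j * s r := by
      rw [eq_comm, ← mul_inv_eq_iff_eq_mul]
      nth_rw 2 [← inv_eq_of_mul_eq_one_right ss]
      simp only [hs, mul_inv_rev, inv_inv, ji, mul_assoc, h'.zz, mul_one]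
    rcases N'.nor _ (mem_centralizer_singleton_iff.2 c) with e' | e'
    · exact .inl (s1 r hr (fin r hr (mul_inv_eq_iff_eq_mul.1 e')))
    · refine .inr (s1 _ (mul_mem hr N.mem) (fin _ (mul_mem hr N.mem) ?_))
      rw [sq' r hr, ← mul_inv_eq_iff_eq_mul,
        show s r * z * q' * (s r * z)⁻¹ = s r * (z * q' * z⁻¹) * (s r)⁻¹ by group, zq, ← conj_inv, e', inv_inv]
  have two : ∀ r ∈ Q, ∀ t ∈ Q, s r * s r ≠ 1 → s t * s t ≠ 1 → s (r * t) * s (r * t) = 1 := fun r hr t ht a b => by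
    have m := fun r (hr : r ∈ Q) => h.nor j hj _ (inv_mem hr)
    have c : Commute (s r) (s t) := by
      have k1 : ∀ r t, Commute (j * r⁻¹ * j⁻¹) (j * t⁻¹ * j⁻¹) ↔ Commute r t := fun r t =>
        (Commute.conj_iff j).trans Commute.inv_inv_iff
      have k2 : Commute (j * r⁻¹ * j⁻¹) t ↔ Commute (j * t⁻¹ * j⁻¹) r := by
        rw [← k1, Commute.symm_iff]
        simp only [mul_inv_rev, inv_inv, ji, ← mul_assoc, h'.zz, one_mul, mul_assoc r]
        simp
      have cm' : ∀ {x a b : G}, x ∈ Q → a ∈ Q → b ∈ Q → (Commute x (a * b) ↔ (Commute x a ↔ Commute x b)) :=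
        cm h
      rw [hs t, cm' (sm r hr) ht (m t ht), Commute.symm_iff, Commute.symm_iff (a := s r), hs r,
        cm' ht hr (m r hr), cm' (m t ht) hr (m r hr), k1, Commute.symm_iff (b := j * r⁻¹ * j⁻¹), k2]
      exact iff_comm
    have c' : Commute (r * s t * r⁻¹) (s r) := by
      by_cases e : r * s t = s t * r
      · simpa [e] using c.symm
      · rw [anti h hr (sm t ht) e]
        exact Commute.mul_left (zc h (sm r hr)).symm c.symm
    rw [show s (r * t) = r * s t * r⁻¹ * s r by simp only [hs]; group, ← sq, c'.mul_pow, sq, sq, conj_mul,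
      (sq_or h (sm r hr)).resolve_left a, (sq_or h (sm t ht)).resolve_left b, zc h hr, mul_inv_cancel_right, h.zz]
  have c32 := AB h inf_le_left (abel h N' e)
  by_cases hall : ∀ r ∈ Q, s r * s r = 1
  · classical
    have := cover (A := Q ⊓ centralizer {j}) (B := Q) {1, q} fun r hr => (fin2 r hr (hall r hr)).elim
      (fun e => ⟨1, by simp, by simpa using e⟩) fun e => ⟨q, by simp, e⟩
    have := Nat.mul_le_mul (Finset.card_le_two (a := 1) (b := q)) c32
    have := h.cQ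
    omega
  · classical
    push Not at hall
    obtain ⟨t, ht, b⟩ := hall
    have := cover (A := Q ⊓ centralizer {j}) (B := Q) {1, q, t, t * q} fun r hr => by
      by_cases a : s r * s r = 1
      · exact (fin2 r hr a).elim (fun e => ⟨1, by simp, by simpa using e⟩) fun e => ⟨q, by simp, e⟩
      · exact (fin2 _ (mul_mem hr ht) (two r hr t ht a b)).elim (fun e => ⟨t, by simp, e⟩)
          fun e => ⟨t * q, by simp, by simpa only [mul_assoc] using e⟩
    have := Nat.mul_le_mul (Finset.card_le_four (a := 1) (b := q) (c := t) (d := t * q)) c32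
    have := h.cQ
    omega

end Cfsg.Agent.Lib.Co2N
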