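import Cfsg.Agent.Lib.Co2Om2
import Cfsg.Agent.Lib.Co2H2

/-! The conjugates of `z` in the elementary abelian group of order `1024` and the swap. -/

set_option autoImplicit false
set_option maxRecDepth 100000

namespace Cfsg.Agent.Lib.Co2Om

open Subgroup Cfsg.Agent.Lib.PermNet Cfsg.Agent.Lib.Words Cfsg.Agent.Lib.DCE Cfsg.Agent.Lib.BT
  Cfsg.Agent.Lib.Co2MH Cfsg.Agent.Lib.Co2SB Cfsg.Agent.Lib.Co2H

variable {G : Type*} [Group G] {z : G} {f : ℕ → G}

/-- The linear map with given images of the basis. -/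
def lin : List ℕ → ℕ → ℕ
  | [], _ => 0
  | a :: A, m => (if m % 2 = 1 then a else 0) ^^^ lin A (m / 2)

theorem lin_lt {A : List ℕ} (h : ∀ a ∈ A, a < 1024) (m : ℕ) : lin A m < 1024 := by
  induction A generalizing m with
  | nil => exact (by decide : 0 < 1024)
  | cons a A ih =>
    refine xor_lt ?_ (ih (fun b hb => h b (List.mem_cons_of_mem _ hb)) _)
    split_ifs
    exacts [h a List.mem_cons_self, by decide]

theorem ew_xor (F : ℕ → G) (L : List ℕ) (h1 : ∀ i ∈ L, F i * F i = 1)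
    (h2 : ∀ i ∈ L, ∀ j ∈ L, F i * F j = F j * F i) (a b : ℕ) :
    wval F (ew L (a ^^^ b)) = wval F (ew L a) * wval F (ew L b) := by
  have c : ∀ (x : G) (L : List ℕ), (∀ j ∈ L, x * F j = F j * x) → ∀ m,
      x * wval F (ew L m) = wval F (ew L m) * x := fun x L h m => by
    induction L generalizing m with
    | nil => simp [ew]
    | cons j L ih =>
      have e := ih (fun i hi => h i (List.mem_cons_of_mem _ hi)) (m / 2)
      rw [ew, wval_append]
      split_ifs
      · rw [wval_single, ← mul_assoc, h j List.mem_cons_self, mul_assoc, e, mul_assoc]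
      · simpa using e
  induction L generalizing a b with
  | nil => simp [ew]
  | cons i L ih =>
    have e := ih (fun j hj => h1 j (List.mem_cons_of_mem _ hj))
      (fun j hj k hk => h2 j (List.mem_cons_of_mem _ hj) k (List.mem_cons_of_mem _ hk)) (a / 2) (b / 2)
    have e1 := c (F i) L (fun j hj => h2 i List.mem_cons_self j (List.mem_cons_of_mem _ hj)) (a / 2)
    have e2 := h1 i List.mem_cons_self
    simp only [ew, wval_append, Nat.xor_div_two, Nat.xor_mod_two_eq_one, e]
    by_cases ha : a % 2 = 1 <;> by_cases hb : b % 2 = 1 <;>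
      simp only [ha, hb, iff_true, iff_false, not_true, not_false_iff, if_true, if_false,
        wval_single, wval_nil, one_mul, true_iff, false_iff]
    · rw [mul_assoc, ← mul_assoc (wval F _), ← e1, ← mul_assoc, ← mul_assoc, e2, one_mul]
    · rw [mul_assoc]
    · rw [← mul_assoc, e1, mul_assoc]

theorem ee_xor (B : SB z f) (a b : ℕ) : ee f (a ^^^ b) = ee f a * ee f b := by
  obtain ⟨M, -⟩ := model B
  have h : allL (fun i => fixW (nat_lit 11) (nat_lit 2047) htt B0 ([2 * i] ++ [2 * i]) &&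
      allL (fun j => fixW (nat_lit 11) (nat_lit 2047) htt B0
        (([2 * i] ++ [2 * j]) ++ invW ([2 * j] ++ [2 * i]))) eb) eb = true := by decide +kernel
  refine ew_xor _ _ (fun i hi => ?_) (fun i hi j hj => ?_) a b
  · have := allL_all h i hi
    rw [Bool.and_eq_true] at this
    have e := M.one _ this.1
    rwa [wval_append, wval_single] at e
  · have := allL_all h i hi
    rw [Bool.and_eq_true] at this
    have e := M.comm _ _ (allL_all this.2 j hj)
    rwa [wval_single, wval_single] at e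

theorem ee_zero : ee f 0 = 1 := rfl

theorem ee_lin (B : SB z f) (g : G) (L A : List ℕ)
    (h : List.Forall₂ (fun i a => g * FF f i * g⁻¹ = ee f a) L A) (m : ℕ) :
    g * wval (FF f) (ew L m) * g⁻¹ = ee f (lin A m) := by
  induction h generalizing m with
  | nil => simp [ew, lin, ee_zero]
  | cons h1 _ ih =>
    rw [ew, lin, ee_xor B, ← ih, wval_append]
    split_ifs
    · rw [← h1, wval_single]; group
    · rw [ee_zero, wval_nil, one_mul, one_mul]

/-- The matrices of the letters. -/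
def mts : List (ℕ × List ℕ) := [(12, [1, 2, 4, 8, 16, 32, 64, 128, 256, 512]), (14, [1, 3, 4, 8, 16, 57, 73, 149, 272, 524]), (18, [1, 2, 5, 8, 16, 40, 88, 139, 264, 515]), (22, [1, 2, 4, 9, 16, 38, 70, 133, 277, 531]), (26, [1, 2, 4, 8, 17, 34, 69, 130, 267, 521]), (32, [1, 15, 30, 18, 7, 32, 64, 128, 256, 992]), (34, [1, 2, 4, 10, 22, 32, 64, 128, 512, 256]), (36, [1, 8, 25, 2, 7, 32, 64, 256, 128, 512]), (38, [1, 6, 4, 18, 14, 32, 128, 64, 256, 512]), (40, [1, 4, 2, 25, 16, 32, 64, 192, 320, 576]), (52, [1, 25, 4, 8, 11, 32, 384, 320, 256, 736]), (54, [1, 2, 15, 8, 27, 32, 480, 768, 640, 512]), (56, [1, 2, 4, 13, 21, 32, 864, 928, 480, 736]), (58, [1, 20, 18, 30, 16, 32, 64, 320, 192, 928]), (60, [1, 29, 4, 23, 16, 32, 640, 576, 480, 512]), (64, [1, 2, 6, 8, 24, 32, 992, 128, 256, 512]), (66, [1, 2, 13, 8, 16, 32, 736, 768, 256, 384])]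

/-- The matrix of a letter. -/
def mtx (l : ℕ) : List ℕ := (mts.lookup l).getD []

/-- The action of a word on the codes. -/
def act (w : List ℕ) (p : ℕ) : ℕ := w.foldr (fun l q => lin (mtx l) q) p

/-- The letters used. -/
def LS : List ℕ := [12, 14, 18, 22, 26, 32, 34, 36, 38, 40, 52, 54, 56, 58, 60, 64, 66]

theorem ls_ok : allL (fun l => Nat.beq (mtx l).length 10 && allL (fun a => Nat.blt a 1024) (mtx l) &&
    allL (fun e => fixW (nat_lit 11) (nat_lit 2047) htt B0
      (([l] ++ [2 * e.1] ++ invW [l]) ++ invW (ew eb e.2))) (eb.zip (mtx l))) LS = true := by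
  decide +kernel

theorem nm (B : SB z f) {w : List ℕ} (h : allL (memL LS) w = true) :
    Nm (ee f) (wval (FF f) w) (act w) := by
  obtain ⟨M, -⟩ := model B
  induction w with
  | nil => exact fun q hq => ⟨hq, by simp [act]⟩
  | cons l w ih =>
    have h1 := allL_all h
    have c := allL_all ls_ok l (memL_mem (h1 l List.mem_cons_self))
    simp only [Bool.and_eq_true] at c
    have e0 : eb.length = (mtx l).length := (Nat.eq_of_beq_eq_true c.1.1).symm
    have e1 : List.Forall₂ (fun i a => wval (FF f) [l] * FF f i * (wval (FF f) [l])⁻¹ = ee f a) eb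
        (mtx l) := by
      refine List.forall₂_iff_zip.2 ⟨e0, fun {i a} hi => ?_⟩
      rw [← wval_single (FF f) i]
      exact M.cj [l] [2 * i] (ew eb a) (allL_all c.2 (i, a) hi)
    have n1 : Nm (ee f) (wval (FF f) [l]) (lin (mtx l)) := fun q _ =>
      ⟨lin_lt (fun a ha => Nat.blt_eq.mp (allL_all c.1.2 a ha)) q, ee_lin B _ eb (mtx l) e1 q⟩
    have := n1.mul (ih (allL_of fun a ha => h1 a (List.mem_cons_of_mem _ ha)))
    rwa [← wval_append] at this

theorem ee_inj (B : SB z f) {a b : ℕ} (ha : a < 1024) (hb : b < 1024) (h : ee f a = ee f b) : a = b := by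
  obtain ⟨M, -⟩ := model B
  have c : allR (fun p => Nat.beq p 0 || bnot (fixW (nat_lit 11) (nat_lit 2047) htt B0 (ew eb p)))
      0 1024 = true := by decide +kernel
  have c1 := allR_all c (a ^^^ b) (Nat.zero_le _) (by have := xor_lt ha hb; omega)
  rw [Bool.or_eq_true] at c1
  rcases c1 with c1 | c1
  · exact Nat.xor_eq_zero_iff.1 (Nat.eq_of_beq_eq_true c1)
  · refine (M.nrel _ c1 (mem_bot.2 ?_)).elim
    change ee f (a ^^^ b) = 1
    rw [ee_xor B, h, ← ee_xor B, Nat.xor_self, ee_zero]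

/-- The word taking a code to the representative of its orbit. -/
noncomputable def wq (q : ℕ) : List ℕ :=
  [Nat.mod (Nat.shiftRight wt (Nat.mul 28 q)) 128,
    Nat.mod (Nat.shiftRight wt (Nat.add (Nat.mul 28 q) 7)) 128,
    Nat.mod (Nat.shiftRight wt (Nat.add (Nat.mul 28 q) 14)) 128,
    Nat.mod (Nat.shiftRight wt (Nat.add (Nat.mul 28 q) 21)) 128]

theorem wq_ok : allR (fun q => allL (memL LS) (wq q) && Nat.beq (act (wq q) q) (rp (orb q)))
    0 1024 = true := by decide +kernel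

theorem kw_ok : allL (fun e => allL (memL LS) e.2 && Nat.beq (act e.2 e.1) 64 &&
    Nat.beq (act e.2 1) 1 && Nat.beq (act e.2 32) 32) kw = true := by decide +kernel

theorem ef (B : SB z f) : EF z (ee f) where
  xor a _ b _ := ee_xor B a b
  inj a ha b hb h := ee_inj B ha hb h
  one := z14 B
  wd q hq := by
    obtain ⟨M, -⟩ := model B
    have c := allR_all wq_ok q (Nat.zero_le _) (by omega)
    rw [Bool.and_eq_true] at c
    exact ⟨_, M.mem _, _, nm B c.1, Nat.eq_of_beq_eq_true c.2⟩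
  kd a ha := by
    obtain ⟨e, he, rfl⟩ := List.mem_map.1 ha
    have c := allL_all kw_ok e he
    simp only [Bool.and_eq_true] at c
    exact ⟨_, _, nm B c.1.1.1, Nat.eq_of_beq_eq_true c.1.1.2, Nat.eq_of_beq_eq_true c.1.2,
      Nat.eq_of_beq_eq_true c.2⟩

theorem swap (B : SB z f)
    (U : ∀ P : Subgroup G, P ≤ centralizer {z} → (∀ a ∈ P, a * a = 1) → Nat.card P = 1024 →
      ∃ k ∈ centralizer ({z} : Set G), ∀ a ∈ P, ∃ p < 1024, k * a * k⁻¹ = ee f p)
    (wc : ∀ p < 32, IsConj z (ee f p) → p = 1) (hp : ∃ p < 1024, p ≠ 1 ∧ IsConj z (ee f p)) :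
    (∀ p < 1024, IsConj z (ee f p) → p = 1 ∨ ∃ k ∈ centralizer ({z} : Set G),
      k * ee f 32 * k⁻¹ = ee f p ∨ k * ee f 97 * k⁻¹ = ee f p) ∧ IsConj z (ee f 97) ∧
      ¬ IsConj z (ee f 33) ∧ ∃ t, Cj t (FF f) [[60, 62], [28], [30]] [[44], [30], [28]] := by
  obtain ⟨h1, h2, h3, t, t1, t2, t3⟩ := (ef B).swap U wc hp
  refine ⟨h1, h2, h3, t, Cj.cons ?_ (Cj.cons ?_ (Cj.cons ?_ Cj.nil))⟩
  · obtain ⟨M, -⟩ := model B
    rw [M.eq [60, 62] (ew eb 31) (by decide +kernel)]
    exact mul_inv_eq_iff_eq_mul.1 t1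
  · exact mul_inv_eq_iff_eq_mul.1 t2
  · exact mul_inv_eq_iff_eq_mul.1 t3

end Cfsg.Agent.Lib.Co2Om
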