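import Cfsg.Agent.Lib.Co2Om1

/-! The conjugates of `z` in the elementary abelian group of order `1024`: the abstract part. -/

set_option autoImplicit false
set_option maxRecDepth 100000

namespace Cfsg.Agent.Lib.Co2Om

open Subgroup Cfsg.Agent.Lib.PermNet Cfsg.Agent.Lib.DCE

variable {G : Type*} [Group G] {z : G} {e : ℕ → G}

/-- The element `n` acts on the codes as `δ`. -/
def Nm (e : ℕ → G) (n : G) (δ : ℕ → ℕ) : Prop := ∀ q < 1024, δ q < 1024 ∧ n * e q * n⁻¹ = e (δ q)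

theorem Nm.mul {n n' : G} {δ δ' : ℕ → ℕ} (h : Nm e n δ) (h' : Nm e n' δ') :
    Nm e (n * n') (fun q => δ (δ' q)) := fun q hq => by
  obtain ⟨a1, a2⟩ := h' q hq
  obtain ⟨b1, b2⟩ := h _ a1
  refine ⟨b1, ?_⟩
  rw [← b2, ← a2]
  group

/-- The facts needed on the codes. -/
structure EF (z : G) (e : ℕ → G) : Prop where
  xor : ∀ a < 1024, ∀ b < 1024, e (a ^^^ b) = e a * e b
  inj : ∀ a < 1024, ∀ b < 1024, e a = e b → a = b
  one : e 1 = z
  wd : ∀ q < 1024, ∃ k ∈ centralizer ({z} : Set G), ∃ δ, Nm e k δ ∧ δ q = rp (orb q)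
  kd : ∀ a ∈ kw.map Prod.fst, ∃ k δ, Nm e k δ ∧ δ a = 64 ∧ δ 1 = 1 ∧ δ 32 = 32

namespace EF

variable (E : EF z e)
include E

theorem zero : e 0 = 1 := by
  have := E.xor 0 (by decide) 0 (by decide)
  rw [Nat.xor_self] at this
  exact left_eq_mul.1 this

theorem sq {a : ℕ} (ha : a < 1024) : e a * e a = 1 := by
  rw [← E.xor a ha a ha, Nat.xor_self, E.zero]

theorem comm {a b : ℕ} (ha : a < 1024) (hb : b < 1024) : e a * e b = e b * e a := by
  rw [← E.xor a ha b hb, ← E.xor b hb a ha, Nat.xor_comm]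

theorem lb {n : G} {δ : ℕ → ℕ} (h : Nm e n δ) : Lb δ where
  lt q hq := (h q hq).1
  xor a ha b hb := by
    refine E.inj _ (h _ (xor_lt ha hb)).1 _ (xor_lt (h a ha).1 (h b hb).1) ?_
    rw [← (h _ (xor_lt ha hb)).2, E.xor _ (h a ha).1 _ (h b hb).1, ← (h a ha).2, ← (h b hb).2,
      E.xor a ha b hb]
    group
  inj a ha b hb x := by
    refine E.inj a ha b hb ?_
    have := (h a ha).2
    rw [x, ← (h b hb).2] at this
    simpa using this

omit E in
theorem cj {n : G} {δ : ℕ → ℕ} (h : Nm e n δ) {q : ℕ} (hq : q < 1024) :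
    IsConj z (e (δ q)) ↔ IsConj z (e q) := by
  have c : IsConj (e q) (e (δ q)) := isConj_iff.2 ⟨n, (h q hq).2⟩
  exact ⟨fun x => x.trans c.symm, fun x => x.trans c⟩

omit E in
theorem iv {S : ℕ} (hS : ∀ q < 1024, IsConj z (e q) ↔ om S q = true) {n : G} {δ : ℕ → ℕ}
    (h : Nm e n δ) : Iv δ (om S) := fun q hq => by
  rw [Bool.eq_iff_iff, ← hS _ hq, ← hS _ (h q hq).1, cj h hq]

theorem rc {S : ℕ} (hS : ∀ q < 1024, IsConj z (e q) ↔ om S q = true) : Rc S := fun q hq => by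
  obtain ⟨k, -, δ, h1, h2⟩ := E.wd q hq
  exact ⟨δ, E.lb h1, iv hS h1, h2⟩

/-- A conjugate of the elementary abelian group. -/
def cg (g : G) : Subgroup G where
  carrier := {a | ∃ q < 1024, a = g⁻¹ * e q * g}
  one_mem' := ⟨0, by decide, by rw [E.zero]; group⟩
  mul_mem' := by
    rintro _ _ ⟨a, ha, rfl⟩ ⟨b, hb, rfl⟩
    exact ⟨a ^^^ b, xor_lt ha hb, by rw [E.xor a ha b hb]; group⟩
  inv_mem' := by
    rintro _ ⟨a, ha, rfl⟩
    refine ⟨a, ha, ?_⟩
    rw [mul_inv_rev, mul_inv_rev, inv_inv, inv_eq_of_mul_eq_one_right (E.sq ha), mul_assoc]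

theorem card_cg (g : G) : Nat.card (E.cg g) = 1024 := by
  have : Nat.card (Fin 1024) = Nat.card (E.cg g) := by
    refine Nat.card_congr (Equiv.ofBijective
      (fun q : Fin 1024 => (⟨g⁻¹ * e q * g, q, q.2, rfl⟩ : E.cg g)) ⟨fun a b h => ?_, ?_⟩)
    · have h' : g⁻¹ * e a * g = g⁻¹ * e b * g := congrArg Subtype.val h
      exact Fin.ext (E.inj _ a.2 _ b.2 (by simpa using h'))
    · rintro ⟨_, q, hq, rfl⟩
      exact ⟨⟨q, hq⟩, rfl⟩
  rw [← this, Nat.card_eq_fintype_card, Fintype.card_fin]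

/-- The uniqueness of the elementary abelian group. -/
def Uq (z : G) (e : ℕ → G) : Prop :=
  ∀ P : Subgroup G, P ≤ centralizer {z} → (∀ a ∈ P, a * a = 1) → Nat.card P = 1024 →
    ∃ k ∈ centralizer ({z} : Set G), ∀ a ∈ P, ∃ p < 1024, k * a * k⁻¹ = e p

theorem tr (U : Uq z e) {p : ℕ} (hp : p < 1024) (h : IsConj z (e p)) :
    ∃ n δ, Nm e n δ ∧ δ p = 1 := by
  obtain ⟨g, hg⟩ := isConj_iff.1 h
  obtain ⟨k, hk, hP⟩ := U (E.cg g) (by
    rintro _ ⟨q, hq, rfl⟩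
    rw [mem_centralizer_singleton_iff]
    have : z = g⁻¹ * e p * g := by rw [← hg]; group
    rw [this]
    calc g⁻¹ * e q * g * (g⁻¹ * e p * g) = g⁻¹ * (e q * e p) * g := by group
      _ = g⁻¹ * e p * g * (g⁻¹ * e q * g) := by rw [E.comm hq hp]; group) (by
    rintro _ ⟨q, hq, rfl⟩
    calc g⁻¹ * e q * g * (g⁻¹ * e q * g) = g⁻¹ * (e q * e q) * g := by group
      _ = 1 := by rw [E.sq hq]; group) (E.card_cg g)
  have : ∀ q, ∃ r, q < 1024 → r < 1024 ∧ k * g⁻¹ * e q * (k * g⁻¹)⁻¹ = e r := fun q => by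
    by_cases hq : q < 1024
    · obtain ⟨r, h1, h2⟩ := hP _ ⟨q, hq, rfl⟩
      exact ⟨r, fun _ => ⟨h1, by rw [← h2]; group⟩⟩
    · exact ⟨0, fun h => (hq h).elim⟩
  choose δ hδ using this
  refine ⟨k * g⁻¹, δ, hδ, E.inj _ (hδ p hp).1 _ (by decide) ?_⟩
  rw [← (hδ p hp).2, E.one, ← hg]
  calc k * g⁻¹ * (g * z * g⁻¹) * (k * g⁻¹)⁻¹ = k * z * k⁻¹ := by group
    _ = z := by rw [mem_centralizer_singleton_iff.1 hk]; group

theorem exists_mask (wc : ∀ p < 32, IsConj z (e p) → p = 1) :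
    ∃ m < 128, ∀ q < 1024, IsConj z (e q) ↔ om (2 + 8 * m) q = true := by
  classical
  have key : ∀ b : Fin 7 → Bool, ∃ m : Fin 128, ∀ i : Fin 7, Nat.testBit (2 + 8 * m.1) (3 + i.1) = b i := by
    decide +kernel
  obtain ⟨m, hm⟩ := key fun i => decide (IsConj z (e (rp (3 + i.1))))
  refine ⟨m, m.2, fun q hq => ?_⟩
  obtain ⟨k, -, δ, h1, h2⟩ := E.wd q hq
  rw [← cj h1 hq, h2, om]
  have lt := orb_lt' hq
  generalize orb q = i at lt
  have low : ∀ m : Fin 128, Nat.testBit (2 + 8 * m.1) 0 = false ∧ Nat.testBit (2 + 8 * m.1) 1 = true ∧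
      Nat.testBit (2 + 8 * m.1) 2 = false := by decide +kernel
  obtain ⟨l0, l1, l2⟩ := low m
  by_cases h3 : 3 ≤ i
  · obtain ⟨j, rfl⟩ := Nat.exists_eq_add_of_le h3
    rw [hm ⟨j, by omega⟩, decide_eq_true_iff]
  · have : i = 0 ∨ i = 1 ∨ i = 2 := by omega
    rcases this with rfl | rfl | rfl
    · rw [l0]
      exact ⟨fun h => absurd (wc 0 (by decide) h) (by decide), fun h => Bool.noConfusion h⟩
    · rw [l1]
      exact ⟨fun _ => rfl, fun _ => by rw [show rp 1 = 1 from rfl, E.one]⟩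
    · rw [l2]
      exact ⟨fun h => absurd (wc 2 (by decide) h) (by decide), fun h => Bool.noConfusion h⟩

end EF

theorem om_two : allR (fun q => bif' (om 2 q) (Nat.beq q 1) true) 0 1024 = true := by decide +kernel

theorem om_cls : allR (fun q => bif' (om 266 q) (Nat.beq q 1 || Nat.beq (rp (orb q)) 32 ||
    Nat.beq (rp (orb q)) 97) true) 0 1024 = true := by decide +kernel

theorem EF.swap (E : EF z e) (U : EF.Uq z e) (wc : ∀ p < 32, IsConj z (e p) → p = 1)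
    (hp : ∃ p < 1024, p ≠ 1 ∧ IsConj z (e p)) :
    (∀ p < 1024, IsConj z (e p) → p = 1 ∨ ∃ k ∈ centralizer ({z} : Set G),
      k * e 32 * k⁻¹ = e p ∨ k * e 97 * k⁻¹ = e p) ∧ IsConj z (e 97) ∧ ¬ IsConj z (e 33) ∧
      ∃ t, t * e 31 * t⁻¹ = e 64 ∧ t * e 1 * t⁻¹ = e 32 ∧ t * e 32 * t⁻¹ = e 1 := by
  obtain ⟨m, hm, hS⟩ := E.exists_mask wc
  have := mask hm (E.rc hS) fun p hp ho => by
    obtain ⟨n, δ, h1, h2⟩ := E.tr U hp ((hS p hp).2 ho)
    exact ⟨δ, E.lb h1, EF.iv hS h1, h2⟩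
  rcases this with rfl | rfl
  · obtain ⟨p, h1, h2, h3⟩ := hp
    have c := allR_all om_two p (Nat.zero_le _) (by omega)
    have : om 2 p = true := (hS p h1).1 h3
    rw [this] at c
    exact (h2 (Nat.eq_of_beq_eq_true c)).elim
  change ∀ q < 1024, IsConj z (e q) ↔ om 266 q = true at hS
  obtain ⟨-, -, -, -, -, o32, o97, o33⟩ := om_small
  refine ⟨fun p h1 h2 => ?_, (hS _ (by decide)).2 o97, fun h => ?_, ?_⟩
  · have c := allR_all om_cls p (Nat.zero_le _) (by omega)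
    rw [(hS p h1).1 h2] at c
    obtain ⟨k, hk, δ, d1, d2⟩ := E.wd p h1
    have d3 : k⁻¹ * e (rp (orb p)) * k⁻¹⁻¹ = e p := by rw [← d2, ← (d1 p h1).2]; group
    have c' : (Nat.beq p 1 || Nat.beq (rp (orb p)) 32 || Nat.beq (rp (orb p)) 97) = true := c
    rw [Bool.or_eq_true, Bool.or_eq_true] at c'
    rcases c' with (c' | c') | c'
    · exact Or.inl (Nat.eq_of_beq_eq_true c')
    · rw [Nat.eq_of_beq_eq_true c'] at d3
      exact Or.inr ⟨k⁻¹, inv_mem hk, Or.inl d3⟩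
    · rw [Nat.eq_of_beq_eq_true c'] at d3
      exact Or.inr ⟨k⁻¹, inv_mem hk, Or.inr d3⟩
  · rw [(hS _ (by decide)).1 h] at o33
    exact Bool.noConfusion o33
  · have R := E.rc hS
    obtain ⟨n, δ, h1, h2⟩ := E.tr U (by decide) ((hS _ (by decide)).2 o32)
    have s1 := step1 R (E.lb h1) (EF.iv hS h1) h2
    obtain ⟨k, hk, γ, g1, g2⟩ := E.wd (δ 1) (h1 1 (by decide)).1
    have g3 : γ 1 = 1 := E.inj _ (g1 1 (by decide)).1 _ (by decide) (by
      rw [← (g1 1 (by decide)).2, E.one, mem_centralizer_singleton_iff.1 hk]; group)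
    have h3 := g1.mul h1
    have a1 : γ (δ 32) = 1 := by rw [h2, g3]
    have a2 : γ (δ 1) = 32 := by rw [g2, s1]
    obtain ⟨u, ε, u1, u2, u3, u4⟩ := E.kd _ (step2 R (E.lb h3) (EF.iv hS h3) a1 a2)
    have h4 := u1.mul h3
    refine ⟨u * (k * n), ?_, ?_, ?_⟩
    · exact (h4 31 (by decide)).2.trans (congrArg e u2)
    · exact (h4 1 (by decide)).2.trans (congrArg e ((congrArg ε a2).trans u4))
    · exact (h4 32 (by decide)).2.trans (congrArg e ((congrArg ε a1).trans u3))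

end Cfsg.Agent.Lib.Co2Om
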