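import Cfsg.Agent.Lib.Co2H1
import Cfsg.Agent.Lib.Co2PS
import Cfsg.Agent.Lib.BTStep

/-! Tools for the action of the swap on the centraliser of the four-group. -/

set_option autoImplicit false
set_option maxRecDepth 100000

namespace Cfsg.Agent.Lib.Co2H

open Subgroup Cfsg.Agent.Lib.PermNet Cfsg.Agent.Lib.Words Cfsg.Agent.Lib.PermGroup Cfsg.Agent.Lib.DCE
  Cfsg.Agent.Lib.BT Cfsg.Agent.Lib.Co2MH Cfsg.Agent.Lib.Co2SB

theorem chain_mono {W : Type*} [Group W] {π : W →* Equiv.Perm ℕ} {N : ℕ} {f : ℕ → W}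
    {A K : Subgroup W} {ch : List Lv} {bs : List ℕ} (h : ChainP π f N A ch bs) (le : K ≤ A)
    (hK : ∀ l ∈ ch, ∀ e ∈ l.T, wval f e.2 ∈ K) : ChainP π f N K ch bs := by
  induction ch generalizing bs with
  | nil => exact fun g hg => h g (le hg)
  | cons l ch ih =>
    exact ⟨h.1, fun g hg => h.2.1 g (le hg), fun e he => ⟨hK l List.mem_cons_self e he,
      (h.2.2.1 e he).2⟩, ih h.2.2.2 fun l hl => hK l (List.mem_cons_of_mem _ hl)⟩

theorem fix_lv {G : Type*} [Group G] {F : ℕ → G} {H : Subgroup G} {N wb mask : ℕ} {tt : TT}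
    {B : List ℕ} {T : ℕ} (M : Model F H ⊥ N wb mask tt B T) {A : Subgroup H} {l : Lv} {ch : List Lv}
    {bs : List ℕ} (hch : ChainP M.π M.y N A (l :: ch) bs) (y L : List ℕ)
    (h : fxB wb mask tt B y L (l :: ch) = true) {c : H} (hc : c ∈ A) (hb : ∀ b ∈ bs, M.π c b = b)
    (e : c * wval F y = wval F y * c) : M.π c l.b = l.b := by
  obtain ⟨h1, h⟩ := band_eq h
  obtain ⟨h2, h3⟩ := band_eq h
  obtain ⟨a, ha, e1⟩ := hch.2.1 c hc hb
  obtain ⟨a1, a2, a3⟩ := hch.2.2.1 a ha
  obtain ⟨k, hk, e2⟩ := ChainP.mem (K := (centralizer {wval F y}).subgroupOf H) hch.2.2.2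
    (fun l hl x hx => by
      rw [mem_subgroupOf, M.val, mem_centralizer_singleton_iff]
      exact comm_word L (fun i hi => wval_single F i ▸ M.comm _ _ (allL_all h1 i hi))
        (allL_all (allL_all h2 l hl) x hx)) (g := wval M.y a.2 * c) (mul_mem a1 hc)
    (fun b hb' => by
      rw [map_mul, Equiv.Perm.mul_apply, ← Equiv.Perm.eq_inv_iff_eq]
      rcases List.mem_cons.1 hb' with rfl | hb'
      · rw [e1, a3]
      · rw [hb b hb', a2 b hb'])
  have e3 : wval F a.2 * c * (k : G)⁻¹ = 1 := by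
    have := (M.ker (wval M.y a.2 * c * k⁻¹)).1 (by rw [map_mul, e2, map_inv, mul_inv_cancel])
    simpa [M.val] using this
  rw [mul_inv_eq_one, ← eq_mul_inv_iff_mul_eq] at e3
  have e4 := mem_centralizer_singleton_iff.1 (e3 ▸ mul_mem (mem_subgroupOf.1 hk)
    (inv_mem (mem_centralizer_singleton_iff.2 e)))
  have := allL_all (allL_all h3 l List.mem_cons_self) a ha
  cases hb : Nat.beq a.1 l.b
  · rw [hb] at this
    exact absurd (by rw [wval_append, wval_append, e4]) (M.ne _ _ this)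
  · exact e1.trans (beq_eq hb)

variable {G : Type*} [Group G] {z t : G} {f : ℕ → G}

/-- Generators of `K` and their images. -/
def ru : List (List ℕ) := [[32], [34], [36], [38], [40], [42], [52], [54], [56], [58], [60], [62]]

def rv : List (List ℕ) := [[52], [54], [56], [58], [60], [62], [32], [34], [36], [38], [40], [42]]

def AR : List (List ℕ) := [[28], [30], [28, 30, 44]]

/-- What is known about the class of `z`. -/
structure Fu (z : G) (f : ℕ → G) : Prop where
  key : ∀ w, IsConj z (wval (FF f) w) →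
    memL [1521, 289, 241, 81] (nfix (nat_lit 11) (nat_lit 2047) htt w (nat_lit 2033)) = true
  z14 : wval (FF f) [28] = z
  ya : ∀ i < 3, IsConj z (wval (FF f) (AR.getD i []))

theorem Fu.kill (U : Fu z f) (M : MH z f) {us vs : List (List ℕ)} (C : Cj t (FF f) us vs)
    (p k : List ℕ) (i : ℕ) (h : band (Nat.blt i 3) (band (fixW (nat_lit 11) (nat_lit 2047) htt B0
      ((k ++ AR.getD i [] ++ invW k) ++ invW (subst us p))) (bnot (memL [1521, 289, 241, 81]
      (nfix (nat_lit 11) (nat_lit 2047) htt (subst vs p) (nat_lit 2033))))) = true) : False := by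
  obtain ⟨h1, h⟩ := band_eq h
  obtain ⟨h2, h3⟩ := band_eq h
  have := U.key _ (((U.ya i (blt_lt h1)).trans (isConj_iff.2 ⟨_, M.cj _ _ _ h2⟩)).trans
    (isConj_iff.2 ⟨t, BTStep.cj_conj C p⟩))
  rw [bnot_true h3] at this
  cases this

def CA : List ℕ := [16, 17, 18, 20, 21, 14, 6, 8, 10, 12, 15, 22, 23, 24, 25]

theorem fx2 : fxB (nat_lit 11) (nat_lit 2047) htt B0 [44] CA (chK.getD 1 ⟨0, []⟩ :: chK.drop 2) = true := by
  decide +kernel

theorem c2 : chB (nat_lit 11) (nat_lit 2047) htt (nat_lit 2033) (fun _ => true) (chK.drop 2)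
    [1718, 512] = true := by decide +kernel

theorem pstep {M : MH z f} (S : M.SC chK [28] [30]) (U : Fu z f)
    (C : Cj t (FF f) [[60, 62], [28], [30]] [[44], [30], [28]]) :
    ∃ t, Cj t (FF f) [[52, 54], [60, 62], [28], [30]] [[32, 34], [44], [30], [28]] := by
  have c1 := C.comm [2 * 2] (M.comm [52, 54] _ (by decide +kernel))
  have c0 := C.comm [2 * 1] (M.comm [52, 54] _ (by decide +kernel))
  have ca := C.comm [2 * 0] (M.comm [52, 54] _ (by decide +kernel))
  have hc := S.hH _ c1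
  have h3 : (t * wval (FF f) [52, 54] * t⁻¹) ^ 3 = 1 := by
    rw [conj_pow, M.pow _ 3 (by decide +kernel)]; simp
  have hn : t * wval (FF f) [52, 54] * t⁻¹ ≠ 1 := by
    rw [Ne, conj_eq_one_iff]; exact M.ne_one _ (by decide +kernel)
  generalize hcc : t * wval (FF f) [52, 54] * t⁻¹ = c at *
  have b0 : M.π ⟨c, hc⟩ 512 = 512 := S.fx c hc c0 512 (by decide +kernel)
  have d1 : ChainP M.π M.y _ _ (chK.getD 1 ⟨0, []⟩ :: chK.drop 2) [512] :=
    (ChainP.drop 1 S.hch (by simp)).1
  have b1 : M.π ⟨c, hc⟩ 1718 = 1718 := fix_lv M d1 _ _ fx2 (c := ⟨c, hc⟩) hc (by simpa using b0) ca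
  have := Fact.mk Nat.prime_three
  have k2 : allL (fun l : Lv => allL (fun e => allL (okL CA) e.2) l.T) (chK.drop 2) = true := by
    decide +kernel
  obtain ⟨g, ⟨g1, g2⟩, hg⟩ := ChainP.pfix M.good (p := 3) (j := 1) 1
    (chain_mono (K := (centralizer {wval (FF f) [30]}).subgroupOf _ ⊓
      (centralizer {wval (FF f) [44]}).subgroupOf _) d1.2.2.2 (fun g _ => g.2) fun l hl e he => by
        have := allL_all (allL_all k2 l hl) e he
        refine mem_inf.2 ⟨?_, ?_⟩ <;> rw [mem_subgroupOf, M.val, mem_centralizer_singleton_iff] <;>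
          exact comm_word CA (fun i hi => wval_single (FF f) i ▸ M.comm _ _
            (allL_all (p := fun i => cmW _ _ htt B0 [2 * i] _) (by decide +kernel) i hi)) this)
    (by decide +kernel) c2 (by decide +kernel) (c := ⟨c, hc⟩)
    ⟨mem_centralizer_singleton_iff.2 c0, mem_centralizer_singleton_iff.2 ca⟩
    (by rw [← map_pow, M.ker]; exact h3) (by
      intro b hb
      rcases (by simpa using hb : b = (chK.getD 1 ⟨0, []⟩).b ∨ b = 512) with rfl | rfl
      exacts [b1, b0])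
  replace g1 := mem_centralizer_singleton_iff.1 (mem_subgroupOf.1 g1)
  replace g2 := mem_centralizer_singleton_iff.1 (mem_subgroupOf.1 g2)
  have g0 := mem_centralizer_singleton_iff.1 g.2
  obtain ⟨u, hu, e⟩ := M.find1 S.hch s_n (by decide) (g * ⟨c, hc⟩ * g⁻¹).2
    (fun b hb => hg b ((by decide +kernel : ∀ b ∈ (chK.take 3).map Lv.b,
      b ∈ (((chK.drop 2).take 1).map Lv.b).reverse ++ [(chK.getD 1 ⟨0, []⟩).b, 512]) b hb))
    (comm_pairs _ (List.forall_mem_singleton.2 (by
      change g.1 * c * g.1⁻¹ * _ = _ * (g.1 * c * g.1⁻¹)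
      exact ((Commute.mul_left (Commute.mul_left g2 ca) (Commute.inv_left g2))).eq)))
    (List.forall_mem_singleton.2 (by
      rw [wval_cons, wval_cons, wval_cons, lval_upd (nv := 500), wval_nil, mul_one, mem_bot]
      change g.1 * c * g.1⁻¹ * (g.1 * c * g.1⁻¹ * (g.1 * c * g.1⁻¹)) = 1
      rw [conj_mul, conj_mul, ← pow_three, h3]; simp))
    (List.forall_mem_singleton.2 (by
      rw [wval_cons, lval_upd (nv := 500), wval_nil, mul_one, mem_bot]
      change ¬ g.1 * c * g.1⁻¹ = 1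
      rwa [conj_eq_one_iff]))
  have hi := blt_lt (band_eq hu).1
  rw [wval_mkC, show u.headD 0 = 0 by omega] at e
  refine ⟨(wval (FF f) u.tail)⁻¹ * (g * t), .cons ?_ ((C.left fun v hv => ?_).left fun v hv => ?_)⟩
  · change g.1 * c * g.1⁻¹ = _ * wval (FF f) [32, 34] * _ at e
    rw [← hcc] at e
    calc _ = (wval (FF f) u.tail)⁻¹ * (g.1 * (t * wval (FF f) [52, 54] * t⁻¹) * g.1⁻¹) * (g * t) := by group
      _ = _ := by rw [e]; group
  · simp only [List.mem_cons, List.not_mem_nil, or_false] at hv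
    rcases hv with rfl | rfl | rfl
    exacts [g2, g1, U.z14 ▸ g0]
  · exact (Commute.inv_left (M.comm _ _ (allL_all (band_eq hu).2 v hv))).eq

end Cfsg.Agent.Lib.Co2H
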