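import Cfsg.Agent.Lib.Co2P1

/-! The action of the swap on the centraliser of the four-group. -/

set_option autoImplicit false
set_option maxRecDepth 100000

namespace Cfsg.Agent.Lib.Co2H

open Cfsg.Agent.Lib.PermNet Cfsg.Agent.Lib.Words Cfsg.Agent.Lib.PermGroup Cfsg.Agent.Lib.DCE Cfsg.Agent.Lib.PermModel Cfsg.Agent.Lib.BT

open Subgroup Cfsg.Agent.Lib.Co2MH Cfsg.Agent.Lib.Co2SB

variable {G : Type*} [Group G] {z t : G} {f : ℕ → G} {M : MH z f} (S : M.SC chK [28] [30]) (U : Fu z f)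
include S U

theorem t_n_0_0_0_0_0_0 (C : Cj t (FF f) [[44], [56], [52], [60], [58], [52, 54], [60, 62], [28], [30]]
    [[60, 62], [36], [32], [40], [38], [32, 34], [44], [30], [28]]) : ∃ t, Cj t (FF f) ru rv := by
  exact ⟨t, M.derive C [([8, 4, 0, 6, 2, 8, 6, 2, 0], [32], [52]),
    ([16, 14, 11, 2, 8, 12, 11, 2, 10, 6, 8, 2, 10, 2], [34], [54]),
    ([16, 14, 6, 8, 12, 10, 2, 10, 6, 8, 6, 4], [36], [56]),
    ([16, 8, 12, 8, 0, 6, 2, 8, 12, 8, 4, 0], [38], [58]),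
    ([16, 11, 6, 8, 2, 11, 6, 8, 6, 4], [40], [60]),
    ([16, 11, 6, 8, 2, 11, 6, 8, 6, 4, 0], [42], [62]),
    ([4], [52], [32]),
    ([11, 4], [54], [34]),
    ([2], [56], [36]),
    ([8], [58], [38]),
    ([6], [60], [40]),
    ([12, 6], [62], [42])] (by decide +kernel)⟩

theorem t_n_0_0_0_0_0 (C : Cj t (FF f) [[56], [52], [60], [58], [52, 54], [60, 62], [28], [30]]
    [[36], [32], [40], [38], [32, 34], [44], [30], [28]]) : ∃ t, Cj t (FF f) ru rv := by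
  obtain ⟨v, hv, t, C⟩ := S.step C s_n_0_0_0_0_0
  simp only [List.mem_cons, List.not_mem_nil, or_false] at hv
  subst hv
  exact t_n_0_0_0_0_0_0 S U C

theorem t_n_0_0_0_0_2_0 (C : Cj t (FF f) [[44], [56], [52], [60], [58], [52, 54], [60, 62], [28], [30]]
    [[60, 62], [48, 46, 36], [32], [40], [38], [32, 34], [44], [30], [28]]) : ∃ t, Cj t (FF f) ru rv := by
  obtain ⟨u, h, -⟩ := S.power C [[], []]
    [([], [16]), ([], [14])]
    [([], [14]), ([], [16])]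
    [([44], [([], [12]), ([], [0])], [44]),
    ([56], [([], [14, 10, 0, 6, 8, 12, 2, 10, 6, 8, 6, 4, 0]), ([], [2])], [50, 48, 32, 62, 32]),
    ([52], [([], [8, 4, 0, 6, 2, 8, 6, 2, 0]), ([], [4])], [48, 52]),
    ([60], [([], [16, 11, 6, 8, 2, 11, 6, 8, 6, 4]), ([], [6])], [50, 60]),
    ([58], [([], [16, 8, 12, 8, 0, 6, 2, 8, 12, 8, 4, 0]), ([], [8])], [48, 46, 58]),
    ([52, 54], [([], [12, 8, 12, 11, 2, 8, 12, 2, 11, 2, 0, 6, 8, 6]), ([], [10])], [48, 30, 52, 54])] s_kn_0_0_0_0_2_0 (by decide +kernel)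
  cases h

theorem t_n_0_0_0_0_2 (C : Cj t (FF f) [[56], [52], [60], [58], [52, 54], [60, 62], [28], [30]]
    [[48, 46, 36], [32], [40], [38], [32, 34], [44], [30], [28]]) : ∃ t, Cj t (FF f) ru rv := by
  obtain ⟨v, hv, t, C⟩ := S.step C s_n_0_0_0_0_2
  simp only [List.mem_cons, List.not_mem_nil, or_false] at hv
  subst hv
  exact t_n_0_0_0_0_2_0 S U C

theorem t_n_0_0_0_0_3_0 (C : Cj t (FF f) [[44], [56], [52], [60], [58], [52, 54], [60, 62], [28], [30]]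
    [[60, 62], [58, 42, 32], [32], [40], [38], [32, 34], [44], [30], [28]]) : ∃ t, Cj t (FF f) ru rv := by
  obtain ⟨u, h, -⟩ := S.power C [[], []]
    [([], [16]), ([], [14])]
    [([], [14]), ([], [16])]
    [([44], [([], [12]), ([], [0])], [44]),
    ([56], [([], [10, 0, 6, 8, 2, 10, 6, 8, 6, 4, 0]), ([], [2])], [50, 48, 28, 56]),
    ([52], [([], [8, 4, 0, 6, 2, 8, 6, 2, 0]), ([], [4])], [60, 48, 56, 38]),
    ([60], [([], [16, 11, 6, 8, 2, 11, 6, 8, 6, 4]), ([], [6])], [50, 28, 62]),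
    ([58], [([], [16, 8, 12, 8, 0, 6, 2, 8, 12, 8, 4, 0]), ([], [8])], [42, 36, 32]),
    ([52, 54], [([], [12, 8, 12, 11, 2, 8, 12, 2, 11, 2, 0, 6, 8, 6]), ([], [10])], [48, 30, 52, 54, 24])] s_kn_0_0_0_0_3_0 (by decide +kernel)
  cases h

theorem t_n_0_0_0_0_3 (C : Cj t (FF f) [[56], [52], [60], [58], [52, 54], [60, 62], [28], [30]]
    [[58, 42, 32], [32], [40], [38], [32, 34], [44], [30], [28]]) : ∃ t, Cj t (FF f) ru rv := by
  obtain ⟨v, hv, t, C⟩ := S.step C s_n_0_0_0_0_3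
  simp only [List.mem_cons, List.not_mem_nil, or_false] at hv
  subst hv
  exact t_n_0_0_0_0_3_0 S U C

theorem t_n_0_0_0_0 (C : Cj t (FF f) [[52], [60], [58], [52, 54], [60, 62], [28], [30]]
    [[32], [40], [38], [32, 34], [44], [30], [28]]) : ∃ t, Cj t (FF f) ru rv := by
  obtain ⟨v, hv, t, C⟩ := S.step C s_n_0_0_0_0
  simp only [List.mem_cons, List.not_mem_nil, or_false] at hv
  rcases hv with rfl | rfl | rfl | rfl
  exacts [t_n_0_0_0_0_0 S U C,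
    (U.kill M (BTStep.cj_symm C) [0, 2, 4] [12, 2, 0] 2 (by decide +kernel)).elim,
    t_n_0_0_0_0_2 S U C,
    t_n_0_0_0_0_3 S U C]

theorem t_n_0_0_0 (C : Cj t (FF f) [[60], [58], [52, 54], [60, 62], [28], [30]]
    [[40], [38], [32, 34], [44], [30], [28]]) : ∃ t, Cj t (FF f) ru rv := by
  obtain ⟨v, hv, t, C⟩ := S.step C s_n_0_0_0
  simp only [List.mem_cons, List.not_mem_nil, or_false] at hv
  rcases hv with rfl | rfl | rfl | rfl
  exacts [t_n_0_0_0_0 S U C,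
    (U.kill M C [0] [4, 79, 0] 2 (by decide +kernel)).elim,
    (U.kill M C [0] [4, 79, 0] 2 (by decide +kernel)).elim,
    (U.kill M C [0] [4, 79, 0] 2 (by decide +kernel)).elim]

theorem t_n_0_0 (C : Cj t (FF f) [[58], [52, 54], [60, 62], [28], [30]]
    [[38], [32, 34], [44], [30], [28]]) : ∃ t, Cj t (FF f) ru rv := by
  obtain ⟨v, hv, t, C⟩ := S.step C s_n_0_0
  simp only [List.mem_cons, List.not_mem_nil, or_false] at hv
  subst hv
  exact t_n_0_0_0 S U C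

theorem t_n_0 (C : Cj t (FF f) [[52, 54], [60, 62], [28], [30]]
    [[32, 34], [44], [30], [28]]) : ∃ t, Cj t (FF f) ru rv := by
  obtain ⟨v, hv, t, C⟩ := S.step C s_n_0
  simp only [List.mem_cons, List.not_mem_nil, or_false] at hv
  rcases hv with rfl | rfl | rfl | rfl
  exacts [t_n_0_0 S U C,
    (U.kill M C [0] [46, 12, 2, 0] 2 (by decide +kernel)).elim,
    (U.kill M C [0] [46, 12, 2, 0] 2 (by decide +kernel)).elim,
    (U.kill M C [0] [46, 12, 2, 0] 2 (by decide +kernel)).elim]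

theorem t_n (C : Cj t (FF f) [[60, 62], [28], [30]]
    [[44], [30], [28]]) : ∃ t, Cj t (FF f) ru rv := by
  obtain ⟨t, C⟩ := pstep S U C
  exact t_n_0 S U C

omit U in
theorem p2 (C : Cj t (FF f) ru rv) :
    ∃ u ∈ ([[], [28, 30]] : List (List ℕ)), tv t (FF f) (List.replicate 2 [[]]).flatten = wval (FF f) u :=
  S.powIn C _ _ [([], [18, 14, 12, 4, 12, 14, 8, 4]), ([], [16, 0, 2, 20, 16, 6, 2, 0])]
    [([], [16, 0, 2, 20, 16, 6, 2, 0]), ([], [18, 14, 12, 4, 12, 14, 8, 4])]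
    [([32], [([], [12]), ([], [0])], [32]),
    ([34], [([], [14]), ([], [2])], [34]),
    ([36], [([], [16]), ([], [4])], [36]),
    ([38], [([], [18]), ([], [6])], [38]),
    ([40], [([], [20]), ([], [8])], [40]),
    ([42], [([], [22]), ([], [10])], [42]),
    ([60, 62], [([], [10, 8]), ([], [22, 20])], [60, 62])] _
    [([], [([], [])]),
    ([28], [([], [16, 0, 2, 20, 16, 6, 2, 0])]),
    ([30], [([], [18, 14, 12, 4, 12, 14, 8, 4])]),
    ([28, 30], [([], [16, 8, 6, 14, 6, 8, 16, 10, 4, 0])])] s_cK (by decide +kernel)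

omit S U in
theorem der (M : MH z f) (C : Cj t (FF f) ru rv) : Cj t (FF f) [[12, 16, 20], [3, 9, 6, 1, 2], [8, 7, 3, 9, 2, 7, 2], [24, 0, 4, 11, 8, 4, 7, 3, 9, 1], [11, 6, 9, 2, 7, 1, 2, 10, 4, 7, 3, 9, 7, 4, 1, 4, 7, 1]]
    [[10, 3, 6, 4], [3, 9, 6, 1, 2], [6, 9, 0, 6], [0, 5, 1], [12]] :=
  M.derive C [([8, 22, 20, 8], [12, 16, 20], [10, 3, 6, 4]),
    ([16, 4, 16, 4], [3, 9, 6, 1, 2], [3, 9, 6, 1, 2]),
    ([0, 16, 10, 4, 20, 8, 6, 2, 0], [8, 7, 3, 9, 2, 7, 2], [6, 9, 0, 6]),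
    ([14, 12], [24, 0, 4, 11, 8, 4, 7, 3, 9, 1], [0, 5, 1]),
    ([16, 10, 8, 0, 20, 0], [11, 6, 9, 2, 7, 1, 2, 10, 4, 7, 3, 9, 7, 4, 1, 4, 7, 1], [12])] (by decide +kernel)

/-- The action of the swap on `E`. -/
def At : List ℕ := [32, 896, 416, 160, 736, 1, 31, 9, 12, 7]

omit S U in
theorem derE (M : MH z f) (C : Cj t (FF f) ru rv) : Cj t (FF f) ((List.range 10).map fun i => ew eb (2 ^ i))
    (At.map (ew eb)) :=
  M.derive C [([16, 0, 2, 20, 16, 6, 2, 0], [28], [30]),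
    ([12, 8, 22, 20, 12, 4], [12], [46, 48, 50]),
    ([20, 12, 2, 20, 12, 2], [16], [30, 46, 48]),
    ([22, 20, 12, 8, 12, 4], [20], [30, 46]),
    ([14, 2, 20, 18, 22, 2], [24], [30, 44, 46, 50]),
    ([18, 14, 12, 4, 12, 14, 8, 4], [30], [28]),
    ([10, 8], [44], [28, 12, 16, 20, 24]),
    ([6, 10, 8, 6], [46], [28, 20]),
    ([4, 6, 10, 8, 6, 4], [48], [16, 20]),
    ([12, 2, 14, 8, 6, 14, 12, 0], [50], [28, 12, 16])] (by decide +kernel)

omit S U in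
theorem chain (M : MH z f) (C : Cj t (FF f) ru rv) :
    Cj (wval (FF f) [] * tv t (FF f) [[26, 5, 3], []]) (FF f) us3.tail vs3.tail :=
  BTStep.cj_chain M C _ _ [([34], [38, 42, 38], [([26, 5, 3], [2, 14, 2]), ([], [2])]),
    ([36], [48, 46, 36], [([26, 5, 3], [20, 0, 22, 16, 0]), ([], [4])]),
    ([54], [54], [([26, 5, 3], [2]), ([], [14])]),
    ([42, 40], [48, 46, 44], [([26, 5, 3], [16, 0, 16, 12, 6, 0]), ([], [10, 8])]),
    ([62, 60], [48, 46, 62, 60], [([26, 5, 3], [0, 22, 20, 10, 8, 0]), ([], [22, 20])])] (by decide +kernel)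



end Cfsg.Agent.Lib.Co2H
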