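import Cfsg.Agent.Lib.Co2P2
import Cfsg.Agent.Lib.Co2H2

/-! The relators that involve the swap. -/

set_option autoImplicit false
set_option maxRecDepth 100000

namespace Cfsg.Agent.Lib.Co2H

open Subgroup Cfsg.Agent.Lib.PermNet Cfsg.Agent.Lib.Words Cfsg.Agent.Lib.PermGroup Cfsg.Agent.Lib.DCE
  Cfsg.Agent.Lib.BT Cfsg.Agent.Lib.Co2MH Cfsg.Agent.Lib.Co2SB

variable {G : Type*} [Group G] {z t : G} {f : ℕ → G}

theorem exists_inv {M : MH z f} (S : M.SC chK [28] [30]) (U : Fu z f)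
    (C : Cj t (FF f) [[60, 62], [28], [30]] [[44], [30], [28]]) :
    ∃ t, t * t = 1 ∧ Cj t (FF f) ru rv := by
  obtain ⟨t, C⟩ := t_n S U C
  obtain ⟨u, hu, e⟩ := p2 S C
  rw [tv_rep] at e
  simp only [List.mem_cons, List.not_mem_nil, or_false] at hu
  rcases hu with rfl | rfl
  · exact ⟨t, by simpa [tv, sq] using e, C⟩
  · refine ⟨t * z, ?_, C.right fun v => (mem_centralizer_singleton_iff.1 (M.mem v)).symm⟩
    have h1 : t * z = wval (FF f) [30] * t := U.z14 ▸ derE M C 0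
    have h2 : t * t = wval (FF f) [28, 30] := by simpa [tv, sq] using e
    nth_rw 1 [h1]
    rw [mul_assoc, ← mul_assoc t, h2, ← U.z14, ← wval_append, ← wval_append]
    exact M.one _ (by decide +kernel)

/-- The action of `t c` on the codes. -/
noncomputable def gam (c : List ℕ) (p : ℕ) : ℕ := ap At (Co2H.apW c p)

theorem pw (B : SB z f) (M : MH z f) (C : Cj t (FF f) ru rv) (c : List ℕ) (k : ℕ)
    (hc : allL (okL Co2MH.NL) c = true) (h : ∀ i < 10, (gam c)^[k] (2 ^ i) = 2 ^ i) :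
    ∃ p < 1024, gam c p = p ∧ (t * wval (FF f) c) ^ k = ee f p := by
  have one : ∀ p < 1024, gam c p < 1024 ∧
      t * wval (FF f) c * ee f p * (t * wval (FF f) c)⁻¹ = ee f (gam c p) := fun p hp => by
    obtain ⟨h1, h2⟩ := ee_apW B c hc hp
    refine ⟨(by decide +kernel : ∀ q < 1024, ap At q < 1024) _ h1, ?_⟩
    rw [gam, ← ee_conj B (g := t) (A := At) rfl (fun i hi => by
      have := (by decide : ∀ i < 10, ((List.range 10).map fun i => ew eb (2 ^ i)).getD i [] = ew eb (2 ^ i) ∧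
        (At.map (ew eb)).getD i [] = ew eb (At.getD i 0)) i hi
      rw [mul_inv_eq_iff_eq_mul, ee, ee, ← this.1, ← this.2]
      exact derE M C i), ← h2]
    group
  generalize t * wval (FF f) c = w at *
  have it : ∀ k, ∀ p < 1024, (gam c)^[k] p < 1024 ∧ w ^ k * ee f p * (w ^ k)⁻¹ = ee f ((gam c)^[k] p) := by
    intro k
    induction k with
    | zero => simp
    | succ k ih =>
      intro p hp
      rw [Function.iterate_succ_apply']
      refine ⟨(one _ (ih p hp).1).1, ?_⟩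
      rw [← (one _ (ih p hp).1).2, ← (ih p hp).2]
      group
  have cm : ∀ i < 10, w ^ k * ee f (2 ^ i) = ee f (2 ^ i) * w ^ k := fun i hi => by
    have := (it k _ ((by decide : ∀ i < 10, 2 ^ i < 1024) i hi)).2
    rwa [h i hi, mul_inv_eq_iff_eq_mul] at this
  obtain ⟨p, hp, e⟩ := cE B (mem_centralizer_singleton_iff.2 (z14 B ▸ cm 0 (by decide))) cm
  refine ⟨p, hp, ee_inj B (one p hp).1 hp ?_, e⟩
  rw [← (one p hp).2, ← e]
  group

theorem sq4 {X : Type*} [Group X] {t c k k' l l' : X} (tt : t * t = 1) (h1 : t * k' = k * t)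
    (h2 : t * l = l' * t) (h3 : c * k' * c = l) :
    t * c * t * (c * k⁻¹) = (t * c) ^ 4 * (c⁻¹ * l'⁻¹) * (t * c * t) := by
  have e : t⁻¹ = t := inv_eq_of_mul_eq_one_right tt
  obtain rfl : k = t * k' * t⁻¹ := eq_mul_inv_of_mul_eq h1.symm
  obtain rfl : l' = t * l * t⁻¹ := eq_mul_inv_of_mul_eq h2.symm
  subst h3
  rw [show (t * c) ^ 4 = t * c * (t * c) * (t * c) * (t * c) by simp only [pow_succ, pow_zero, one_mul]]
  calc _ = t * c * t * c * t * k'⁻¹ * t⁻¹ := by group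
    _ = t * c * t * c * t * c * (t * t) * c⁻¹ * k'⁻¹ * t := by rw [tt, e]; group
    _ = _ := by group

def ps4 : List (List ℕ) := [[0, 0, 2, 0, 0, 2, 0, 0, 2, 0, 0, 2], [0, 4, 2, 8, 0, 4, 2, 8, 0, 4, 2, 8],
  [0, 4, 8, 0, 4, 8, 0, 4, 8, 0, 4, 8]]

theorem four (B : SB z f) (M : MH z f) (tt : t * t = 1) (C : Cj t (FF f) ru rv) :
    (t * wval (FF f) [26, 5, 3]) ^ 4 = ee f 898 ∧
      Cj (t * wval (FF f) [26, 5, 3] * t) (FF f) us3 vs3 := by
  obtain ⟨p, hp, h1, e⟩ := pw B M C [26, 30, 34] 4 (by decide +kernel) (by decide +kernel)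
  rw [M.eq [26, 30, 34] [26, 5, 3] (by decide +kernel)] at e
  have k := sq4 tt (conj_subst C [10, 4, 12]) (conj_subst C [10, 22, 12, 4, 12])
    (c := wval (FF f) [26, 5, 3]) (by
      rw [← wval_append, ← wval_append]; exact M.eq _ _ (by decide +kernel))
  rw [e, ← wval_invW, ← wval_invW, ← wval_invW, ← wval_append, ← wval_append, ee, ← wval_append] at k
  have C' := Cj.cons k (by simpa [tv, mul_assoc] using chain M C)
  obtain rfl : p = 898 := by
    by_contra hn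
    have := (by decide +kernel : ∀ p ∈ [0, 95, 137, 214, 294, 377, 431, 496, 557, 626, 676, 763, 779, 852,
      898, 989], p ≠ 898 → ∃ q ∈ ps4, band (fixW (nat_lit 11) (nat_lit 2047) htt B0 (subst us3 q))
      (bnot (fixW (nat_lit 11) (nat_lit 2047) htt B0 (subst ((ew eb p ++ (invW [26, 5, 3] ++
        invW (subst rv [10, 22, 12, 4, 12]))) :: vs3.tail) q))) = true) p
      ((by decide +kernel : ∀ p < 1024, gam [26, 30, 34] p = p → p ∈ [0, 95, 137, 214, 294, 377, 431, 496,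
        557, 626, 676, 763, 779, 852, 898, 989]) p hp h1) hn
    obtain ⟨q, -, hq⟩ := this
    refine M.ne_one _ (band_eq hq).2 ?_
    rw [← BTStep.cj_conj C' q]
    exact conj_eq_one_iff.2 (M.one _ (band_eq hq).1)
  exact ⟨e, C'⟩

theorem sigma {M : MH z f} (S : M.SC chK [28] [30]) (hT : M.Ch (centralizer {z}) chT) {n : G}
    (C : Cj n (FF f) us3 vs3) : n * wval (FF f) [3, 0, 6, 4, 11, 2, 7, 9, 1, 5] * n⁻¹ =
      wval (FF f) [0, 5, 10, 7, 5, 0, 9, 4, 0, 6, 0, 4] := by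
  obtain ⟨u, hu, e⟩ := M.find1 hT s_sg (by decide +kernel)
    (c := n * wval (FF f) [3, 0, 6, 4, 11, 2, 7, 9, 1, 5] * n⁻¹)
    (S.hH _ (M.eq (subst vs3 [8, 0, 8, 0, 8, 0]) [28] (by decide +kernel) ▸
      C.comm [8, 0, 8, 0, 8, 0] (M.comm _ _ (by decide +kernel)))) (by simp)
    (by
      rw [List.forall₂_map_left_iff, List.forall₂_map_right_iff, List.forall₂_same]
      intro p hp
      rw [← BTStep.cj_conj C p.1, ← BTStep.cj_conj C p.2,
        ← M.cj [3, 0, 6, 4, 11, 2, 7, 9, 1, 5] (subst us3 p.1) (subst us3 p.2)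
          (allL_all (p := fun p : List ℕ × List ℕ => fixW _ _ htt B0 (([3, 0, 6, 4, 11, 2, 7, 9, 1, 5] ++
            subst us3 p.1 ++ invW [3, 0, 6, 4, 11, 2, 7, 9, 1, 5]) ++ invW (subst us3 p.2)))
            (by decide +kernel) p hp), mem_bot]
      group)
    (List.forall_mem_singleton.2 (by
      have := M.pow [3, 0, 6, 4, 11, 2, 7, 9, 1, 5] 3 (by decide +kernel)
      generalize wval (FF f) [3, 0, 6, 4, 11, 2, 7, 9, 1, 5] = s at *
      rw [wval_cons, wval_cons, wval_cons, lval_upd (nv := 500), wval_nil, mul_one, mem_bot, conj_mul,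
        conj_mul, ← pow_three, this]
      simp)) (by simp)
  rw [e, eqL_eq hu]; rfl

theorem exists_t (B : SB z f) (U : Fu z f)
    (C : Cj t (FF f) [[60, 62], [28], [30]] [[44], [30], [28]]) :
    ∃ t, t * z * t⁻¹ = wval (FF f) [30] ∧ ∀ w ∈ Co2HD.RR, wval (Function.update f 14 t) w = 1 := by
  obtain ⟨M, S, hT, -⟩ := model B
  obtain ⟨t, tt, C⟩ := exists_inv S U C
  obtain ⟨e4, C3⟩ := four B M tt C
  have e := sigma S hT C3
  obtain ⟨p, hp, h1, e11⟩ := pw B M C [14, 30, 34] 11 (by decide +kernel) (by decide +kernel)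
  obtain rfl := (by decide +kernel : ∀ p < 1024, gam [14, 30, 34] p = p → p = 0) p hp h1
  rw [M.eq [14, 30, 34] [14, 5, 3] (by decide +kernel)] at e11
  refine ⟨t, mul_inv_eq_iff_eq_mul.2 (U.z14 ▸ derE M C 0), fun w hw => amRels_one
    (rs := [[[26, 5, 3], [26, 5, 3], [26, 5, 3], [26, 5, 3] ++ invW [12, 11, 6, 9, 2, 7, 1, 2, 10, 4, 7, 3, 9,
      7, 4, 1, 4, 7, 1]], [[26, 5, 3], [3, 0, 6, 4, 11, 2, 7, 9, 1, 5], invW [26, 5, 3],
      invW [0, 5, 10, 7, 5, 0, 9, 4, 0, 6, 0, 4]], (List.replicate 11 [[14, 5, 3]]).flatten])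
    (fun i hi => (ext_of_lt _ hdefs hi).symm) (der M C) tt ?_ (by decide) w
    ((by decide +kernel : ∀ w ∈ Co2HD.RR, w ∈ amRels 14 _ _ _) w hw)⟩
  simp only [List.forall_mem_cons, List.not_mem_nil, false_imp_iff, implies_true, and_true]
  refine ⟨?_, ?_, ?_⟩
  · simp only [tv, List.map_cons, List.map_nil, List.prod_cons, List.prod_nil, wval_append, wval_invW]
    rw [← M.eq (ew eb 898) [12, 11, 6, 9, 2, 7, 1, 2, 10, 4, 7, 3, 9, 7, 4, 1, 4, 7, 1] (by decide +kernel),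
      ← show _ = wval (FF f) (ew eb 898) from e4]
    group
  · simp only [tv, List.map_cons, List.map_nil, List.prod_cons, List.prod_nil, wval_invW]
    rw [← e]
    generalize wval (FF f) [26, 5, 3] = c
    generalize wval (FF f) [3, 0, 6, 4, 11, 2, 7, 9, 1, 5] = s
    have e : t⁻¹ = t := inv_eq_of_mul_eq_one_right tt
    calc _ = t * c * t * s * t * c⁻¹ * (t * t) * c * t * s⁻¹ * t⁻¹ * c⁻¹ * t⁻¹ := by group
      _ = t * c * t * s * (t * t) * s⁻¹ * t⁻¹ * c⁻¹ * t⁻¹ := by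
        conv_lhs => rw [tt]
        group
      _ = 1 := by rw [tt]; group
  · rw [tv_rep]
    simpa [tv, ee, ew, eb] using e11

end Cfsg.Agent.Lib.Co2H
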