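import Cfsg.Agent.Lib.Co2U0

/-! The elementary abelian subgroups of order `2 ^ 10` of the involution centraliser of the second
Conway group are conjugate. -/

set_option autoImplicit false
set_option maxRecDepth 100000

namespace Cfsg.Agent.Lib.Co2U

open Subgroup Cfsg.Agent.Lib.PermNet Cfsg.Agent.Lib.Words Cfsg.Agent.Lib.PermGroup Cfsg.Agent.Lib.DCE
  Cfsg.Agent.Lib.BT Cfsg.Agent.Lib.Co2MH Cfsg.Agent.Lib.Co2SB Cfsg.Agent.Lib.Co2H

theorem k3 : allL (fun e => eqL (IT.map fun d => e.2.2.1.countP fun p => Nat.beq (ap d.2.1 p) p)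
    e.2.2.2) IT = true := by decide +kernel


end Cfsg.Agent.Lib.Co2U
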