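import Cfsg.Agent.Lib.Co2U1
import Cfsg.Agent.Lib.Co2U2

/-! The elementary abelian subgroups of order `2 ^ 10` of the involution centraliser of the second
Conway group are conjugate. -/

set_option autoImplicit false
set_option maxRecDepth 100000

namespace Cfsg.Agent.Lib.Co2U

open Subgroup Cfsg.Agent.Lib.PermNet Cfsg.Agent.Lib.Words Cfsg.Agent.Lib.PermGroup Cfsg.Agent.Lib.DCE
  Cfsg.Agent.Lib.BT Cfsg.Agent.Lib.Co2MH Cfsg.Agent.Lib.Co2SB Cfsg.Agent.Lib.Co2H

theorem allR_of {p : ℕ → Bool} {lo n : ℕ} (h : ∀ a < n, p (lo + a) = true) :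
    allR p lo n = true := by
  induction n with
  | zero => rfl
  | succ n ih =>
    have h1 : p (Nat.add lo n) = true := h n (Nat.lt_succ_self n)
    change band (p (Nat.add lo n)) (allR p lo n) = true
    rw [h1, ih fun a ha => h a (Nat.lt_succ_of_lt ha)]

section chain
variable {W : Type*} [Group W] {π : W →* Equiv.Perm ℕ} {N wb mask : ℕ} {tt : TT} {f : ℕ → W}
  {A : Subgroup W}

theorem pfixS (hg : Good π N wb mask tt f) {okA : ℕ → Bool} (k : ℕ) {ch : List Lv} {bs : List ℕ}
    (h : ChainP π f N A ch bs) (hbs : ∀ b ∈ bs, b < N) (hc : chB wb mask tt N okA ch bs = true)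
    (hk : ∀ l ∈ ch.take k, ¬ 2 ∣ l.T.length) (P : Subgroup W) (hA : P ≤ A) (hp : IsPGroup 2 P)
    (hb : ∀ c ∈ P, ∀ b ∈ bs, π c b = b) :
    ∃ g ∈ A, ∀ c ∈ P, ∀ b ∈ ((ch.take k).map Lv.b).reverse ++ bs, π (g * c * g⁻¹) b = b := by
  induction k generalizing ch bs P with
  | zero => exact ⟨1, one_mem _, by simpa using hb⟩
  | succ k ih =>
    cases ch with
    | nil => exact ⟨1, one_mem _, by simpa using hb⟩
    | cons l ch =>
      obtain ⟨-, hc⟩ := band_eq hc
      obtain ⟨h2, hc⟩ := band_eq hc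
      have nd := (lvB_sound hg (A := ⊤) (fun _ _ => trivial) hbs h.1 l.T _ h2).2
      have key : ∀ c ∈ A, (∀ b ∈ bs, π c b = b) → ∀ x ∈ (l.T.map Prod.fst).toFinset,
          π c x ∈ (l.T.map Prod.fst).toFinset := fun c hc hb x hx => by
        obtain ⟨e, he, rfl⟩ := List.mem_map.1 (List.mem_toFinset.1 hx)
        obtain ⟨a1, a2, a3⟩ := h.2.2.1 e he
        obtain ⟨e', he', e1⟩ := h.2.1 _ (mul_mem hc (inv_mem a1)) fun b hb' => by
          rw [map_mul, map_inv, Equiv.Perm.mul_apply, a2 b hb', hb b hb']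
        rw [map_mul, map_inv, Equiv.Perm.mul_apply, a3] at e1
        exact List.mem_toFinset.2 (List.mem_map.2 ⟨e', he', e1.symm⟩)
      let : MulAction P {x // x ∈ (l.T.map Prod.fst).toFinset} :=
        { smul := fun c x => ⟨π c x, key c (hA c.2) (hb c c.2) x x.2⟩
          one_smul := fun x => Subtype.ext (show π ((1 : P) : W) x = x by simp)
          mul_smul := fun a b x => Subtype.ext (show π ((a * b : P) : W) x = π a (π b x) by simp) }
      have : Fact (Nat.Prime 2) := ⟨Nat.prime_two⟩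
      obtain ⟨⟨x, hx⟩, e1⟩ := hp.nonempty_fixed_point_of_prime_not_dvd_card
        {x // x ∈ (l.T.map Prod.fst).toFinset} (by
          rw [Nat.card_eq_fintype_card, Fintype.card_coe, List.toFinset_card_of_nodup nd,
            List.length_map]
          exact hk l (by simp))
      obtain ⟨e, he, rfl⟩ := List.mem_map.1 (List.mem_toFinset.1 hx)
      obtain ⟨a1, a2, a3⟩ := h.2.2.1 e he
      have e1 : ∀ c ∈ P, π c e.1 = e.1 := fun c hc => congrArg Subtype.val (e1 ⟨c, hc⟩)
      obtain ⟨g, g1, g2⟩ := ih h.2.2.2 (by simpa using ⟨h.1, hbs⟩) hc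
        (fun l hl => hk l (by simp [hl])) (P.map (MulAut.conj (wval f e.2)).toMonoidHom)
        (by rintro _ ⟨c, hc, rfl⟩; exact mul_mem (mul_mem a1 (hA hc)) (inv_mem a1)) (hp.map _)
        (by
          rintro _ ⟨c, hc, rfl⟩ b hb'
          change π (wval f e.2 * c * (wval f e.2)⁻¹) b = b
          rw [map_mul, map_mul, map_inv, Equiv.Perm.mul_apply, Equiv.Perm.mul_apply,
            ← Equiv.Perm.eq_inv_iff_eq]
          rcases List.mem_cons.1 hb' with rfl | hb'
          · rw [a3, e1 c hc]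
          · rw [a2 b hb', hb c hc b hb'])
      refine ⟨g * wval f e.2, mul_mem g1 a1, fun c hc b hb' => ?_⟩
      rw [show g * wval f e.2 * c * (g * wval f e.2)⁻¹ =
        g * (wval f e.2 * c * (wval f e.2)⁻¹) * g⁻¹ by group]
      exact g2 _ ⟨c, hc, rfl⟩ b (by simpa using hb')

theorem step {l : Lv} {ch : List Lv} {bs : List ℕ} (h : ChainP π f N A (l :: ch) bs) {g : W}
    (hg : g ∈ A) (hb : ∀ b ∈ bs, π g b = b) :
    ∃ e ∈ l.T, wval f e.2 * g ∈ A ∧ ∀ b ∈ l.b :: bs, π (wval f e.2 * g) b = b := by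
  obtain ⟨e, he, e1⟩ := h.2.1 g hg hb
  obtain ⟨a1, a2, a3⟩ := h.2.2.1 e he
  refine ⟨e, he, mul_mem a1 hg, fun b hb' => ?_⟩
  rw [map_mul, Equiv.Perm.mul_apply, ← Equiv.Perm.eq_inv_iff_eq]
  rcases List.mem_cons.1 hb' with rfl | hb'
  · rw [e1, a3]
  · rw [hb b hb', a2 b hb']

end chain

variable {G : Type*} [Group G] {z : G} {f : ℕ → G}

theorem sift (B : SB z f) (P : Subgroup G) (hP : P ≤ centralizer {z}) (h2 : ∀ a ∈ P, a * a = 1) :
    ∃ k ∈ centralizer ({z} : Set G), ∀ a ∈ P, ∃ w ∈ WL, wval (FF f) w * (k * a * k⁻¹) ∈ EE B := by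
  obtain ⟨M, -, ch, -⟩ := model B
  obtain ⟨g, -, hg⟩ := pfixS M.good 3 ch (by simp) cchT (by decide +kernel)
    (P.subgroupOf (centralizer {z})) (fun c _ => c.2)
    (fun c => ⟨1, Subtype.ext (Subtype.ext (by simpa [pow_two] using h2 _ c.2))⟩) (by simp)
  refine ⟨g, g.2, fun a ha => ?_⟩
  have c3 := (ChainP.drop 3 ch (by simp)).1
  obtain ⟨e3, m3, a3, b3⟩ := step c3 (g := g * ⟨a, hP ha⟩ * g⁻¹) (mem_subgroupOf.2 (Subtype.property _)) (hg _ ha)
  obtain ⟨e4, m4, a4, b4⟩ := step c3.2.2.2 a3 b3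
  obtain ⟨e5, m5, a5, b5⟩ := step c3.2.2.2.2.2.2 a4 b4
  have hk : allL (fun l : Lv => allL (fun e => allL (okL eb) e.2) l.T) (chT.drop 6) = true := by
    decide +kernel
  obtain ⟨k, k1, k2⟩ := ChainP.mem (K := (EE B).subgroupOf (centralizer {z})) c3.2.2.2.2.2.2.2.2.2
    (fun l hl e he => by
      rw [mem_subgroupOf, M.val]
      exact mem_word eb (eb_mem B) (allL_all (allL_all hk l hl) e he)) a5 b5
  refine ⟨e5.2 ++ e4.2 ++ e3.2, List.mem_flatMap.2 ⟨e3, m3, List.mem_flatMap.2 ⟨e4, m4,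
    List.mem_map.2 ⟨e5, m5, rfl⟩⟩⟩, ?_⟩
  have := (M.ker (k⁻¹ * (wval M.y e5.2 * (wval M.y e4.2 * (wval M.y e3.2 *
    (g * ⟨a, hP ha⟩ * g⁻¹)))))).1 (by rw [map_mul, k2, map_inv, inv_mul_cancel])
  rw [mem_bot, coe_mul, coe_inv, inv_mul_eq_one] at this
  simp only [coe_mul, coe_inv, M.val] at this
  rw [wval_append, wval_append, mul_assoc, mul_assoc, ← this]
  exact k1

theorem core [Finite G] (B : SB z f) (P : Subgroup G) (h2 : ∀ a ∈ P, a * a = 1)
    (hc : Nat.card P = 1024) (hw : ∀ a ∈ P, ∃ w ∈ WL, wval (FF f) w * a ∈ EE B) : P ≤ EE B := by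
  classical
  have cm : ∀ a ∈ P, ∀ b ∈ P, a * b = b * a := fun a ha b hb => by
    have e := h2 _ (mul_mem ha hb)
    rw [← inv_eq_of_mul_eq_one_right e, mul_inv_rev, inv_eq_of_mul_eq_one_right (h2 a ha),
      inv_eq_of_mul_eq_one_right (h2 b hb)]
  have cE : ∀ e ∈ EE B, ∀ p, e * ee f p = ee f p * e := by
    rintro _ ⟨q, -, rfl⟩ p
    exact ee_comm B q p
  set c := Nat.card (P ⊓ EE B : Subgroup G) with hcd
  obtain ⟨m, hm, em⟩ := (Nat.dvd_prime_pow Nat.prime_two (m := 10) (i := c)).1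
    (by have := card_dvd_of_le (inf_le_left : P ⊓ EE B ≤ P); rwa [hc] at this)
  let U : List ℕ → Prop := fun w => ∃ a ∈ P, wval (FF f) w * a ∈ EE B
  -- counting
  have cnt : ∀ L : List (List ℕ × List ℕ × List ℕ × List ℕ), (∀ e ∈ IT, U e.1 → e ∈ L) →
      1024 ≤ c * (1 + L.length) := fun L hL => by
    have := Fintype.ofFinite P
    choose ω ω1 ω2 using fun a : P => hw a a.2
    have := Finset.card_le_mul_card_image_of_maps_to (s := Finset.univ) (f := ω)
      (t := ([] :: L.map (·.1)).toFinset) (fun a _ => by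
        obtain ⟨q1, q2⟩ := band_eq (allL_all k1 _ (ω1 a))
        rw [List.mem_toFinset]
        cases q3 : eqL (ω a) [] with
        | true => rw [eqL_eq q3]; exact List.mem_cons_self
        | false =>
          rw [q3] at q2
          cases q4 : memLL (IT.map (·.1)) (ω a) with
          | true =>
            obtain ⟨e, he, e1⟩ := List.mem_map.1 (memLL_mem q4)
            exact List.mem_cons_of_mem _ (List.mem_map.2 ⟨e, hL e he ⟨a, a.2, e1 ▸ ω2 a⟩, e1⟩)
          | false =>
            rw [q4] at q2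
            refine absurd ((allR_of fun i hi => ?_).symm.trans (bnot_true q2)) (by simp)
            have hp : 2 ^ (0 + i) < 1024 := Nat.pow_lt_pow_right (n := 10) (by norm_num) (by omega)
            generalize 2 ^ (0 + i) = p at hp
            obtain ⟨r1, r2⟩ := ee_apW B _ q1 hp
            obtain ⟨r3, r4⟩ := ee_apW B _ q1 r1
            have r5 : Co2H.apW (ω a ++ ω a) p = Co2H.apW (ω a) (Co2H.apW (ω a) p) :=
              List.foldr_append
            rw [r5, ee_inj B r3 hp ?_]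
            · exact Nat.beq_refl _
            have ai := inv_eq_of_mul_eq_one_right (h2 a a.2)
            have t : ∀ x ∈ EE B, wval (FF f) (ω a) * ((a : G) * x * a) * (wval (FF f) (ω a))⁻¹ = x := by
              rintro _ ⟨q, -, rfl⟩
              calc _ = wval (FF f) (ω a) * a * ee f q * (wval (FF f) (ω a) * a)⁻¹ := by
                    rw [mul_inv_rev, ai]; simp only [mul_assoc]
                _ = _ := by rw [cE _ (ω2 a), mul_inv_cancel_right]
            have t1 : (a : G) * ee f (Co2H.apW (ω a) p) * a = ee f p := by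
              have := t _ ⟨_, r1, rfl⟩
              conv_rhs at this => rw [← r2]
              exact mul_left_cancel (mul_right_cancel this)
            have t2 := t _ ⟨_, hp, rfl⟩
            have t3 : (a : G) * ee f p * a = ee f (Co2H.apW (ω a) p) := by
              rw [← t1, ← mul_assoc, ← mul_assoc, h2 a a.2, one_mul, mul_assoc, h2 a a.2, mul_one]
            rw [← r4, ← t3, t2]) c (fun w _ => by
        rcases (Finset.univ.filter fun a => ω a = w).eq_empty_or_nonempty with h0 | ⟨a, ha⟩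
        · rw [h0]; exact Nat.zero_le _
        · rw [hcd, ← Nat.card_eq_finsetCard]
          have ha := (Finset.mem_filter.1 ha).2
          refine Nat.card_le_card_of_injective (fun b => (⟨(a : G)⁻¹ * b.1, P.mul_mem (P.inv_mem a.2) b.1.2, ?_⟩ :
            (P ⊓ EE B : Subgroup G))) fun b b' e =>
              Subtype.ext (Subtype.ext (mul_left_cancel (congrArg Subtype.val e)))
          have := mul_mem (inv_mem (ω2 a)) (ω2 b.1)
          rwa [ha, (Finset.mem_filter.1 b.2).2, mul_inv_rev, mul_assoc, inv_mul_cancel_left] at this)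
    rw [Finset.card_univ, ← Nat.card_eq_fintype_card, hc] at this
    refine this.trans (Nat.mul_le_mul_left _ ((List.toFinset_card_le _).trans ?_))
    rw [List.length_cons, List.length_map, add_comm]
  -- common fixed codes
  have fix : ∀ e ∈ IT, U e.1 → ∀ p < 1024, ee f p ∈ P → ap e.2.1 p = p := by
    rintro e he ⟨a, ha, hE⟩ p hp hP
    obtain ⟨q1, q⟩ := band_eq (allL_all k2 e he)
    obtain ⟨q2, q⟩ := band_eq q
    obtain ⟨q3, q⟩ := band_eq q
    obtain ⟨q4, -⟩ := band_eq q
    have := ee_conj B (g := wval (FF f) e.1) (beq_eq q2) (fun i hi => by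
      rw [← beq_eq (allR_all q4 i (Nat.zero_le _) (by omega))]
      exact (ee_apW B _ q1 (Nat.pow_lt_pow_right (n := 10) (by norm_num) hi)).2) p
    refine ee_inj B (ap_lt (fun a ha => blt_lt (allL_all q3 a ha)) p) hp ?_
    have u := cE _ hE p
    rw [mul_assoc, cm a ha _ hP, ← mul_assoc, ← mul_assoc] at u
    rw [← this, mul_right_cancel u, mul_inv_cancel_right]
  have le : ∀ e ∈ IT, U e.1 → ∀ R : ℕ → Bool, (∀ p < 1024, ee f p ∈ P → R p = true) →
      c ≤ e.2.2.1.countP R := fun e he hu R hR => by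
    have q := (band_eq (band_eq (band_eq (band_eq (allL_all k2 e he)).2).2).2).2
    choose γ γ1 γ2 using fun x : (P ⊓ EE B : Subgroup G) => x.2.2
    rw [List.countP_eq_length_filter]
    refine le_trans ?_ (List.toFinset_card_le _)
    rw [hcd, ← Nat.card_eq_finsetCard]
    refine Nat.card_le_card_of_injective (fun x => ⟨γ x, ?_⟩) fun x y h =>
      Subtype.ext (by rw [γ2 x, γ2 y, Subtype.mk.inj h])
    have hx : ee f (γ x) ∈ P := γ2 x ▸ x.2.1
    have := allR_all q (γ x) (Nat.zero_le _) (by simpa using γ1 x)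
    rw [fix e he hu _ (γ1 x) hx, Nat.beq_refl] at this
    exact List.mem_toFinset.2 (List.mem_filter.2 ⟨memL_mem this, hR _ (γ1 x) hx⟩)
  have gd : ∀ e ∈ IT, U e.1 → e ∈ good c := fun e he hu => by
    refine List.mem_filter.2 ⟨he, decide_eq_true ⟨?_, ?_⟩⟩
    · exact (le e he hu (fun _ => true) fun _ _ _ => rfl).trans List.countP_le_length
    · rw [← eqL_eq (allL_all k3 e he), List.countP_map, List.countP_eq_length_filter]
      refine cnt _ fun d hd hv => List.mem_filter.2 ⟨hd, decide_eq_true ?_⟩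
      exact le e he hu _ fun p hp hP => by rw [fix d hd hv p hp hP]; exact Nat.beq_refl _
  have := cnt _ gd
  rcases k4 m (by omega) with h | h
  · rw [em, h] at this
    have e : P ⊓ EE B = P := eq_of_le_of_card_ge inf_le_left (by rw [hc, ← hcd, em]; simpa using this)
    exact e ▸ inf_le_right
  · rw [em] at this; omega

theorem uniq [Finite G] (B : SB z f) (P : Subgroup G) (hP : P ≤ centralizer {z})
    (h2 : ∀ a ∈ P, a * a = 1) (hc : Nat.card P = 1024) :
    ∃ k ∈ centralizer ({z} : Set G), ∀ a ∈ P, ∃ p < 1024, k * a * k⁻¹ = ee f p := by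
  obtain ⟨k, hk, h⟩ := sift B P hP h2
  refine ⟨k, hk, fun a ha => core B (P.map (MulAut.conj k).toMonoidHom) ?_ ?_ ?_ ⟨a, ha, rfl⟩⟩
  · rintro _ ⟨b, hb, rfl⟩
    rw [← map_mul, h2 b hb, map_one]
  · rw [card_map_of_injective (MulAut.conj k).injective, hc]
  · rintro _ ⟨b, hb, rfl⟩
    exact h b hb

end Cfsg.Agent.Lib.Co2U
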