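import Cfsg.Agent.Lib.Co2P3
import Cfsg.Agent.Lib.Co2Om
import Cfsg.Agent.Lib.Co2U
import Cfsg.Agent.Lib.Co2Cls
import Cfsg.Agent.Lib.Co2Cl
import Cfsg.Agent.Lib.Co2Hyp
import Cfsg.Agent.Lib.Co2N
import Cfsg.Agent.Lib.Co2Fin
import Cfsg.Agent.Lib.ZStar

/-! The recognition of the second Conway group by the centraliser of an involution. -/

set_option autoImplicit false
set_option maxRecDepth 100000

namespace Cfsg.Agent.Lib.Co2H

open Subgroup Cfsg.Agent.Lib.PermNet Cfsg.Agent.Lib.Words Cfsg.Agent.Lib.PermGroup Cfsg.Agent.Lib.DCE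
  Cfsg.Agent.Lib.BT Cfsg.Agent.Lib.Co2MH Cfsg.Agent.Lib.Co2SB Cfsg.Agent.Lib.ThDefs

variable {G : Type*} [Group G] {z : G} {f : ℕ → G}

/-- The codes of the representatives that lie in `E`. -/
def rc : List ℕ := [0, 1, 2, 32, 33, 964, 965, 104, 384, 385]

theorem rep_code (M : MH z f) {i : ℕ} (hi : i < 10) :
    rc.getD i 0 < 1024 ∧ wval (FF f) (reps.getD i []) = ee f (rc.getD i 0) :=
  ⟨(by decide : ∀ i < 10, rc.getD i 0 < 1024) i hi, M.eq _ _ ((by decide +kernel : ∀ i < 10,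
    fixW (nat_lit 11) (nat_lit 2047) htt B0 (reps.getD i [] ++ invW (ew eb (rc.getD i 0))) = true) i hi)⟩

theorem exists_tb [Finite G] (B : SB z f)
    (cls : ∀ v ∈ centralizer ({z} : Set G), v * v = 1 → ∃ k ∈ centralizer ({z} : Set G), ∃ i < 11,
      k * v * k⁻¹ = wval f (reps.getD i []))
    (wc : ∀ p < 32, IsConj z (ee f p) → p = 1)
    (pp : ∃ v ∈ centralizer ({z} : Set G), IsConj z v ∧ v ≠ z ∧ ¬ IsConj z (z * v)) :
    ∃ F, TB z F := by
  obtain ⟨M, -⟩ := model B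
  have sq : ∀ {j}, IsConj z j → j * j = 1 := fun h1 => by
    obtain ⟨g, rfl⟩ := isConj_iff.1 h1
    rw [conj_mul, zz B]; simp
  have cl : ∀ v ∈ centralizer ({z} : Set G), IsConj z v → ∃ k ∈ centralizer ({z} : Set G),
      (∃ p < 1024, k * v * k⁻¹ = ee f p) ∨ k * v * k⁻¹ = wval (FF f) [10, 7, 4, 0] := fun v hv h => by
    obtain ⟨k, hk, i, hi, e⟩ := cls v hv (sq h)
    rw [← wval_ext f 14 hdefs _ ((by decide : ∀ i < 11,
      ((reps.getD i []).all fun l => decide (l < 2 * 14)) = true) i hi)] at e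
    refine ⟨k, hk, ?_⟩
    by_cases h10 : i = 10
    · subst h10; exact .inr e
    · exact .inl ⟨_, (rep_code M (by omega)).1, e.trans (rep_code M (by omega)).2⟩
  have z1 : ee f 1 = z := z14 B
  obtain ⟨h1, h2, h3, t, C⟩ := Co2Om.swap B (Co2U.uniq B) wc (by
    obtain ⟨v, hv, h1, h2, h3⟩ := pp
    obtain ⟨k, hk, ⟨p, hp, e⟩ | e⟩ := cl v hv h1
    · refine ⟨p, hp, fun h => h2 ?_, h1.trans (isConj_iff.2 ⟨k, e⟩)⟩
      rw [h, z1, mul_inv_eq_iff_eq_mul, ← mem_centralizer_singleton_iff.1 hk] at e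
      exact mul_left_cancel e
    · refine absurd (h1.trans (isConj_iff.2 ⟨k⁻¹ * wval (FF f) [16, 18, 26] * k, ?_⟩)) h3
      calc _ = k⁻¹ * (wval (FF f) [16, 18, 26] * (k * v * k⁻¹) * (wval (FF f) [16, 18, 26])⁻¹) * k := by group
        _ = k⁻¹ * (z * (k * v * k⁻¹)) * k := by
          rw [e, M.cj _ _ ([28] ++ [10, 7, 4, 0]) (by decide +kernel), wval_append, z14 B]
        _ = _ := by rw [mul_assoc k, ← mul_assoc z, ← mem_centralizer_singleton_iff.1 hk]; group)
  have zy : IsConj z (wval (FF f) [30]) := isConj_iff.2 ⟨t, mul_inv_eq_iff_eq_mul.2 (z14 B ▸ C 1)⟩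
  have U : Fu z f := by
    refine ⟨fun w hw => ?_, z14 B, fun i hi => ?_⟩
    · obtain ⟨k, hk, ⟨p, hp, e⟩ | e⟩ := cl _ (M.mem w) hw
      · rw [M.nfix_conj hk e]
        rcases h1 p hp (hw.trans (isConj_iff.2 ⟨k, e⟩)) with rfl | ⟨g, hg, e | e⟩
        · decide +kernel
        · rw [← M.nfix_conj hg e]; decide +kernel
        · rw [← M.nfix_conj hg e]; decide +kernel
      · rw [M.nfix_conj hk e]; decide +kernel
    · interval_cases i
      exacts [(z14 B).symm ▸ IsConj.refl _, zy, h2]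
  obtain ⟨t, tz, rr⟩ := exists_t B U C
  have up : ∀ {w}, lt2 14 w = true → wval (Function.update f 14 t) w = wval f w := fun hw => wval_upd t hw
  refine ⟨Function.update f 14 t, ⟨(gp_congr (n := 14) (fun _ hi => Function.update_of_ne hi.ne _ _)
    (by decide)).trans B.top, fun w hw => (up (List.all_eq_true.1
      (by decide +kernel : Co2TC.KH.all (lt2 14) = true) w hw)).trans (B.rel w hw),
    (up (by decide)).trans B.zw, B.card⟩, rr, ?_, ?_, fun v hv h => ?_, fun h => ?_, ?_⟩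
  · rw [Function.update_self, up (by decide), tz, y15 B]
  · rw [up (by decide), ← y15 B, ← z14 B]
    exact M.ne _ _ (by decide +kernel)
  · obtain ⟨k, hk, i, hi, e⟩ := cls v hv h
    exact ⟨k, hk, i, hi, e.trans (up ((by decide : ∀ i < 11, lt2 14 (reps.getD i []) = true) i hi)).symm⟩
  · rw [Function.update_of_ne (by decide), ← ext_of_lt f hdefs (by decide : 6 < 14),
      ← wval_single (ext f 14 hdefs) 6] at h
    exact absurd (wc 2 (by decide) h) (by decide)
  · rw [up (by decide), ← y15 B]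
    nth_rw 2 [← z14 B]
    rw [← wval_append]
    exact h3

theorem main [Finite G] (hO : oddCore G = ⊥) (hZ : center G = ⊥) {Q : Subgroup G}
    {φ : centralizer ({z} : Set G) →* Co3A.X} (h : Co2Defs.Hyp z Q φ) : Spor.IsoCo2 G := by
  obtain ⟨g, hj, hn⟩ : ∃ g : G, g * z * g⁻¹ ∈ centralizer ({z} : Set G) ∧ g * z * g⁻¹ ≠ z := by
    by_contra hc
    have := ZStar.zstar G z (by rw [sq, h.zz]) fun g hg => by
      by_contra hn
      exact hc ⟨g, mem_centralizer_singleton_iff.2 hg.eq.symm, hn⟩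
    refine h.ne (mem_bot.1 (hZ ▸ mem_center_iff.2 fun g => ?_))
    have e := this g
    rw [show pPrimeCore 2 G = ⊥ from hO, mem_bot, mul_inv_eq_one, mul_inv_eq_iff_eq_mul] at e
    exact e
  rcases Co2Cl.cl h with ⟨n, f, E, S⟩ | ⟨q, N⟩
  · have B := Co2Tw.sb E S h hj hn
    obtain ⟨F, T⟩ := exists_tb B (Co2Cls.cls11 E S h (fun _ _ => rfl) B) (fun p hp hc => by
      refine ee_inj B (by omega) (by decide) ((Co2Tw.wcQ E S h hc ?_).trans (z14 B).symm)
      refine mem_word [14, 6, 8, 10, 12] (fun i hi => ?_)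
        ((by decide +kernel : ∀ p < 32, allL (okL [14, 6, 8, 10, 12]) (ew eb p) = true) p hp)
      rcases List.mem_cons.1 hi with rfl | hi
      · exact ((wval_single _ 14).symm.trans (z14 B)).symm ▸ h.mem
      · have := (by decide : ∀ i ∈ [6, 8, 10, 12], i < 14 ∧ ¬ i < 6 ∧ 2 ^ (i - 6) < 512) i hi
        rw [FF, ext_of_lt _ hdefs this.1, if_neg this.2.1]
        exact E.mem _ this.2.2) (Co2Tw.pp E S h (isConj_iff.2 ⟨g, rfl⟩) hj hn)
    exact Co2Fin.iso T
  · exact absurd (Co2N.nat h.toHyp0 N hj) hn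

end Cfsg.Agent.Lib.Co2H
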