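import Cfsg.Agent.Lib.DCE2
import Cfsg.Agent.Lib.TCCo3H1
import Cfsg.Agent.Lib.TCCo3H2
import Cfsg.Agent.Lib.TCCo3H3

/-! An order bound for the double cover of `Sp₆(2)`. -/

set_option autoImplicit false
set_option maxRecDepth 100000

namespace Cfsg.Agent.Lib.Co3HTC

open Cfsg.Agent.Lib.PermNet Cfsg.Agent.Lib.Words Cfsg.Agent.Lib.PermGroup Cfsg.Agent.Lib.DCE

def K1 : List (List ℕ) := [[0, 0, 0], [2, 2, 2], [4, 4, 4], [6, 6, 6], [8, 8, 8], [10, 10, 10], [0, 3, 0, 2, 1, 2], [0, 2, 4, 3, 1, 4], [0, 4, 0, 5, 1, 3], [0, 6, 0, 7, 1, 7], [0, 7, 4, 6, 1, 5], [4, 8, 5, 9], [0, 7, 8, 6, 1, 8], [0, 9, 0, 8, 1, 8], [6, 10, 7, 11], [8, 10, 9, 11], [2, 4, 10, 5, 3, 10], [2, 10, 2, 11, 3, 5]]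

theorem b1 {X : Type*} [Group X] (z : ℕ → X) (hz : ∀ w ∈ K1, wval z w = 1) :
    (gp z [[0], [2], [4], [6], [8]]).relIndex (gp z [[0], [2], [4], [6], [8], [10]]) ≠ 0 ∧
    (gp z [[0], [2], [4], [6], [8]]).relIndex (gp z [[0], [2], [4], [6], [8], [10]]) ≤ 56 :=
  tc_wrap [] hz [[0], [1], [2], [3], [4], [5], [6], [7], [8], [9], [10], [11]] TCCo3H1.bound _ _ (by decide +kernel)

theorem b2 {X : Type*} [Group X] (z : ℕ → X) (hz : ∀ w ∈ K1, wval z w = 1) :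
    (gp z [[0], [2], [4]]).relIndex (gp z [[0], [2], [4], [6], [8]]) ≠ 0 ∧
    (gp z [[0], [2], [4]]).relIndex (gp z [[0], [2], [4], [6], [8]]) ≤ 432 :=
  tc_wrap [] hz [[0], [1], [2], [3], [4], [5], [6], [7], [8], [9]] TCCo3H2.bound _ _ (by decide +kernel)

theorem b3 {X : Type*} [Group X] (z : ℕ → X) (hz : ∀ w ∈ K1, wval z w = 1) :
    (gp z []).relIndex (gp z [[0], [2], [4]]) ≠ 0 ∧
    (gp z []).relIndex (gp z [[0], [2], [4]]) ≤ 120 :=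
  tc_wrap [] hz [[0], [1], [2], [3], [4], [5]] TCCo3H3.bound _ _ (by decide +kernel)

theorem card_le {X : Type*} [Group X] (z : ℕ → X) (hz : ∀ w ∈ K1, wval z w = 1) :
    Nat.card (gp z (sing 6)) ≠ 0 ∧ Nat.card (gp z (sing 6)) ≤ 2903040 :=
  (card_le_of_relIndex (gp_mono (by decide)) (b1 z hz)
    (card_le_of_relIndex (gp_mono (by decide)) (b2 z hz)
    (card_le_of_relIndex (gp_mono (by decide)) (b3 z hz)
    (card_gp_nil z))))

end Cfsg.Agent.Lib.Co3HTC
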