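import Cfsg.Agent.Lib.Co3MHT
import Cfsg.Agent.Lib.Co3HTC

/-! A faithful model of the double cover of `Sp₆(2)`. -/

set_option autoImplicit false
set_option maxRecDepth 100000

namespace Cfsg.Agent.Lib.Co3MH

open Cfsg.Agent.Lib.PermNet Cfsg.Agent.Lib.Words Cfsg.Agent.Lib.PermGroup Cfsg.Agent.Lib.DCE Cfsg.Agent.Lib.PermModel Cfsg.Agent.Lib.BT

theorem hok_id : idB (nat_lit 1068) (nat_lit 11) (nat_lit 2047) hid = true := by decide +kernel

theorem hok_0 : allR (fun i => okT (nat_lit 1068) (nat_lit 11) (nat_lit 2047) (htt.get (2 * i)) (htt.get (2 * i + 1))) (nat_lit 0) (nat_lit 25) = true := by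
  decide +kernel

def hdL0 : List (List ℕ) := [[13, 2, 0, 2, 0], [15, 6, 3, 0, 6, 3, 0], [17, 9, 0, 4, 6, 9, 2, 7, 0, 4], [19, 5, 7, 0, 8, 4, 7, 3, 9, 1], [21, 8, 2, 11, 7, 2, 9, 1, 7, 2, 10], [23, 11, 8, 7, 5, 0, 9], [25, 17, 14, 23, 16], [27, 21, 16, 21, 17], [29, 20, 17, 22, 17, 20, 17], [31, 20, 17, 21, 12, 20, 17, 17], [33, 2, 0], [35, 6, 1], [37, 0, 10, 4, 1], [39, 8, 2, 6, 9], [41, 36, 32, 34, 39, 37], [43, 40, 34, 41, 35], [45, 40, 38, 35, 33], [47, 32, 34, 41, 34, 40, 32], [49, 32, 39, 40, 32, 40, 40, 39]]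

theorem hd0 : allL (fixA (nat_lit 11) (nat_lit 2047) htt (nat_lit 1068)) hdL0 = true := by decide +kernel

theorem hc : chB (nat_lit 11) (nat_lit 2047) htt (nat_lit 1068) (fun _ => true) hch [] = true := by decide +kernel

theorem hc2 : chB (nat_lit 11) (nat_lit 2047) htt (nat_lit 1068) (fun _ => true) hch2 [] = true := by decide +kernel

def hkL0 : List (List ℕ) := [[0, 0, 0], [2, 2, 2], [4, 4, 4], [6, 6, 6], [8, 8, 8], [10, 10, 10], [0, 3, 0, 2, 1, 2], [0, 2, 4, 3, 1, 4], [0, 4, 0, 5, 1, 3], [0, 6, 0, 7, 1, 7], [0, 7, 4, 6, 1, 5], [4, 8, 5, 9], [0, 7, 8, 6, 1, 8], [0, 9, 0, 8, 1, 8], [6, 10, 7, 11], [8, 10, 9, 11], [2, 4, 10, 5, 3, 10], [2, 10, 2, 11, 3, 5]]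

theorem hk0 : allL (fixA (nat_lit 11) (nat_lit 2047) htt (nat_lit 1068)) hkL0 = true := by decide +kernel

theorem fx : fxB (nat_lit 11) (nat_lit 2047) htt B2 [14] [6, 7, 8, 9, 10, 11, 12, 13, 14, 15] hch = true := by decide +kernel

theorem hok : TabsOK (nat_lit 1068) (nat_lit 11) (nat_lit 2047) (nat_lit 25) hth hid := ⟨hok_id, (allR_of 0 25 25 (by decide) hok_0)⟩

theorem hTM : TM 6 (nat_lit 1068) (nat_lit 11) (nat_lit 2047) (nat_lit 25) hid 2903040 hth hdefs hch :=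
  ⟨hok, (hok.relsA _ hd0), hc, by decide +kernel⟩

theorem hK : ∀ w ∈ Co3HTC.K1, wval (tp (nat_lit 1068) (nat_lit 11) (nat_lit 2047) htt) w = 1 :=
  (hok.relsA _ hk0)



end Cfsg.Agent.Lib.Co3MH
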