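import Cfsg.Agent.Lib.Co2W
import Cfsg.Agent.Lib.Co2SB
import Cfsg.Agent.Lib.Co3MHC

/-! The involution centraliser of the second Conway group is a split extension. -/

set_option autoImplicit false
set_option maxRecDepth 100000

namespace Cfsg.Agent.Lib.Co2Tw

open Subgroup Cfsg.Agent.Lib.PermNet Cfsg.Agent.Lib.Words Cfsg.Agent.Lib.PermGroup Cfsg.Agent.Lib.DCE
  Cfsg.Agent.Lib.BT Cfsg.Agent.Lib.ThDefs Cfsg.Agent.Lib.Co2W
open Cfsg.Agent.Lib.Co2Defs (LS)
open Cfsg.Agent.Lib.Co2WM (reps)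
open Cfsg.Agent.Lib.ThCl (Md qm_mod top md_mod)

variable {G : Type*} [Group G] {z : G} {Q : Subgroup G}
  {φ : centralizer ({z} : Set G) →* Co3A.X} {n f : ℕ → G}

/-- The action of the letters and of their inverses. -/
def LT : List (List ℕ) := [[388, 266, 165, 2, 72, 416, 90, 32], [389, 8, 161, 266, 88, 128, 282, 416],
  [401, 416, 496, 392, 265, 426, 351, 8], [400, 162, 500, 128, 281, 138, 31, 392],
  [400, 422, 500, 17, 137, 494, 123, 24], [401, 420, 496, 281, 409, 462, 59, 152],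
  [129, 336, 416, 24, 8, 165, 90, 1], [128, 338, 420, 16, 24, 389, 282, 129],
  [389, 24, 37, 66, 88, 129, 82, 292], [388, 26, 289, 74, 72, 161, 18, 420],
  [17, 420, 340, 129, 1, 106, 261, 152], [16, 422, 336, 137, 17, 74, 69, 24]]

/-- The action of a word on a code. -/
noncomputable def pw (w : List ℕ) (p : ℕ) : ℕ :=
  List.rec (motive := fun _ => ℕ) p (fun l _ ih => force ih (lin (LT.getD l []))) w

/-- Collect the letters in `Q`. -/
noncomputable def col (w : List ℕ) : ℕ :=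
  List.rec (motive := fun _ => ℕ) 0 (fun l _ ih => force ih fun q =>
    if l < 12 then lin (LT.getD l []) q else qm (2 ^ (l / 2 - 6)) q) w

def nq (w : List ℕ) : List ℕ := w.filter (· < 12)

/-- The fourteen letters. -/
abbrev FF (n f : ℕ → G) (i : ℕ) : G := if i < 6 then f i else n (2 ^ (i - 6))

section
variable (E : Enc z Q n) (S : Co2Defs.St φ n f)
include E S

theorem actL {l : ℕ} (hl : l < 12) :
    lval f l ∈ centralizer ({z} : Set G) ∧ Act n (lval f l) (LT.getD l []) := by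
  have hi : l / 2 < 6 := by omega
  obtain ⟨a, b⟩ := (by decide +kernel : ∀ l < 12, (l % 2 = 0 → LT.getD l [] = LS.getD (l / 2) []) ∧
    (¬ l % 2 = 0 → LT.getD l [] = (LS.getD (l / 2) []).map (lin (LS.getD (l / 2) [])))) l hl
  unfold lval
  split_ifs with h
  · exact ⟨S.mem _ hi, a h ▸ S.act _ hi⟩
  · refine ⟨inv_mem (S.mem _ hi), ?_⟩
    rw [b h, inv_eq_of_mul_eq_one_left (a := f (l / 2) * f (l / 2)) (by
      rw [← S.o3 _ hi, pow_succ, sq])]
    exact (S.act _ hi).mul (S.act _ hi) E (S.mem _ hi)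

theorem lvE {l : ℕ} (hl : l < 12) {p : ℕ} (hp : p < 512) : lin (LT.getD l []) p < 512 ∧
    lval f l * n p = n (lin (LT.getD l []) p) * lval f l :=
  ⟨(actL E S hl).2.lt p, mul_inv_eq_iff_eq_mul.1 ((actL E S hl).2.all E (actL E S hl).1 hp)⟩

theorem pwE {w : List ℕ} (hw : lt2 6 w = true) {p : ℕ} (hp : p < 512) :
    pw w p < 512 ∧ wval f w * n p = n (pw w p) * wval f w := by
  induction w with
  | nil => exact ⟨hp, by simp [pw]⟩
  | cons l w ih =>
    rw [lt2, List.all_cons, Bool.and_eq_true, decide_eq_true_eq] at hw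
    obtain ⟨a, b⟩ := ih hw.2
    obtain ⟨c, d⟩ := lvE E S hw.1 a
    exact ⟨c, by rw [wval_cons, mul_assoc, b, ← mul_assoc, d, mul_assoc]; rfl⟩

omit E in
theorem memH {w : List ℕ} (hw : lt2 6 w = true) : wval f w ∈ centralizer ({z} : Set G) :=
  wval_mem fun l hl => S.mem _ (by
    have := List.all_eq_true.1 hw l hl
    simp only [decide_eq_true_eq] at this
    omega)

theorem colE {w : List ℕ} (hw : lt2 14 w = true) :
    col w < 512 ∧ wval (FF n f) w = n (col w) * wval f (nq w) := by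
  induction w with
  | nil => exact ⟨by decide, by simp [col, nq, E.zero]⟩
  | cons l w ih =>
    rw [lt2, List.all_cons, Bool.and_eq_true, decide_eq_true_eq] at hw
    obtain ⟨a, b⟩ := ih hw.2
    have e : col (l :: w) = if l < 12 then lin (LT.getD l []) (col w)
      else qm (2 ^ (l / 2 - 6)) (col w) := rfl
    rw [e, wval_cons, b, nq.eq_1 (l :: w), List.filter_cons, ← nq]
    by_cases h : l < 12
    · obtain ⟨c, d⟩ := lvE E S h a
      rw [if_pos h, if_pos (by simpa using h), wval_cons, ← mul_assoc, ← mul_assoc, ← d]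
      exact ⟨c, by simp only [lval, FF, if_pos (show l / 2 < 6 by omega)]⟩
    · obtain ⟨c, d⟩ := (by decide +kernel : ∀ i < 8, 2 ^ i < 512 ∧ qm (2 ^ i) (2 ^ i) = 0)
        (l / 2 - 6) (by omega)
      rw [if_neg h, if_neg (by simpa using h), ← mul_assoc, ← E.mul _ c _ a]
      refine ⟨qm_lt c a, ?_⟩
      simp only [lval, FF, if_neg (show ¬ l / 2 < 6 by omega)]
      rw [inv_eq_of_mul_eq_one_right (by rw [E.mul _ c _ c, d, E.zero]), ite_self]

variable (h : Co2Defs.Hyp z Q φ)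
include h

theorem triv {w : List ℕ} (hw : lt2 6 w = true) (e : ∀ i < 8, pw w (2 ^ i) = 2 ^ i) :
    wval f w = 1 ∨ wval f w = z :=
  Co1Q.of_act h.toHyp0 E (memH S hw) ⟨rfl, by decide, fun i hi => by
    rw [(pwE E S hw (Co1Q.pl i hi)).2, e i hi, mul_inv_cancel_right,
      (by decide : ∀ i < 8, L0.getD i 0 = 2 ^ i) i hi]⟩

theorem relK : ∀ w ∈ Co3HTC.K1, wval f w = 1 := by
  have l3 : ∀ l < 12, wval f [l] ^ (2 * 1 + 1) = 1 := fun l hl => by
    have := S.o3 (l / 2) (by omega)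
    rw [wval_cons, wval_nil, mul_one, lval]
    split_ifs
    · exact this
    · rw [inv_pow, this, inv_one]
  rw [show Co3HTC.K1 = (List.range 6).map (fun i => [2 * i, 2 * i, 2 * i]) ++
    Co3A.RB.map fun r => (r.1 ++ [r.2.1] ++ invW r.1) ++ invW [r.2.2] by decide,
    List.forall_mem_append, List.forall_mem_map, List.forall_mem_map]
  refine ⟨fun i hi => by
    simpa [wval, lval, pow_succ, mul_assoc] using S.o3 i (List.mem_range.1 hi), fun r hr => ?_⟩
  obtain ⟨a1, a2, a3, a4, a5⟩ := (by decide +kernel : ∀ r ∈ Co3A.RB, r.2.1 < 12 ∧ r.2.2 < 12 ∧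
    lt2 6 [r.2.2] = true ∧ lt2 6 ((r.1 ++ [r.2.1] ++ invW r.1) ++ invW [r.2.2]) = true ∧
    ∀ i < 8, pw ((r.1 ++ [r.2.1] ++ invW r.1) ++ invW [r.2.2]) (2 ^ i) = 2 ^ i) r hr
  have := triv E S h a4 a5
  rw [wval_append, wval_invW] at this ⊢
  rw [mul_inv_eq_one]
  refine rigid (k := 1) h.zz (mem_centralizer_singleton_iff.1 (memH S a3)) ?_ (l3 _ a2)
    ((mem_zpowers_two h.zz).2 this)
  rw [wval_append, wval_append, wval_invW, conj_pow, l3 _ a1]; simp

variable [Finite G]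

theorem wcQ {v : G} (h1 : IsConj z v) (hv : v ∈ Q) : v = z := by
  obtain ⟨g, rfl⟩ := isConj_iff.1 h1
  exact wc h E S hv

theorem pp {j : G} (h1 : IsConj z j) (hj : j ∈ centralizer ({z} : Set G)) (hn : j ≠ z) :
    ∃ v ∈ centralizer ({z} : Set G), IsConj z v ∧ v ≠ z ∧ ¬ IsConj z (z * v) := by
  have sq : ∀ {j}, IsConj z j → j * j = 1 := fun h1 => by
    obtain ⟨g, rfl⟩ := isConj_iff.1 h1
    rw [conj_mul, h.zz]; simp
  obtain ⟨k, hk, i, hi, p, hp, e⟩ := (cls h E S hj (sq h1)).resolve_left fun k => hn (wcQ E S h h1 k)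
  have h2 : IsConj z (n p * wval f (reps.getD i [])) := h1.trans (isConj_iff.2 ⟨k, e⟩)
  obtain ⟨a1, u, hu, a2, a3, a4⟩ := (by decide +kernel : ∀ i < 4, lt2 6 (reps.getD i []) = true ∧
    ∃ u < 256, u ≠ 0 ∧ qm u u = 0 ∧ qm (pw (reps.getD i []) 2) 2 % 256 = u) i hi
  obtain ⟨b1, b2⟩ := pwE E S a1 (by decide : 2 < 512)
  have jj := sq h2
  have q2 : n 2 * n 2 = 1 := by
    rw [E.mul _ (by decide) _ (by decide), show qm 2 2 = 0 by decide +kernel, E.zero]
  have m : Md z (n p * wval f (reps.getD i []) * n 2 * (n p * wval f (reps.getD i []))⁻¹ * n 2) (n u) := by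
    refine Co1Q.md_trans h.toHyp0 (Co1Q.md_mul h.toHyp0 ?_ (.inl rfl) (Co1Q.nz h.toHyp0 E b1)) ?_
    · rw [mul_assoc (n p), b2]
      refine (h.com _ (E.mem p hp) _ (E.mem _ b1)).imp (fun k => ?_) fun k => ?_ <;>
        rw [← mul_assoc, k] <;> group
    · rw [E.mul _ b1 _ (by decide), ← a4]
      exact md_mod E (qm_lt b1 (by decide))
  obtain ⟨g, hg⟩ := isConj_iff.1 h2
  rw [← hg] at m jj
  set s := g * z * g⁻¹ * n 2 * (g * z * g⁻¹)⁻¹ * n 2 with hs
  have uu : n u * n u = 1 := by rw [E.mul _ (by omega) _ (by omega), a3, E.zero]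
  have sQ : s ∈ Q := (mdK h.mem m).2 (E.mem u (by omega))
  have sz : s ∉ zpowers z := fun k => by
    rcases (mem_zpowers_two h.zz).1 ((mdK (mem_zpowers z) m).1 k) with k | k
    · exact a2 (E.inj u (by omega) 0 (by decide) (k.trans E.zero.symm))
    · have := E.inj u (by omega) 256 (by decide) (k.trans E.z256.symm)
      omega
  have ss : s * s = 1 := by
    rcases m with k | k <;> rw [k]
    · exact uu
    · rw [mul_assoc, ← mul_assoc (n u), Co1Q.nz h.toHyp0 E (by omega), mul_assoc, uu, mul_one, h.zz]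
  have js : g * z * g⁻¹ * s = n 2 * (g * z * g⁻¹) * (n 2)⁻¹ := by
    rw [hs, inv_eq_of_mul_eq_one_right jj, inv_eq_of_mul_eq_one_right q2, ← one_mul (n 2 * _ * n 2),
      ← jj]
    simp only [mul_assoc]
  have e2 : z * (g⁻¹ * s * g) = g⁻¹ * (g * z * g⁻¹ * s) * g := by group
  have c : IsConj z (z * (g⁻¹ * s * g)) :=
    isConj_iff.2 ⟨g⁻¹ * n 2 * g, by rw [e2, js]; group⟩
  refine ⟨z * (g⁻¹ * s * g), mem_centralizer_singleton_iff.2 ?_, c, fun k => sz ?_, fun k => sz ?_⟩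
  · have s2 : g⁻¹ * s * g * (g⁻¹ * s * g) = 1 := by
      rw [show g⁻¹ * s * g * (g⁻¹ * s * g) = g⁻¹ * (s * s) * g by group, ss]; simp
    rw [← mul_assoc z z, h.zz, one_mul, mul_assoc, ← inv_eq_of_mul_eq_one_right h.zz, inv_mul_eq_iff_eq_mul,
      inv_eq_of_mul_eq_one_right h.zz, ← inv_eq_of_mul_eq_one_right (sq c), mul_inv_rev,
      inv_eq_of_mul_eq_one_right h.zz, inv_eq_of_mul_eq_one_right s2]
  · rw [show s = 1 by simpa [mul_assoc] using congrArg (g * · * g⁻¹) (mul_eq_left.1 k)]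
    exact one_mem _
  · rw [← mul_assoc, h.zz, one_mul] at k
    rw [wcQ E S h (k.trans (isConj_iff.2 ⟨g, by group⟩)) sQ]
    exact mem_zpowers z

/-- The conjugating elements. -/
def cs : List (List (List ℕ × ℕ × ℕ)) :=
  [[], [([], 0, 11), ([], 0, 135), ([4, 10], 1, 0), ([4, 10], 1, 2)], [], [([], 0, 7)]]

theorem om {j : G} (h1 : IsConj z j) (hj : j ∈ centralizer ({z} : Set G)) (hn : j ≠ z) :
    wval f [2, 0, 2, 0] = 1 := by
  refine (triv E S h (by decide) (by decide +kernel)).resolve_right fun ω => ?_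
  have hw : ∀ {w}, lt2 6 w = true → wval (ext f 6 Co3MH.hdefs) w = wval f w := wval_ext f 6 _ _
  obtain ⟨M⟩ := Co3MH.hTM.fmodel (f := f) rfl (relK E S h) Co3MH.hK (fun z => Co3HTC.card_le z) (by
    let ψ := φ.comp (inclusion (gp_le.2 fun w hw => memH S (by revert w; decide) :
      gp f (sing 6) ≤ centralizer {z}))
    have r : ψ.range = ⊤ := eq_top_iff.2 (Co3A.gp_top ▸ gp_le.2 fun w hw => by
      obtain ⟨i, hi, rfl⟩ := List.mem_map.1 hw
      have hi := List.mem_range.1 hi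
      exact ⟨⟨f i, mem_sing f hi⟩, (S.ph i hi).trans (wval_single _ i).symm⟩)
    have zm : z ∈ gp f (sing 6) := ω ▸ wval_mem fun l hl => mem_sing f (by revert l; decide)
    have k : 1 < Nat.card ψ.ker := Finite.one_lt_card_iff_nontrivial.2
      ⟨⟨⟨z, zm⟩, (h.ker _).2 h.mem⟩, 1, fun e => h.ne (congrArg (·.1.1) e)⟩
    rw [← ψ.ker.index_mul_card, index_ker, r, card_top, Co3A.card_X]
    omega)
  obtain ⟨v, hv, c1, vz, c2⟩ := pp E S h h1 hj hn
  have vv : v * v = 1 := by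
    obtain ⟨g, rfl⟩ := isConj_iff.1 c1
    rw [conj_mul, h.zz]; simp
  obtain ⟨k, hk, i, hi, p, hp, e⟩ := (cls h E S hv vv).resolve_left fun k => vz (wcQ E S h c1 k)
  have nd : ∀ d < 2, wval f (rep d [2, 0, 2, 0]) = n (256 * d) := fun d hd => by
    interval_cases d
    exacts [E.zero.symm, ω.trans E.z256.symm]
  obtain ⟨a1, d, hd, a2, a3, a4⟩ := (by decide +kernel : ∀ i < 4, lt2 6 (reps.getD i []) = true ∧
    ∃ d < 2, fixW (nat_lit 11) (nat_lit 2047) Co3MH.htt (Co3MH.hch.map Lv.b)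
      ((reps.getD i [] ++ reps.getD i []) ++ invW (rep d [2, 0, 2, 0])) = true ∧
    (∀ c ∈ cs.getD i [], lt2 6 c.1 = true ∧ c.2.1 < 2 ∧ c.2.2 < 512 ∧
      fixW (nat_lit 11) (nat_lit 2047) Co3MH.htt (Co3MH.hch.map Lv.b) ((c.1 ++ reps.getD i []) ++
        invW (rep c.2.1 [2, 0, 2, 0] ++ (reps.getD i [] ++ c.1))) = true) ∧
    ∀ p < 512, qm (qm p (pw (reps.getD i []) p)) (256 * d) = 0 → ∃ c ∈ cs.getD i [],
      qm (qm c.2.2 (pw c.1 p)) (256 * c.2.1) = qm (qm 256 p) (pw (reps.getD i []) c.2.2)) i hi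
  have l2 : ∀ d < 2, lt2 6 (rep d [2, 0, 2, 0]) = true := by decide
  generalize reps.getD i [] = r at *
  obtain ⟨b1, b2⟩ := pwE E S a1 hp
  have r2 := M.eq _ _ a2
  rw [wval_append, hw a1, hw (l2 d hd), nd d hd] at r2
  obtain ⟨c, hc, a5⟩ := a4 p hp (E.inj _ (qm_lt (qm_lt hp b1) (by omega)) _ (by decide) (by
    rw [← E.mul _ (qm_lt hp b1) _ (by omega), ← E.mul _ hp _ b1, ← r2, E.zero, mul_assoc,
      ← mul_assoc (n (pw r p)), ← b2, mul_assoc, ← mul_assoc, ← e, conj_mul, vv]; simp))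
  obtain ⟨c3, c4, c5, c6⟩ := a3 c hc
  obtain ⟨d1, d2⟩ := pwE E S c3 hp
  obtain ⟨d3, d4⟩ := pwE E S a1 c5
  have r3 := M.eq _ _ c6
  rw [wval_append, wval_append, wval_append, hw a1, hw c3, hw (l2 _ c4), nd _ c4] at r3
  have key : n c.2.2 * wval f c.1 * (n p * wval f r) = z * (n p * wval f r) * (n c.2.2 * wval f c.1) := by
    calc _ = n c.2.2 * (wval f c.1 * n p) * wval f r := by group
      _ = n c.2.2 * n (pw c.1 p) * n (256 * c.2.1) * (wval f r * wval f c.1) := by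
        rw [d2, mul_assoc _ (n (256 * _)), ← r3]; group
      _ = z * n p * (n (pw r c.2.2) * wval f r) * wval f c.1 := by
        rw [E.mul _ c5 _ d1, E.mul _ (qm_lt c5 d1) _ (by omega), a5,
          ← E.mul _ (qm_lt (by decide) hp) _ d3, ← E.mul _ (by decide) _ hp, E.z256]; group
      _ = _ := by rw [← d4]; group
  refine c2 (c1.trans (isConj_iff.2 ⟨k⁻¹ * (n c.2.2 * wval f c.1) * k, ?_⟩))
  rw [← e] at key
  calc _ = k⁻¹ * (n c.2.2 * wval f c.1 * (k * v * k⁻¹)) * (n c.2.2 * wval f c.1)⁻¹ * k := by group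
    _ = k⁻¹ * (z * k) * v := by rw [key]; group
    _ = _ := by rw [← mem_centralizer_singleton_iff.1 hk]; group

theorem sb {g : G} (hj : g * z * g⁻¹ ∈ centralizer ({z} : Set G)) (hn : g * z * g⁻¹ ≠ z) :
    Co2SB.SB z fun i => if i < 6 then f i else n (2 ^ (i - 6)) := by
  have zw : wval (FF n f) Co2SB.zw = z := by
    rw [(colE E S (by decide)).2, show col Co2SB.zw = 256 by decide +kernel, E.z256]
    exact mul_one z
  have lo : ∀ {w}, lt2 6 w = true → wval (FF n f) w = wval f w := fun hw =>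
    wval_congr (n := 6) (fun _ hi => if_pos hi) (by simpa using hw)
  refine ⟨le_antisymm (gp_le.2 fun w hw => ?_) ?_, all_append (fun w hw => ?_) fun w hw => ?_, zw, h.cH⟩
  · obtain ⟨i, hi, rfl⟩ := List.mem_map.1 hw
    have hi := List.mem_range.1 hi
    rw [wval_single]
    split_ifs with k
    exacts [S.mem i k, h.le (E.mem _ (Co1Q.pl _ (by omega)))]
  · obtain ⟨M, C⟩ := exists_cx h E S
    refine M.gen C.hs.2 (fun i => (gp_le.2 fun w hw => ?_ : gp f (sing 6) ≤ _)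
      (ext_mem f 6 (by decide) i)) fun q hq => ?_
    · rw [← lo (by revert w; decide)]
      exact wval_mem fun l hl => mem_sing _ (by revert l; revert w; decide)
    · obtain ⟨p, hp, rfl⟩ := E.surj q hq
      refine lin_L0 p hp ▸ linK E (zw ▸ wval_mem fun l hl => mem_sing _ (by revert l; decide)) L0
        (fun a ha => ?_) p
      obtain ⟨i, hi, rfl⟩ := (by decide : ∀ a ∈ L0, ∃ i < 8, 2 ^ i = a) a ha
      have := mem_sing (FF n f) (show i + 6 < 14 by omega)
      rw [FF, if_neg (by omega), Nat.add_sub_cancel] at this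
      exact ⟨Co1Q.pl i hi, this⟩
  · rw [lo (by revert w; decide)]
    revert w
    exact List.forall_mem_cons.2 ⟨om E S h (isConj_iff.2 ⟨g, rfl⟩) hj hn, relK E S h⟩
  · obtain ⟨a, b, c⟩ := (by decide +kernel : ∀ w ∈ Co2TC.KQ, lt2 14 w = true ∧ col w = 0 ∧
      deriveB [] [] [nq w] = true) w hw
    rw [(colE E S a).2, b, E.zero, derive_one [] (by simp) _ c, mul_one]

end

end Cfsg.Agent.Lib.Co2Tw
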