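import Cfsg.Agent.Lib.Co2U0

/-! The elementary abelian subgroups of order `2 ^ 10` of the involution centraliser of the second
Conway group are conjugate. -/

set_option autoImplicit false
set_option maxRecDepth 100000

namespace Cfsg.Agent.Lib.Co2U

open Subgroup Cfsg.Agent.Lib.PermNet Cfsg.Agent.Lib.Words Cfsg.Agent.Lib.PermGroup Cfsg.Agent.Lib.DCE
  Cfsg.Agent.Lib.BT Cfsg.Agent.Lib.Co2MH Cfsg.Agent.Lib.Co2SB Cfsg.Agent.Lib.Co2H

theorem k1 : allL (fun w => band (allL (okL Co2MH.NL) w) (bif' (eqL w []) true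
    (bif' (memLL (IT.map (·.1)) w) true
      (bnot (allR (fun i => Nat.beq (Co2H.apW (w ++ w) (2 ^ i)) (2 ^ i)) 0 10))))) WL = true := by
  decide +kernel

theorem k2 : allL (fun e => band (allL (okL Co2MH.NL) e.1) (band (Nat.beq e.2.1.length 10)
    (band (allL (fun a => Nat.blt a 1024) e.2.1)
    (band (allR (fun i => Nat.beq (Co2H.apW e.1 (2 ^ i)) (e.2.1.getD i 0)) 0 10)
    (allR (fun p => bif' (Nat.beq (ap e.2.1 p) p) (memL e.2.2.1 p) true) 0 1024))))) IT = true := by
  decide +kernel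


end Cfsg.Agent.Lib.Co2U
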