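import Cfsg.Agent.Lib.Co2W1

/-! The central involution is weakly closed in the extraspecial subgroup. -/

set_option autoImplicit false
set_option maxRecDepth 100000

namespace Cfsg.Agent.Lib.Co2W

open Subgroup Cfsg.Agent.Lib.PermNet Cfsg.Agent.Lib.Words Cfsg.Agent.Lib.PermGroup Cfsg.Agent.Lib.DCE
  Cfsg.Agent.Lib.BT Cfsg.Agent.Lib.ThDefs Cfsg.Agent.Lib.Co2WM
open Cfsg.Agent.Lib.ThCl (Md qm_mod top md_mod)
open Cfsg.Agent.Lib.Co1Q (md_trans md_symm md_mul)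

variable {G : Type*} [Group G] {z : G} {Q : Subgroup G}
  {φ : centralizer ({z} : Set G) →* Co3A.X} {n f : ℕ → G}

theorem tri {j a b c u e0 e1 e2 : G} (ha : Commute a j) (hb : Commute b j) (hc : Commute c j)
    (hu : Commute u j) (m0 : e0 ∈ zpowers j) (m1 : e1 ∈ zpowers j) (m2 : e2 ∈ zpowers j)
    (k0 : c * u * c⁻¹ = e0 * u) (k1 : c * (a⁻¹ * u * a) * c⁻¹ = e1 * (a⁻¹ * u * a))
    (k2 : c * (b⁻¹ * u * b) * c⁻¹ = e2 * (b⁻¹ * u * b))
    (h : Commute c (u * (a⁻¹ * u * a) * (b⁻¹ * u * b))) :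
    Commute (c * (a * c * a⁻¹ * (b * c * b⁻¹))) u := by
  obtain ⟨i0, rfl⟩ := mem_zpowers_iff.1 m0
  obtain ⟨i1, rfl⟩ := mem_zpowers_iff.1 m1
  obtain ⟨i2, rfl⟩ := mem_zpowers_iff.1 m2
  have s : ∀ {x : G} (i : ℤ) (y : G), Commute x j → x * (j ^ i * y) = j ^ i * (x * y) :=
    fun i y h => (h.zpow_right i).left_comm y
  have A : ∀ {a : G} {i : ℤ}, Commute a j → c * (a⁻¹ * u * a) * c⁻¹ = j ^ i * (a⁻¹ * u * a) →
      a * c * a⁻¹ * u = j ^ i * (u * (a * c * a⁻¹)) := fun {a i} ha k => by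
    rw [show a * c * a⁻¹ * u = a * (c * (a⁻¹ * u * a) * c⁻¹) * (c * a⁻¹) by group, k, s _ _ ha]
    group
  have hu1 := (ha.inv_left.mul_left hu).mul_left ha
  have P := h.mul_inv_cancel
  rw [← conj_mul, ← conj_mul, k0, k1, k2, mul_assoc (j ^ i0), s _ _ hu, mul_assoc, mul_assoc,
    s _ _ (hu.mul_left hu1), ← mul_assoc, ← mul_assoc, mul_eq_right] at P
  rw [Commute, SemiconjBy, mul_assoc, mul_assoc, A hb k2,
    s _ _ ((ha.mul_left hc).mul_left ha.inv_left), ← mul_assoc _ u, A ha k1, s _ _ hc, mul_assoc,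
    s _ _ hc, mul_assoc u, ← mul_assoc c u, mul_inv_eq_iff_eq_mul.1 k0]
  have : j ^ i2 * (j ^ i1 * j ^ i0) = 1 := by rw [← P]; group
  rw [← one_mul (u * (c * _)), ← this]
  simp only [mul_assoc]

theorem linK (E : Enc z Q n) {K : Subgroup G} (hz : z ∈ K) (L : List ℕ)
    (hL : ∀ a ∈ L, a < 512 ∧ n a ∈ K) (m : ℕ) : n (lin L m) ∈ K := by
  induction L generalizing m with
  | nil =>
    change n (256 * (m % 2)) ∈ K
    rcases Nat.mod_two_eq_zero_or_one m with h | h <;> rw [h]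
    exacts [E.zero ▸ one_mem K, E.z256 ▸ hz]
  | cons a L ih =>
    have h := fun b hb => hL b (List.mem_cons_of_mem _ hb)
    rw [lin_cons]
    split_ifs
    · rw [← E.mul _ (hL a List.mem_cons_self).1 _ (lin_lt (fun b hb => (h b hb).1) _)]
      exact mul_mem (hL a List.mem_cons_self).2 (ih h _)
    · exact ih h _

theorem mdK {K : Subgroup G} (hz : z ∈ K) {a b : G} (h : Md z a b) : a ∈ K ↔ b ∈ K := by
  rcases h with rfl | rfl
  exacts [Iff.rfl, mul_mem_cancel_left hz]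

theorem ncom (E : Enc z Q n) {a b : ℕ} (ha : a < 512) (hb : b < 512) :
    n a * n b = n b * n a ↔ qm a b = qm b a := by
  rw [E.mul a ha b hb, E.mul b hb a ha]
  exact ⟨E.inj _ (qm_lt ha hb) _ (qm_lt hb ha), congrArg n⟩

theorem span (E : Enc z Q n) {K : Subgroup G} (hz : z ∈ K) (hK : ∀ a ∈ [1, 4, 16, 128], n a ∈ K)
    {y : G} (hy : y ∈ Q) (h : ∀ a ∈ [1, 4, 16, 128], y * n a = n a * y) : y ∈ K := by
  obtain ⟨p, hp, rfl⟩ := E.surj y hy
  have lt : ∀ a ∈ [1, 4, 16, 128], a < 512 := by decide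
  obtain ⟨m, -, e⟩ := (by decide +kernel : ∀ p < 512, (∀ a ∈ [1, 4, 16, 128], qm p a = qm a p) →
    ∃ m < 32, lin [1, 4, 16, 128] m = p) p hp fun a ha => (ncom E hp (lt a ha)).1 (h a ha)
  exact e ▸ linK E hz _ (fun a ha => ⟨lt a ha, hK a ha⟩) m

/-- The intersection of `Q` with a conjugate. -/
def V (Q : Subgroup G) (g : G) : Subgroup G := Q ⊓ Q.comap (MulAut.conj g).symm.toMonoidHom

theorem mem_V {g x : G} : x ∈ V Q g ↔ x ∈ Q ∧ g⁻¹ * x * g ∈ Q := Iff.rfl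

/-- The element `g` interchanges `z` and `j`. -/
structure Sw (z j g : G) : Prop where
  a : g * z * g⁻¹ = j
  b : g * j * g⁻¹ = z

section
variable {j g x y : G} (S : Sw z j g)
include S

theorem Sw.symm : Sw z j g⁻¹ := ⟨by rw [← S.b]; group, by rw [← S.a]; group⟩

theorem Sw.cz (h : x * j = j * x) : g * x * g⁻¹ ∈ centralizer ({z} : Set G) := by
  rw [mem_centralizer_singleton_iff, ← S.b, conj_mul, conj_mul, h]

theorem Sw.cz' (h : x * j = j * x) : g⁻¹ * x * g ∈ centralizer ({z} : Set G) := by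
  simpa using S.symm.cz h

theorem Sw.cj (h : x ∈ centralizer ({z} : Set G)) : g * x * g⁻¹ * j = j * (g * x * g⁻¹) := by
  rw [← S.a, conj_mul, conj_mul, mem_centralizer_singleton_iff.1 h]

variable (h : Co1Defs.Hyp0 z Q)
include h

theorem Sw.sym (hx : g * x * g⁻¹ ∈ Q) : g⁻¹ * x * g ∈ Q := by
  have : g * g ∈ centralizer ({z} : Set G) := by
    rw [mem_centralizer_singleton_iff, ← mul_inv_eq_iff_eq_mul]
    nth_rw 2 [← S.b]
    rw [← S.a]; group
  have := h.nor _ (inv_mem this) _ hx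
  rwa [show (g * g)⁻¹ * (g * x * g⁻¹) * (g * g)⁻¹⁻¹ = g⁻¹ * x * g by group] at this

theorem Sw.sym' (hx : g⁻¹ * x * g ∈ Q) : g * x * g⁻¹ ∈ Q := by
  simpa using S.symm.sym h (x := x) (by simpa using hx)

theorem Sw.kap {r : G} (hr : r ∈ Q) (hy : y ∈ V Q g) :
    ∃ e ∈ zpowers j, g * r * g⁻¹ * y * (g * r * g⁻¹)⁻¹ = e * y := by
  have e : g * r * g⁻¹ * y * (g * r * g⁻¹)⁻¹ = g * (r * (g⁻¹ * y * g)) * r⁻¹ * g⁻¹ := by group
  rcases h.com r hr _ hy.2 with k | k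
  · exact ⟨1, one_mem _, by rw [e, show r * (g⁻¹ * y * g) = _ from k]; simp [mul_assoc]⟩
  · exact ⟨j, mem_zpowers j, by rw [e, show r * (g⁻¹ * y * g) = _ from k, ← S.a]; simp [mul_assoc]⟩

theorem Sw.com (jz : j ≠ z) (hx : x ∈ V Q g) (hy : y ∈ V Q g) : x * y = y * x := by
  refine (h.com x hx.1 y hy.1).resolve_right fun e => ?_
  have e2 : x * y = g * (g⁻¹ * x * g * (g⁻¹ * y * g)) * g⁻¹ := by group
  rcases h.com _ (mem_V.1 hx).2 _ (mem_V.1 hy).2 with k | k <;> rw [k, e] at e2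
  · exact h.ne (by simpa [mul_assoc] using e2)
  · exact jz (mul_right_cancel (b := y * x) (by rw [e2, ← S.a]; group))

theorem Sw.conj (hx : x ∈ centralizer ({z} : Set G)) (hj : x * j = j * x) (hy : y ∈ V Q g) :
    x * y * x⁻¹ ∈ V Q g := by
  refine mem_V.2 ⟨h.nor x hx y hy.1, ?_⟩
  have := h.nor _ (S.cz' hj) _ (mem_V.1 hy).2
  rwa [show g⁻¹ * x * g * (g⁻¹ * y * g) * (g⁻¹ * x * g)⁻¹ = g⁻¹ * (x * y * x⁻¹) * g by group] at this

theorem Sw.zV (hj : j ∈ Q) : z ∈ V Q g :=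
  mem_V.2 ⟨h.mem, by rwa [← S.symm.a, inv_inv] at hj⟩

theorem Sw.jV (hj : j ∈ Q) : j ∈ V Q g :=
  mem_V.2 ⟨hj, by have := h.mem; rwa [← S.symm.b, inv_inv] at this⟩

end

namespace Cx
variable {M : MW z Q f} (C : Cx M n) {g : G} (S : Sw z (n 1) g)
include C

theorem jQ : n 1 ∈ Q := C.E.mem 1 (by decide)

theorem jz : n 1 ≠ z := fun e =>
  absurd (C.E.inj 1 (by decide) 256 (by decide) (e.trans C.E.z256.symm)) (by decide)

include S

theorem ex1 : ∃ p < 256, 1 < p ∧ n p ∈ V Q g := by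
  by_contra! hn
  have hn : ∀ u < 512, n u ∈ V Q g → u % 256 ≤ 1 := fun u hu h => not_lt.1 fun k =>
    hn _ (Nat.mod_lt _ (by decide)) k ((mdK (S.zV C.h C.jQ) (md_mod C.E hu)).1 h)
  have lt : ∀ m, lin [4, 16, 8, 32, 64, 128] m < 512 := lin_lt (by decide)
  have cm : ∀ m : Fin 64, n (lin [4, 16, 8, 32, 64, 128] m) * n 1 = n 1 * n _ := fun m =>
    (ncom C.E (lt m) (by decide)).2 (by revert m; decide +kernel)
  let c : Fin 64 → centralizer ({z} : Set G) := fun m => ⟨_, S.cz (cm m)⟩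
  have k1 : ∀ m, ∀ b ∈ B2, M.π (c m) b = b ∨ b ≠ 1 ∧ M.π (c m) b = 1 ^^^ b := fun m b hb => by
    obtain ⟨b1, b2⟩ := (by decide +kernel : ∀ b ∈ B2, b < 256 ∧ qm b 1 = qm 1 b) b hb
    by_cases h1 : b = 1
    · exact .inl (C.fix1 (c m).2 (S.cj (C.h.le (C.E.mem _ (lt m)))) b (by simp [h1, wch]))
    have hQ := C.E.mem b (by omega)
    have hr := C.E.mem _ (lt m)
    have : c m * n b * (c m : G)⁻¹ * (n b)⁻¹ ∈ V Q g := by
      refine mem_V.2 ⟨mul_mem (C.h.nor _ (c m).2 _ hQ) (inv_mem hQ), ?_⟩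
      convert mul_mem hr (C.h.nor _ (S.cz' ((ncom C.E (by omega) (by decide)).2 b2)) _ (inv_mem hr))
        using 1
      simp only [c]; group
    obtain ⟨u, hu, e⟩ := C.E.surj _ this.1
    have h3 := hn u hu (e ▸ this)
    rw [eq_mul_inv_iff_mul_eq, C.E.mul u hu b (by omega)] at e
    rw [C.fix (c m) b1 (Nat.mod_lt _ (by decide)) (e ▸ md_mod C.E (qm_lt hu (by omega))), qm_mod,
      Nat.mod_eq_of_lt b1]
    rcases Nat.le_one_iff_eq_zero_or_eq_one.1 h3 with k | k <;> rw [k]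
    exacts [.inl (Nat.zero_xor b), .inr ⟨h1, rfl⟩]
  obtain ⟨m, m', ne, e⟩ := Fintype.exists_ne_map_eq_of_card_lt (fun (m : Fin 64) (i : Fin 5) =>
    decide (M.π (c m) (B2.getD (i + 1) 0) = B2.getD (i + 1) 0)) (by simp)
  have : ((c m')⁻¹ * c m : centralizer ({z} : Set G)).1 ∈ Q := by
    refine (M.ker _).1 (M.faith _ fun b hb => ?_)
    rw [map_mul, map_inv, Equiv.Perm.mul_apply, Equiv.Perm.inv_eq_iff_eq]
    rcases (by decide : ∀ b ∈ B2, b = 1 ∨ ∃ i : Fin 5, B2.getD (i + 1) 0 = b) b hb with h1 | ⟨i, h1⟩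
    · rw [(k1 m b hb).resolve_right fun k => k.1 h1, (k1 m' b hb).resolve_right fun k => k.1 h1]
    · have := congrFun e i
      simp only [h1, decide_eq_decide] at this
      by_cases h2 : M.π (c m) b = b
      · rw [h2, this.1 h2]
      · rw [((k1 m b hb).resolve_left h2).2, ((k1 m' b hb).resolve_left (mt this.2 h2)).2]
  obtain ⟨v, hv, e⟩ := C.E.surj _ (mul_mem (inv_mem (C.E.mem _ (lt m'))) (C.E.mem _ (lt m)))
  have h3 := hn v hv (mem_V.2 ⟨C.E.mem v hv, S.sym C.h (by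
    convert this using 1
    simp only [e, c, coe_mul, coe_inv]; group)⟩)
  rw [eq_inv_mul_iff_mul_eq, C.E.mul _ (lt _) v hv] at e
  have e := congrArg (· % 256) (C.E.inj _ (qm_lt (lt _) hv) _ (lt _) e)
  simp only [qm_mod] at e
  exact (by decide +kernel : ∀ m m' : Fin 64, m ≠ m' → ∀ k ≤ 1,
    lin [4, 16, 8, 32, 64, 128] m' % 256 ^^^ k ≠ lin [4, 16, 8, 32, 64, 128] m % 256) m m' ne _ h3 e

theorem actV {w : List ℕ} (hw : allL (okL [20, 21]) w = true) {p : ℕ} (hp : p < 256)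
    (h : n p ∈ V Q g) : n (pt w p) ∈ V Q g :=
  (mdK (S.zV C.h C.jQ) (C.act w hp).2).1 (S.conj C.h (M.mem w) (C.cD hw) h)

theorem uV : ∀ a ∈ [1, 4, 16, 128], n a ∈ V Q g := fun a ha => by
  obtain ⟨p, hp, p1, h⟩ := C.ex1 S
  rcases (by decide +kernel : ∀ p < 256, 1 < p → qm p 1 ≠ qm 1 p ∨
    (∃ w ∈ [[40, 40, 42], [41, 41, 43], [40, 42, 42, 40]], allL (okL [20, 21]) w = true ∧
      qm p (pt w p) ≠ qm (pt w p) p) ∨ ∀ a ∈ [1, 4, 16, 128], ∃ i < 7,
        allL (okL [20, 21]) (rep i [40]) = true ∧ ∃ m < 8, lin [1, pt (rep i [40]) p] m = a)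
    p hp p1 with k | ⟨w, -, hw, k⟩ | k
  · exact absurd ((ncom C.E (by omega) (by decide)).1 (S.com C.h C.jz h (S.jV C.h C.jQ))) k
  · exact absurd ((ncom C.E (by omega) ((C.act w hp).1.trans (by decide))).1
      (S.com C.h C.jz h (C.actV S hw hp h))) k
  · obtain ⟨i, -, hw, m, -, e⟩ := k a ha
    exact e ▸ linK C.E (S.zV C.h C.jQ) _ (List.forall_mem_cons.2 ⟨⟨by decide, S.jV C.h C.jQ⟩,
      List.forall_mem_singleton.2 ⟨(C.act _ hp).1.trans (by decide), C.actV S hw hp h⟩⟩) m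

theorem cenQ {x : G} (hx : g⁻¹ * x * g ∈ Q) (hz : x ∈ centralizer ({z} : Set G))
    (h : ∀ a ∈ [1, 4, 16, 128], Commute x (n a)) : x ∈ Q := by
  have := span C.E (S.zV C.h C.jQ) (C.uV S) hx fun a ha => by
    have h1 := C.uV S a ha
    have h2 : g * n a * g⁻¹ ∈ V Q g := mem_V.2 ⟨S.sym' C.h (mem_V.1 h1).2, by simpa [mul_assoc] using h1.1⟩
    have := mem_centralizer_singleton_iff.1 (span C.E (K := centralizer {x})
      (mem_centralizer_singleton_iff.2 (mem_centralizer_singleton_iff.1 hz).symm)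
      (fun b hb => mem_centralizer_singleton_iff.2 (h b hb).symm) h2.1
      fun b hb => S.com C.h C.jz h2 (C.uV S b hb))
    calc _ = g⁻¹ * (x * (g * n a * g⁻¹)) * g := by group
      _ = _ := by rw [← this]; group
  simpa [mul_assoc] using S.sym' C.h (mem_V.1 this).2

theorem false_of [Finite G] : False := by
  have r1 : n 8 * n 1 = n 1 * n 8 := (ncom C.E (by decide) (by decide)).2 (by decide +kernel)
  have rQ := C.E.mem 8 (by decide)
  have hc := S.cz r1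
  have hj := S.cj (C.h.le rQ)
  have up : ∀ w, lt2 500 w = true → wval (Function.update (FW f) 500 (g * n 8 * g⁻¹))
      (w ++ 1000 :: invW w) = wval (FW f) w * (g * n 8 * g⁻¹) * (wval (FW f) w)⁻¹ := fun w hw => by
    rw [wval_append, wval_cons, lval_upd (nv := 500), wval_invW, wval_upd _ hw, ← mul_assoc]
  obtain ⟨u, -, q, hq, e⟩ := M.find C.hs.2 s_p (by decide) hc (C.fix1 hc hj) .nil
    (List.forall_mem_cons.2 ⟨by
      rw [wval_cons, wval_cons, lval_upd (nv := 500), wval_nil, mul_one, conj_mul,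
        C.E.mul _ (by decide) _ (by decide), show qm 8 8 = 0 by decide +kernel, C.E.zero]
      simp, fun w hw => by
      obtain ⟨e, he, rfl⟩ := List.mem_map.1 hw
      obtain ⟨a1, a2, b1, b2, k⟩ := (by decide +kernel : ∀ e ∈ prs, lt2 500 e.1 = true ∧
        allL (okL [20, 21]) e.1 = true ∧ lt2 500 e.2 = true ∧ allL (okL [20, 21]) e.2 = true ∧
        ∀ a ∈ [1, 4, 16, 128], a < 256 ∧ allL (okL [20, 21]) (invW e.1) = true ∧
          allL (okL [20, 21]) (invW e.2) = true ∧ (a = 1 ∨ ∃ m < 4,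
            qm (qm a (pt (invW e.1) a)) (pt (invW e.2) a) = lin [1] m)) e he
      have cq : ∀ w, allL (okL [20, 21]) w = true →
          g⁻¹ * (wval (FW f) w * (g * n 8 * g⁻¹) * (wval (FW f) w)⁻¹) * g ∈ Q := fun w hw => by
        convert C.h.nor _ (S.cz' (C.cD hw)) _ rQ using 1
        group
      have cz : ∀ w, wval (FW f) w * (g * n 8 * g⁻¹) * (wval (FW f) w)⁻¹ ∈
        centralizer ({z} : Set G) := fun w => mul_mem (mul_mem (M.mem w) hc) (inv_mem (M.mem w))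
      rw [eqP, wval_cons, lval_upd (nv := 500), wval_append, up _ a1, up _ b1]
      refine C.cenQ S ?_ (mul_mem hc (mul_mem (cz _) (cz _))) fun a ha => ?_
      · convert mul_mem rQ (mul_mem (cq _ a2) (cq _ b2)) using 1
        group
      obtain ⟨k1, k2, k3, k4⟩ := k a ha
      have hj : Commute (g * n 8 * g⁻¹) (n 1) := hj
      have ca : Commute _ (n 1) := C.cD a2
      have cb : Commute _ (n 1) := C.cD b2
      rcases k4 with rfl | ⟨m, -, k4⟩
      · exact hj.mul_left (((ca.mul_left hj).mul_left ca.inv_left).mul_left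
          ((cb.mul_left hj).mul_left cb.inv_left))
      have hu := C.uV S a ha
      have v : ∀ w, allL (okL [20, 21]) w = true →
          (wval (FW f) w)⁻¹ * n a * wval (FW f) w ∈ V Q g := fun w hw => by
        simpa using S.conj C.h (inv_mem (M.mem w)) (show Commute _ _ from C.cD hw).inv_left.eq hu
      obtain ⟨e0, m0, t0⟩ := S.kap C.h rQ hu
      obtain ⟨e1, m1, t1⟩ := S.kap C.h rQ (v _ a2)
      obtain ⟨e2, m2, t2⟩ := S.kap C.h rQ (v _ b2)
      refine tri ca cb hj (S.com C.h C.jz hu (S.jV C.h C.jQ)) m0 m1 m2 t0 t1 t2 ?_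
      have d1 := C.act (invW e.1) k1
      have d2 := C.act (invW e.2) k1
      rw [wval_invW, inv_inv] at d1 d2
      have l1 := d1.1.trans (by decide : 256 < 512)
      have l0 := k1.trans (by decide : 256 < 512)
      have := md_mul C.h (md_mul C.h (.inl rfl) d1.2 (Co1Q.nz C.h C.E l0)) d2.2 (by
        rw [C.E.mul _ l0 _ l1]; exact Co1Q.nz C.h C.E (qm_lt l0 l1))
      rw [C.E.mul _ l0 _ l1, C.E.mul _ (qm_lt l0 l1) _ (d2.1.trans (by decide)), k4] at this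
      have hz : z ∈ centralizer ({g * n 8 * g⁻¹} : Set G) :=
        mem_centralizer_singleton_iff.2 (mem_centralizer_singleton_iff.1 hc).symm
      exact (mem_centralizer_singleton_iff.1 ((mdK hz this).2 (linK C.E hz _
        (List.forall_mem_singleton.2 ⟨by decide, mem_centralizer_singleton_iff.2 hj.symm⟩) m))).symm⟩)
    (by simp)
  rw [wval_nil, one_mul] at e
  exact absurd ((ncom C.E (by decide) (by decide)).1 (S.com C.h C.jz
    (mem_V.2 ⟨rQ, S.sym C.h (e ▸ hq)⟩) (C.uV S 4 (by decide)))) (by decide +kernel)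

end Cx

/-- Weak closure. -/
theorem wc [Finite G] (h : Co2Defs.Hyp z Q φ) (E : Enc z Q n) (S : Co2Defs.St φ n f) {g : G}
    (hj : g * z * g⁻¹ ∈ Q) : g * z * g⁻¹ = z := by
  obtain ⟨M, C⟩ := exists_cx h E S
  by_contra hn
  obtain ⟨k, hk, e⟩ := C.trans hj (by rw [conj_mul, h.zz]; simp) (fun e => h.ne (by simpa using e)) hn
  obtain ⟨g, e⟩ : ∃ g, g * z * g⁻¹ = n 1 := ⟨k⁻¹ * g, by
    rw [show k⁻¹ * g * z * (k⁻¹ * g)⁻¹ = k⁻¹ * (g * z * g⁻¹) * k by group, ← e]; group⟩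
  have cz : ∀ x, x * n 1 = n 1 * x → g⁻¹ * x * g ∈ centralizer ({z} : Set G) := fun x hx => by
    rw [mem_centralizer_singleton_iff]
    calc _ = g⁻¹ * (x * (g * z * g⁻¹)) * g := by group
      _ = _ := by rw [e, hx, ← e]; group
  have zz : g⁻¹ * z * g * (g⁻¹ * z * g) = 1 := by
    rw [show g⁻¹ * z * g * (g⁻¹ * z * g) = g⁻¹ * (z * z) * g by group, h.zz]; simp
  have hQ : g⁻¹ * z * g ∈ Q := C.sev (cz _ (C.cD (w := [40, 40, 40, 40]) (by decide +kernel)))
    (cz _ (Co1Fq.zc h.toHyp0 C.jQ).symm)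
    (by simpa [C.e7.1] using conj_pow (i := 7) (a := g⁻¹) (b := wval (FW f) [40, 40, 40, 40]))
    (fun e => C.e7.2 (by simpa [mul_assoc] using congrArg (g * · * g⁻¹) e)) zz (by
      have := mem_centralizer_singleton_iff.1 (M.mem [40, 40, 40, 40])
      calc _ = g⁻¹ * (wval (FW f) [40, 40, 40, 40] * z) * g := by group
        _ = _ := by rw [this]; group)
  obtain ⟨k, hk, e2⟩ := C.trans hQ zz (fun e => h.ne (by simpa [mul_assoc] using congrArg (g * · * g⁻¹) e))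
    fun e2 => C.jz (by rw [← e]; nth_rw 1 [← e2]; group)
  refine C.false_of (g := g * k) ⟨?_, ?_⟩
  · rw [mul_assoc g, mem_centralizer_singleton_iff.1 hk, ← e]; group
  · rw [show g * k * n 1 * (g * k)⁻¹ = g * (k * n 1 * k⁻¹) * g⁻¹ by group, e2]; group

/-- The involutions of the centraliser. -/
theorem cls [Finite G] (h : Co2Defs.Hyp z Q φ) (E : Enc z Q n) (S : Co2Defs.St φ n f) {v : G}
    (hv : v ∈ centralizer ({z} : Set G)) (vv : v * v = 1) :
    v ∈ Q ∨ ∃ k ∈ centralizer ({z} : Set G), ∃ i < 4, ∃ p < 512,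
      k * v * k⁻¹ = n p * wval f (reps.getD i []) := by
  obtain ⟨M, C⟩ := exists_cx h E S
  exact C.cls hv (vv ▸ one_mem Q)

end Cfsg.Agent.Lib.Co2W
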