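import Cfsg.Agent.Lib.Co2WM
import Cfsg.Agent.Lib.Co2Defs
import Cfsg.Agent.Lib.Co1Fq

/-! The involution centraliser of the second Conway group modulo its extraspecial subgroup. -/

set_option autoImplicit false
set_option maxRecDepth 100000

namespace Cfsg.Agent.Lib.Co2W

open Subgroup Cfsg.Agent.Lib.PermNet Cfsg.Agent.Lib.Words Cfsg.Agent.Lib.PermGroup Cfsg.Agent.Lib.DCE
  Cfsg.Agent.Lib.BT Cfsg.Agent.Lib.ThDefs Cfsg.Agent.Lib.Co2WM
open Cfsg.Agent.Lib.Co2Defs (LS)
open Cfsg.Agent.Lib.Co1Defs (Hyp0)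
open Cfsg.Agent.Lib.ThCl (Md qm_mod top md_mod)
open Cfsg.Agent.Lib.Co1Q (md_trans md_symm md_mul exists_rho)
open Cfsg.Agent.Lib.Co1Fq (zc sq_or)

variable {G : Type*} [Group G] {z : G} {Q : Subgroup G}
  {φ : centralizer ({z} : Set G) →* Co3A.X} {n f : ℕ → G}

abbrev FW (f : ℕ → G) : ℕ → G := ext f 6 wdefs

abbrev MW (z : G) (Q : Subgroup G) (f : ℕ → G) :=
  Model (FW f) (centralizer {z}) Q (nat_lit 256) (nat_lit 8) (nat_lit 255) wtt B2 1451520

/-- The model is the action on `Q` modulo `z`. -/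
structure Cx (M : MW z Q f) (n : ℕ → G) : Prop where
  h : Hyp0 z Q
  E : Enc z Q n
  cH : ¬ 7 ^ 2 ∣ Nat.card (centralizer ({z} : Set G))
  hs : (∀ g : centralizer ({z} : Set G), ∀ p < 256, Md z (g * n p * (g : G)⁻¹) (n (M.π g p))) ∧
    M.Ch (centralizer {z}) wch

theorem md_inj (E : Enc z Q n) {a b : ℕ} (ha : a < 256) (hb : b < 256) (h : Md z (n a) (n b)) :
    a = b := by
  rcases h with h | h
  · exact E.inj a (by omega) b (by omega) h
  · rw [← E.z256, E.mul _ (by decide) _ (by omega)] at h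
    have := E.inj a (by omega) _ (qm_lt (by decide) (by omega)) h
    have := (by decide +kernel : ∀ b < 256, 256 ≤ qm 256 b) b hb
    omega

theorem tabs_ok : ∀ i < 6, ∀ p < 256,
    lk 8 255 (wtt.get (2 * i + 1)) p = lin (LS.getD i []) p % 256 := by decide +kernel

theorem exists_cx [Finite G] (h : Co2Defs.Hyp z Q φ) (E : Enc z Q n) (S : Co2Defs.St φ n f) :
    ∃ M : MW z Q f, Cx M n := by
  obtain ⟨ρ, hρ⟩ := exists_rho h.toHyp0 E
  have lt : ∀ g, ∀ p < 256, ρ g p < 256 := fun g p hp => ThO.lt_of_fix (hρ g).1.1 hp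
  have k1 : φ.ker ≤ ρ.ker := fun g hg => Equiv.ext fun p => by
    by_cases hp : p < 256
    · refine md_inj E (lt g p hp) hp (md_trans h.toHyp0 (md_symm h.toHyp0 ((hρ g).2 p hp))
        ((h.com _ ((h.ker g).1 hg) _ (E.mem p (by omega))).imp (fun e => ?_) fun e => ?_)) <;>
        rw [e] <;> simp [← mul_assoc]
    · exact (hρ g).1.1 p (by omega)
  have i1 : φ.ker.index = 1451520 := by
    rw [index_ker, MonoidHom.range_eq_top.2 h.sur, card_top, Co3A.card_X]
  obtain ⟨M, e⟩ := hTM.mk_model (f := f) (Z := Q) ρ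
    (fun i => if hi : i < 6 then ⟨f i, S.mem i hi⟩ else 1) (fun i hi => by simp [hi])
    (fun i hi => Equiv.ext fun p => by
      rw [dif_pos hi]
      by_cases hp : p < 256
      · rw [wok.apply i hp]
        refine Eq.trans ?_ (tabs_ok i hi p hp).symm
        refine md_inj E (lt _ p hp) (Nat.mod_lt _ (by decide)) (md_trans h.toHyp0
          (md_symm h.toHyp0 ((hρ _).2 p hp)) ?_)
        rw [(S.act i hi).all E (S.mem i hi) (by omega)]
        exact md_mod E ((S.act i hi).lt p)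
      · refine ((hρ _).1.1 p (by omega)).trans ?_
        simpa [wval, lval] using (tp_fix (wb := 8) (mask := 255) wtt [2 * i]
          (Nat.le_of_not_lt hp)).symm) lt
    (by rw [← index_ker]
        exact ⟨index_ne_zero_of_finite, i1 ▸ Nat.le_of_dvd (i1 ▸ by decide) (index_dvd_of_le k1)⟩)
    (fun hT g => by
      rw [← h.ker, ← MonoidHom.mem_ker, ← MonoidHom.mem_ker, eq_of_le_of_card_ge k1]
      have h1 := ρ.ker.index_mul_card
      rw [← φ.ker.index_mul_card, i1, index_ker] at h1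
      exact Nat.le_of_mul_le_mul_left ((Nat.mul_le_mul_right _ hT).trans h1.le) (by decide))
  let M' := M.rebase B2 (by decide +kernel)
  exact ⟨M', h.toHyp0, E, by rw [h.cH]; decide, fun g p hp => (e ▸ (hρ g).2 p hp :
    Md z _ (n (M.π g p))), M'.ch_top _ (by rw [hc]; decide +kernel)⟩

noncomputable abbrev pt (w : List ℕ) (p : ℕ) : ℕ := ap1i (nat_lit 8) (nat_lit 255) wtt w p

theorem q4 (h : Hyp0 z Q) {a : G} (ha : a ∈ Q) : a ^ 4 = 1 := by
  rw [show 4 = 2 * 2 from rfl, pow_mul, sq a, sq]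
  rcases sq_or h ha with e | e <;> rw [e]
  exacts [mul_one 1, h.zz]

namespace Cx
variable {M : MW z Q f} (C : Cx M n)
include C

theorem act (w : List ℕ) {p : ℕ} (hp : p < 256) :
    pt w p < 256 ∧ Md z (wval (FW f) w * n p * (wval (FW f) w)⁻¹) (n (pt w p)) := by
  rw [pt, ap1i_eq M.good w hp, ← M.val]
  exact ⟨M.lt _ _ hp, C.hs.1 _ p hp⟩

theorem fix (c : centralizer ({z} : Set G)) {p q : ℕ} (hp : p < 256) (hq : q < 256)
    (h : Md z (c * n p * (c : G)⁻¹) (n q)) : M.π c p = q :=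
  md_inj C.E (M.lt _ _ hp) hq (md_trans C.h (md_symm C.h (C.hs.1 c p hp)) h)

theorem fix1 {c : G} (hc : c ∈ centralizer ({z} : Set G)) (h : c * n 1 = n 1 * c) :
    ∀ b ∈ (wch.take 1).map Lv.b, M.π ⟨c, hc⟩ b = b := fun b hb => by
  obtain rfl : b = 1 := List.mem_singleton.1 hb
  exact C.fix _ (by decide) (by decide) (.inl (mul_inv_eq_iff_eq_mul.2 h))

theorem cD {w : List ℕ} (hw : allL (okL [20, 21]) w = true) : wval (FW f) w * n 1 = n 1 * wval (FW f) w := by
  have k : ∀ w, pt w 1 = 1 → wval (FW f) (w ++ w) ∈ centralizer ({n 1} : Set G) := fun w e => by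
    have h := (C.act w (by decide : 1 < 256)).2
    have hz := mem_centralizer_singleton_iff.1 (M.mem w)
    rw [e] at h
    rw [mem_centralizer_singleton_iff, wval_append, ← mul_inv_eq_iff_eq_mul, mul_inv_rev,
      show ∀ a b : G, a * a * b * (a⁻¹ * a⁻¹) = a * (a * b * a⁻¹) * a⁻¹ from fun a b => by group]
    rcases h with h | h
    · rw [h, h]
    · rw [h, ← mul_assoc, hz, mul_assoc z, mul_assoc z, h, ← mul_assoc, C.h.zz, one_mul]
  refine mem_centralizer_singleton_iff.1 (mem_word [20, 21] (List.forall_mem_cons.2 ⟨?_,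
    List.forall_mem_singleton.2 ?_⟩) hw)
  · rw [FW, letter_eq f 6 wdefs 20 ([14, 16] ++ [14, 16]) (by decide)]
    exact k _ (by decide +kernel)
  · rw [FW, letter_eq f 6 wdefs 21 ([12, 14, 18] ++ [12, 14, 18]) (by decide)]
    exact k _ (by decide +kernel)

theorem e7 : wval (FW f) [40, 40, 40, 40] ^ 7 = 1 ∧ wval (FW f) [40, 40, 40, 40] ≠ 1 := by
  refine ⟨?_, fun e => M.nrel _ (by decide +kernel) (e ▸ one_mem Q)⟩
  have := q4 C.h (M.rel (rep 7 [40]) (by decide +kernel))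
  rwa [wval_rep, ← pow_mul, mul_comm, pow_mul, ← wval_rep] at this

theorem sev [Finite G] {a b : G} (ha : a ∈ centralizer ({z} : Set G))
    (hb : b ∈ centralizer ({z} : Set G)) (a7 : a ^ 7 = 1) (a1 : a ≠ 1) (bb : b * b = 1)
    (ab : a * b = b * a) : b ∈ Q := by
  obtain ⟨k, hk, e⟩ := SuzG1.sylow_conj (H := centralizer ({z} : Set G)) (p := 7) (by norm_num)
    C.cH (M.mem _) ha C.e7.1 C.e7.2 a7 a1
  obtain ⟨m, hm⟩ := mem_zpowers_iff.1 (e.ge (mem_zpowers _))
  obtain ⟨u, -, q, hq, e⟩ := M.find C.hs.2 s_s (by decide) (mul_mem (mul_mem hk hb) (inv_mem hk))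
    (by simp) (comm_pairs _ (List.forall_mem_singleton.2 (by
      rw [← hm]
      exact (Commute.zpow_right (show Commute (k * b * k⁻¹) (k * a * k⁻¹) by
        rw [Commute, SemiconjBy, conj_mul, conj_mul, ab]) m).eq)))
    (List.forall_mem_singleton.2 (by
      rw [wval_cons, wval_cons, lval_upd (nv := 500), wval_nil, mul_one, conj_mul, bb]
      simp)) (by simp)
  have := C.h.nor _ (inv_mem hk) q hq
  rw [wval_nil, one_mul] at e
  rwa [← e, show k⁻¹ * (k * b * k⁻¹) * k⁻¹⁻¹ = b by group] at this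

theorem trans {v : G} (hv : v ∈ Q) (vv : v * v = 1) (v1 : v ≠ 1) (vz : v ≠ z) :
    ∃ k ∈ centralizer ({z} : Set G), k * n 1 * k⁻¹ = v := by
  obtain ⟨p, hp, rfl⟩ := C.E.surj v hv
  rw [C.E.mul p hp p hp, ← C.E.zero] at vv
  rcases (by decide +kernel : ∀ p < 512, qm p p = 0 → p = 0 ∨ p = 256 ∨
    ∃ e ∈ wch_0_0, e.1 = p % 256 ∧ pt (invW e.2) 1 = p % 256) p hp
    (C.E.inj _ (qm_lt hp hp) _ (by decide) vv) with rfl | rfl | ⟨e, -, -, h⟩
  exacts [absurd C.E.zero v1, absurd C.E.z256 vz, by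
    have hm := M.mem (invW e.2)
    rcases md_trans C.h (h ▸ (C.act (invW e.2) (by decide : 1 < 256)).2)
      (md_symm C.h (md_mod C.E hp)) with h | h
    · exact ⟨_, hm, h⟩
    · refine ⟨_ * n 2, mul_mem hm (C.h.le (C.E.mem 2 (by decide))), ?_⟩
      have : n 2 * n 1 = z * n 1 * n 2 := by
        rw [← C.E.z256, C.E.mul _ (by decide) _ (by decide), C.E.mul _ (by decide) _ (by decide),
          C.E.mul _ (by decide +kernel) _ (by decide)]
        exact congrArg n (by decide +kernel)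
      rw [mul_assoc _ (n 2), this, mul_inv_rev, ← mul_assoc, ← mul_assoc, ← mul_assoc,
        mul_inv_cancel_right, mem_centralizer_singleton_iff.1 hm, mul_assoc z, mul_assoc z, h,
        ← mul_assoc, C.h.zz, one_mul]]

theorem cls {v : G} (hv : v ∈ centralizer ({z} : Set G)) (vv : v * v ∈ Q) :
    v ∈ Q ∨ ∃ k ∈ centralizer ({z} : Set G), ∃ i < 4, ∃ p < 512,
      k * v * k⁻¹ = n p * wval f (reps.getD i []) := by
  obtain ⟨k, -, hk⟩ := M.pfix C.hs.2 hc (j := 1) Nat.prime_two 1 (by decide +kernel) hv hv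
    (by simpa [sq] using vv)
  obtain ⟨u, hu, q, hq, e⟩ := M.find C.hs.2 s_i (by decide) (k * ⟨v, hv⟩ * k⁻¹).2 hk .nil
    (List.forall_mem_singleton.2 (by
      rw [wval_cons, wval_cons, lval_upd (nv := 500), wval_nil, mul_one]
      simpa [mul_assoc] using C.h.nor k k.2 _ vv)) (by simp)
  rw [wval_mkC] at e
  have hu := blt_lt hu
  have hm := M.mem u.tail
  generalize wval (FW f) u.tail = a, u.headD 0 = i at *
  have e : (a⁻¹ * k) * v * (a⁻¹ * k)⁻¹ =
      wval (FW f) (([] :: reps).getD i []) * (a⁻¹ * q * a⁻¹⁻¹) := by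
    have e : (k : G) * v * (k : G)⁻¹ = _ := e
    rw [show a⁻¹ * k * v * (a⁻¹ * k)⁻¹ = a⁻¹ * (k * v * (k : G)⁻¹) * a by group, e]; group
  have hq := C.h.nor _ (inv_mem hm) q hq
  have hk := mul_mem (inv_mem hm) k.2
  cases i with
  | zero =>
    left
    have := C.h.nor _ (inv_mem hk) _ hq
    rw [← one_mul (a⁻¹ * q * _), show (1 : G) = wval (FW f) (([] :: reps).getD 0 []) from rfl, ← e] at this
    simpa [mul_assoc] using this
  | succ i =>
    obtain ⟨p, hp, e2⟩ := C.E.surj _ (C.h.nor _ (M.mem (([] :: reps).getD (i + 1) [])) _ hq)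
    have hi : i < 4 := by omega
    refine .inr ⟨_, hk, i, hi, p, hp, ?_⟩
    rw [e, e2, ← wval_ext f 6 wdefs _ (by clear * - hi; revert i; decide)]
    exact (inv_mul_cancel_right _ _).symm

end Cx

end Cfsg.Agent.Lib.Co2W
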