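import Cfsg.Agent.Lib.Co3MHC
import Cfsg.Agent.Lib.Co3MHS
import Cfsg.Agent.Lib.Co3MHK
import Cfsg.Agent.Lib.Co3MHI
import Cfsg.Agent.Lib.Co3HD

/-! The amalgam in a group with an involution centraliser `2·Sp₆(2)`. -/

set_option autoImplicit false
set_option maxRecDepth 100000

namespace Cfsg.Agent.Lib.Co3S

open Subgroup Cfsg.Agent.Lib.PermNet Cfsg.Agent.Lib.Words Cfsg.Agent.Lib.PermGroup Cfsg.Agent.Lib.DCE
  Cfsg.Agent.Lib.BT Cfsg.Agent.Lib.Co3MH

variable {G : Type*} [Group G] {z : G} {f : ℕ → G}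

/-- Generators of the centraliser. -/
structure SB (z : G) (f : ℕ → G) : Prop where
  top : gp f (sing 6) = centralizer {z}
  rel : ∀ w ∈ Co3HTC.K1, wval f w = 1
  zw : wval f [2, 0, 2, 0] = z
  card : Nat.card (centralizer ({z} : Set G)) = 2903040

/-- All letters. -/
abbrev FF (f : ℕ → G) : ℕ → G := ext f 6 hdefs

/-- The faithful model of the centraliser. -/
abbrev MH (z : G) (f : ℕ → G) := Model (FF f) (centralizer {z}) ⊥ (nat_lit 1068) (nat_lit 11)
  (nat_lit 2047) htt B2 2903040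

theorem SB.z6 (B : SB z f) : wval (FF f) [12] = z := by
  rw [wval_single _ 6, FF, letter_eq f 6 hdefs 6 [2, 0, 2, 0] (by decide),
    wval_ext f 6 hdefs _ (by decide), B.zw]

theorem SB.model (B : SB z f) :
    ∃ M : MH z f, M.SC hch [12] [14] ∧ M.Ch (centralizer {z}) hch2 := by
  obtain ⟨M⟩ := hTM.fmodel B.top B.rel hK (fun z => Co3HTC.card_le z) B.card.ge
  let M' := M.rebase B2 (by decide +kernel)
  exact ⟨M', M'.mkSC (M'.ch_top _ (by rw [Co3MH.hc]; decide +kernel))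
    (fun g h => mem_centralizer_singleton_iff.2 (B.z6 ▸ h)) _ _ fx,
    M'.ch_top _ (by rw [hc2]; decide +kernel)⟩

theorem SB.zz (B : SB z f) : z * z = 1 := by
  obtain ⟨M, -⟩ := B.model
  rw [← B.z6, ← wval_append]
  exact M.one _ (by decide +kernel)

theorem SB.cls (B : SB z f) {v : G} (hv : v ∈ centralizer {z}) (h : v ^ 2 = 1) :
    ∃ k ∈ centralizer {z}, ∃ i < 4, v = k * wval (FF f) (reps.getD i []) * k⁻¹ := by
  obtain ⟨M, -, ch⟩ := B.model
  obtain ⟨k, -, hk⟩ := M.pfix ch hc2 (j := 1) Nat.prime_two 2 (by decide +kernel) hv hv h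
  obtain ⟨u, hu, e⟩ := M.find1 ch s_i (by decide) (k * ⟨v, hv⟩ * k⁻¹).2 hk .nil
    (List.forall_mem_singleton.2 (by
      rw [wval_cons, wval_cons, lval_upd (nv := 500), wval_nil, mul_one, ← coe_mul, conj_mul, mem_bot]
      simp [← sq, h])) (by simp)
  refine ⟨k⁻¹ * wval (FF f) u.tail, mul_mem (inv_mem k.2) (M.mem _), _, blt_lt hu, ?_⟩
  rw [wval_mkC] at e
  calc v = k⁻¹ * (k * ⟨v, hv⟩ * k⁻¹ : centralizer {z}) * k := by simp [mul_assoc]
    _ = _ := by rw [e]; simp [mul_assoc]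

/-- If `z` is conjugate to `v ≠ z` in the centraliser, some conjugating element maps a
representative to `z`. -/
theorem SB.back (B : SB z f) {g : G} (hv : g * z * g⁻¹ ∈ centralizer {z}) (hn : g * z * g⁻¹ ≠ z) :
    ∃ n, n * z * n⁻¹ = g * z * g⁻¹ ∧
      (n * wval (FF f) [14] * n⁻¹ = z ∨ n * wval (FF f) [22] * n⁻¹ = z) := by
  obtain ⟨M, -⟩ := B.model
  obtain ⟨k, hk, i, hi, e⟩ := B.cls (v := g⁻¹ * z * g⁻¹⁻¹) (mem_centralizer_singleton_iff.2 (by
    have := mem_centralizer_singleton_iff.1 hv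
    calc _ = g⁻¹ * (z * (g * z * g⁻¹)) * g := by group
      _ = _ := by rw [← this]; group)) (by rw [conj_pow, sq, B.zz]; simp)
  have kz := mem_centralizer_singleton_iff.1 hk
  have e' : g * k * wval (FF f) (reps.getD i []) * (g * k)⁻¹ = z := by
    calc _ = g * (k * wval (FF f) (reps.getD i []) * k⁻¹) * g⁻¹ := by group
      _ = _ := by rw [← e]; group
  have e0 : g * k * z * (g * k)⁻¹ = g * z * g⁻¹ := by rw [mul_assoc g, kz]; group
  refine ⟨g * k, e0, ?_⟩
  interval_cases i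
  · exact absurd (B.z6.trans (by simpa [reps] using e'.symm)) (M.ne_one _ (by decide +kernel))
  · exact absurd (e0.symm.trans (B.z6 ▸ e')) hn
  · exact .inl e'
  · exact .inr e'

theorem SB.not_conj (B : SB z f) (g : G) : g * z * g⁻¹ ≠ wval (FF f) [22] := fun h => by
  obtain ⟨M, S, -⟩ := B.model
  obtain ⟨n, h1, h2⟩ := B.back (h ▸ M.mem _) (by
    rw [h, ← B.z6]; exact M.ne _ _ (by decide +kernel))
  have key : ∀ r s, n * wval (FF f) r * n⁻¹ = z → wval (FF f) (s ++ s) = wval (FF f) [12] →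
      wval (FF f) s * wval (FF f) r = wval (FF f) r * wval (FF f) s → False := fun r s e1 e2 e3 => by
    have e4 : n * wval (FF f) s * n⁻¹ * (n * wval (FF f) s * n⁻¹) = wval (FF f) [22] := by
      rw [conj_mul, ← wval_append, e2, B.z6, h1, h]
    obtain ⟨u, hu, -⟩ := M.find1 S.hch s_q (by decide) (c := n * wval (FF f) s * n⁻¹)
      (mem_centralizer_singleton_iff.2 (by rw [← e1, conj_mul, conj_mul, e3])) (by simp)
      (comm_pairs _ (List.forall_mem_singleton.2 (e4 ▸ (mul_assoc _ _ _).symm)))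
      (List.forall_mem_singleton.2 (by
        rw [wval_cons, wval_cons, lval_upd (nv := 500), wval_upd _ (by decide), ← mul_assoc, e4,
          ← wval_append]
        exact M.one _ (by decide +kernel))) (by simp)
    cases hu
  rcases h2 with h2 | h2
  · exact key _ [16, 22, 28] h2 (M.eq _ _ (by decide +kernel)) (M.comm _ _ (by decide +kernel))
  · exact key _ [39] h2 (M.eq _ _ (by decide +kernel)) (M.comm _ _ (by decide +kernel))

theorem SB.key (B : SB z f) {v : G} (hv : v ∈ centralizer {z}) (h : IsConj z v) (hn : v ≠ z) :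
    ∃ k ∈ centralizer {z}, v = k * wval (FF f) [14] * k⁻¹ := by
  obtain ⟨M, -⟩ := B.model
  obtain ⟨g, rfl⟩ := isConj_iff.1 h
  obtain ⟨k, hk, i, hi, e⟩ := B.cls hv (by rw [conj_pow, sq, B.zz]; simp)
  interval_cases i
  · exact absurd (B.z6.trans (by simpa [reps] using e)) (M.ne_one _ (by decide +kernel))
  · refine absurd (e.trans ?_) hn
    exact B.z6 ▸ mul_inv_eq_iff_eq_mul.2 (B.z6 ▸ mem_centralizer_singleton_iff.1 hk)
  · exact ⟨k, hk, e⟩
  · refine absurd ?_ (B.not_conj (k⁻¹ * g))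
    calc _ = k⁻¹ * (g * z * g⁻¹) * k := by group
      _ = _ := by rw [e]; simp [reps, mul_assoc]

theorem SB.swap (B : SB z f) {g : G} (hv : g * z * g⁻¹ ∈ centralizer {z}) (hn : g * z * g⁻¹ ≠ z) :
    ∃ n, Cj n (FF f) [[12], [14]] [[14], [12]] := by
  obtain ⟨M, -⟩ := B.model
  obtain ⟨k, -, e⟩ := B.key hv (isConj_iff.2 ⟨g, rfl⟩) hn
  have e1 : k⁻¹ * g * z * (k⁻¹ * g)⁻¹ = wval (FF f) [14] := by
    calc _ = k⁻¹ * (g * z * g⁻¹) * k := by group
      _ = _ := by rw [e]; group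
  obtain ⟨n, h1, h2 | h2⟩ := B.back (e1 ▸ M.mem _) (by
    rw [e1, ← B.z6]; exact M.ne _ _ (by decide +kernel))
  · exact ⟨n, .cons (B.z6 ▸ mul_inv_eq_iff_eq_mul.1 (h1.trans e1))
      (.cons (B.z6 ▸ mul_inv_eq_iff_eq_mul.1 h2) .nil)⟩
  · exact absurd (by rw [← h2]; group) (B.not_conj n⁻¹)

theorem SB.exists_A (B : SB z f) {n : G} (C : Cj n (FF f) [[12], [14]] [[14], [12]]) :
    ∃ t, t * t = 1 ∧ Cj t (FF f) us vsA := by
  obtain ⟨M, S, -⟩ := B.model
  have : ∃ t, Cj t (FF f) us vsA := by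
    obtain ⟨v, hv, n, C⟩ := S.step C s_1
    simp only [List.mem_cons, List.not_mem_nil, or_false] at hv
    rcases hv with rfl | rfl
    · obtain ⟨v, hv, n, C⟩ := S.step C s_20
      simp only [List.mem_cons, List.not_mem_nil, or_false] at hv
      rcases hv with rfl | rfl | rfl
      · obtain ⟨v, hv, n, C⟩ := S.step C s_30
        simp only [List.mem_cons, List.not_mem_nil, or_false] at hv
        rcases hv with rfl | rfl | rfl | rfl
        exacts [⟨n, C⟩, (killB S C).elim, (killC S C).elim, (killD S C).elim]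
      · obtain ⟨v, hv, -⟩ := S.step C s_31
        cases hv
      · obtain ⟨v, hv, -⟩ := S.step C s_32
        cases hv
    · obtain ⟨v, hv, -⟩ := S.step C s_21
      cases hv
  obtain ⟨t, C⟩ := this
  obtain ⟨u, hu, e⟩ := p2 S C
  rw [tv_rep] at e
  simp only [List.mem_cons, List.not_mem_nil, or_false] at hu
  rcases hu with rfl | rfl
  · exact ⟨t, by simpa [tv, sq] using e, C⟩
  · refine ⟨t * z, ?_, C.right fun v => (mem_centralizer_singleton_iff.1 (M.mem v)).symm⟩
    have h1 : t * z = wval (FF f) [14] * t := B.z6 ▸ C 3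
    have h2 : t * t = wval (FF f) [14, 12] := by simpa [tv, sq] using e
    nth_rw 1 [h1]
    rw [mul_assoc, ← mul_assoc t, h2, ← B.z6, ← wval_append, ← wval_append]
    exact M.one _ (by decide +kernel)

theorem SB.exists_t (B : SB z f) {n : G} (C : Cj n (FF f) [[12], [14]] [[14], [12]]) :
    ∃ t, t * z * t⁻¹ = wval (FF f) [14] ∧ t ∉ centralizer {z} ∧
      ∀ w ∈ Co3HD.RR, wval (Function.update f 6 t) w = 1 := by
  obtain ⟨t, tt, C⟩ := B.exists_A C
  obtain ⟨M, S, -⟩ := B.model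
  have h1 : t * z = wval (FF f) [14] * t := B.z6 ▸ C 3
  obtain ⟨u, hu, e3⟩ := p3 S C
  rw [List.mem_singleton.1 hu] at e3
  obtain ⟨u, hu, e5⟩ := p5 S C
  rw [List.mem_singleton.1 hu] at e5
  refine ⟨t, mul_inv_eq_iff_eq_mul.2 h1, fun h => ?_, amRels_one (rs := [_, _])
    (fun i hi => (ext_of_lt _ hdefs hi).symm) (der M C) tt
    (List.forall_mem_cons.2 ⟨e3, List.forall_mem_singleton.2 e5⟩) (by decide)⟩
  rw [mem_centralizer_singleton_iff.1 h, mul_left_inj, ← B.z6] at h1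
  exact M.ne _ _ (by decide +kernel) h1

end Cfsg.Agent.Lib.Co3S
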