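import Cfsg.Agent.Lib.ZStar
import Cfsg.Agent.Lib.InvolCount

/-! A proper subgroup that controls a class of involutions closed under commuting products contains
a subgroup of odd order that is transitive on that class. -/

set_option autoImplicit false

namespace Cfsg.Agent.Lib.InvEmb

open Subgroup

variable {G : Type*} [Group G] [Finite G]

theorem exists_odd {z : G} {M : Subgroup G} (hz : z * z = 1)
    (hC : ∀ g, g * z = z * g → g ∈ M) (h1 : ∀ v ∈ M, IsConj z v → ∃ m ∈ M, m * z * m⁻¹ = v)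
    (h2 : ∀ v, IsConj z v → v * z = z * v → v ≠ z → IsConj z (v * z))
    (hM : M ≠ ⊤) :
    ∃ O ≤ M, Odd (Nat.card O) ∧ (centralizer {z}).relIndex M ∣ Nat.card O := by
  obtain ⟨g, hg⟩ : ∃ g, g ∉ M := by simpa [eq_top_iff'] using hM
  have sq' : ∀ {s}, IsConj z s → s ^ 2 = 1 := fun h => by rw [sq, InvolCount.sq_of_isConj hz h]
  have cj : ∀ {s} k, IsConj z s → IsConj z (k * s * k⁻¹) := fun k h => h.trans (isConj_iff.2 ⟨k, rfl⟩)
  have hB : ∀ {s s'}, IsConj z s → IsConj z s' → s' * s = s * s' → s' ≠ s → IsConj z (s' * s) := by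
    intro s s' h h' e ne
    obtain ⟨k, rfl⟩ := isConj_iff.1 h
    have := cj k (h2 (k⁻¹ * s' * k⁻¹⁻¹) (cj _ h') (by
      rw [← mul_left_inj k⁻¹, ← mul_right_inj k]; simpa [mul_assoc] using e)
      fun e => ne (by rw [← e]; group))
    convert this using 1; group
  have hD : ∀ {s s' x}, IsConj z s → IsConj z s' → x ∈ zpowers (s * s') → IsConj z (x * s) := by
    intro s s' x h h' hx
    obtain ⟨k, -, e | e⟩ := ZStar.dihedral (sq' h) (sq' h') hx <;> rw [e]
    exacts [cj k h, cj k h']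
  have hE : ∀ {s s'}, IsConj z s → IsConj z s' → ¬ Odd (orderOf (s * s')) →
      ∃ v ∈ zpowers (s * s'), IsConj z v ∧ s * v = v * s ∧ s' * v = v * s' := by
    intro s s' h h' ho
    obtain ⟨v, hv, v1, v2⟩ := InvolCount.exists_invol ho
    have s2 := InvolCount.sq_of_isConj hz h
    obtain ⟨c1, c2⟩ := InvolCount.comm_of_mem s2 (InvolCount.sq_of_isConj hz h') v1 hv
    refine ⟨v, hv, ?_, c1, c2⟩
    have := hB h (hD h h' hv) (by rw [← mul_assoc, c1]) (by simpa using v2)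
    rwa [mul_assoc, s2, mul_one] at this
  have hF : ∀ {s}, IsConj z s → ∀ {a b : G ⧸ M}, s • a = a → s • b = b → a = b := by
    intro s h a b
    induction a using QuotientGroup.induction_on with | H a => ?_
    induction b using QuotientGroup.induction_on with | H b => ?_
    have key : ∀ a : G, s • (a : G ⧸ M) = a → ∃ m ∈ M, m * z * m⁻¹ = a⁻¹ * s * a⁻¹⁻¹ := fun a ha =>
      h1 _ (by simpa [mul_assoc] using QuotientGroup.eq.1 ha.symm) (cj _ h)
    intro ha hb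
    obtain ⟨m, hm, e⟩ := key a ha
    obtain ⟨n, hn, e'⟩ := key b hb
    have := hC ((a * m)⁻¹ * (b * n)) (by
      calc _ = (a * m)⁻¹ * b * (n * z * n⁻¹) * n := by group
        _ = m⁻¹ * (a⁻¹ * s * a⁻¹⁻¹) * a⁻¹ * b * n := by rw [e']; group
        _ = _ := by rw [← e]; group)
    rw [QuotientGroup.eq]
    simpa [mul_assoc] using mul_mem (mul_mem hm this) (inv_mem hn)
  have hc : ∀ {s v : G} {a : G ⧸ M}, IsConj z s → s • a = a → s * v = v * s → v • a = a :=
    fun h ha e => hF h (by rw [← mul_smul, e, mul_smul, ha]) ha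
  set α : G ⧸ M := ((1 : G) : G ⧸ M) with hα
  have mα : ∀ x : G, x • α = α ↔ x ∈ M := fun x => by
    rw [← MulAction.mem_stabilizer_iff, hα, MulAction.stabilizer_quotient]
  set β := g • α with hβ
  have ne : α ≠ β := fun e => hg ((mα g).1 e.symm)
  have zM := hC z rfl
  have zz := IsConj.refl z
  have z' : (g * z * g⁻¹) • β = β := by
    rw [hβ, ← mul_smul, inv_mul_cancel_right, mul_smul, (mα z).2 zM]
  have hσ : ∀ m ∈ M, ∃ σ, IsConj z σ ∧ σ • α = β ∧ σ • β = α ∧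
      σ * (g * z * g⁻¹) * σ⁻¹ = m * z * m⁻¹ := fun m hm => by
    have a1 := (mα _).2 (mul_mem (mul_mem hm zM) (inv_mem hm))
    have ho : Odd (orderOf (g * z * g⁻¹ * (m * z * m⁻¹))) := by_contra fun ho => by
      obtain ⟨v, -, v1, v2, v3⟩ := hE (cj g zz) (cj m zz) ho
      exact ne (hF v1 (hc (cj m zz) a1 v3) (hc (cj g zz) z' v2))
    obtain ⟨k, hk, e⟩ := ZStar.exists_conj_of_odd (sq' (cj g zz)) (sq' (cj m zz)) ho
    have a2 := hD (cj g zz) (cj m zz) (inv_mem hk)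
    have a3 : k⁻¹ * (g * z * g⁻¹) * (g * z * g⁻¹) * (k⁻¹ * (g * z * g⁻¹))⁻¹ = m * z * m⁻¹ := by
      generalize g * z * g⁻¹ = u at e
      rw [← e]; group
    have a4 : (k⁻¹ * (g * z * g⁻¹)) • β = α := hF (cj m zz) (by
      rw [← a3, ← mul_smul, inv_mul_cancel_right, mul_smul _ _ β, z']) a1
    refine ⟨_, a2, ?_, a4, a3⟩
    rw [← a4, ← mul_smul, InvolCount.sq_of_isConj hz a2, one_smul]
  let D : Subgroup G :=
    { carrier := {x | x • α = α ∧ x • β = β ∨ x • α = β ∧ x • β = α}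
      mul_mem' := by
        rintro a b (⟨a1, a2⟩ | ⟨a1, a2⟩) (⟨b1, b2⟩ | ⟨b1, b2⟩) <;> simp [mul_smul, a1, a2, b1, b2]
      one_mem' := by simp
      inv_mem' := by
        rintro a (⟨a1, a2⟩ | ⟨a1, a2⟩) <;> simp [inv_smul_eq_iff, a1, a2] }
  have sw : ∀ s ∈ D, IsConj z s → s • α = β ∧ s • β = α := fun s hs h =>
    hs.resolve_left fun e => ne (hF h e.1 e.2)
  have nz : ∀ {s s'}, s • α = β ∧ s • β = α → s' • α = β ∧ s' • β = α →
      ∀ v ∈ zpowers (s * s'), ¬ IsConj z v := fun {s s'} h h' v hv hzv => by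
    have : zpowers (s * s') ≤ MulAction.stabilizer G α ⊓ MulAction.stabilizer G β :=
      zpowers_le.2 ⟨by simp [mul_smul, h'.1, h.2], by simp [mul_smul, h'.2, h.1]⟩
    exact ne (hF hzv (this hv).1 (this hv).2)
  obtain ⟨s, s1, s2, s3, s4⟩ := hσ 1 (one_mem _)
  have hs : s ∈ D := Or.inr ⟨s2, s3⟩
  have hZ := ZStar.zstar D ⟨s, hs⟩ (Subtype.ext (sq' s1)) fun k hk => by_contra fun h =>
    nz (sw _ (k * ⟨s, hs⟩ * k⁻¹).2 (cj k s1)) ⟨s2, s3⟩ _ (mem_zpowers _)
      (hB s1 (cj k s1) (congrArg Subtype.val hk).symm fun e => h (Subtype.ext e))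
  let O := (pPrimeCore 2 D).map D.subtype
  have hO : Odd (Nat.card O) := by
    rw [card_map_of_injective D.subtype_injective]
    exact Nat.coprime_two_right.1 (PCoreResidual.coprime_card_pPrimeCore 2 D)
  have OM : O ≤ M := fun o ho => by
    obtain ⟨k, hk⟩ := hO
    have a1 : o ^ (2 * k + 1) = 1 := congrArg Subtype.val (hk ▸ pow_card_eq_one' (x := (⟨o, ho⟩ : O)))
    rcases map_subtype_le _ ho with e | e
    · exact (mα o).1 e.1
    · have : (o ^ 2) ^ k ∈ M := pow_mem ((mα _).1 (by rw [sq, mul_smul, e.1, e.2])) k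
      rw [← pow_mul, eq_inv_of_mul_eq_one_left ((pow_succ _ _).symm.trans a1)] at this
      exact inv_mem_iff.1 this
  have tr : ∀ m ∈ M, ∃ o ∈ O, o * z * o⁻¹ = m * z * m⁻¹ := fun m hm => by
    obtain ⟨σ, t1, t2, t3, t4⟩ := hσ m hm
    have ho : Odd (orderOf (σ * s)) := by_contra fun ho => by
      obtain ⟨v, hv, v1, -⟩ := hE t1 s1 ho
      exact nz ⟨t2, t3⟩ ⟨s2, s3⟩ v hv v1
    obtain ⟨k, hk, e⟩ := ZStar.exists_conj_of_odd (sq' t1) (sq' s1) ho
    refine ⟨σ * s⁻¹, ⟨_, hZ ⟨k, zpowers_le.2 (mul_mem (Or.inr ⟨t2, t3⟩) hs) hk⟩, by simp [e]⟩, ?_⟩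
    rw [one_mul, inv_one, mul_one] at s4
    rw [← t4]
    generalize g * z * g⁻¹ = u at s4 ⊢
    rw [← s4]; group
  have key : ∀ K : Subgroup G, (centralizer {z}).relIndex K =
      (MulAction.orbit K ((1 : G) : G ⧸ centralizer {z})).ncard := fun K => by
    rw [← MulAction.index_stabilizer, relIndex]
    congr 1
    ext x
    rw [mem_subgroupOf]
    exact (SetLike.ext_iff.1 (MulAction.stabilizer_quotient (centralizer {z})) (x : G)).symm
  have hd : (centralizer {z}).relIndex M ∣ Nat.card O := by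
    refine dvd_trans (dvd_of_eq ?_) (relIndex_dvd_card (centralizer {z}) O)
    rw [key, key]
    congr 1
    refine Set.Subset.antisymm ?_ (by rintro _ ⟨o, rfl⟩; exact ⟨⟨o, OM o.2⟩, rfl⟩)
    rintro _ ⟨m, rfl⟩
    obtain ⟨o, ho, e⟩ := tr m m.2
    refine ⟨⟨o, ho⟩, QuotientGroup.eq.2 (mem_centralizer_singleton_iff.2 ?_)⟩
    change (o * 1)⁻¹ * (m * 1) * z = z * ((o * 1)⁻¹ * (m * 1))
    calc _ = o⁻¹ * (m * z * (m : G)⁻¹) * m := by group
      _ = _ := by rw [← e]; group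
  exact ⟨O, OM, hO, hd⟩

end Cfsg.Agent.Lib.InvEmb
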