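import Cfsg.Agent.Lib.Co3TC
import Cfsg.Agent.Lib.Co3Model
import Cfsg.Agent.Lib.InvEmb
import Cfsg.Agent.Lib.SuzG1
import Cfsg.Agent.Lib.FTOddOrder
import Cfsg.Agent.Lib.Hall

/-! The order of the third Conway group; a copy of it that controls a class of involutions is the
whole group. -/

set_option autoImplicit false
set_option maxRecDepth 100000

namespace Cfsg.Agent.Lib.Co3Top

open Subgroup Cfsg.Agent.Lib.PermNet Cfsg.Agent.Lib.Words Cfsg.Agent.Lib.PermGroup Cfsg.Agent.Lib.DCE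
  Cfsg.Agent.Lib.BT

/-- The permutations. -/
noncomputable abbrev P : ℕ → Equiv.Perm ℕ := tp (nat_lit 276) (nat_lit 9) (nat_lit 511) vtt

theorem exists_gen : ∃ (π : Spor.Co3 →* Equiv.Perm ℕ) (f : ℕ → Spor.Co3), Function.Injective π ∧
    ∀ i < 2, π (f i) = P i := by
  obtain ⟨π, h1, -, h2⟩ := Co3Model.exists_pi
  choose! f hf using h2
  refine ⟨π, f, h1, fun i hi => (hf i hi).trans (tp_eq Co3Model.cok vok ?_)⟩
  exact (by decide +kernel : ∀ i < 2, Nat.beq (Co3Model.ctt.get (2 * i + 1)) (vtt.get (2 * i + 1)) = true) i hi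

theorem card_eq : Nat.card Spor.Co3 = 495766656000 := by
  obtain ⟨π, f, -, h⟩ := exists_gen
  exact Co3Model.card_le.antisymm ((vTM.le_card π h).trans (card_le_card_group _))

theorem exists_model : ∃ f : ℕ → Spor.Co3, gp f (sing 2) = ⊤ ∧
    Nonempty (Model (ext f 2 vdefs) ⊤ ⊥ (nat_lit 276) (nat_lit 9) (nat_lit 511) vtt (vch.map Lv.b)
      495766656000) := by
  obtain ⟨π, f, -, h⟩ := exists_gen
  have top : gp f (sing 2) = ⊤ := eq_top_of_le_card _ (card_eq ▸ vTM.le_card π h)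
  exact ⟨f, top, vTM.hmodel top π h card_eq.le⟩

theorem no_comm (a b : Spor.Co3) (a1 : a ^ 5 = 1) (b1 : b ^ 23 = 1) (ab : a * b = b * a) :
    a = 1 ∨ b = 1 := by_contra fun hn => by
  obtain ⟨f, -, ⟨M⟩⟩ := exists_model
  rw [not_or] at hn
  have h1 := M.pow [0] 23 (by decide +kernel)
  obtain ⟨k, -, h2⟩ := SuzG1.sylow_conj (H := (⊤ : Subgroup Spor.Co3)) (p := 23) (by norm_num)
    (by rw [card_top, card_eq]; decide) (M.mem [0]) (mem_top b) h1 (M.ne_one _ (by decide +kernel)) b1 hn.2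
  have hc := mem_top (k * a * k⁻¹)
  obtain ⟨x, hx, u, hu, y, hy, e⟩ := M.solve (M.ch_top vch (by rw [vc]; decide +kernel))
    (fun _ _ => M.lmem _) s23 hc hc (.inl rfl) (comm_pairs _ (List.forall_mem_singleton.2 (by
      obtain ⟨n, hn⟩ := h2.ge (mem_zpowers _)
      rw [← hn]
      exact (Commute.zpow_right (show Commute (k * a * k⁻¹) (k * b * k⁻¹) by
        rw [Commute, SemiconjBy, conj_mul, conj_mul, ab]) n).eq))) (by simp) (by simp)
  obtain ⟨n, rfl⟩ : x ∈ zpowers (wval (ext f 2 vdefs) [0]) :=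
    gp_le.2 (List.forall_mem_singleton.2 (mem_zpowers _)) hx
  rw [List.mem_singleton.1 (memLL_mem hu), mem_bot.1 hy, id, wval_nil, mul_one, mul_one] at e
  have h3 : (k * a * k⁻¹) ^ 23 = 1 := by
    rw [e, ← zpow_natCast, ← zpow_mul, mul_comm, zpow_mul, zpow_natCast, h1, one_zpow]
  rw [conj_pow, conj_eq_one_iff] at h3
  exact hn.1 (by simpa using pow_gcd_eq_one.2 ⟨a1, h3⟩)

variable {G : Type*} [Group G] [Finite G]

theorem exists_comm {n : ℕ} (h : Nat.card G = 23 * n) (h5 : 5 ∣ n) (hn : n ∣ 125) :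
    ∃ a b : G, a ^ 5 = 1 ∧ b ^ 23 = 1 ∧ a ≠ 1 ∧ b ≠ 1 ∧ a * b = b * a := by
  have := Fact.mk (show Nat.Prime 5 by norm_num)
  have := Fact.mk (show Nat.Prime 23 by norm_num)
  obtain ⟨a, ha⟩ := exists_prime_orderOf_dvd_card' (G := G) 5 (h ▸ h5.mul_left 23)
  obtain ⟨b, hb⟩ := exists_prime_orderOf_dvd_card' (G := G) 23 (h ▸ dvd_mul_right _ _)
  have h1 : Nat.card (zpowers b) = 23 := by rw [Nat.card_zpowers, hb]
  have h2 : (zpowers b).index = n := by have := (zpowers b).card_mul_index; rw [h1, h] at this; omega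
  let P : Sylow 23 G := (IsPGroup.of_card (n := 1) h1).toSylow (by
    rw [h2]; exact fun e => absurd (e.trans hn) (by decide))
  have h3 : Nat.card (Sylow 23 G) = 1 := by
    have h4 := card_sylow_modEq_one 23 G
    have h6 : Nat.card (Sylow 23 G) ∣ 5 ^ 3 := (h2 ▸ P.card_dvd_index).trans hn
    obtain ⟨k, hk, e⟩ := (Nat.dvd_prime_pow (by norm_num)).1 h6
    rw [e] at h4 ⊢
    interval_cases k
    · rfl
    all_goals exact absurd h4 (by decide)
  have := (Nat.card_eq_one_iff_unique.1 h3).1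
  have hN : (zpowers b).Normal := P.normal_of_subsingleton
  have a5 : a ^ 5 = 1 := ha ▸ pow_orderOf_eq_one a
  refine ⟨a, b, a5, hb ▸ pow_orderOf_eq_one b, by rintro rfl; simp at ha,
    by rintro rfl; simp at hb, ?_⟩
  obtain ⟨k, hk, e⟩ : ∃ k < 23, b ^ k = a * b * a⁻¹ := by
    classical
    have := (mem_zpowers_iff_mem_range_orderOf (x := b)).1 (hN.conj_mem b (mem_zpowers b) a)
    simpa [hb] using this
  have key : ∀ j : ℕ, b ^ k ^ j = a ^ j * b * (a ^ j)⁻¹ := fun j => by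
    induction j with
    | zero => simp
    | succ j ih => rw [pow_succ, pow_mul, ih, conj_pow, e, pow_succ]; group
  have h7 := key 5
  rw [a5, one_mul, inv_one, mul_one] at h7
  have h8 : k ^ 5 ≡ 1 [MOD 23] := hb ▸ pow_eq_pow_iff_modEq.1 (h7.trans (pow_one b).symm)
  have h9 : k = 1 := (by decide : ∀ k < 23, k ^ 5 ≡ 1 [MOD 23] → k = 1) k hk h8
  rw [h9, pow_one] at e
  exact mul_inv_eq_iff_eq_mul.1 e.symm

theorem eq_top {z : G} {M : Subgroup G} (hz : z * z = 1)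
    (hC : ∀ g, g * z = z * g → g ∈ M) (h1 : ∀ v ∈ M, IsConj z v → ∃ m ∈ M, m * z * m⁻¹ = v)
    (h2 : ∀ v, IsConj z v → v * z = z * v → v ≠ z → IsConj z (v * z))
    (h3 : 115 ∣ (centralizer {z}).relIndex M) (e : M ≃* Spor.Co3) : M = ⊤ := by
  by_contra hM
  obtain ⟨O, OM, hO, hd⟩ := InvEmb.exists_odd hz hC h1 h2 hM
  have := FTOddOrder.solvable_of_odd hO
  have hOM : Nat.card O ∣ 495766656000 :=
    card_eq ▸ Nat.card_congr e.toEquiv ▸ card_dvd_of_le OM
  obtain ⟨k, n, hn, e1⟩ := Nat.exists_eq_pow_mul_and_not_dvd (Nat.card_pos (α := O)).ne' 5 (by norm_num)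
  have h4 := h3.trans hd
  have h5 : 23 ∣ n := (Nat.Coprime.pow_right k (by norm_num : Nat.Coprime 23 5)).dvd_of_dvd_mul_left
    (e1 ▸ (by norm_num : 23 ∣ 115).trans h4)
  obtain ⟨m, rfl⟩ := h5
  have k1 : k ≠ 0 := by
    rintro rfl
    have := (by norm_num : 5 ∣ 115).trans h4
    rw [e1, pow_zero, one_mul] at this
    exact hn this
  have k3 : k ≤ 3 := by_contra fun h => absurd
    (((pow_dvd_pow 5 (by omega : 4 ≤ k)).trans (e1 ▸ dvd_mul_right _ _)).trans hOM) (by decide)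
  obtain ⟨K, hK, -⟩ := Hall.exists_card_eq_of_coprime (G := O) (m := 23 * 5 ^ k) (n := m)
    (Nat.Coprime.mul_left ((Nat.Prime.coprime_iff_not_dvd (by norm_num)).2 fun ⟨c, hc⟩ =>
      absurd (dvd_trans (⟨5 ^ k * c, by rw [e1, hc]; ring⟩ : 23 * 23 ∣ Nat.card O) hOM) (by decide))
    (Nat.Coprime.pow_left k ((Nat.Prime.coprime_iff_not_dvd (by norm_num)).2 fun h =>
      hn (h.mul_left 23)))) (by rw [e1]; ring)
  obtain ⟨a, b, a1, b1, a2, b2, ab⟩ := exists_comm hK (dvd_pow_self 5 k1) (pow_dvd_pow 5 k3)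
  let ι : K →* Spor.Co3 := e.toMonoidHom.comp ((inclusion OM).comp K.subtype)
  have hι : Function.Injective ι :=
    e.injective.comp ((inclusion_injective OM).comp K.subtype_injective)
  rcases no_comm (ι a) (ι b) (by rw [← map_pow, a1, map_one]) (by rw [← map_pow, b1, map_one])
    (by rw [← map_mul, ab, map_mul]) with h | h
  · exact a2 (hι (h.trans (map_one ι).symm))
  · exact b2 (hι (h.trans (map_one ι).symm))

end Cfsg.Agent.Lib.Co3Top
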