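import Cfsg.Agent.Lib.Co3S1
import Cfsg.Agent.Lib.Co3Top

/-! A group with an involution centraliser `2·Sp₆(2)` in which the involution is not isolated is
the third Conway group. -/

set_option autoImplicit false
set_option maxRecDepth 100000

namespace Cfsg.Agent.Lib.Co3S

open Subgroup Cfsg.Agent.Lib.PermNet Cfsg.Agent.Lib.Words Cfsg.Agent.Lib.PermGroup Cfsg.Agent.Lib.DCE
  Cfsg.Agent.Lib.BT

theorem index {X : Type*} [Group X] (x : ℕ → X) (h : ∀ w ∈ Co3HTC.K1 ++ Co3HD.RR, wval x w = 1)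
    (ht : x 6 ∉ gp x (sing 6)) : (gp x (sing 6)).relIndex (gp x (sing 7)) = 170775 := by
  let y : ℕ → gp x (sing 7) := fun i => if h : i < 7 then ⟨x i, mem_sing x h⟩ else 1
  have hy : ∀ i < 7, (y i).1 = x i := fun i hi => by simp [y, hi]
  have hr : ∀ w ∈ Co3HTC.K1 ++ Co3HD.RR, wval y w = 1 := fun w hw => Subtype.ext
    ((map_wval (Subgroup.subtype _) y w).trans ((wval_congr hy (by
      simpa using List.all_eq_true.1 (by decide +kernel : (Co3HTC.K1 ++ Co3HD.RR).all (lt2 7) = true)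
        w hw)).trans (h w hw)))
  have ty : gp y (sing 7) = ⊤ := by
    apply map_injective (gp x (sing 7)).subtype_injective
    rw [map_gp, ← MonoidHom.range_eq_map, range_subtype]
    exact gp_congr hy (by decide)
  have e : (gp y (sing 6)).map (gp x (sing 7)).subtype = gp x (sing 6) := by
    rw [map_gp]
    exact gp_congr (n := 6) (fun i hi => hy i (by omega)) (by decide)
  rw [relIndex, ← e, subgroupOf, comap_map_eq_self_of_injective (gp x (sing 7)).subtype_injective]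
  exact Co3HD.ok.main y (fun w hw => hr w (List.mem_append_right _ hw)) ty
    (Co3HTC.card_le _ (rels_pair (fun w hw => hr w (List.mem_append_left _ hw)) Co3HD.hK1))
    fun _ h => ht (e ▸ hy 6 (by decide) ▸ mem_map_of_mem _ h)

theorem exists_phi : ∃ φ : ℕ → Spor.Co3, gp φ (sing 7) = ⊤ ∧
    ∀ w ∈ Co3HTC.K1 ++ Co3HD.RR, wval φ w = 1 := by
  obtain ⟨f, top, ⟨M⟩⟩ := Co3Top.exists_model
  let W : List (List ℕ) := [[1, 2, 7, 27, 15, 21, 7, 0], [1, 19, 9, 23, 28, 4, 24, 0],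
    [2, 26, 1, 7, 23, 5, 18, 21], [1, 15, 6, 15, 0, 15, 24, 20, 13, 1], [6, 1, 16, 9, 0, 6, 17, 0, 22, 1],
    [18, 17, 26, 4, 1, 5, 1, 17, 4], [8, 4, 28, 11, 0, 14, 7, 14, 1, 2]]
  refine ⟨fun i => wval (ext f 2 Co3Top.vdefs) (W.getD i []), top_le_iff.1 (top ▸ gp_le.2 ?_),
    fun w hw => ?_⟩
  · have key : ∀ v u, (band (lt2 2 v && lt2 7 u) (fixW (nat_lit 9) (nat_lit 511) Co3Top.vtt
        (Co3Top.vch.map Lv.b) (v ++ invW (subst W u)))) = true →
        wval f v ∈ gp (fun i => wval (ext f 2 Co3Top.vdefs) (W.getD i [])) (sing 7) := fun v u h => by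
      obtain ⟨h1, h2⟩ := band_eq h
      rw [Bool.and_eq_true] at h1
      rw [← wval_ext f 2 Co3Top.vdefs v h1.1, M.eq _ _ h2, wval_subst]
      exact wval_mem fun l hl => mem_sing _ (by
        have := List.all_eq_true.1 h1.2 l hl
        simp only [decide_eq_true_eq] at this
        omega)
    exact List.forall_mem_cons.2 ⟨key _ [7, 8, 11, 4, 13, 7, 8, 11, 4, 13, 9, 12, 4, 11, 2, 12, 5, 10, 9,
      6, 5, 12, 10, 10, 9, 0, 0, 10, 4, 12, 0, 10, 4] (by decide +kernel), List.forall_mem_singleton.2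
      (key _ [2, 5, 11, 0, 12, 8, 1, 4, 6, 12, 11, 8, 7, 3] (by decide +kernel))⟩
  · rw [← wval_subst]
    exact M.rels ((Co3HTC.K1 ++ Co3HD.RR).map (subst W)) (by decide +kernel) _ (List.mem_map_of_mem hw)

theorem card_eq {X : Type*} [Group X] (x : ℕ → X) (h : ∀ w ∈ Co3HTC.K1 ++ Co3HD.RR, wval x w = 1)
    (ht : x 6 ∉ gp x (sing 6)) : Nat.card (gp x (sing 7)) = 170775 * Nat.card (gp x (sing 6)) := by
  rw [← index x h ht, ← ((gp x (sing 6)).subgroupOf (gp x (sing 7))).index_mul_card,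
    Nat.card_congr (subgroupOfEquivOfLe (gp_mono (by decide))).toEquiv, relIndex]

variable {G : Type*} [Group G] {z : G} {f : ℕ → G}

theorem iso {F : ℕ → G} (h : ∀ w ∈ Co3HTC.K1 ++ Co3HD.RR, wval F w = 1) (ht : F 6 ∉ gp F (sing 6))
    (hc : Nat.card (gp F (sing 6)) = 2903040) : Nonempty (gp F (sing 7) ≃* Spor.Co3) := by
  obtain ⟨φ, top, hφ⟩ := exists_phi
  let x := fun i => (F i, φ i)
  have hx : ∀ w ∈ _, wval x w = 1 := rels_pair h hφ
  have h1 := card_eq x hx fun e => ht (by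
    have := mem_map_of_mem (MonoidHom.fst _ _) e
    rwa [map_gp] at this)
  have h2 := Co3HTC.card_le x fun w hw => hx w (List.mem_append_left _ hw)
  have h3 := card_eq F h ht
  have : Finite (gp x (sing 7)) := Nat.finite_of_card_ne_zero (by omega)
  have e1 : (gp x (sing 7)).map (MonoidHom.fst _ _) = gp F (sing 7) := map_gp _ _
  have e2 : (gp x (sing 7)).map (MonoidHom.snd _ _) = ⊤ := (map_gp _ _).trans top
  have b1 := ((MonoidHom.fst _ _).subgroupMap_surjective (gp x (sing 7))).bijective_of_nat_card_le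
    (by rw [e1]; omega)
  have b2 := ((MonoidHom.snd _ _).subgroupMap_surjective (gp x (sing 7))).bijective_of_nat_card_le
    (by rw [e2, card_top, Co3Top.card_eq]; omega)
  exact ⟨(((MulEquiv.subgroupCongr e1.symm).trans (MulEquiv.ofBijective _ b1).symm).trans
    (MulEquiv.ofBijective _ b2)).trans ((MulEquiv.subgroupCongr e2).trans topEquiv)⟩

theorem main [Finite G] (B : SB z f) {g : G} (hv : g * z * g⁻¹ ∈ centralizer {z})
    (hn : g * z * g⁻¹ ≠ z) : Nonempty (G ≃* Spor.Co3) := by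
  obtain ⟨n, C⟩ := B.swap hv hn
  obtain ⟨t, tz, tH, hR⟩ := B.exists_t C
  obtain ⟨M, -⟩ := B.model
  set F := Function.update f 6 t with hF
  have hH : gp F (sing 6) = centralizer {z} :=
    (gp_congr (n := 6) (fun _ hi => Function.update_of_ne hi.ne _ _) (by decide)).trans B.top
  have F6 : F 6 = t := Function.update_self _ _ _
  have hr : ∀ w ∈ Co3HTC.K1 ++ Co3HD.RR, wval F w = 1 := List.forall_mem_append.2 ⟨fun w hw =>
    (wval_upd t (List.all_eq_true.1 (by decide +kernel : Co3HTC.K1.all (lt2 6) = true) w hw)).trans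
      (B.rel w hw), hR⟩
  have ht : F 6 ∉ gp F (sing 6) := by rwa [hH, F6]
  obtain ⟨e⟩ := iso hr ht (hH ▸ B.card)
  have hi := index F hr ht
  have le : centralizer {z} ≤ gp F (sing 7) := hH ▸ gp_mono (by decide)
  rw [hH] at hi
  have top := Co3Top.eq_top B.zz (fun g h => le (mem_centralizer_singleton_iff.2 h))
    (fun v hv h => ?_) (fun v h h1 h2 => ?_) (by rw [hi]; decide) e
  · exact ⟨(topEquiv.symm.trans (MulEquiv.subgroupCongr top.symm)).trans e⟩
  · obtain ⟨m, hm, h1⟩ := conj_into (H := centralizer {z}) (k := 1) Nat.prime_two (by rw [hi]; decide)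
      (zpowers_le.2 hv) (by
        rintro _ ⟨n, rfl⟩
        rw [← zpow_natCast, ← zpow_mul, mul_comm, zpow_mul, zpow_natCast, pow_one, sq,
          InvolCount.sq_of_isConj B.zz h, one_zpow])
    by_cases h2 : m * v * m⁻¹ = z
    · exact ⟨m⁻¹, inv_mem hm, by rw [← h2]; group⟩
    · obtain ⟨k, hk, h3⟩ := B.key (h1 v (mem_zpowers v)) (h.trans (isConj_iff.2 ⟨m, rfl⟩)) h2
      refine ⟨m⁻¹ * k * t, mul_mem (mul_mem (inv_mem hm) (le hk)) (F6 ▸ mem_sing F (by decide)), ?_⟩
      calc _ = m⁻¹ * (k * (t * z * t⁻¹) * k⁻¹) * m := by group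
        _ = _ := by rw [tz, ← h3]; group
  · obtain ⟨k, hk, rfl⟩ := B.key (mem_centralizer_singleton_iff.2 h1) h h2
    have kz : k * z * k⁻¹ = z := mul_inv_eq_iff_eq_mul.2 (mem_centralizer_singleton_iff.1 hk)
    refine isConj_iff.2 ⟨k * wval (FF f) [11, 5, 6] * t, ?_⟩
    nth_rw 2 [← kz]
    rw [conj_mul]
    nth_rw 2 [← B.z6]
    rw [← wval_append, ← M.cj [11, 5, 6] [14] ([14] ++ [12]) (by decide +kernel), ← tz]
    group

end Cfsg.Agent.Lib.Co3S
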