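import Cfsg.Agent.Lib.DCE5

/-! Double coset certificates in which the edge group fixes a set of points rather than a point. -/

set_option autoImplicit false

namespace Cfsg.Agent.Lib.DCE

open Cfsg.Agent.Lib.PermNet Cfsg.Agent.Lib.Words Cfsg.Agent.Lib.PermGroup

/-- The intersection of `x` with the preimages of `m` under the words. -/
noncomputable def meet (nets : NL) (m x : ℕ) : List (List ℕ) → ℕ
  | [] => x
  | w :: ws => Nat.land (appW nets w m) (meet nets m x ws)

theorem testBit_meet {nets : NL} {N : ℕ} (hv : nets.Valid N) (m x : ℕ) (ws : List (List ℕ)) (p : ℕ) :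
    (meet nets m x ws).testBit p =
      (x.testBit p && ws.all fun w => m.testBit (wval nets.perm w p)) := by
  induction ws with
  | nil => simp [meet]
  | cons w ws ih =>
    change (appW nets w m &&& meet nets m x ws).testBit p = _
    rw [Nat.testBit_and, ih, testBit_appW hv, List.all_cons]
    cases x.testBit p <;> simp

namespace Dat
variable (d : Dat) (m0 : ℕ) (cws : List (List (List ℕ)))

/-- The light checks. -/
noncomputable def lightB' : Bool :=
  decide (d.N ≤ 2 ^ d.K ∧ d.nS ≤ d.N ∧ d.nS ≤ 2 ^ d.KS ∧ d.KS ≤ d.K ∧ 2 * NL.len d.nets ≤ d.nl) &&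
  decide (d.nS < d.N ∧ 1 < d.n ∧ d.s0 < d.nS ∧ d.T ≤ (d.N - d.nS) * (d.chK.map Lev.n).prod ∧
    d.T ≤ (d.chH.map Lev.n).prod ∧ d.rows.length = d.n ∧ d.N - d.nS ≤ getD 0 (getD [] d.cs 0) 1) &&
  (defsOK d.n0 d.defs && decide (NL.len d.nets ≤ d.n0 + d.defs.length)) &&
  d.rows.all (fun r => r.length == d.n) && d.B.all (fun b => decide (b < d.nS)) &&
  (getD [] d.XW 0 == [] && getD 0 d.live 0 == 0) &&
  (d.u.all (fun l => decide (l < 2 * d.n0)) && d.v.all (fun l => decide (l < 2 * d.n0)) &&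
    d.R.contains (d.u ++ (2 * d.n0 :: (d.v ++ [2 * d.n0])))) &&
  pairB d.n0 d.defs d.R d.k0 d.nK && tmB d.n0 d.u d.v (d.R.map (posW d.n0 d.u d.v)) d.TM d.tc &&
  idB d.nS d.wb d.mask d.idT &&
  allR (fun c => Nat.beq (d.tk.get c) (d.tH.get (2 * d.k0 + 4 * (c / 2) + c % 2))) 0 (2 * d.nK) &&
  allR (fun c => Nat.beq (d.tk'.get c) (d.tH.get (2 * (d.k0 + 1) + 4 * (c / 2) + c % 2))) 0
    (2 * d.nK) &&
  fixB d.nets ((List.range d.nK).map fun j => [2 * (d.k0 + 2 * j)]) (pt d.nS) &&
  fixB d.nets ((List.range d.nK).map fun j => [2 * (d.k0 + 2 * j)]) m0 &&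
  d.B.all (fun b => cws.any fun ws => Nat.beq (meet d.nets m0 (ones d.N) ws) (pt b)) &&
  (zeroB d.n (fun i j => getD 0 (getD [] d.cs i) j) &&
    colsB d.n (fun i j => getD 0 (getD [] d.cs i) j) [0] d.cols &&
    sizeB d.n (fun i j => getD 0 (getD [] d.cs i) j) (getD 0 d.sz) (getD 0 d.par) &&
    blockB d.n (getD 0 d.sz) d.tot && getD 0 (getD [] d.cs 1) 0 == 1)

/-- All checks that do not mention the group. -/
structure OK' : Prop where
  hv : d.nets.Valid d.N
  light : d.lightB' m0 cws = true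
  hdefs : ∀ w ∈ defRels d.n0 d.defs, wval d.nets.perm w = 1
  tab : AllR (fun l => tabB d.nets d.N d.K d.nS d.KS d.wb d.mask d.tH l = true) 0 d.nl
  cH : chainB d.wb d.mask d.tH d.nS d.chH [] = true
  cK : chainB d.wb d.mask d.tK d.nS d.chK [] = true
  facts : AllR (fun c => ∃ e, checkF d.wb d.mask d.tH d.tK d.tK' d.B d.F d.TM d.XW c e = true) 0 d.nF
  row : AllIdx (fun i r => rowB d.N (ivl d.nS (d.N - d.nS)) r (getD [] d.cs i) 0 = true) 0 d.rows
  cov : AllIdx (fun i r => AllIdx (fun j m =>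
    Cov d.nets d.F d.nS d.nF (getD 0 d.live i) (getD 0 d.live j) m) 0 r) 0 d.rows

theorem OK'.main {d : Dat} {m0 : ℕ} {cws : List (List (List ℕ))} (h : d.OK' m0 cws) {G : Type*} [Group G] (f : ℕ → G)
    (hR : ∀ w ∈ d.R, wval f w = 1) (htop : gp f (sing (d.n0 + 1)) = ⊤)
    (hub : Nat.card (WW f d.nets d.n0) ≠ 0 ∧ Nat.card (WW f d.nets d.n0) ≤ d.T)
    (ht : Nat.card (WW f d.nets d.n0) = d.T → f d.n0 ∉ gp f (sing d.n0)) :
    (gp f (sing d.n0)).index = d.tot ∧ IsCoatom (gp f (sing d.n0)) ∧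
      Nat.card (gp f (sing d.n0)) = d.T ∧
      (∀ M : Subgroup G, M.Normal → M ≤ gp f (sing d.n0) → M = ⊥) ∧
      Function.Injective (psi f d.nets d.n0) ∧ Function.Injective (pi' f d.nets d.n0) := by
  have hl := h.light
  simp only [lightB', Bool.and_eq_true, decide_eq_true_eq] at hl
  obtain ⟨⟨⟨⟨⟨⟨⟨⟨⟨⟨⟨⟨⟨⟨⟨l1, l2⟩, l3⟩, l4⟩, l5⟩, l6⟩, l7⟩, l8⟩, l9⟩, l10⟩, l11⟩, l12⟩, l13⟩, l14⟩,
    l15⟩, l16⟩ := hl
  obtain ⟨m1, m2, m3, m4, m5, m6, m7⟩ := l2
  set ψ := psi f d.nets d.n0 with hψ
  set π := pi' f d.nets d.n0 with hπd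
  set Z := ZZ f d.nets d.n0 d.defs with hZ
  have hfin : Finite (WW f d.nets d.n0) := Nat.finite_of_card_ne_zero hub.1
  have hπ : ∀ i, π (Z i) = d.nets.perm i :=
    pi_ZZ f d.nets d.n0 d.defs h.hdefs (by simpa using l3)
  have hπw : ∀ w, π (wval Z w) = wval d.nets.perm w := fun w => map_wval' hπ w
  have gH : Good π d.nS d.wb d.mask d.tH Z :=
    good_of_tabB h.hv hπ l1 l10 fun l hl => h.tab l (Nat.zero_le _) hl
  have gK : Good π d.nS d.wb d.mask d.tK (kfun Z d.k0 d.nK) := good_kfun gH l10 l11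
  have gK' : Good π d.nS d.wb d.mask d.tK' (kfun Z (d.k0 + 1) d.nK) := good_kfun gH l10 l12
  have hword : ∀ x, ∃ w, π x = π (wval Z w) := fun x => by
    have : π x ∈ gp d.nets.perm (sing d.n0) := pi_range f d.nets d.n0 ▸ ⟨x, rfl⟩
    generalize π x = g at this
    induction this using Subgroup.closure_induction with
    | mem g hg => obtain ⟨w, -, rfl⟩ := hg; exact ⟨w, (hπw w).symm⟩
    | one => exact ⟨[], by simp⟩
    | mul a b _ _ ha hb =>
      obtain ⟨u, rfl⟩ := ha
      obtain ⟨v, rfl⟩ := hb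
      exact ⟨u ++ v, by rw [wval_append, map_mul]⟩
    | inv a _ ha => obtain ⟨u, rfl⟩ := ha; exact ⟨invW u, by rw [wval_invW, map_inv]⟩
  have hltS : ∀ x, ∀ p < d.nS, π x p < d.nS := fun x p hp => by
    obtain ⟨w, e⟩ := hword x
    rw [e]; exact gH.lt' w hp
  have hD : ∀ x, d.nS ≤ π x d.nS ∧ π x d.nS < d.N := fun x => by
    refine ⟨Nat.le_of_not_lt fun hh => ?_, ?_⟩
    · have := hltS x⁻¹ _ hh
      simp at this
    · obtain ⟨w, e⟩ := hword x
      rw [e, hπw]; exact wval_lt h.hv w m1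
  have hfr : Finite π.range := Finite.of_surjective _ π.rangeRestrict_surjective
  have hch := chainB_sound gH (A := π.range) (fun w => ⟨_, rfl⟩) d.chH [] h.cH
  rw [fixer_nil, List.append_nil] at hch
  have hcr : Nat.card π.range ≤ Nat.card (WW f d.nets d.n0) :=
    Nat.card_le_card_of_surjective _ π.rangeRestrict_surjective
  have hf1 := one_le_card_fixer (A := π.range) (d.chH.map Lev.b).reverse
  have hT : Nat.card (WW f d.nets d.n0) = d.T ∧ Nat.card π.range = d.T ∧
      Nat.card (fixer π.range (d.chH.map Lev.b).reverse) ≤ 1 := by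
    have a1 := Nat.mul_le_mul m5 hf1
    have a2 := Nat.mul_le_mul_right (Nat.card (fixer π.range (d.chH.map Lev.b).reverse)) m5
    refine ⟨by omega, by omega, Nat.le_of_mul_le_mul_left (c := d.T) ?_ (by omega)⟩
    omega
  have hπi : Function.Injective π := by
    have := ((Nat.bijective_iff_surjective_and_card π.rangeRestrict).2
      ⟨π.rangeRestrict_surjective, by omega⟩).1
    exact fun a b e => this (Subtype.ext e)
  have faith : ∀ x, (∀ b ∈ d.B, π x b = b) → x = 1 := fun x hx => by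
    have := finite_fixer (A := π.range) (d.chH.map Lev.b).reverse
    have hs := Finite.card_le_one_iff_subsingleton.1 hT.2.2
    have := hs.elim ⟨π x, ⟨x, rfl⟩, fun b hb => hx b (List.mem_reverse.1 hb)⟩ 1
    exact hπi (by rw [map_one]; exact congrArg Subtype.val this)
  have hpair := pair_of_pairB f d.nets d.n0 d.defs hR l3.1 l8
  have C : Ctx ψ π Z (kfun Z d.k0 d.nK) (kfun Z (d.k0 + 1) d.nK) (f d.n0) d.nS d.wb d.mask d.tH
      d.tK d.tK' d.B := ⟨gH, gK, gK', hltS, by simpa using l5, faith, hpair⟩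
  have hrev : (f d.n0)⁻¹ = wval f d.u * f d.n0 * wval f d.v := by
    have := hR _ (List.contains_iff_mem.1 l7.2)
    rw [wval_append, wval_cons, wval_append, wval_single, lval, if_pos (by omega),
      show 2 * d.n0 / 2 = d.n0 by omega, ← mul_assoc, ← mul_assoc] at this
    exact (eq_inv_of_mul_eq_one_left this).symm
  have hTM := tmOK_of_tmB f d.nets d.n0 d.defs hrev hR d.TM d.tc l9
  have hq : ∀ x, ψ x • ((1 : G) : G ⧸ ψ.range) = ((1 : G) : G ⧸ ψ.range) :=
    fun x => smul_one_eq.2 ⟨x, rfl⟩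
  have hX : getD [] d.XW 0 = [] := by simpa using l6.1
  set q := node ψ Z (f d.n0) d.XW ((1 : G) : G ⧸ ψ.range) with hqd
  have hV : ∀ c < d.nF, V ψ Z (f d.n0) q (d.F.get c) := fun c => by
    induction c using Nat.strong_induction_on with | _ c ih => ?_
    intro hc
    obtain ⟨e, he⟩ := h.facts c (Nat.zero_le _) hc
    exact C.checkF_sound hq hX hTM (fun x hx => ih x hx (hx.trans hc)) e he
  have hlen : ∀ i < d.n, (getD [] d.rows i).length = d.n := fun i hi => by
    have := AllIdx.get (P := fun _ r => r.length = d.n) [] (l := d.rows) (j0 := 0) (by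
      generalize d.rows = l at l4
      generalize 0 = j
      induction l generalizing j with
      | nil => trivial
      | cons a l ih =>
        rw [List.all_cons, Bool.and_eq_true] at l4
        exact ⟨by simpa using l4.1, ih l4.2 _⟩) (j := i) (by omega)
    exact this
  have hrow := fun i (hi : i < d.n) => rowB_sound _ _ _
    (by simpa using h.row.get [] (j := i) (by omega) :
      rowB d.N (ivl d.nS (d.N - d.nS)) (getD [] d.rows i) (getD [] d.cs i) 0 = true)
  set D : ℕ → ℕ → Finset ℕ := fun i j =>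
    (Finset.range d.N).filter fun p => (getD 0 (getD [] d.rows i) j).testBit p = true with hDd
  have hc : ∀ i < d.n, ∀ j < d.n, (D i j).card = getD 0 (getD [] d.cs i) j :=
    fun i hi j hj => ((hrow i hi).2 j (by rw [hlen i hi]; exact hj)).1
  have hedge : ∀ i < d.n, ∀ j < d.n, ∀ p ∈ D i j, ∃ a b, π a d.nS = p ∧
      (ψ a * f d.n0 * ψ b) • q (getD 0 d.live j) = q (getD 0 d.live i) := by
    intro i hi j hj p hp
    have := (h.cov.get [] (j := i) (by omega)).get 0 (j := j) (by rw [hlen i hi]; exact hj)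
    rw [zero_add, zero_add] at this
    refine this (fun p => ∃ a b, π a d.nS = p ∧
      (ψ a * f d.n0 * ψ b) • q (getD 0 d.live j) = q (getD 0 d.live i)) (fun c hc e1 e2 e3 => ?_)
      (fun c hc e1 e2 e3 p hp => ?_) p (Finset.mem_filter.1 hp).2
    · exact ⟨_, _, by rw [hπw], e2 ▸ e3 ▸ (hV c hc).1 e1⟩
    · obtain ⟨a, b, e4, e5⟩ := hp
      have e6 := (hV c hc).2 e1
      rw [e2, e3] at e6
      refine ⟨(wval Z (d.F.get c).a)⁻¹ * a, b, ?_, ?_⟩
      · rw [map_mul, Equiv.Perm.mul_apply, e4, map_inv, hπw]; simp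
      · rw [map_mul, mul_assoc, mul_assoc, mul_smul, ← mul_assoc, e5, map_inv, inv_smul_eq_iff, e6]
  have hstab : ∀ x, π x d.nS = d.nS → x ∈ gp (kfun Z d.k0 d.nK) (sing d.nK) := by
    classical
    have := Fintype.ofFinite (WW f d.nets d.n0)
    let St : Subgroup (WW f d.nets d.n0) := (fixer ⊤ [d.nS]).comap π
    have hSt : ∀ x, x ∈ St ↔ π x d.nS = d.nS := fun x => by simp [St, fixer]
    have hle : gp (kfun Z d.k0 d.nK) (sing d.nK) ≤ St := gp_le.2 fun w hw => by
      obtain ⟨j, hj, rfl⟩ := List.mem_map.1 hw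
      have := fix_of_fixB h.hv l13 _ (List.mem_map.2 ⟨j, hj, rfl⟩) d.nS
      rw [hSt, wval_single, kfun, if_pos (List.mem_range.1 hj), hπ]
      simpa [testBit_pt, wval_single] using this
    have a1 := card_pre (fun a => π a d.nS)
      (fun a b c e => by simp only [map_mul, Equiv.Perm.mul_apply, e]) (D 0 1) (fun x hx => by
        obtain ⟨a, -, e, -⟩ := hedge 0 (by omega) 1 m2 x hx
        exact ⟨a, e⟩)
    have a2 : (Finset.univ.filter fun a => π a d.nS = π 1 d.nS).card = Nat.card St := by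
      rw [Nat.card_eq_fintype_card, Fintype.card_subtype]
      congr 1
      ext x; simp [hSt]
    have a3 := Finset.card_le_univ (Finset.univ.filter fun a => π a d.nS ∈ D 0 1)
    rw [a1, a2, hc 0 (by omega) 1 m2, ← Nat.card_eq_fintype_card, hT.1] at a3
    have hfk : Finite ((gp (kfun Z d.k0 d.nK) (sing d.nK)).map π) :=
      Finite.of_surjective _ (π.subgroupMap_surjective _)
    have a4 := chainB_sound gK (A := (gp (kfun Z d.k0 d.nK) (sing d.nK)).map π)
      (fun w => ⟨_, wval_mem fun l _ => by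
        by_cases hl : l / 2 < d.nK
        · exact mem_sing _ hl
        · rw [kfun, if_neg hl]; exact one_mem _, rfl⟩) d.chK [] h.cK
    rw [fixer_nil] at a4
    have a5 := (Nat.mul_le_mul_left _ (one_le_card_fixer _)).trans a4
    have a6 : Nat.card ((gp (kfun Z d.k0 d.nK) (sing d.nK)).map π) ≤
        Nat.card (gp (kfun Z d.k0 d.nK) (sing d.nK)) := Nat.card_le_card_of_surjective _
      (π.subgroupMap_surjective (gp (kfun Z d.k0 d.nK) (sing d.nK)))
    have a7 : Nat.card St ≤ Nat.card (gp (kfun Z d.k0 d.nK) (sing d.nK)) := by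
      refine Nat.le_of_mul_le_mul_left (c := d.N - d.nS) ?_ (by omega)
      exact ((Nat.mul_le_mul_right _ m7).trans (a3.trans m4)).trans
        (Nat.mul_le_mul_left _ (((mul_one _).ge.trans a5).trans a6))
    intro x hx
    rw [Subgroup.eq_of_le_of_card_ge hle a7, hSt]; exact hx
  have S : Sys ψ π (f d.n0) d.nS d.n (fun i => q (getD 0 d.live i)) D := by
    refine ⟨fun x hx => ?_, ?_, m2, ?_, ⟨wval Z d.u, wval Z d.v, ?_⟩, hedge, fun i hi a => ?_,
      fun i hi j hj k hk e => ?_⟩
    · have := hstab x hx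
      clear hx
      induction this using Subgroup.closure_induction with
      | mem g hg => obtain ⟨w, -, rfl⟩ := hg; exact ⟨_, C.pairW w⟩
      | one => exact ⟨1, by simp⟩
      | mul a b _ _ ha hb =>
        obtain ⟨u, hu⟩ := ha
        obtain ⟨v, hv⟩ := hb
        exact ⟨u * v, by rw [map_mul, map_mul, mul_assoc, hv, ← mul_assoc, hu, mul_assoc]⟩
      | inv a _ ha =>
        obtain ⟨u, hu⟩ := ha
        exact ⟨u⁻¹, by rw [map_inv, map_inv, inv_mul_eq_iff_eq_mul, ← mul_assoc, hu]; simp⟩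
    · have : getD 0 d.live 0 = 0 := by simpa using l6.2
      simp only [this]
      exact node_zero hX
    · rw [eq_top_iff, ← htop]
      refine gp_le.2 fun w hw => Subgroup.subset_closure ?_
      obtain ⟨i, hi, rfl⟩ := List.mem_map.1 hw
      rw [wval_single]
      rcases Nat.lt_succ_iff_lt_or_eq.1 (List.mem_range.1 hi) with hi | rfl
      · right
        have : f i ∈ ψ.range := psi_range f d.nets d.n0 ▸ mem_sing f hi
        exact this
      · exact Or.inl rfl
    · rw [psi_wval _ _ _ _ l7.1.1, psi_wval _ _ _ _ l7.1.2]; exact hrev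
    · have := (hrow i hi).1 (π a d.nS) (by
        rw [testBit_ivl]; have := hD a; simp only [decide_eq_true_eq]; omega)
      rcases this with h' | ⟨j, hj, h'⟩
      · simp at h'
      · exact ⟨j, by rwa [hlen i hi] at hj,
          Finset.mem_filter.2 ⟨Finset.mem_range.2 (hD a).2, h'⟩⟩
    · refine Finset.disjoint_left.2 fun p h1 h2 => ?_
      have h1 := (Finset.mem_filter.1 h1).2
      have h2 := (Finset.mem_filter.1 h2).2
      rcases Nat.lt_or_gt_of_ne e with e | e
      · rw [(((hrow i hi).2 k (by rw [hlen i hi]; exact hk)).2 p h2).2 j e] at h1; cases h1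
      · rw [(((hrow i hi).2 j (by rw [hlen i hi]; exact hj)).2 p h1).2 k e] at h2; cases h2
  have hfs : ∀ x, π x d.nS = d.nS → ∀ p, m0.testBit (π x p) = m0.testBit p := fun x hx => by
    have := hstab x hx
    clear hx
    induction this using Subgroup.closure_induction with
    | mem g hg =>
      obtain ⟨w, hw, rfl⟩ := hg
      obtain ⟨j, hj, rfl⟩ := List.mem_map.1 hw
      have := fix_of_fixB h.hv l14 _ (List.mem_map.2 ⟨j, hj, rfl⟩)
      rw [wval_single, kfun, if_pos (List.mem_range.1 hj), hπ]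
      rwa [wval_single] at this
    | one => simp
    | mul a b _ _ ha hb => intro p; rw [map_mul, Equiv.Perm.mul_apply, ha, hb]
    | inv a _ ha => intro p; rw [← ha, map_inv]; simp
  obtain ⟨r1, r2, r3, r4⟩ := S.main hc (psi_range f d.nets d.n0 ▸ ht hT.1) d.cols
    (by simpa only [Bool.and_eq_true] using l16) (fun x hx => faith x fun b hb => by
      obtain ⟨ws, -, hw⟩ := List.any_eq_true.1 (List.all_eq_true.1 l15 b hb)
      have e := fun p => congrArg (fun z => Nat.testBit z p) (beq_eq hw)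
      simp only [testBit_meet h.hv, testBit_pt, testBit_ones] at e
      have e1 := e b
      have e2 := e (π x b)
      simp only [decide_true, Bool.and_eq_true, List.all_eq_true, decide_eq_true_eq] at e1
      have : decide (π x b < d.N) = true ∧
          ws.all (fun w => m0.testBit (wval d.nets.perm w (π x b))) = true := by
        refine ⟨decide_eq_true ((hltS x b (C.hB b hb)).trans m1), List.all_eq_true.2 fun w hw => ?_⟩
        have := hfs _ (hx (wval Z w)⁻¹) (π (wval Z w) b)
        rw [inv_inv, map_mul, map_mul, map_inv, Equiv.Perm.mul_apply, Equiv.Perm.mul_apply,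
          Equiv.Perm.inv_def, Equiv.symm_apply_apply, hπw] at this
        rw [this]; exact e1.2 w hw
      rw [this.1, this.2] at e2
      simpa [eq_comm] using e2.symm)
  rw [← psi_range f d.nets d.n0]
  refine ⟨r1, r2, ?_, r4, r3, hπi⟩
  rw [← hT.1]
  exact (Nat.card_congr (MonoidHom.ofInjective r3).toEquiv).symm

theorem OK'.final {d : Dat} {m0 : ℕ} {cws : List (List (List ℕ))} (h : d.OK' m0 cws) {G X : Type*} [Group G] [Group X] (f : ℕ → G)
    (hR : ∀ w ∈ d.R, wval f w = 1) (htop : gp f (sing (d.n0 + 1)) = ⊤)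
    (hub : Nat.card (WW f d.nets d.n0) ≠ 0 ∧ Nat.card (WW f d.nets d.n0) ≤ d.T)
    (φ : G →* X) (g : G) {q : ℕ} (hq : q.Prime) (hqT : ¬ q ∣ d.T) (htot : d.tot ≠ 0)
    (h1 : φ g ^ q = 1) (h2 : φ g ≠ 1) :
    (gp f (sing d.n0)).index = d.tot ∧ Nat.card (gp f (sing d.n0)) = d.T ∧
      Nat.card G = d.tot * d.T ∧ Function.Injective φ ∧
      (∀ w : List ℕ, w.all (fun l => decide (l < 2 * d.n0)) = true → wval d.nets.perm w = 1 →
        wval f w = 1) ∧
      ((∀ M : Subgroup G, M.Normal → g ∈ M → gp f (sing d.n0) ≤ M) → IsSimpleGroup G) := by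
  have key : ∀ x : G, x ^ d.T = 1 → φ x ≠ φ g := fun x hx e => h2 (by
    have := pow_gcd_eq_one.2 ⟨h1, (by rw [← e, ← map_pow, hx, map_one] : φ g ^ d.T = 1)⟩
    rwa [(hq.coprime_iff_not_dvd.2 hqT).gcd_eq_one, pow_one] at this)
  obtain ⟨r1, r2, r3, r4, r5, r6⟩ := h.main f hR htop hub fun hT ht => by
    have : g ∈ gp f (sing d.n0) := by
      refine (gp_le.2 fun w hw => ?_ : gp f (sing (d.n0 + 1)) ≤ _) (htop ▸ Subgroup.mem_top g)
      obtain ⟨i, hi, rfl⟩ := List.mem_map.1 hw
      rw [wval_single]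
      rcases Nat.lt_succ_iff_lt_or_eq.1 (List.mem_range.1 hi) with hi | rfl
      exacts [mem_sing f hi, ht]
    rw [← psi_range f d.nets] at this
    obtain ⟨x, hx⟩ := this
    exact key g (by rw [← hx, ← map_pow, ← hT, pow_card_eq_one', map_one]) rfl
  have hH : ∀ x ∈ gp f (sing d.n0), x ^ d.T = 1 := fun x hx => by
    have := pow_card_eq_one' (x := (⟨x, hx⟩ : gp f (sing d.n0)))
    rw [r3] at this
    exact congrArg Subtype.val this
  have hc : Nat.card G = d.tot * d.T := by rw [← r1, ← r3, Subgroup.index_mul_card]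
  have hi : Function.Injective φ := by
    rw [← MonoidHom.ker_eq_bot_iff]
    refine r4 _ inferInstance (by_contra fun hn => ?_)
    have e := r2.2 _ (left_lt_sup.2 hn)
    obtain ⟨x, hx, y, hy, e⟩ := Subgroup.mem_sup_of_normal_right.1 (e ▸ Subgroup.mem_top g)
    exact key x (hH x hx) (by rw [← e, map_mul, MonoidHom.mem_ker.1 hy, mul_one])
  refine ⟨r1, r3, hc, hi, fun w hw e => ?_, fun hg => ?_⟩
  · have hl := h.light
    simp only [lightB', Bool.and_eq_true] at hl
    rw [← psi_wval f d.nets d.n0 d.defs hw, r6 (a₁ := wval (ZZ f d.nets d.n0 d.defs) w) (a₂ := 1)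
      (by rw [map_wval' (pi_ZZ f d.nets d.n0 d.defs h.hdefs
        (by rw [Bool.and_eq_true]; exact hl.1.1.1.1.1.1.1.1.1.1.1.1.1.2)), e, map_one]), map_one]
  · have : Finite G := Nat.finite_of_card_ne_zero (by
      rw [hc]; exact mul_ne_zero htot fun e => hqT (e ▸ dvd_zero q))
    refine isSimpleGroup_of r2 r4 hq (r3 ▸ hqT) fun M hM hp => ?_
    have hgM := hp g (hi (by rw [map_pow, h1, map_one]))
    exact r2.2 M (lt_of_le_of_ne (hg M hM hgM) fun e => key g (hH g (e ▸ hgM)) rfl)

theorem OK'.le_card {d : Dat} {m0 : ℕ} {cws : List (List (List ℕ))} (h : d.OK' m0 cws)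
    (hf : Finite (gp d.nets.perm (sing d.n0))) : d.T ≤ Nat.card (gp d.nets.perm (sing d.n0)) := by
  have hl := h.light
  simp only [Dat.lightB', Bool.and_eq_true, decide_eq_true_eq] at hl
  obtain ⟨⟨⟨⟨⟨⟨⟨⟨⟨⟨⟨⟨⟨⟨⟨l1, l2⟩, l3⟩, -⟩, -⟩, -⟩, -⟩, -⟩, -⟩, l10⟩, -⟩, -⟩, -⟩, -⟩, -⟩, -⟩ := hl
  have hπ := pi_ZZ d.nets.perm d.nets d.n0 d.defs h.hdefs (by simpa using l3)
  have := chainB_sound (good_of_tabB h.hv hπ l1 l10 fun l hl => h.tab l (Nat.zero_le _) hl)
    (A := gp d.nets.perm (sing d.n0)) (fun w => pi_range d.nets.perm d.nets d.n0 ▸ ⟨_, rfl⟩)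
    d.chH [] h.cH
  rw [fixer_nil] at this
  exact ((mul_one _).ge.trans (Nat.mul_le_mul l2.2.2.2.2.1 (one_le_card_fixer _))).trans this

end Dat

/-- A letter that commutes with some letters commutes with the words in them. -/
theorem comm_words {G : Type*} [Group G] {f : ℕ → G} {K : List (List ℕ)}
    (hK : ∀ w ∈ K, wval f w = 1) (s : ℕ) (C : List ℕ) (us : List (List ℕ))
    (h : (C.all (fun c => K.contains [2 * c, 2 * s, 2 * c + 1, 2 * s + 1]) &&
      us.all fun u => u.all fun l => C.contains (l / 2)) = true) :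
    ∀ w ∈ us.map (fun u => u ++ 2 * s :: (invW u ++ [2 * s + 1])), wval f w = 1 := by
  simp only [Bool.and_eq_true, List.all_eq_true, List.contains_iff_mem] at h
  intro w hw
  obtain ⟨u, hu, rfl⟩ := List.mem_map.1 hw
  have : wval f u ∈ Subgroup.centralizer {f s} := wval_mem fun l hl => by
    have := hK _ (h.1 _ (h.2 u hu l hl))
    simp only [wval, lval, List.map_cons, List.map_nil, List.prod_cons, List.prod_nil] at this
    rw [if_pos (by omega), if_pos (by omega), if_neg (by omega), if_neg (by omega),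
      show 2 * (l / 2) / 2 = l / 2 by omega, show (2 * (l / 2) + 1) / 2 = l / 2 by omega,
      show 2 * s / 2 = s by omega, show (2 * s + 1) / 2 = s by omega] at this
    rw [Subgroup.mem_centralizer_singleton_iff]
    calc f (l / 2) * f s = f (l / 2) * (f s * ((f (l / 2))⁻¹ * ((f s)⁻¹ * 1))) * (f s * f (l / 2)) := by
          group
      _ = _ := by rw [this, one_mul]
  rw [Subgroup.mem_centralizer_singleton_iff] at this
  rw [wval_append, wval_cons, wval_append, wval_invW, wval_odd, wval_nil, lval, if_pos (by omega),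
    show 2 * s / 2 = s by omega, ← mul_assoc, this]
  group

/-- Relations among auxiliary letters, read off from a faithful model. -/
theorem rels_of_model_aux {G X : Type*} [Group G] [Group X] {y : ℕ → G} {f : ℕ → X}
    {K : List (List ℕ)} (hy : ∀ w ∈ K, wval y w = 1) (hf : ∀ w ∈ K, wval f w = 1)
    {ls : List (List ℕ)} {T : ℕ}
    (hub : ∀ z : ℕ → G × X, (∀ w ∈ K, wval z w = 1) →
      Nat.card (gp z ls) ≠ 0 ∧ Nat.card (gp z ls) ≤ T)
    (hlb : Finite (gp f ls) → T ≤ Nat.card (gp f ls)) (FW : List (List ℕ)) (ML : List ℕ)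
    {R : List (List ℕ)} (hRf : ∀ w ∈ R, wval f w = 1)
    (h : (ML.all (fun i => lettersIn ls [FW.getD i []] && R.contains ((2 * i + 1) :: FW.getD i [])) &&
      R.all fun w => w.all fun l => ML.contains (l / 2)) = true) :
    ∀ w ∈ R, wval (fun i => wval y (FW.getD i [])) w = 1 := by
  simp only [Bool.and_eq_true, List.all_eq_true, List.contains_iff_mem] at h
  let z : ℕ → G × X := fun i => (y i, f i)
  have hb := hub z (rels_pair hy hf)
  have e : (gp z ls).map (MonoidHom.snd G X) = gp f ls := map_gp _ _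
  have hfin := finite_map (MonoidHom.snd G X) hb.1
  rw [e] at hfin
  have key := (faithful_of_card (MonoidHom.snd G X) hb (by rw [e]; exact hlb hfin)).2
  intro w hw
  let z' : ℕ → G × X := fun i => (wval y (FW.getD i []), f i)
  have := key (wval z' w) (wval_mem fun l hl => by
    obtain ⟨h1, h2⟩ := h.1 _ (h.2 w hw l hl)
    have h3 := hRf _ h2
    rw [wval_odd, inv_mul_eq_one] at h3
    have : z' (l / 2) = wval z (FW.getD (l / 2) []) :=
      Prod.ext (map_wval (MonoidHom.fst G X) z _).symm (h3.trans (map_wval (MonoidHom.snd G X) z _).symm)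
    rw [this]
    exact mem_gp_of_lettersIn h1 _ List.mem_cons_self)
    ((map_wval (MonoidHom.snd G X) z' w).trans (hRf w hw))
  exact (map_wval (MonoidHom.fst G X) z' w).symm.trans (congrArg Prod.fst this)

end Cfsg.Agent.Lib.DCE
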