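/-
Failure of factorization for solvable groups at the prime `2` (faithful, ambient form):
transvections and offenders.
-/
import Cfsg.Agent.Lib.LocFour
import Cfsg.Agent.Lib.CoprimeInvert

set_option autoImplicit false

namespace Cfsg.Agent.Lib.FFSolv

open Subgroup Cfsg.Agent.Lib.PCoreConj Cfsg.Agent.Lib.PCore Cfsg.Agent.Lib.PCoreResidual
  Cfsg.Agent.Lib.PReduced Cfsg.Agent.Lib.LocIdx Cfsg.Agent.Lib.LocFour
open scoped commutatorElement

variable {G : Type*} [Group G]

/-- `t` induces a transvection on `V`. -/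
def Tv (V : Subgroup G) (t : G) : Prop :=
  t ^ 2 ∈ centralizer (V : Set G) ∧ (centralizer ({t} : Set G)).relIndex V = 2

theorem Tv.not_mem {V : Subgroup G} {t : G} (h : Tv V t) : t ∉ centralizer (V : Set G) := fun h' => by
  have := h.2
  rw [relIndex_eq_one.2 (mem_centralizer_iff_le.1 h')] at this
  omega

theorem Tv.conj {V : Subgroup G} {t g : G} (h : Tv V t) (hg : g ∈ normalizer (V : Set G)) :
    Tv V (g * t * g⁻¹) := by
  refine ⟨?_, ?_⟩
  · rw [conj_pow]
    exact (mem_normalizer_iff.1 (normalizer_le_normalizer_centralizer V hg) _).1 h.1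
  · rw [← conj_centralizer_singleton, ← conj_eq_of_mem_normalizer hg, relIndex_conj, h.2]

/-- A `2`-subgroup of a solvable group with `O₂ = 1` acts on some `O_q`. -/
theorem eq_bot_of_forall_le_centralizer {H A : Subgroup G} [Finite H] [Group.IsSolvable H] {p : ℕ}
    (hc : pCoreOf p H = ⊥) (hA : A ≤ H) (hp : IsPGroup p A)
    (h : ∀ q : ℕ, q.Prime → A ≤ centralizer (pCoreOf q H : Set G)) : A = ⊥ := by
  have h1 : A.subgroupOf H ≤ fittingSubgroup H := by
    refine le_trans (le_centralizer_iff.1 (FStar.fitting_le_of_forall_pCore_le fun q hq => ?_))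
      FStar.centralizer_fitting_le_of_isSolvable
    rw [le_centralizer_iff, ← pCoreOf_subgroupOf, centralizer_subgroupOf (pCoreOf_le q H)]
    exact subgroupOf_mono H (h q hq.out)
  have h2 := le_pCore_of_isSubnormal (CoprimeInvert.isSubnormal_of_le_fitting h1)
    (isPGroup_subgroupOf hp H)
  rw [pCoreOf_eq_bot_iff.1 hc, le_bot_iff, subgroupOf_eq_bot] at h2
  exact h2.eq_bot_of_le hA

/-- A solvable group `H` with `O₂(H) = 1` acting faithfully on the elementary abelian
`2`-group `V`. -/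
structure Faith (V H : Subgroup G) : Prop where
  finV : Finite V
  finH : Finite H
  solv : Group.IsSolvable H
  sq : ∀ v ∈ V, v ^ 2 = 1
  norm : H ≤ normalizer (V : Set G)
  faith : H ⊓ centralizer (V : Set G) = ⊥
  core : pCoreOf 2 H = ⊥

/-- The group `[O₃(H), t]`. -/
def X (H : Subgroup G) (t : G) : Subgroup G := ⁅pCoreOf 3 H, zpowers t⁆

instance : Fact (Nat.Prime 3) := ⟨Nat.prime_three⟩

namespace Faith

variable {V H Y A B : Subgroup G} {s t : G} (h : Faith V H)
include h

theorem comm : IsMulCommutative V := (isElementaryAbelian_two_of_sq h.sq).1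

theorem isPGroup : IsPGroup 2 V := isPGroup_of_isElementaryAbelian (isElementaryAbelian_two_of_sq h.sq)

theorem eq_one {x : G} (hx : x ∈ H) (hc : x ∈ centralizer (V : Set G)) : x = 1 :=
  mem_bot.1 (h.faith ▸ mem_inf.2 ⟨hx, hc⟩)

theorem coprime (hY : Odd (Nat.card Y)) : (Nat.card Y).Coprime (Nat.card V) :=
  haveI := h.finV
  (coprime_card_of_isPGroup h.isPGroup (Nat.coprime_two_right.2 hY)).symm

theorem sup_eq (hYH : Y ≤ H) (hY : Odd (Nat.card Y)) :
    ⁅V, Y⁆ ⊔ (V ⊓ centralizer (Y : Set G)) = V :=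
  haveI := h.finV
  haveI := h.finH
  haveI : Finite Y := finite_of_le hYH
  CoprimeBasic.commutator_sup_centralizer (hYH.trans h.norm) (h.coprime hY)
    (Or.inr (CoprimeSylow.solvable_of_isMulCommutative h.comm))

theorem inf_eq (hYH : Y ≤ H) (hY : Odd (Nat.card Y)) : ⁅V, Y⁆ ⊓ centralizer (Y : Set G) = ⊥ := by
  haveI := h.finH
  haveI := h.comm
  haveI : Finite Y := finite_of_le hYH
  rw [inf_comm]
  exact CoprimeBasic.centralizer_inf_commutator_eq_bot (hYH.trans h.norm) (h.coprime hY)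

theorem eq_one_of (hYH : Y ≤ H) (hY : Odd (Nat.card Y)) {x : G} (hx : x ∈ H)
    (h1 : x ∈ centralizer ((⁅V, Y⁆ : Subgroup G) : Set G))
    (h2 : x ∈ centralizer ((V ⊓ centralizer (Y : Set G) : Subgroup G) : Set G)) : x = 1 := by
  refine h.eq_one hx ?_
  rw [← h.sup_eq hYH hY, centralizer_sup]
  exact mem_inf.2 ⟨h1, h2⟩

theorem card_dvd_six {D : Subgroup G} (hYH : Y ≤ H) (hY : Odd (Nat.card Y))
    (h4 : Nat.card (⁅V, Y⁆ : Subgroup G) = 4) (hD : D ≤ H)
    (h1 : D ≤ normalizer ((⁅V, Y⁆ : Subgroup G) : Set G))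
    (h2 : D ≤ centralizer ((V ⊓ centralizer (Y : Set G) : Subgroup G) : Set G)) :
    Nat.card D ∣ 6 := by
  have h3 := card_inf_mul_relIndex (centralizer ((⁅V, Y⁆ : Subgroup G) : Set G)) D
  have e : centralizer ((⁅V, Y⁆ : Subgroup G) : Set G) ⊓ D = ⊥ :=
    eq_bot_iff.2 fun x hx => mem_bot.2 (h.eq_one_of hYH hY (hD hx.2) hx.1 (h2 hx.2))
  rw [e, card_bot, one_mul] at h3
  exact h3 ▸ relIndex_centralizer_dvd_six h1 h4

theorem small {q : ℕ} [hq : Fact q.Prime] (hq2 : q ≠ 2) (hYH : Y ≤ H) (hY : IsPGroup q Y)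
    (hne : Y ≠ ⊥) (h8 : (centralizer (Y : Set G)).relIndex V ≤ 8)
    (h4 : q = 3 ∨ (centralizer (Y : Set G)).relIndex V ≤ 4) :
    Nat.card Y = 3 ∧ Nat.card (⁅V, Y⁆ : Subgroup G) = 4 := by
  haveI := h.finV
  haveI := h.finH
  haveI : Finite Y := finite_of_le hYH
  have ho : Odd (Nat.card Y) := Nat.coprime_two_right.1 (coprime_card_of_isPGroup hY
    ((Nat.coprime_primes Nat.prime_two hq.out).2 hq2.symm))
  have hle : ⁅V, Y⁆ ≤ V := commutator_le_left_of_le_normalizer (hYH.trans h.norm)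
  haveI : Finite (⁅V, Y⁆ : Subgroup G) := finite_of_le hle
  have hn : Y ≤ normalizer ((⁅V, Y⁆ : Subgroup G) : Set G) := normalizer_commutator_ge_right _ _
  rw [← card_commutator_eq h.comm (hYH.trans h.norm) (h.coprime ho)] at h8 h4
  have h1 := card_modEq_inf_centralizer hY hn
  rw [h.inf_eq hYH ho, card_bot] at h1
  obtain ⟨k, hk⟩ := IsPGroup.iff_card.1 (h.isPGroup.to_le hle)
  have h0 : k ≠ 0 := by
    rintro rfl
    exact hne (le_bot_iff.1 (h.faith ▸ le_inf hYH
      (commutator_eq_bot_iff_le_centralizer'.1 (card_eq_one.1 hk))))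
  have hk3 : k ≤ 3 := by
    rw [hk] at h8
    exact (Nat.pow_le_pow_iff_right (by norm_num)).1 (show 2 ^ k ≤ 2 ^ 3 from h8)
  have h5 : Nat.card (⁅V, Y⁆ : Subgroup G) = 4 := by
    rw [hk] at h1 h4 ⊢
    have h6 := (Nat.modEq_iff_dvd' (Nat.one_le_two_pow)).1 h1.symm
    interval_cases k
    · exact absurd rfl h0
    · exact absurd (Nat.dvd_one.1 h6) hq.out.one_lt.ne'
    · rfl
    · rcases h4 with rfl | h4 <;> omega
  refine ⟨?_, h5⟩
  have h6 := h.card_dvd_six hYH ho h5 hYH hn (le_centralizer_iff.1 inf_le_right)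
  rcases (Nat.dvd_prime Nat.prime_three).1
    ((Nat.coprime_two_right.2 ho).dvd_of_dvd_mul_left h6) with h7 | h7
  · exact absurd (card_eq_one.1 h7) hne
  · exact h7

theorem sq_eq (ht : t ∈ H) (htv : Tv V t) : t ^ 2 = 1 := h.eq_one (pow_mem ht 2) htv.1

omit h in
theorem inf_le_centralizer (x t : G) : centralizer ({t} : Set G) ⊓ centralizer ({x * t * x⁻¹} : Set G) ≤
    centralizer (zpowers ⁅x, t⁆ : Set G) := by
  rw [le_centralizer_iff, zpowers_le, commutatorElement_def]
  exact mul_mem (mem_centralizer_iff_le.2 inf_le_right) (inv_mem (mem_centralizer_iff_le.2 inf_le_left))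

omit h in
theorem X_le (ht : t ∈ H) : X H t ≤ pCoreOf 3 H :=
  commutator_le_left_of_le_normalizer ((zpowers_le.2 ht).trans (le_normalizer_pCoreOf 3 H))

omit h in
theorem X_le' (ht : t ∈ H) : X H t ≤ H := (X_le ht).trans (pCoreOf_le 3 H)

theorem cards (ht : t ∈ H) (htv : Tv V t) :
    Nat.card (X H t) = 3 ∧ Nat.card (⁅V, X H t⁆ : Subgroup G) = 4 := by
  haveI := h.finV
  haveI := h.finH
  haveI := h.solv
  have ht2 := h.sq_eq ht htv
  have ht1 : t ≠ 1 := fun e => htv.not_mem (e ▸ one_mem _)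
  have hidx : ∀ x ∈ H, (centralizer ({x * t * x⁻¹} : Set G)).relIndex V = 2 := fun x hx =>
    (htv.conj (h.norm hx)).2
  obtain ⟨q, hq, hq'⟩ : ∃ q : ℕ, q.Prime ∧ ¬ zpowers t ≤ centralizer (pCoreOf q H : Set G) := by
    by_contra hn
    push Not at hn
    exact ht1 (zpowers_eq_bot.1 (eq_bot_of_forall_le_centralizer h.core (zpowers_le.2 ht)
      (isPGroup_zpowers (k := 1) ht2) hn))
  haveI := Fact.mk hq
  rw [zpowers_le, mem_centralizer_iff] at hq'
  push Not at hq'
  obtain ⟨x, hx, hxt⟩ := hq'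
  have hx' : ⁅x, t⁆ ∈ pCoreOf q H := commutator_le_left_of_le_normalizer
    ((zpowers_le.2 ht).trans (le_normalizer_pCoreOf q H))
    (commutator_mem_commutator hx (mem_zpowers t))
  have hne : zpowers ⁅x, t⁆ ≠ ⊥ := fun e =>
    hxt (commutatorElement_eq_one_iff_mul_comm.1 (zpowers_eq_bot.1 e))
  have hq2 : q ≠ 2 := by
    rintro rfl
    rw [h.core, ← zpowers_le, le_bot_iff] at hx'
    exact hne hx'
  have hxH := pCoreOf_le q H hx
  have h1 : (centralizer (zpowers ⁅x, t⁆ : Set G)).relIndex V ≤ 4 := by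
    refine (relIndex_le_of_le_left (inf_le_centralizer x t)
      (relIndex_ne_zero_of_finite _ _)).trans (relIndex_inf_le.trans ?_)
    rw [htv.2, hidx x hxH]
  obtain ⟨h2, h3⟩ := h.small hq2 (zpowers_le.2 (pCoreOf_le q H hx'))
    ((pCoreOf_isPGroup q H).to_le (zpowers_le.2 hx')) hne (by omega) (Or.inr h1)
  obtain rfl : q = 3 := by
    haveI : Finite (zpowers ⁅x, t⁆) := finite_of_le (zpowers_le.2 (pCoreOf_le q H hx'))
    have h4 := dvd_card_of_isPGroup_of_ne_bot ((pCoreOf_isPGroup q H).to_le (zpowers_le.2 hx')) hne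
    rw [h2] at h4
    exact (Nat.prime_dvd_prime_iff_eq hq Nat.prime_three).1 h4
  have e : X H t = zpowers ⁅x, t⁆ := by
    refine le_antisymm (commutator_zpowers_le ht2 fun z hz => ?_)
      (zpowers_le.2 (commutator_mem_commutator hx (mem_zpowers t)))
    have hz' : ⁅z, t⁆ ∈ pCoreOf 3 H := X_le ht (commutator_mem_commutator hz (mem_zpowers t))
    have hle : zpowers ⁅x, t⁆ ⊔ zpowers ⁅z, t⁆ ≤ pCoreOf 3 H :=
      sup_le (zpowers_le.2 hx') (zpowers_le.2 hz')
    haveI : Finite (zpowers ⁅x, t⁆ ⊔ zpowers ⁅z, t⁆ : Subgroup G) :=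
      finite_of_le (hle.trans (pCoreOf_le 3 H))
    have h4 := (h.small hq2 (hle.trans (pCoreOf_le 3 H)) ((pCoreOf_isPGroup 3 H).to_le hle)
      (fun e => hne (le_bot_iff.1 (le_sup_left.trans e.le))) (by
        refine (relIndex_le_of_le_left (H := centralizer ({t} : Set G) ⊓
          centralizer ({x * t * x⁻¹} : Set G) ⊓ centralizer ({z * t * z⁻¹} : Set G)) ?_
          (relIndex_ne_zero_of_finite _ _)).trans (relIndex_inf_le.trans
            ((Nat.mul_le_mul_right _ relIndex_inf_le).trans ?_))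
        · rw [centralizer_sup]
          exact le_inf (inf_le_left.trans (inf_le_centralizer x t))
            ((inf_le_inf_right _ inf_le_left).trans (inf_le_centralizer z t))
        · rw [htv.2, hidx x hxH, hidx z (pCoreOf_le 3 H hz)]) (Or.inl rfl)).1
    rw [eq_of_le_of_card_le (le_sup_left : zpowers ⁅x, t⁆ ≤ _) (h4.trans h2.symm).le]
    exact mem_sup_right (mem_zpowers _)
  rw [e]
  exact ⟨h2, h3⟩

theorem card_X (ht : t ∈ H) (htv : Tv V t) : Nat.card (X H t) = 3 := (h.cards ht htv).1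

theorem card_W (ht : t ∈ H) (htv : Tv V t) : Nat.card (⁅V, X H t⁆ : Subgroup G) = 4 :=
  (h.cards ht htv).2

theorem odd_X (ht : t ∈ H) (htv : Tv V t) : Odd (Nat.card (X H t)) := by
  rw [h.card_X ht htv]; decide

omit h in
theorem eq_bot_or_eq_of_card (h3 : Nat.card A = 3) (hB : B ≤ A) : B = ⊥ ∨ B = A := by
  haveI : Finite A := Nat.finite_of_card_ne_zero (by omega)
  exact ((Nat.dvd_prime Nat.prime_three).1 (h3 ▸ card_dvd_of_le hB)).imp card_eq_one.1
    fun e => eq_of_le_of_card_le hB (h3.trans e.symm).le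

theorem X_ne_bot (ht : t ∈ H) (htv : Tv V t) : X H t ≠ ⊥ := fun e => by
  have := h.card_X ht htv
  rw [e, card_bot] at this
  omega

theorem le_centralizer_X (ht : t ∈ H) (htv : Tv V t) :
    pCoreOf 3 H ≤ centralizer (X H t : Set G) := by
  haveI := h.finH
  haveI : Finite (X H t) := finite_of_le (X_le' ht)
  exact le_centralizer_iff.1 (((eq_bot_or_eq_of_card (h.card_X ht htv) inf_le_left).resolve_left
    (CoprimeBasic.inf_centralizer_ne_bot ((pCoreOf_isPGroup 3 H).to_le (X_le ht))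
      (pCoreOf_isPGroup 3 H) (normalizer_commutator_ge_left _ _)
      (h.X_ne_bot ht htv))).ge.trans inf_le_right)

theorem commutator_X (ht : t ∈ H) (htv : Tv V t) : ⁅X H t, zpowers t⁆ = X H t := by
  haveI := h.finH
  haveI : Finite (pCoreOf 3 H) := finite_of_le (pCoreOf_le 3 H)
  haveI : Finite (zpowers t) := finite_of_le (zpowers_le.2 ht)
  exact CoprimeBasic.commutator_commutator_eq ((zpowers_le.2 ht).trans (le_normalizer_pCoreOf 3 H))
    (coprime_card_of_isPGroup (isPGroup_zpowers (p := 2) (k := 1) (h.sq_eq ht htv))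
      (coprime_card_of_isPGroup (pCoreOf_isPGroup 3 H) (by norm_num)))

omit h in
theorem mem_normalizer_X (t : G) : t ∈ normalizer (X H t : Set G) :=
  normalizer_commutator_ge_right _ _ (mem_zpowers t)

theorem inverts (ht : t ∈ H) (htv : Tv V t) {x : G} (hx : x ∈ X H t) : t * x * t⁻¹ = x⁻¹ := by
  haveI := h.finH
  haveI : Finite (X H t) := finite_of_le (X_le' ht)
  refine CoprimeInvert.inverts_of_inf_centralizer_eq_bot (mem_normalizer_X t) (h.sq_eq ht htv)
    ((eq_bot_or_eq_of_card (h.card_X ht htv) inf_le_left).resolve_right fun e => ?_) hx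
  refine h.X_ne_bot ht htv ?_
  rw [← h.commutator_X ht htv, commutator_eq_bot_iff_le_centralizer, centralizer_zpowers]
  exact e.ge.trans inf_le_right

theorem W_le (ht : t ∈ H) : ⁅V, X H t⁆ ≤ V :=
  commutator_le_left_of_le_normalizer ((X_le' ht).trans h.norm)

theorem normalizer_W {D : Subgroup G} (hD : D ≤ H) (h1 : D ≤ normalizer (X H t : Set G)) :
    D ≤ normalizer ((⁅V, X H t⁆ : Subgroup G) : Set G) :=
  PCoreConj.le_normalizer_commutator (hD.trans h.norm) h1

theorem normalizer_C {D : Subgroup G} (hD : D ≤ H) (h1 : D ≤ normalizer (X H t : Set G)) :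
    D ≤ normalizer ((V ⊓ centralizer (X H t : Set G) : Subgroup G) : Set G) :=
  PCoreConj.le_normalizer_inf (hD.trans h.norm) (PCoreConj.le_normalizer_centralizer h1)

theorem W_inf (ht : t ∈ H) (htv : Tv V t) : ⁅V, X H t⁆ ⊓ centralizer (X H t : Set G) = ⊥ :=
  h.inf_eq (X_le' ht) (h.odd_X ht htv)

theorem W_ne_bot (ht : t ∈ H) (htv : Tv V t) : ⁅V, X H t⁆ ≠ ⊥ := fun e => by
  have := h.card_W ht htv
  rw [e, card_bot] at this
  omega

theorem not_mem_centralizer_W (ht : t ∈ H) (htv : Tv V t) :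
    t ∉ centralizer ((⁅V, X H t⁆ : Subgroup G) : Set G) := fun h' => by
  refine h.W_ne_bot ht htv (le_bot_iff.1 (h.W_inf ht htv ▸ le_inf le_rfl (le_centralizer_iff.1 ?_)))
  exact (h.commutator_X ht htv).ge.trans ((commutator_mono le_rfl (zpowers_le.2 h')).trans
    (commutator_le_right_of_le_normalizer (PCoreConj.le_normalizer_centralizer
      (normalizer_commutator_ge_right _ _))))

theorem W_inf' (ht : t ∈ H) (htv : Tv V t) :
    ⁅V, X H t⁆ ⊓ (V ⊓ centralizer (X H t : Set G)) = ⊥ :=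
  le_bot_iff.1 (h.W_inf ht htv ▸ inf_le_inf_left _ inf_le_right)

theorem mem_centralizer_C (ht : t ∈ H) (htv : Tv V t) :
    t ∈ centralizer ((V ⊓ centralizer (X H t : Set G) : Subgroup G) : Set G) := by
  refine mem_centralizer_iff_le.2 fun c hc => ?_
  by_contra hc'
  obtain ⟨w, hw, hw'⟩ := SetLike.not_le_iff_exists.1
    (mt mem_centralizer_iff_le.2 (h.not_mem_centralizer_W ht htv))
  have h1 := zpowers_le.2 (mem_normalizer_X (H := H) t)
  exact hw' (mem_centralizer_of_mul (h.W_inf' ht htv)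
    (h.normalizer_W (zpowers_le.2 ht) h1 (mem_zpowers t))
    (h.normalizer_C (zpowers_le.2 ht) h1 (mem_zpowers t)) hw hc
    (mul_mem_of_relIndex_two htv.2 (h.W_le ht hw) hc.1 hw' hc')).1

theorem commutator_le_W (ht : t ∈ H) (htv : Tv V t) {D : Subgroup G}
    (h1 : D ≤ normalizer ((⁅V, X H t⁆ : Subgroup G) : Set G))
    (h2 : D ≤ centralizer ((V ⊓ centralizer (X H t : Set G) : Subgroup G) : Set G)) :
    ⁅V, D⁆ ≤ ⁅V, X H t⁆ := by
  rw [commutator_comm]
  refine (commutator_mono le_rfl (h.sup_eq (X_le' ht) (h.odd_X ht htv)).ge).trans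
    (commutator_sup_le le_normalizer ?_ (commutator_le_right_of_le_normalizer h1)
      ((commutator_eq_bot_iff_le_centralizer.2 h2).le.trans bot_le))
  exact le_normalizer_of_le_centralizer (inf_le_left.trans
    ((le_centralizer_iff_isMulCommutative.2 h.comm).trans (centralizer_anti (h.W_le ht))))

omit h in
theorem E_le (ht : t ∈ H) : X H t ⊔ zpowers t ≤ H := sup_le (X_le' ht) (zpowers_le.2 ht)

omit h in
theorem E_le_normalizer : X H t ⊔ zpowers t ≤ normalizer (X H t : Set G) :=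
  sup_le le_normalizer (zpowers_le.2 (mem_normalizer_X t))

theorem E_le_C (ht : t ∈ H) (htv : Tv V t) : X H t ⊔ zpowers t ≤
    centralizer ((V ⊓ centralizer (X H t : Set G) : Subgroup G) : Set G) :=
  sup_le (le_centralizer_iff.1 inf_le_right) (zpowers_le.2 (h.mem_centralizer_C ht htv))

theorem commutator_E_le (ht : t ∈ H) (htv : Tv V t) : ⁅V, X H t ⊔ zpowers t⁆ ≤ ⁅V, X H t⁆ :=
  h.commutator_le_W ht htv (h.normalizer_W (E_le ht) E_le_normalizer) (h.E_le_C ht htv)

theorem not_mem_X (ht : t ∈ H) (htv : Tv V t) (hs : s ∈ H) : t ∉ X H s := fun h' => by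
  obtain ⟨k, hk⟩ := isPGroup_iff_forall_mem.1 (pCoreOf_isPGroup 3 H) t (X_le hs h')
  refine htv.not_mem (eq_one_of_coprime_of_pow_eq_one (Nat.Coprime.coprime_dvd_left
    (orderOf_dvd_of_pow_eq_one (h.sq_eq ht htv)) (by norm_num)) hk ▸ one_mem _)

/-- Two transvections with the same four-group generate the same `S₃`. -/
theorem near (ht : t ∈ H) (htv : Tv V t) (hs : s ∈ H) (hsv : Tv V s)
    (e : ⁅V, X H t⁆ = ⁅V, X H s⁆) : X H t = X H s ∧ s * t ∈ X H t := by
  haveI := h.finV
  haveI := h.finH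
  have hle : X H t ⊔ X H s ≤ pCoreOf 3 H := sup_le (X_le ht) (X_le hs)
  have hle' := hle.trans (pCoreOf_le 3 H)
  haveI : Finite (X H t ⊔ X H s : Subgroup G) := finite_of_le hle'
  have h1 : (centralizer ((X H t ⊔ X H s : Subgroup G) : Set G)).relIndex V ≤ 4 := by
    rw [← card_commutator_eq h.comm (hle'.trans h.norm) (h.coprime (Nat.coprime_two_right.1
      (coprime_card_of_isPGroup ((pCoreOf_isPGroup 3 H).to_le hle) (by norm_num)))),
      ← h.card_W ht htv]
    haveI : Finite (⁅V, X H t⁆ : Subgroup G) := finite_of_le (h.W_le ht)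
    exact card_le_of_le (commutator_sup_le (normalizer_commutator_ge_right _ _)
      (by rw [e]; exact normalizer_commutator_ge_right _ _) le_rfl e.ge)
  have h2 := (h.small (q := 3) (by norm_num) hle' ((pCoreOf_isPGroup 3 H).to_le hle)
    (fun e' => h.X_ne_bot ht htv (le_bot_iff.1 (le_sup_left.trans e'.le))) (by omega)
    (Or.inl rfl)).1
  have e' : X H t = X H s :=
    (eq_of_le_of_card_le le_sup_left (h2.trans (h.card_X ht htv).symm).le).trans
      (eq_of_le_of_card_le le_sup_right (h2.trans (h.card_X hs hsv).symm).le).symm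
  refine ⟨e', ?_⟩
  have hn : X H s ⊔ zpowers s ≤ normalizer (X H t : Set G) := by rw [e']; exact E_le_normalizer
  have hc : X H s ⊔ zpowers s ≤
      centralizer ((V ⊓ centralizer (X H t : Set G) : Subgroup G) : Set G) := by
    rw [e']; exact h.E_le_C hs hsv
  have h3 := h.card_dvd_six (D := (X H t ⊔ zpowers t) ⊔ (X H s ⊔ zpowers s)) (X_le' ht)
    (h.odd_X ht htv) (h.card_W ht htv) (sup_le (E_le ht) (E_le hs))
    (h.normalizer_W (sup_le (E_le ht) (E_le hs)) (sup_le E_le_normalizer hn))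
    (sup_le (h.E_le_C ht htv) hc)
  rw [← card_mul_relIndex (le_sup_of_le_left le_sup_left : X H t ≤ _), h.card_X ht htv] at h3
  have htD : t ∈ (X H t ⊔ zpowers t) ⊔ (X H s ⊔ zpowers s) :=
    mem_sup_left (mem_sup_right (mem_zpowers t))
  rcases (Nat.dvd_prime Nat.prime_two).1 (Nat.dvd_of_mul_dvd_mul_left (by norm_num)
    (show 3 * _ ∣ 3 * 2 from h3)) with h4 | h4
  · exact absurd (relIndex_eq_one.1 h4 htD) (h.not_mem_X ht htv ht)
  · exact mul_mem_of_relIndex_two h4 (mem_sup_right (mem_sup_right (mem_zpowers s))) htD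
      (h.not_mem_X hs hsv ht) (h.not_mem_X ht htv ht)

theorem near' (ht : t ∈ H) (htv : Tv V t) (hs : s ∈ H) (hsv : Tv V s)
    (e : ⁅V, X H t⁆ = ⁅V, X H s⁆) : ∃ x ∈ X H t, s = x * t * x⁻¹ := by
  have h1 := (h.near ht htv hs hsv e).2
  have h2 := h.inverts ht htv h1
  have h3 : (s * t) ^ 3 = 1 := by
    have := pow_card_eq_one' (x := (⟨s * t, h1⟩ : X H t))
    rw [h.card_X ht htv] at this
    exact congrArg Subtype.val this
  refine ⟨(s * t)⁻¹, inv_mem h1, ?_⟩
  have h4 := mul_self_of_sq (h.sq_eq ht htv)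
  have h6 : (s * t)⁻¹ * (s * t)⁻¹ = s * t := by
    rw [← mul_inv_rev, inv_eq_iff_mul_eq_one, ← h3, pow_three']
  calc s = (s * t)⁻¹ * (s * t)⁻¹ * t := by rw [h6, mul_assoc, h4, mul_one]
    _ = (s * t)⁻¹ * (t * (s * t) * t⁻¹) * t := by rw [h2]
    _ = _ := by group

theorem far_inf (ht : t ∈ H) (htv : Tv V t) (hs : s ∈ H) (hsv : Tv V s)
    (e : ⁅V, X H t⁆ ≠ ⁅V, X H s⁆) : ⁅V, X H t⁆ ⊓ ⁅V, X H s⁆ = ⊥ := by
  haveI := h.finV
  refine (eq_bot_or_eq (h.card_W ht htv) (h.W_inf ht htv) inf_le_left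
    (PCoreConj.le_normalizer_inf (normalizer_commutator_ge_right _ _) (h.normalizer_W (X_le' ht)
      ((X_le ht).trans (normalizer_commutator_ge_left _ _))))).resolve_right fun e' => e ?_
  haveI : Finite (⁅V, X H s⁆ : Subgroup G) := finite_of_le (h.W_le hs)
  exact eq_of_le_of_card_le (inf_eq_left.1 e') (by rw [h.card_W ht htv, h.card_W hs hsv])

theorem far_le (ht : t ∈ H) (htv : Tv V t) (hs : s ∈ H) (hsv : Tv V s)
    (e : ⁅V, X H t⁆ ≠ ⁅V, X H s⁆) : ⁅V, X H t⁆ ≤ V ⊓ centralizer (X H s : Set G) := by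
  refine le_inf (h.W_le ht) (commutator_eq_bot_iff_le_centralizer.1 (le_bot_iff.1 ?_))
  rw [← h.far_inf ht htv hs hsv e]
  exact le_inf (commutator_le_left_of_le_normalizer (h.normalizer_W (X_le' hs)
    ((X_le hs).trans (normalizer_commutator_ge_left _ _)))) (commutator_mono (h.W_le ht) le_rfl)

theorem far_le_C (ht : t ∈ H) (htv : Tv V t) (hs : s ∈ H) (hsv : Tv V s)
    (e : ⁅V, X H t⁆ ≠ ⁅V, X H s⁆) :
    X H s ⊔ zpowers s ≤ centralizer ((⁅V, X H t⁆ : Subgroup G) : Set G) :=
  (h.E_le_C hs hsv).trans (centralizer_anti (h.far_le ht htv hs hsv e))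

/-- Two transvections with different four-groups generate commuting copies of `S₃`. -/
theorem far (ht : t ∈ H) (htv : Tv V t) (hs : s ∈ H) (hsv : Tv V s)
    (e : ⁅V, X H t⁆ ≠ ⁅V, X H s⁆) : ⁅X H t ⊔ zpowers t, X H s ⊔ zpowers s⁆ = ⊥ := by
  refine eq_bot_iff.2 fun x hx => mem_bot.2 (h.eq_one_of (X_le' ht) (h.odd_X ht htv)
    ((commutator_mono (E_le ht) (E_le hs)).trans (commutator_le_left_of_le_normalizer le_normalizer) hx) ?_ ?_)
  · exact (commutator_mono le_rfl (h.far_le_C ht htv hs hsv e)).trans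
      (commutator_le_right_of_le_normalizer (PCoreConj.le_normalizer_centralizer
        (h.normalizer_W (E_le ht) E_le_normalizer))) hx
  · refine (commutator_mono (h.E_le_C ht htv) le_rfl).trans
      (commutator_le_left_of_le_normalizer (PCoreConj.le_normalizer_centralizer ?_)) hx
    exact le_normalizer_of_commutator_le_of_le
      ((h.commutator_E_le hs hsv).trans (h.far_le hs hsv ht htv e.symm)) inf_le_left

theorem exists_hyperplane (hA : A ≤ H) (hsq : ∀ a ∈ A, a ^ 2 = 1) (hne : A ≠ ⊥) :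
    ∃ B ≤ A, B.relIndex A = 2 ∧ ¬ V ⊓ centralizer (B : Set G) ≤ centralizer (A : Set G) := by
  haveI := h.finV
  haveI := h.finH
  haveI := h.solv
  haveI : Finite A := finite_of_le hA
  have he := isElementaryAbelian_two_of_sq hsq
  have hp := isPGroup_of_isElementaryAbelian he
  by_contra hn
  push Not at hn
  refine hne (eq_bot_of_forall_le_centralizer h.core hA hp fun q hq => ?_)
  by_cases hq2 : q = 2
  · rw [hq2, h.core]; exact le_centralizer_iff.1 bot_le
  haveI := Fact.mk hq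
  haveI : Finite (pCoreOf q H) := finite_of_le (pCoreOf_le q H)
  have hq' : Nat.Coprime 2 q := (Nat.coprime_primes Nat.prime_two hq).2 (Ne.symm hq2)
  have hAK := hA.trans (le_normalizer_pCoreOf q H)
  refine le_centralizer_iff.1 (CoprimeSylow.le_of_centralizer_hyperplane_le he.1 hsq hne hAK
    (coprime_card_of_isPGroup hp (coprime_card_of_isPGroup (pCoreOf_isPGroup q H) hq'))
    fun B hB h2 => commutator_eq_bot_iff_le_centralizer.1 ?_)
  haveI : Finite B := finite_of_le hB
  have h1 : ⁅pCoreOf q H ⊓ centralizer (B : Set G), A⁆ ≤ pCoreOf q H ⊓ centralizer (B : Set G) :=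
    commutator_le_left_of_le_normalizer (PCoreConj.le_normalizer_inf hAK
      (PCoreConj.le_normalizer_centralizer (CoprimeSylow.le_normalizer_of_isMulCommutative he.1 hB)))
  have h3 := h1.trans (inf_le_left.trans (pCoreOf_le q H))
  haveI := finite_of_le h3
  refine le_bot_iff.1 (h.faith ▸ le_inf h3 (commutator_eq_bot_iff_le_centralizer'.1
    (CoprimeBasic.thompson_AxB h.isPGroup (hp.to_le hB) ?_ ((hB.trans hA).trans h.norm)
      (h3.trans h.norm) (commutator_eq_bot_iff_le_centralizer'.2 (h1.trans inf_le_right))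
      (commutator_eq_bot_iff_le_centralizer'.2 ?_))))
  · exact (Nat.Prime.coprime_iff_not_dvd Nat.prime_two).1 (coprime_card_of_isPGroup
      ((pCoreOf_isPGroup q H).to_le (h1.trans inf_le_left)) hq').symm
  · exact (commutator_mono le_rfl (le_centralizer_iff.1 (hn B hB h2))).trans
      (commutator_le_right_of_le_normalizer (PCoreConj.le_normalizer_centralizer
        (PCoreConj.le_normalizer_inf (inf_le_left.trans ((pCoreOf_le q H).trans h.norm))
          (inf_le_right.trans le_normalizer))))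

theorem normalizer_X_of_commute (hs : s ∈ H) (hc : s * t = t * s) :
    s ∈ normalizer (X H t : Set G) := by
  refine PCoreConj.le_normalizer_commutator ((zpowers_le.2 hs).trans (le_normalizer_pCoreOf 3 H))
    (le_normalizer_of_le_centralizer ?_) (mem_zpowers s)
  rw [centralizer_zpowers, zpowers_le]
  exact mem_centralizer_singleton_iff.2 hc

theorem exists_transvection (hA : A ≤ H) (hsq : ∀ a ∈ A, a ^ 2 = 1) (hB : B ≤ A)
    (h2 : B.relIndex A = 2) (hB' : B ≤ closure {t | t ∈ B ∧ Tv V t})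
    (h3 : (centralizer (A : Set G)).relIndex (V ⊓ centralizer (B : Set G)) = 2) :
    ∃ a ∈ A, a ∉ B ∧ Tv V a := by
  haveI := h.finV
  haveI := h.finH
  haveI : Finite A := finite_of_le hA
  have he := isElementaryAbelian_two_of_sq hsq
  have hc := isMulCommutative_iff_forall.1 he.1
  obtain ⟨a, ⟨ha, ha'⟩, hmax⟩ := Set.exists_max_image {a | a ∈ A ∧ a ∉ B}
    (fun a => Nat.card (V ⊓ centralizer ({a} : Set G) : Subgroup G))
    ((Set.toFinite (A : Set G)).subset fun _ hx => hx.1)
    (exists_not_mem_of_relIndex_ne_one (by rw [h2]; omega))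
  have h4 : ∀ b ∈ B, Tv V b → a ∈ centralizer ((⁅V, X H b⁆ : Subgroup G) : Set G) := by
    intro b hb hbv
    by_contra hn
    have hbH := hA (hB hb)
    have h5 : A ≤ normalizer (X H b : Set G) := fun x hx =>
      h.normalizer_X_of_commute (hA hx) (hc x hx b (hB hb))
    have h6 := mul_mem_centralizer_of_four (isPGroup_of_isElementaryAbelian he)
      (h.normalizer_W hA h5) (h.card_W hbH hbv) ha (hB hb) hn (h.not_mem_centralizer_W hbH hbv)
    have h7 : V ⊓ centralizer ({a} : Set G) < V ⊓ centralizer ({a * b} : Set G) := by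
      refine lt_of_le_of_ne (fun v hv => mem_inf.2 ⟨hv.1, ?_⟩) fun e => hn ?_
      · obtain ⟨w, hw, c, hc', rfl⟩ := (mem_sup_iff_of_le_normalizer' (le_normalizer_of_le_centralizer
          (inf_le_left.trans ((le_centralizer_iff_isMulCommutative.2 h.comm).trans
            (centralizer_anti (h.W_le hbH)))))).1 ((h.sup_eq (X_le' hbH) (h.odd_X hbH hbv)).ge hv.1)
        refine mul_mem (mem_centralizer_iff_le.1 h6 hw) ?_
        rw [← zpowers_le, ← centralizer_zpowers, le_centralizer_iff, zpowers_le]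
        refine mul_mem ?_ (centralizer_anti (zpowers_le.2 hc') (h.mem_centralizer_C hbH hbv))
        rw [← zpowers_le, le_centralizer_iff, zpowers_le, centralizer_zpowers]
        exact (mem_centralizer_of_mul (h.W_inf' hbH hbv) (h.normalizer_W hA h5 ha)
          (h.normalizer_C hA h5 ha) hw hc' hv.2).2
      · exact mem_centralizer_iff_le.2 ((le_inf (h.W_le hbH) (mem_centralizer_iff_le.1 h6)).trans
          (e.ge.trans inf_le_right))
    haveI : Finite (V ⊓ centralizer ({a * b} : Set G) : Subgroup G) := finite_of_le inf_le_left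
    exact absurd (hmax (a * b) ⟨mul_mem ha (hB hb), fun h' => ha' ((mul_mem_cancel_right hb).1 h')⟩)
      (not_le.2 (CoprimeBasic.card_lt_of_lt h7))
  refine ⟨a, ha, ha', by rw [hsq a ha]; exact one_mem _, ?_⟩
  let D : Subgroup G := ⨆ b : {b // b ∈ B ∧ Tv V b}, X H b
  have hD : D ≤ pCoreOf 3 H := iSup_le fun b => X_le (hA (hB b.2.1))
  haveI : Finite D := finite_of_le (hD.trans (pCoreOf_le 3 H))
  have h5 := h.sup_eq (hD.trans (pCoreOf_le 3 H)) (Nat.coprime_two_right.1
    (coprime_card_of_isPGroup ((pCoreOf_isPGroup 3 H).to_le hD) (by norm_num)))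
  have h6 : ⁅V, D⁆ ≤ V ⊓ centralizer ({a} : Set G) := by
    refine (commutator_iSup_le (N := ⨆ b : {b // b ∈ B ∧ Tv V b}, ⁅V, X H b⁆) (fun b => ?_)
      fun b => le_iSup (fun b : {b // b ∈ B ∧ Tv V b} => ⁅V, X H b⁆) b).trans
      (iSup_le fun b => le_inf (h.W_le (hA (hB b.2.1))) (mem_centralizer_iff_le.1 (h4 b b.2.1 b.2.2)))
    exact le_normalizer_iSup fun b' => h.normalizer_W (X_le' (hA (hB b.2.1)))
      ((X_le (hA (hB b.2.1))).trans (normalizer_commutator_ge_left _ _))
  have h7 : V ⊓ centralizer (D : Set G) ≤ V ⊓ centralizer (B : Set G) := by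
    refine le_inf inf_le_left (le_centralizer_iff.1 (hB'.trans ((closure_le _).2 fun b hb => ?_)))
    exact centralizer_anti (inf_le_inf_left _ (centralizer_anti
      (le_iSup (fun b : {b // b ∈ B ∧ Tv V b} => X H b) ⟨b, hb⟩)))
      (h.mem_centralizer_C (hA (hB hb.1)) hb.2)
  have h8 : (V ⊓ centralizer (B : Set G)) ⊔ (V ⊓ centralizer ({a} : Set G)) = V :=
    le_antisymm (sup_le inf_le_left inf_le_left) (h5.ge.trans (sup_le (le_sup_of_le_right h6)
      (le_sup_of_le_left h7)))
  have h9 : centralizer (A : Set G) = centralizer (B : Set G) ⊓ centralizer ({a} : Set G) := by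
    rw [← centralizer_zpowers, ← centralizer_sup, le_antisymm (sup_le hB (zpowers_le.2 ha))
      (le_of_relIndex_two h2 (inf_le_left.trans le_sup_left) ha ha' (mem_sup_right (mem_zpowers a)))]
  rw [← inf_relIndex_left, ← h3]
  nth_rewrite 2 [← h8]
  rw [relIndex_sup_of_le_normalizer (le_normalizer_of_le_centralizer (inf_le_left.trans
    ((le_centralizer_iff_isMulCommutative.2 h.comm).trans (centralizer_anti inf_le_left)))),
    ← inf_relIndex_left, ← inf_relIndex_left _ (centralizer (A : Set G)), h9]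
  congr 1
  ext x
  simp only [mem_inf]
  tauto

/-- Offenders are generated by transvections. -/
theorem offender (hA : A ≤ H) (hsq : ∀ a ∈ A, a ^ 2 = 1)
    (hmax : ∀ B ≤ A, Nat.card B * Nat.card (V ⊓ centralizer (B : Set G) : Subgroup G) ≤
      Nat.card A * Nat.card (V ⊓ centralizer (A : Set G) : Subgroup G)) :
    A ≤ closure {t | t ∈ A ∧ Tv V t} ∧
      Nat.card A * Nat.card (V ⊓ centralizer (A : Set G) : Subgroup G) = Nat.card V := by
  haveI := h.finV
  haveI := h.finH
  induction hn : Nat.card A using Nat.strong_induction_on generalizing A with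
  | _ n ih =>
  subst hn
  haveI : Finite A := finite_of_le hA
  by_cases hne : A = ⊥
  · subst hne
    refine ⟨bot_le, ?_⟩
    rw [card_bot, one_mul, inf_eq_left.2 (le_centralizer_iff.1 bot_le)]
  obtain ⟨B, hB, h2, h3⟩ := h.exists_hyperplane hA hsq hne
  haveI : Finite B := finite_of_le hB
  haveI : Finite (V ⊓ centralizer (A : Set G) : Subgroup G) := finite_of_le inf_le_left
  haveI : Finite (V ⊓ centralizer (B : Set G) : Subgroup G) := finite_of_le inf_le_left
  have h4 := card_mul_relIndex hB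
  have h5 := card_inf_mul_relIndex (centralizer (A : Set G)) (V ⊓ centralizer (B : Set G))
  have e : centralizer (A : Set G) ⊓ (V ⊓ centralizer (B : Set G)) = V ⊓ centralizer (A : Set G) := by
    rw [inf_comm, inf_assoc, inf_eq_right.2 (centralizer_anti hB)]
  have h6 := hmax B hB
  rw [h2] at h4
  rw [e] at h5
  have h7 : (centralizer (A : Set G)).relIndex (V ⊓ centralizer (B : Set G)) = 2 := by
    have h8 := mt relIndex_eq_one.1 h3
    have h9 := relIndex_ne_zero_of_finite (centralizer (A : Set G)) (V ⊓ centralizer (B : Set G))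
    rw [← h4, ← h5, mul_assoc, mul_comm 2] at h6
    have := Nat.le_of_mul_le_mul_left (Nat.le_of_mul_le_mul_left h6 Nat.card_pos) Nat.card_pos
    omega
  have h8 : Nat.card B * Nat.card (V ⊓ centralizer (B : Set G) : Subgroup G) =
      Nat.card A * Nat.card (V ⊓ centralizer (A : Set G) : Subgroup G) := by
    rw [← h4, ← h5, h7]; ring
  obtain ⟨h9, h10⟩ := ih _ (by have := Nat.card_pos (α := B); omega) (hB.trans hA)
    (fun a ha => hsq a (hB ha)) (fun B' hB' => h8 ▸ hmax B' (hB'.trans hB)) rfl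
  obtain ⟨a, ha, ha', hav⟩ := h.exists_transvection hA hsq hB h2 h9 h7
  exact ⟨le_of_relIndex_two h2 (inf_le_left.trans (h9.trans
    (closure_mono fun t ht => ⟨hB ht.1, ht.2⟩))) ha ha' (subset_closure ⟨ha, hav⟩), h8 ▸ h10⟩

end Faith

end Cfsg.Agent.Lib.FFSolv
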