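/-
Failure of factorization for solvable groups at the prime `2`, modulo the kernel of the action.
-/
import Cfsg.Agent.Lib.FFSolv

set_option autoImplicit false

namespace Cfsg.Agent.Lib.FFMod

open Subgroup Cfsg.Agent.Lib.PCoreConj Cfsg.Agent.Lib.PCore Cfsg.Agent.Lib.PCoreResidual
  Cfsg.Agent.Lib.PReduced Cfsg.Agent.Lib.LocIdx Cfsg.Agent.Lib.LocFour Cfsg.Agent.Lib.FFSolv
  Cfsg.Agent.Lib.PCoreMod
open scoped commutatorElement

variable {G : Type*} [Group G]

section Hol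

variable (V : Subgroup G) [V.Normal]

/-- The holomorph of `V`. -/
abbrev Hol := V ⋊[MonoidHom.id (MulAut V)] MulAut V

/-- The action of `G` on its normal subgroup `V`, inside the holomorph. -/
def ψ : G →* Hol V := SemidirectProduct.inr.comp MulAut.conjNormal

/-- The image of a subgroup of `V` in the holomorph. -/
def hat (U : Subgroup G) : Subgroup (Hol V) := (U.subgroupOf V).map SemidirectProduct.inl

theorem ker_ψ : (ψ V).ker = centralizer (V : Set G) := by
  ext g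
  rw [MonoidHom.mem_ker, ψ, MonoidHom.comp_apply,
    map_eq_one_iff _ SemidirectProduct.inr_injective, mem_centralizer_iff]
  constructor
  · intro h v hv
    exact (mul_inv_eq_iff_eq_mul.1 (congrArg (fun e : MulAut V => (e ⟨v, hv⟩ : G)) h)).symm
  · intro h
    ext v
    exact mul_inv_eq_iff_eq_mul.2 (h v v.2).symm

theorem ψ_eq_one_iff {g : G} : ψ V g = 1 ↔ g ∈ centralizer (V : Set G) := by
  rw [← ker_ψ, MonoidHom.mem_ker]

theorem conj_inl (g : G) (v : V) : ψ V g * SemidirectProduct.inl v * (ψ V g)⁻¹ =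
    SemidirectProduct.inl (MulAut.conjNormal g v) := by
  rw [← map_inv]
  exact (SemidirectProduct.inl_aut (φ := MonoidHom.id (MulAut V)) (MulAut.conjNormal g) v).symm.trans
    rfl |>.symm ▸ (by simp [ψ])

theorem commute_iff {g : G} {v : V} :
    ψ V g * SemidirectProduct.inl v = SemidirectProduct.inl v * ψ V g ↔ g * v = v * g := by
  rw [← mul_inv_eq_iff_eq_mul, conj_inl, SemidirectProduct.inl_inj, Subtype.ext_iff,
    MulAut.conjNormal_apply, mul_inv_eq_iff_eq_mul]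

variable {V}

theorem mem_hat {U : Subgroup G} {x : Hol V} :
    x ∈ hat V U ↔ ∃ v : V, (v : G) ∈ U ∧ SemidirectProduct.inl v = x := Iff.rfl

theorem inl_mem_hat {U : Subgroup G} {v : V} : SemidirectProduct.inl v ∈ hat V U ↔ (v : G) ∈ U :=
  mem_map_iff_mem SemidirectProduct.inl_injective

theorem card_hat {U : Subgroup G} (hU : U ≤ V) : Nat.card (hat V U) = Nat.card U := by
  rw [hat, card_map_of_injective SemidirectProduct.inl_injective,
    Nat.card_congr (subgroupOfEquivOfLe hU).toEquiv]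

theorem hat_le_hat {U W : Subgroup G} (hU : U ≤ V) : hat V U ≤ hat V W ↔ U ≤ W :=
  ⟨fun h u hu => (inl_mem_hat (v := ⟨u, hU hu⟩)).1 (h (inl_mem_hat.2 hu)),
    fun h => map_mono (subgroupOf_mono V h)⟩

theorem hat_inj {U W : Subgroup G} (hU : U ≤ V) (hW : W ≤ V) : hat V U = hat V W ↔ U = W := by
  rw [le_antisymm_iff, le_antisymm_iff, hat_le_hat hU, hat_le_hat hW]

theorem hat_inf (U W : Subgroup G) : hat V (U ⊓ W) = hat V U ⊓ hat V W :=
  Subgroup.map_inf (U.subgroupOf V) (W.subgroupOf V) _ SemidirectProduct.inl_injective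

theorem hat_bot : hat V ⊥ = ⊥ := by rw [hat, bot_subgroupOf, Subgroup.map_bot]

theorem hat_inf_centralizer (U A : Subgroup G) :
    hat V U ⊓ centralizer ((A.map (ψ V) : Subgroup (Hol V)) : Set (Hol V)) =
      hat V (U ⊓ centralizer (A : Set G)) := by
  refine le_antisymm ?_ ?_
  · rintro _ ⟨⟨v, hv, rfl⟩, hc⟩
    exact inl_mem_hat.2 (mem_inf.2 ⟨hv, mem_centralizer_iff.2 fun a ha =>
      (commute_iff V).1 (mem_centralizer_iff.1 hc _ (mem_map_of_mem _ ha))⟩)
  · rintro _ ⟨v, hv, rfl⟩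
    refine mem_inf.2 ⟨inl_mem_hat.2 hv.1, mem_centralizer_iff.2 ?_⟩
    rintro _ ⟨a, ha, rfl⟩
    exact (commute_iff V).2 (mem_centralizer_iff.1 hv.2 a ha)

theorem le_centralizer_hat {U A : Subgroup G} (hU : U ≤ V) :
    A.map (ψ V) ≤ centralizer (hat V U : Set (Hol V)) ↔ A ≤ centralizer (U : Set G) := by
  rw [le_centralizer_iff, le_centralizer_iff (H := A), ← inf_eq_left, hat_inf_centralizer,
    hat_inj (inf_le_left.trans hU) hU, inf_eq_left]

theorem mem_centralizer_hat {U : Subgroup G} (hU : U ≤ V) {g : G} :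
    ψ V g ∈ centralizer (hat V U : Set (Hol V)) ↔ g ∈ centralizer (U : Set G) := by
  rw [← zpowers_le, ← zpowers_le, ← le_centralizer_hat hU, MonoidHom.map_zpowers]

theorem commutator_inl (g : G) (v : V) : ⁅(SemidirectProduct.inl v : Hol V), ψ V g⁆ =
    SemidirectProduct.inl (v * (MulAut.conjNormal g v)⁻¹) := by
  rw [map_mul, map_inv, ← conj_inl, commutatorElement_def]
  group

theorem hat_commutator (A : Subgroup G) : hat V ⁅V, A⁆ = ⁅hat V V, A.map (ψ V)⁆ := by
  have e : ∀ (g : G) (v : V), ((v * (MulAut.conjNormal g v)⁻¹ : V) : G) = ⁅(v : G), g⁆ := by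
    intro g v
    simp [commutatorElement_def, mul_assoc]
  refine le_antisymm ?_ (commutator_le.2 ?_)
  · have h : ⁅V, A⁆ ≤ (⁅hat V V, A.map (ψ V)⁆.comap SemidirectProduct.inl).map V.subtype := by
      refine commutator_le.2 fun v hv a ha =>
        ⟨⟨v, hv⟩ * (MulAut.conjNormal a ⟨v, hv⟩)⁻¹, ?_, e a ⟨v, hv⟩⟩
      rw [SetLike.mem_coe, mem_comap, ← commutator_inl]
      exact commutator_mem_commutator (inl_mem_hat.2 hv) (mem_map_of_mem _ ha)
    rintro _ ⟨v, hv, rfl⟩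
    obtain ⟨w, hw, e'⟩ := h hv
    rwa [← Subtype.ext e']
  · rintro _ ⟨v, -, rfl⟩ _ ⟨a, ha, rfl⟩
    rw [commutator_inl, inl_mem_hat, e]
    exact commutator_mem_commutator v.2 ha

theorem relIndex_hat (A : Subgroup G) :
    (centralizer ((A.map (ψ V) : Subgroup (Hol V)) : Set (Hol V))).relIndex (hat V V) =
      (centralizer (A : Set G)).relIndex V := by
  rw [← inf_relIndex_left, hat_inf_centralizer, hat, hat,
    relIndex_map_map_of_injective _ _ SemidirectProduct.inl_injective, relIndex_subgroupOf le_rfl,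
    inf_relIndex_left]

theorem tv_iff {t : G} : Tv (hat V V) (ψ V t) ↔ Tv V t := by
  rw [Tv, Tv, ← map_pow, mem_centralizer_hat le_rfl, ← centralizer_zpowers, ← centralizer_zpowers,
    ← MonoidHom.map_zpowers, relIndex_hat]

theorem card_map_mul (A : Subgroup G) :
    Nat.card (A.map (ψ V)) * Nat.card (A ⊓ centralizer (V : Set G) : Subgroup G) = Nat.card A := by
  rw [card_eq_card_map_mul (ψ V) A, ker_ψ]

theorem map_pCoreMod (p : ℕ) :
    (pCoreMod p ⊤ (centralizer (V : Set G))).map (ψ V) = pCoreOf p ((⊤ : Subgroup G).map (ψ V)) := by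
  refine le_antisymm (le_pCoreOf (map_mono le_top)
    (le_normalizer_map _ (le_normalizer_pCoreMod p _ _)) (isPGroup_iff_forall_mem.2 ?_)) ?_
  · rintro _ ⟨x, hx, rfl⟩
    obtain ⟨k, hk⟩ := exists_pow_mem_of_mem_pCoreMod le_normalizer_of_normal hx
    exact ⟨k, by rw [← map_pow, ψ_eq_one_iff]; exact hk⟩
  · intro y hy
    obtain ⟨x, -, rfl⟩ := pCoreOf_le p _ hy
    refine mem_map_of_mem _ (le_pCoreMod (N := (pCoreOf p ((⊤ : Subgroup G).map (ψ V))).comap (ψ V))
      le_top ((le_comap_map _ _).trans (le_normalizer_comap _ (le_normalizer_pCoreOf p _)))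
      (fun z hz => ?_) hy)
    obtain ⟨k, hk⟩ := isPGroup_iff_forall_mem.1 (pCoreOf_isPGroup p _) _ hz
    exact ⟨k, by rwa [← map_pow, ψ_eq_one_iff] at hk⟩

end Hol

/-- The group `[F, t]` where `F / C_G(V) = O₃(G / C_G(V))`. -/
def Xs (V : Subgroup G) (t : G) : Subgroup G :=
  ⁅pCoreMod 3 ⊤ (centralizer (V : Set G)), zpowers t⁆

/-- A finite solvable group with a normal elementary abelian `2`-subgroup `V` such that
`O₂(G / C_G(V)) = 1`. -/
structure Red (V : Subgroup G) : Prop where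
  fin : Finite G
  solv : Group.IsSolvable G
  sq : ∀ v ∈ V, v ^ 2 = 1
  red : pCoreMod 2 ⊤ (centralizer (V : Set G)) ≤ centralizer (V : Set G)

variable {V A : Subgroup G} [V.Normal] {s t : G}

theorem map_Xs (t : G) : (Xs V t).map (ψ V) = X ((⊤ : Subgroup G).map (ψ V)) (ψ V t) := by
  rw [Xs, X, map_commutator, map_pCoreMod, MonoidHom.map_zpowers]

theorem map_E (t : G) : (Xs V t ⊔ zpowers t).map (ψ V) =
    X ((⊤ : Subgroup G).map (ψ V)) (ψ V t) ⊔ zpowers (ψ V t) := by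
  rw [Subgroup.map_sup, map_Xs, MonoidHom.map_zpowers]

theorem hat_W (t : G) : hat V ⁅V, Xs V t⁆ = ⁅hat V V, X ((⊤ : Subgroup G).map (ψ V)) (ψ V t)⁆ := by
  rw [hat_commutator, map_Xs]

theorem mem_range (t : G) : ψ V t ∈ (⊤ : Subgroup G).map (ψ V) := mem_map_of_mem _ (mem_top t)

namespace Red

variable (h : Red V)
include h

theorem faith : Faith (hat V V) ((⊤ : Subgroup G).map (ψ V)) where
  finV := haveI := h.fin; Finite.of_surjective _ (MonoidHom.subgroupMap_surjective _ _)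
  finH := haveI := h.fin; Finite.of_surjective _ (MonoidHom.subgroupMap_surjective _ _)
  solv := haveI := h.solv; Group.isSolvable_of_surjective ((ψ V).subgroupMap_surjective ⊤)
  sq := by
    rintro _ ⟨v, -, rfl⟩
    rw [← map_pow, show v ^ 2 = 1 from Subtype.ext (h.sq v v.2), map_one]
  norm := by
    refine le_normalizer_iff_conj_le.2 ?_
    rintro _ ⟨g, -, rfl⟩
    refine conj_le_iff.2 ?_
    rintro _ ⟨v, -, rfl⟩
    rw [conj_inl, inl_mem_hat]
    exact SetLike.coe_mem _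
  faith := by
    refine eq_bot_iff.2 ?_
    rintro _ ⟨⟨g, -, rfl⟩, hg⟩
    exact mem_bot.2 ((ψ_eq_one_iff V).2 ((mem_centralizer_hat le_rfl).1 hg))
  core := by
    rw [← map_pCoreMod, Subgroup.map_eq_bot_iff, ker_ψ]
    exact h.red

theorem card_W (ht : Tv V t) : Nat.card (⁅V, Xs V t⁆ : Subgroup G) = 4 := by
  rw [← card_hat (commutator_le_left _ _), hat_W]
  exact h.faith.card_W (mem_range t) (tv_iff.2 ht)

theorem relIndex_Xs (ht : Tv V t) : (centralizer (V : Set G)).relIndex (Xs V t) = 3 := by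
  rw [← ker_ψ, relIndex_ker, map_Xs]
  exact h.faith.card_X (mem_range t) (tv_iff.2 ht)

theorem W_inf (ht : Tv V t) : ⁅V, Xs V t⁆ ⊓ centralizer (Xs V t : Set G) = ⊥ := by
  rw [← hat_inj (inf_le_left.trans (commutator_le_left _ _)) bot_le, ← hat_inf_centralizer, hat_W,
    map_Xs, hat_bot]
  exact h.faith.W_inf (mem_range t) (tv_iff.2 ht)

theorem not_mem_centralizer_W (ht : Tv V t) :
    t ∉ centralizer ((⁅V, Xs V t⁆ : Subgroup G) : Set G) := by
  rw [← mem_centralizer_hat (commutator_le_left _ _), hat_W]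
  exact h.faith.not_mem_centralizer_W (mem_range t) (tv_iff.2 ht)

theorem commutator_E_le (ht : Tv V t) : ⁅V, Xs V t ⊔ zpowers t⁆ ≤ ⁅V, Xs V t⁆ := by
  rw [← hat_le_hat (commutator_le_left _ _), hat_W, hat_commutator, map_E]
  exact h.faith.commutator_E_le (mem_range t) (tv_iff.2 ht)

theorem near (ht : Tv V t) (hs : Tv V s) (e : ⁅V, Xs V t⁆ = ⁅V, Xs V s⁆) :
    ∃ x ∈ Xs V t, s⁻¹ * (x * t * x⁻¹) ∈ centralizer (V : Set G) := by
  obtain ⟨y, hy, e'⟩ := h.faith.near' (mem_range t) (tv_iff.2 ht) (mem_range s) (tv_iff.2 hs)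
    (by rw [← hat_W, ← hat_W, e])
  rw [← map_Xs] at hy
  obtain ⟨x, hx, rfl⟩ := hy
  refine ⟨x, hx, (ψ_eq_one_iff V).1 ?_⟩
  rw [map_mul, map_mul, map_mul, map_inv, map_inv, e', inv_mul_cancel]

omit h in
theorem ne_hat (e : ⁅V, Xs V t⁆ ≠ ⁅V, Xs V s⁆) :
    ⁅hat V V, X ((⊤ : Subgroup G).map (ψ V)) (ψ V t)⁆ ≠
      ⁅hat V V, X ((⊤ : Subgroup G).map (ψ V)) (ψ V s)⁆ := by
  rwa [← hat_W, ← hat_W, Ne, hat_inj (commutator_le_left _ _) (commutator_le_left _ _)]

theorem far_inf (ht : Tv V t) (hs : Tv V s) (e : ⁅V, Xs V t⁆ ≠ ⁅V, Xs V s⁆) :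
    ⁅V, Xs V t⁆ ⊓ ⁅V, Xs V s⁆ = ⊥ := by
  rw [← hat_inj (inf_le_left.trans (commutator_le_left _ _)) bot_le, hat_inf, hat_W, hat_W, hat_bot]
  exact h.faith.far_inf (mem_range t) (tv_iff.2 ht) (mem_range s) (tv_iff.2 hs) (ne_hat e)

theorem far_le_C (ht : Tv V t) (hs : Tv V s) (e : ⁅V, Xs V t⁆ ≠ ⁅V, Xs V s⁆) :
    Xs V s ⊔ zpowers s ≤ centralizer ((⁅V, Xs V t⁆ : Subgroup G) : Set G) := by
  rw [← le_centralizer_hat (commutator_le_left _ _), hat_W, map_E]
  exact h.faith.far_le_C (mem_range t) (tv_iff.2 ht) (mem_range s) (tv_iff.2 hs) (ne_hat e)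

theorem far (ht : Tv V t) (hs : Tv V s) (e : ⁅V, Xs V t⁆ ≠ ⁅V, Xs V s⁆) :
    ⁅Xs V t ⊔ zpowers t, Xs V s ⊔ zpowers s⁆ ≤ centralizer (V : Set G) := by
  rw [← ker_ψ, ← Subgroup.map_eq_bot_iff, map_commutator, map_E, map_E]
  exact h.faith.far (mem_range t) (tv_iff.2 ht) (mem_range s) (tv_iff.2 hs) (ne_hat e)

/-- Offenders are generated by transvections modulo the kernel of the action. -/
theorem offender (hsq : ∀ a ∈ A, a ^ 2 ∈ centralizer (V : Set G))
    (hmax : ∀ B ≤ A, Nat.card B * Nat.card (V ⊓ centralizer (B : Set G) : Subgroup G) ≤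
      Nat.card A * Nat.card (V ⊓ centralizer (A : Set G) : Subgroup G)) :
    A ≤ closure {t | t ∈ A ∧ Tv V t} ⊔ (A ⊓ centralizer (V : Set G)) ∧
      Nat.card A * Nat.card (V ⊓ centralizer (A : Set G) : Subgroup G) =
        Nat.card V * Nat.card (A ⊓ centralizer (V : Set G) : Subgroup G) := by
  haveI := h.fin
  have e : ∀ B : Subgroup G, Nat.card (B.map (ψ V)) * Nat.card (hat V V ⊓ centralizer
      ((B.map (ψ V) : Subgroup (Hol V)) : Set (Hol V)) : Subgroup (Hol V)) *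
      Nat.card (B ⊓ centralizer (V : Set G) : Subgroup G) =
      Nat.card B * Nat.card (V ⊓ centralizer (B : Set G) : Subgroup G) := fun B => by
    rw [hat_inf_centralizer, card_hat inf_le_left, ← card_map_mul (V := V) B]
    ring
  obtain ⟨h1, h2⟩ := h.faith.offender (A := A.map (ψ V)) (map_mono le_top) (by
    rintro _ ⟨a, ha, rfl⟩
    rw [← map_pow, ψ_eq_one_iff]
    exact hsq a ha) (fun B' hB' => by
    have e1 : (A ⊓ B'.comap (ψ V)).map (ψ V) = B' := le_antisymm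
      (map_le_iff_le_comap.2 inf_le_right) fun b hb => by
        obtain ⟨a, ha, rfl⟩ := hB' hb
        exact mem_map_of_mem _ (mem_inf.2 ⟨ha, hb⟩)
    have e2 : A ⊓ B'.comap (ψ V) ⊓ centralizer (V : Set G) = A ⊓ centralizer (V : Set G) := by
      rw [inf_assoc, ← ker_ψ, inf_eq_right.2 (ker_le_comap _ _)]
    have h3 := hmax (A ⊓ B'.comap (ψ V)) inf_le_left
    rw [← e, ← e, e1, e2] at h3
    exact Nat.le_of_mul_le_mul_right h3 Nat.card_pos)
  refine ⟨fun a ha => ?_, by rw [← e, h2, card_hat le_rfl]⟩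
  have h3 : closure {t | t ∈ A.map (ψ V) ∧ Tv (hat V V) t} ≤
      (closure {t | t ∈ A ∧ Tv V t}).map (ψ V) := by
    rw [closure_le]
    rintro _ ⟨⟨t, ht, rfl⟩, ht'⟩
    exact mem_map_of_mem _ (subset_closure ⟨ht, tv_iff.1 ht'⟩)
  obtain ⟨b, hb, e'⟩ := h3 (h1 (mem_map_of_mem _ ha))
  rw [← mul_inv_cancel_left b a]
  refine mul_mem (mem_sup_left hb) (mem_sup_right (mem_inf.2 ⟨mul_mem (inv_mem ((closure_le _).2
    (fun t ht => ht.1) hb)) ha, (ψ_eq_one_iff V).1 ?_⟩))
  rw [map_mul, map_inv, e', inv_mul_cancel]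

end Red

end Cfsg.Agent.Lib.FFMod
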