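import Cfsg.Agent.Lib.QdFacts

/-!
The group `F(p)` (Borel subgroup of `Qd(p)`) as a section.
-/

set_option autoImplicit false

namespace Cfsg.Agent.Lib.FSection

open Subgroup Cfsg Cfsg.Agent.Lib.PCoreConj Cfsg.Agent.Lib.PCore Cfsg.Agent.Lib.PCoreResidual
open Cfsg.Agent.Lib.PCoreMod Cfsg.Agent.Lib.ZJ Cfsg.Agent.Lib.Sections Cfsg.Agent.Lib.QuadPair
open Cfsg.Agent.Lib.FusionControl
open Matrix
open scoped Pointwise commutatorElement MatrixGroups

variable {G : Type*} [Group G] {p : ℕ}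

theorem mem_fOver {K : Type*} [Field K] {M : SL(3, K)} :
    M ∈ fOver K ↔ M.1 1 0 = 0 ∧ M.1 2 0 = 0 ∧ M.1 2 1 = 0 ∧ M.1 2 2 = 1 := by
  refine ⟨fun h => ?_, fun h => subset_closure h⟩
  induction h using closure_induction with
  | mem x hx => exact hx
  | one => simp
  | mul x y _ _ hx hy => simp [mul_apply, Fin.sum_univ_three, hx, hy]
  | inv x _ hx =>
    have := x.2
    rw [det_fin_three] at this
    rw [show (x⁻¹).1 = adjugate x.1 from rfl, adjugate_fin_three]
    simpa [hx] using this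

variable [hp : Fact p.Prime]

/-- the upper left entry -/
def chi (p : ℕ) [Fact p.Prime] : fOver (ZMod p) →* (ZMod p)ˣ :=
  MonoidHom.toHomUnits
    { toFun := fun q => q.1.1 0 0
      map_one' := by simp
      map_mul' := fun a b => by simp [mul_apply, Fin.sum_univ_three, mem_fOver.mp b.2] }

theorem mem_ker_chi {q : fOver (ZMod p)} : q ∈ (chi p).ker ↔ q.1.1 0 0 = 1 := by
  rw [MonoidHom.mem_ker, Units.ext_iff]; rfl

theorem isPGroup_ker_chi : IsPGroup p (chi p).ker := isPGroup_iff_forall_mem.mpr fun q hq => by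
  have h := mem_fOver.mp q.2
  have h0 := mem_ker_chi.mp hq
  have h1 : q.1.1 1 1 = 1 := by
    have := q.1.2
    rw [det_fin_three] at this
    simpa [h, h0] using this
  have h2 : (q.1.1 - 1) ^ 3 = 0 := by
    ext i j
    fin_cases i <;> fin_cases j <;> simp [pow_succ, mul_apply, Fin.sum_univ_three, h, h0, h1, one_apply]
  refine ⟨2, Subtype.ext (Subtype.ext ?_)⟩
  have h3 : 3 ≤ p ^ 2 := by nlinarith [hp.out.two_le]
  have := sub_pow_char_pow_of_commute p 2 (Commute.one_right q.1.1)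
  rw [pow_eq_zero_of_le h3 h2, one_pow] at this
  simpa using sub_eq_zero.mp this.symm

theorem centralizer_ker_chi : centralizer ((chi p).ker : Set (fOver (ZMod p))) ≤ (chi p).ker := fun q hq => by
  have h := mem_fOver.mp q.2
  have := hq ⟨⟨!![1, 0, 1; 0, 1, 0; 0, 0, 1], by simp [det_fin_three]⟩, mem_fOver.mpr (by simp)⟩
    (mem_ker_chi.mpr (by simp))
  have : !![1, 0, 1; 0, 1, 0; 0, 0, 1] * q.1.1 = q.1.1 * !![1, 0, 1; 0, 1, 0; 0, 0, 1] :=
    congrArg (fun x : fOver (ZMod p) => x.1.1) this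
  have := congrFun (congrFun this 0) 2
  simp [mul_apply, Fin.sum_univ_three, h, add_comm] at this
  exact mem_ker_chi.mpr this.symm

/-- sections of this type pass to a subgroup controlling fusion -/
theorem involves_of_ctrl [Finite G] {F C : Type*} [Group F] [Group C] [Finite C] [IsCyclic C] (χ : F →* C)
    (hC : (Nat.card C).Coprime p) (h1 : IsPGroup p χ.ker) (h2 : centralizer (χ.ker : Set F) ≤ χ.ker)
    {L H P : Subgroup G} (hP : IsSylowIn p P L) (hPH : P ≤ H) (hc : Ctrl L H P) (h : Involves F L) :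
    Involves F H := by
  have := finite_of_involves h
  obtain ⟨Γ', g1, g2⟩ := exists_graph h
  set Γ := Γ'.map (L.subtype.prodMap (MonoidHom.id F))
  have hΓ : ∀ x ∈ Γ, x.1 ∈ L ∧ (x.1 = 1 → x.2 = 1) := by
    rintro _ ⟨⟨a, b⟩, hx, rfl⟩
    exact ⟨a.2, fun e => g1 b (by rwa [show a = 1 from Subtype.ext e] at hx)⟩
  set Γ₀ := Γ ⊓ χ.ker.comap (MonoidHom.snd G F)
  obtain ⟨Δ, hΔ⟩ := exists_isSylowIn p Γ₀
  have hs : Δ.map (MonoidHom.snd G F) = χ.ker := by
    have := hΔ.map (MonoidHom.snd G F)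
    rw [ThompsonJ.map_inf_comap _ (fun y _ => by
      obtain ⟨g, hg⟩ := g2 y
      exact ⟨_, mem_map_of_mem _ hg, rfl⟩)] at this
    exact this.eq_of_isPGroup h1
  obtain ⟨⟨_, t₀, rfl⟩, ht₀⟩ := IsCyclic.exists_generator (α := χ.range)
  obtain ⟨g₀, hg₀⟩ := g2 t₀
  obtain ⟨n, hn, x, hx, e⟩ := hΔ.frattini_mem (inf_le_left : Γ₀ ≤ Γ)
    (le_normalizer_inf le_normalizer le_normalizer_of_normal) (mem_map_of_mem _ hg₀)
  have e1 : χ x.2 = χ t₀ := by
    have : t₀ = n.2 * x.2 := congrArg Prod.snd e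
    rw [this, map_mul, show χ n.2 = 1 from hn.2, one_mul]
  obtain ⟨l, hl, hl'⟩ := hP.exists_conj_le (Q := Δ.map (MonoidHom.fst G F))
    (by rintro _ ⟨y, hy, rfl⟩; exact (hΓ y (hΔ.le hy).1).1) (hΔ.isPGroup.map _)
  obtain ⟨h, hh, hh'⟩ := hc _ (l * x.1 * l⁻¹) (mul_mem (mul_mem hl (hΓ x hx.1).1) (inv_mem hl)) hl' (by
    rw [conj_conj, inv_mul_cancel_right, ← conj_conj]
    refine le_trans (conj_mono l ?_) hl'
    exact (conj_eq_of_mem_normalizer (le_normalizer_map _ le_rfl (mem_map_of_mem (MonoidHom.fst G F) hx.2))).le)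
  set Δ' := Δ ^ᶜ ((l, 1) : G × F)
  have m : ∀ y, y ∈ Δ' ↔ (l⁻¹ * y.1 * l, y.2) ∈ Δ := fun y => by
    rw [mem_conj_iff]; congr! 1; ext <;> simp
  have hn' : (h, x.2) ∈ normalizer (Δ' : Set (G × F)) := mem_normalizer_of_conj_le (conj_le_iff.mpr fun y hy => by
    have h3 := (m y).mp hy
    have h4 := hh' y.1 (mem_conj_iff.mpr (mem_map_of_mem (MonoidHom.fst G F) h3))
    have h5 := (mem_normalizer_iff.mp hx.2 _).mp h3
    rw [m]
    convert h5 using 1
    ext
    · simp only [Prod.fst_mul, Prod.fst_inv]; rw [← h4]; group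
    · simp)
  obtain ⟨k, hk⟩ := exists_pow_coprime (p := p) (isOfFinOrder_of_finite ((h, x.2) : G × F))
  set δ := ((h, x.2) : G × F) ^ p ^ k
  have hδ : zpowers δ ≤ normalizer (Δ' : Set (G × F)) := zpowers_le.mpr (pow_mem hn' _)
  have one : ∀ y ∈ Δ', y.1 = 1 → y.2 = 1 := fun y hy e =>
    (hΓ _ (hΔ.le ((m y).mp hy)).1).2 (by simp [e])
  have hH : zpowers δ ⊔ Δ' ≤ H.comap (MonoidHom.fst G F) :=
    sup_le (zpowers_le.mpr (pow_mem hh _)) fun y hy =>
      hPH (hl' (mem_conj_iff.mpr (mem_map_of_mem (MonoidHom.fst G F) ((m y).mp hy))))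
  refine involves_of_graph ((zpowers δ ⊔ Δ').comap (H.subtype.prodMap (MonoidHom.id F))) (fun φ hφ => ?_)
    fun φ => ?_
  · replace hφ : ((1, φ) : G × F) ∈ zpowers δ ⊔ Δ' := hφ
    have h3 : φ ∈ χ.ker := h2 fun y hy => by
      obtain ⟨⟨a, b⟩, ha, rfl⟩ := hs.ge hy
      have h4 : (l * a * l⁻¹, b) ∈ Δ' := (m _).mpr (by simpa [mul_assoc] using ha)
      have := one _ (mul_mem ((mem_normalizer_iff.mp (sup_le hδ le_normalizer hφ) _).mp h4) (inv_mem h4))
        (by simp)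
      simp only [Prod.snd_mul, Prod.snd_inv, mul_inv_eq_iff_eq_mul] at this
      simpa using this.symm
    obtain ⟨j, hj⟩ := isPGroup_iff_forall_mem.mp h1 φ h3
    refine one _ (le_of_isPGroup_of_not_dvd_relIndex (sup_le hδ le_normalizer) ?_ (zpowers_le.mpr hφ)
      (isPGroup_zpowers (p := p) (k := j) (by simp [hj])) (mem_zpowers _)) rfl
    rw [relIndex_sup_of_le_normalizer hδ]
    intro hd
    have := hd.trans (relIndex_dvd_card _ _)
    rw [Nat.card_zpowers] at this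
    exact (hp.out.coprime_iff_not_dvd.mp hk.symm) this
  · have h3 : (zpowers δ ⊔ Δ').map (MonoidHom.snd G F) = ⊤ := by
      set X := (zpowers δ ⊔ Δ').map (MonoidHom.snd G F)
      have h4 : χ.ker ≤ X := fun y hy => by
        obtain ⟨⟨a, b⟩, ha, rfl⟩ := hs.ge hy
        exact ⟨(l * a * l⁻¹, b), mem_sup_right ((m _).mpr (by simpa [mul_assoc] using ha)), rfl⟩
      have h5 : χ t₀ ∈ X.map χ := by
        refine mem_of_pow_mem_of_coprime (n := p ^ k)
          ((hC.coprime_dvd_left (orderOf_dvd_natCard _)).pow_right k) ?_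
        rw [← e1, ← map_pow]
        exact mem_map_of_mem _ ⟨δ, mem_sup_left (mem_zpowers δ), rfl⟩
      refine eq_top_iff.mpr fun y _ => ?_
      obtain ⟨j, hj⟩ := ht₀ ⟨_, y, rfl⟩
      have h6 : χ y ∈ X.map χ := by
        rw [show χ y = χ t₀ ^ j from (congrArg Subtype.val hj).symm]; exact zpow_mem h5 j
      have : y ∈ (X.map χ).comap χ := h6
      rwa [comap_map_eq, sup_eq_left.mpr h4] at this
    obtain ⟨y, hy, rfl⟩ := h3.ge (mem_top φ)
    exact ⟨⟨y.1, hH hy⟩, hy⟩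

theorem involves_F_of_ctrl [Finite G] {L H P : Subgroup G} (hP : IsSylowIn p P L) (hPH : P ≤ H)
    (hc : Ctrl L H P) (h : Involves (fOver (ZMod p)) L) : Involves (fOver (ZMod p)) H :=
  involves_of_ctrl (chi p) (by
    rw [Nat.card_eq_fintype_card, ZMod.card_units]
    exact (Nat.coprime_self_sub_left hp.out.one_le).mpr (by simp)) isPGroup_ker_chi centralizer_ker_chi hP hPH hc h

/-- A Borel configuration gives a section `F(p)`. -/
theorem involves_F_of [Finite G] (hp2 : p ≠ 2) {m : ℕ} (hm : ∀ μ : ZMod p, μ ≠ 0 → ∃ k, (m : ZMod p) ^ k = μ)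
    (hm0 : (m : ZMod p) ≠ 0) (ψ : (Fin 2 → ZMod p) → G) (hadd : ∀ c d, ψ (c + d) = ψ c * ψ d)
    (hinj : ∀ c, ψ c = 1 → c = 0) {a t : G} (ha : ∀ c, a * ψ c * a⁻¹ = ψ ![c 0 + c 1, c 1])
    (ht : ∀ c, t * ψ c * t⁻¹ = ψ ![m * c 0, (m : ZMod p)⁻¹ * c 1]) : Involves (fOver (ZMod p)) G := by
  have hzero : ψ 0 = 1 := by simpa using hadd 0 0
  have hneg : ∀ c, ψ (-c) = (ψ c)⁻¹ := fun c =>
    eq_inv_of_mul_eq_one_left (by rw [← hadd, neg_add_cancel, hzero])
  have hpow : ∀ c, ψ c ^ p = 1 := fun c => by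
    have : ∀ n : ℕ, ψ c ^ n = ψ (n • c) := fun n => by
      induction n with
      | zero => simp [hzero]
      | succ n ih => rw [pow_succ, ih, ← hadd, succ_nsmul]
    rw [this, ← Nat.cast_smul_eq_nsmul (ZMod p), ZMod.natCast_self, zero_smul, hzero]
  let Γ : Subgroup (G × SL(2, ZMod p)) :=
    { carrier := {x | ∀ c, x.1 * ψ c * x.1⁻¹ = ψ (x.2 • c)}
      one_mem' := fun c => by simp
      mul_mem' := fun {x y} hx hy c => by
        rw [Prod.fst_mul, Prod.snd_mul, mul_smul, ← hx, ← hy]; group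
      inv_mem' := fun {x} hx c => by
        have := hx (x.2⁻¹ • c)
        rw [smul_inv_smul] at this
        rw [Prod.fst_inv, Prod.snd_inv, ← this]; group }
  let π : Γ →* SL(2, ZMod p) := (MonoidHom.snd _ _).comp Γ.subtype
  have ev : ∀ c : Fin 2 → ZMod p, c = ![c 0, c 1] := fun c => by ext i; fin_cases i <;> rfl
  have hπ : ∀ s : SL(2, ZMod p), s.1 1 0 = 0 → s ∈ π.range := fun s hs => by
    let d : SL(2, ZMod p) := ⟨!![m, 0; 0, (m : ZMod p)⁻¹], by simp [det_fin_two, hm0]⟩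
    have hd : ∀ k : ℕ, (d ^ k).1 = !![(m : ZMod p) ^ k, 0; 0, ((m : ZMod p) ^ k)⁻¹] := fun k => by
      induction k with
      | zero => ext i j; fin_cases i <;> fin_cases j <;> simp
      | succ k ih =>
        rw [pow_succ]
        change (d ^ k).1 * !![(m : ZMod p), 0; 0, (m : ZMod p)⁻¹] = _
        rw [ih]
        ext i j; fin_cases i <;> fin_cases j <;> simp [pow_succ, mul_comm]
    have h1 : QdFacts.u p ∈ π.range := ⟨⟨(a, QdFacts.u p), fun c => by
      rw [ha, smul_eq, ev c]; simp only [QdFacts.u, mv]; simp⟩, rfl⟩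
    have h2 : d ∈ π.range := ⟨⟨(t, d), fun c => by rw [ht, smul_eq, ev c]; simp only [d, mv]; simp⟩, rfl⟩
    have h3 := s.2
    rw [det_fin_two, hs, mul_zero, sub_zero] at h3
    have h4 : s.1 0 0 ≠ 0 := left_ne_zero_of_mul_eq_one h3
    obtain ⟨k, hk⟩ := hm _ h4
    have : s = d ^ k * QdFacts.u p ^ ((s.1 0 0)⁻¹ * s.1 0 1).val := Subtype.ext (by
      change _ = (d ^ k).1 * (QdFacts.u p ^ _).1
      rw [hd, QdFacts.u_pow, hk]
      ext i j; fin_cases i <;> fin_cases j <;> simp [hs, h4, eq_inv_of_mul_eq_one_right h3])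
    rw [this]
    exact mul_mem (pow_mem h2 k) (pow_mem h1 _)
  have : Fact (Even (Fintype.card (Fin 2))) := ⟨by simp⟩
  obtain ⟨ζ, hζ0, hζ, hζn, hfpf⟩ : ∃ ζ : SL(2, ZMod p), ζ.1 1 0 = 0 ∧ ζ ^ 2 = 1 ∧
      (zpowers ζ).Normal ∧ ∀ c : Fin 2 → ZMod p, ζ • c = c → c = 0 := by
    refine ⟨-1, by simp, by simp, normal_of_conj_le fun g => by rw [conj_zpowers]; simp, fun c hc => ?_⟩
    rw [show (-1 : SL(2, ZMod p)) • c = -c by simp [smul_eq, neg_mulVec], neg_eq_iff_add_eq_zero,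
      ← two_smul (ZMod p)] at hc
    exact (smul_eq_zero.mp hc).resolve_left (QdFacts.two_ne_zero_zmod hp2)
  set C := (zpowers ζ).comap π
  have hCn : C.Normal := Normal.comap hζn π
  obtain ⟨S, hS⟩ := exists_isSylowIn 2 C
  have hSm : S.map π = zpowers ζ := by
    have := hS.map π
    rw [map_comap_eq, inf_eq_right.mpr (zpowers_le.mpr (hπ ζ hζ0))] at this
    exact this.eq_of_isPGroup (isPGroup_zpowers (k := 1) (by simpa using hζ))
  obtain ⟨z, hzS, hz⟩ : ζ ∈ S.map π := hSm ▸ mem_zpowers _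
  have hM : ∀ s : SL(2, ZMod p), s.1 1 0 = 0 → ∃ m ∈ normalizer (S : Set Γ), π m = s := fun s hs => by
    obtain ⟨g, rfl⟩ := hπ s hs
    obtain ⟨n, hn, x, hx, rfl⟩ := hS.frattini (normal_iff_top_le.mp hCn (mem_top g))
    obtain ⟨y, hy, he⟩ : π n ∈ S.map π := hSm ▸ hn
    exact ⟨y * x, mul_mem (le_normalizer hy) hx, by rw [map_mul, map_mul, he]⟩
  let ι : Γ →* G := (MonoidHom.fst _ _).comp Γ.subtype
  set M := (normalizer (S : Set Γ)).map ι
  have hMV : ∀ c, ψ c ∈ M → c = 0 := by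
    rintro c ⟨m, hm, he⟩
    have h1 : ⁅m, z⁆ ∈ S := mul_mem ((mem_normalizer_iff.mp hm z).mp hzS) (inv_mem hzS)
    obtain ⟨k, hk⟩ := isPGroup_iff_forall_mem.mp hS.isPGroup _ h1
    have h2 : ι ⁅m, z⁆ = ψ (c + -(ζ • c)) := by
      have := z.2 c
      change ι z * _ * (ι z)⁻¹ = ψ (π z • _) at this
      rw [hz] at this
      rw [map_commutatorElement, he, hadd, hneg, ← this, commutatorElement_def]
      group
    have h3 : ψ (c + -(ζ • c)) ^ 2 ^ k = 1 := by rw [← h2, ← map_pow, hk, map_one]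
    have h4 := pow_gcd_eq_one.mpr ⟨hpow _, h3⟩
    rw [Nat.Coprime.gcd_eq_one (Nat.Coprime.pow_right k
      ((Nat.coprime_primes hp.out Nat.prime_two).mpr hp2)), pow_one] at h4
    exact hfpf c (add_neg_eq_zero.mp (hinj _ h4)).symm
  have hle : fOver (ZMod p) ≤ qd p := fun q hq => mem_qd_iff.mpr (mem_fOver.mp hq).2
  let j := inclusion hle
  refine involves_of_graph
    { carrier := {x | ∀ c, (ψ (qdAct (j x.2) c))⁻¹ * x.1 * ψ c ∈ M}
      one_mem' := fun c => by simp [qdAct_one]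
      mul_mem' := fun {x y} hx hy c => by
        have := mul_mem (hx (qdAct (j y.2) c)) (hy c)
        rw [Prod.fst_mul, Prod.snd_mul, map_mul, qdAct_mul]
        convert this using 1; group
      inv_mem' := fun {x} hx c => by
        have := inv_mem (hx (qdAct (j x.2⁻¹) c))
        rw [← qdAct_mul, ← map_mul, mul_inv_cancel, map_one, qdAct_one] at this
        rw [Prod.fst_inv, Prod.snd_inv]
        convert this using 1; group }
    (fun q hq => inclusion_injective hle ((eq_one_of_qdAct fun c => ?_).trans (map_one j).symm)) fun q => ?_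
  · have := hq c
    rw [mul_one, ← hneg, ← hadd] at this
    exact neg_add_eq_zero.mp (hMV _ this)
  · obtain ⟨m, hm, he⟩ := hM (qdLin p (j q)) (by rw [qdLin_coe]; exact (mem_fOver.mp q.2).1)
    refine ⟨ψ ![q.1.1 0 2, q.1.1 1 2] * ι m, fun c => ?_⟩
    have := m.2 c
    change ι m * _ * (ι m)⁻¹ = ψ (π m • _) at this
    change (ψ (qdAct (j q) c))⁻¹ * (_ * ι m) * ψ c ∈ M
    rw [qdAct, add_comm, hadd, ← smul_eq, ← he, ← this]
    convert mem_map_of_mem ι hm using 1
    change _ * (ψ ![(j q).1.1 0 2, (j q).1.1 1 2] * _) * _ = _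
    group

theorem trace_of_pow_pow {K : Type*} [Field K] [CharP K p] {A : SL(2, K)} {k : ℕ} (h : A ^ p ^ k = 1) :
    A.1.trace = 2 := by
  have h1 : IsNilpotent (A.1 - 1) := ⟨p ^ k, by
    rw [sub_pow_char_pow_of_commute p k (Commute.one_right _), one_pow]
    have := congrArg Subtype.val h
    simpa [sub_eq_zero] using this⟩
  have := (isNilpotent_trace_of_isNilpotent h1).eq_zero
  rw [trace_sub] at this
  simpa [sub_eq_zero] using this

theorem exists_diag {K : Type*} [Field K] [Fintype K] [CharP K p] (hp2 : p ≠ 2) {lam : K} (hlam : lam ≠ 0)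
    (H : Subgroup SL(2, K)) {x y : SL(2, K)} (hx : x ∈ H) (hy : y ∈ H)
    (ex : x.1 = !![1, lam; 0, 1]) (ey : y.1 = !![1, 0; 1, 1]) {m : ℕ} (hm0 : (m : ZMod p) ≠ 0) :
    ∃ s ∈ H, s.1 1 0 = 0 ∧ s.1 0 0 = m := by
  have h2 : (2 : K) ≠ 0 := fun h => hp2 ((Nat.prime_dvd_prime_iff_eq hp.out Nat.prime_two).mp
    ((CharP.cast_eq_zero_iff K p 2).mp (by exact_mod_cast h)))
  obtain ⟨A, hA, B, hB, v, w, hv, a1, a2, a3, a4⟩ := DicksonPair.exists_std_pair h2 hlam H hx hy ex ey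
  let σ := ZMod.castHom (dvd_refl p) K
  let ι : (Fin 2 → ZMod p) →+ (Fin 2 → K) := AddMonoidHom.mk' (fun c => σ (c 0) • v + σ (c 1) • w)
    fun c d => by simp only [Pi.add_apply, map_add, add_smul]; abel
  have hι : ∀ c, ι c = σ (c 0) • v + σ (c 1) • w := fun _ => rfl
  have ev : ∀ c : Fin 2 → ZMod p, c = ![c 0, c 1] := fun c => by ext i; fin_cases i <;> rfl
  have hT := SL2_eq_top (induced (Representation.ofDistribMulAction ℤ SL(2, K) (Fin 2 → K)) H ι)
    (fun s hs => ⟨A, hA, fun c => by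
      rw [smul_eq, hs, ev c, mv, Representation.ofDistribMulAction_apply_apply, smul_eq, hι, hι, mulVec_add,
        mulVec_smul, mulVec_smul, a1, a2]
      simp [add_smul, add_assoc]⟩)
    (fun s hs => ⟨B, hB, fun c => by
      rw [smul_eq, hs, ev c, mv, Representation.ofDistribMulAction_apply_apply, smul_eq, hι, hι, mulVec_add,
        mulVec_smul, mulVec_smul, a3, a4]
      simp [add_smul, add_assoc]⟩)
  obtain ⟨d, hd, hd'⟩ := hT.ge (mem_top ⟨!![m, 0; 0, (m : ZMod p)⁻¹], by simp [det_fin_two, hm0]⟩)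
  have hdv : d.1 *ᵥ v = (m : K) • v := by
    have : d.1 *ᵥ ι ![1, 0] = ι (!![(m : ZMod p), 0; 0, (m : ZMod p)⁻¹] *ᵥ ![1, 0]) := hd' ![1, 0]
    rw [mv, hι, hι] at this
    simpa using this
  have hA1 : (A.1 - 1) * (A.1 - 1) = 0 := by
    have d1 := A.2
    have e0 := congrFun a1 0
    have e1 := congrFun a1 1
    simp only [mulVec, dotProduct, Fin.sum_univ_two] at e0 e1
    rw [det_fin_two] at d1
    have ht : A.1 0 0 + A.1 1 1 = 2 := by
      by_contra hn
      refine hv (funext fun i => ?_)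
      have h3 := sub_ne_zero.mpr hn
      fin_cases i <;> refine mul_left_cancel₀ h3 ?_
      · simp only [Fin.zero_eta, Pi.zero_apply]; linear_combination (1 - A.1 1 1) * e0 + A.1 0 1 * e1 + v 0 * d1
      · simp only [Fin.mk_one, Pi.zero_apply]; linear_combination (1 - A.1 0 0) * e1 + A.1 1 0 * e0 + v 1 * d1
    ext i j
    fin_cases i <;> fin_cases j <;> simp [mul_apply, Fin.sum_univ_two, one_apply]
    · linear_combination A.1 0 0 * ht - d1
    · linear_combination A.1 0 1 * ht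
    · linear_combination A.1 1 0 * ht
    · linear_combination A.1 1 1 * ht - d1
  have pw : ∀ X : SL(2, K), (X.1 - 1) * (X.1 - 1) = 0 → X ^ p ^ 1 = 1 := fun X h => Subtype.ext (by
    have := sub_pow_char_of_commute p (Commute.one_right X.1)
    rw [pow_eq_zero_of_le hp.out.two_le (by rwa [sq]), one_pow] at this
    simpa using sub_eq_zero.mp this.symm)
  have hxp := pw x (by rw [ex]; ext i j; fin_cases i <;> fin_cases j <;> simp [mul_apply, Fin.sum_univ_two])
  obtain ⟨P, hP, hxP⟩ := exists_isSylowIn_ge (zpowers_le.mpr hx) (isPGroup_zpowers hxp)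
  obtain ⟨g, hg, hg'⟩ := hP.exists_conj_le (zpowers_le.mpr hA) (isPGroup_zpowers (pw A hA1))
  have hA' : g * A * g⁻¹ ∈ P := hg' (conj_mem_conj g (mem_zpowers A))
  set A' := g * A * g⁻¹ with hA'e
  obtain ⟨k, hk⟩ := isPGroup_iff_forall_mem.mp hP.isPGroup _ hA'
  obtain ⟨j, hj⟩ := isPGroup_iff_forall_mem.mp hP.isPGroup _ (mul_mem hA' (hxP (mem_zpowers x)))
  have t1 := trace_of_pow_pow hk
  have t2 := trace_of_pow_pow hj
  have d1 := A'.2
  rw [show (A' * x).1 = A'.1 * x.1 from rfl, ex] at t2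
  simp only [trace_fin_two, mul_apply, Fin.sum_univ_two, det_fin_two] at t1 t2 d1
  simp at t2
  have c1 : A'.1 1 0 = 0 := mul_right_cancel₀ hlam (by linear_combination t2 - t1)
  have c2 : A'.1 0 0 = 1 := by
    have : (A'.1 0 0 - 1) ^ 2 = 0 := by rw [c1] at d1; linear_combination A'.1 0 0 * t1 - d1
    exact sub_eq_zero.mp (pow_eq_zero_iff two_ne_zero |>.mp this)
  have c3 : A'.1 1 1 = 1 := by linear_combination t1 - c2
  have c4 : A'.1 0 1 ≠ 0 := fun h => hv (by
    have : A' = 1 := by ext i j; fin_cases i <;> fin_cases j <;> simp [c1, c2, c3, h]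
    rw [hA'e, conj_eq_one_iff] at this
    simpa [this] using a2)
  have f1 : A'.1 *ᵥ (g • v) = g • v := by
    rw [← smul_eq, hA'e, smul_smul, inv_mul_cancel_right, mul_smul, smul_eq A, a1]
  have f2 : (g * d * g⁻¹).1 *ᵥ (g • v) = (m : K) • g • v := by
    rw [← smul_eq, smul_smul, inv_mul_cancel_right, mul_smul, smul_eq d, hdv, smul_eq, smul_eq, mulVec_smul]
  have f3 : g • v ≠ 0 := fun h => hv (by simpa using congrArg (g⁻¹ • ·) h)
  generalize g • v = z at f1 f2 f3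
  have z1 : z 1 = 0 := by
    have := congrFun f1 0
    simpa [mulVec, dotProduct, Fin.sum_univ_two, c2, c4] using this
  have z0 : z 0 ≠ 0 := fun h => f3 (funext fun i => by fin_cases i <;> simp [h, z1])
  refine ⟨g * d * g⁻¹, mul_mem (mul_mem hg hd) (inv_mem hg), ?_, ?_⟩
  · simpa [mulVec, dotProduct, Fin.sum_univ_two, z0, z1] using congrFun f2 1
  · simpa [mulVec, dotProduct, Fin.sum_univ_two, z0, z1] using congrFun f2 0

open scoped IsMulCommutative in
/-- coordinates on an irreducible module with two quadratic generators -/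
theorem exists_coord [Finite G] {M : Subgroup G} [M.Normal] (hMc : IsMulCommutative M) (hMp : IsPGroup p M)
    {x y : G} (hx : Quad M x) (hy : Quad M y)
    (hirr : ∀ W : Subgroup G, W ≤ M → x ∈ normalizer (W : Set G) → y ∈ normalizer (W : Set G) →
      W = ⊥ ∨ W = M) (hnt : ¬ closure {x, y} ≤ centralizer (M : Set G)) :
    ∃ (K : Type) (_ : Field K) (_ : Fintype K) (_ : CharP K p) (lam : K) (E : (Fin 2 → K) → G), lam ≠ 0 ∧
      (∀ c d, E (c + d) = E c * E d) ∧ (∀ c, E c = 1 → c = 0) ∧ (∀ u, u ∈ M ↔ ∃ c, E c = u) ∧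
      (∀ c, x * E c * x⁻¹ = E (!![1, lam; 0, 1] *ᵥ c)) ∧ ∀ c, y * E c * y⁻¹ = E (!![1, 0; 1, 1] *ᵥ c) := by
  have hirr' : ∀ W : Submodule ℤ (Additive M), (∀ a ∈ W, conjRep M x a ∈ W) → (∀ a ∈ W, conjRep M y a ∈ W) →
      W = ⊥ ∨ W = ⊤ := fun W h1 h2 => by
    let W' : Subgroup G := (AddSubgroup.toSubgroup' W.toAddSubgroup).map M.subtype
    have key : ∀ g : G, (∀ a ∈ W, conjRep M g a ∈ W) → g ∈ normalizer (W' : Set G) := fun g hg =>
      mem_normalizer_of_conj_le (conj_le_iff.mpr (by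
        rintro _ ⟨a, ha, rfl⟩
        exact ⟨_, hg (Additive.ofMul a) ha, rfl⟩))
    rcases hirr W' (map_subtype_le _) (key x h1) (key y h2) with h | h
    · left
      rw [eq_bot_iff]
      intro a ha
      have : (a.toMul : G) ∈ W' := ⟨a.toMul, ha, rfl⟩
      rw [h, mem_bot] at this
      exact Additive.toMul.injective (Subtype.ext this)
    · right
      rw [eq_top_iff]
      rintro a -
      obtain ⟨b, hb, he⟩ : (a.toMul : G) ∈ W' := h.ge a.toMul.2
      have : b = a.toMul := Subtype.ext he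
      subst this
      exact hb
  obtain ⟨K, _, _, lam, e, h0, -, hinj, hxe, hye⟩ := exists_field (conjRep M) (conjRep_quad M hx)
    (conjRep_quad M hy) hirr' (by
      by_contra h
      push Not at h
      refine hnt ((closure_le _).mpr ?_)
      have key : ∀ g : G, conjRep M g = 1 → g ∈ centralizer (M : Set G) := fun g hg a ha => by
        have := conjRep_apply M g (Additive.ofMul ⟨a, ha⟩)
        rw [hg] at this
        exact eq_mul_inv_iff_mul_eq.mp this
      rintro g (rfl | rfl)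
      exacts [key _ h.1, key _ h.2])
  have hv : e ![1, 0] ≠ 0 := fun h => by
    simpa using congrFun (hinj (h.trans (map_zero e).symm)) 0
  have hK : CharP K p := by
    obtain ⟨k, hk⟩ := hMp (e ![1, 0]).toMul
    have : e (p ^ k • ![1, 0]) = e 0 := by rw [map_nsmul, map_zero]; exact hk
    have := congrFun (hinj this) 0
    simp at this
    exact (CharP.charP_iff_prime_eq_zero hp.out).mpr this.1
  have hs := (hirr' (AddSubgroup.toIntSubmodule e.range) (by rintro _ ⟨c, rfl⟩; exact ⟨_, (hxe c).symm⟩)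
    (by rintro _ ⟨c, rfl⟩; exact ⟨_, (hye c).symm⟩)).resolve_left fun h =>
      hv (h.le (show e ![1, 0] ∈ AddSubgroup.toIntSubmodule e.range from ⟨_, rfl⟩))
  let c : Additive M → G := fun a => a.toMul
  refine ⟨K, _, inferInstance, hK, lam, fun d => c (e d), h0, fun a b => congrArg c (map_add e a b),
    fun a ha => hinj ((Additive.toMul.injective (Subtype.ext ha)).trans (map_zero e).symm),
    fun u => ⟨fun hu => ?_, by rintro ⟨d, rfl⟩; exact (e d).toMul.2⟩,
    fun d => congrArg c (hxe d), fun d => congrArg c (hye d)⟩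
  obtain ⟨d, hd⟩ := hs.ge (Submodule.mem_top (x := Additive.ofMul (⟨u, hu⟩ : M)))
  exact ⟨d, congrArg c hd⟩

theorem irr [Finite G] (hp2 : p ≠ 2) {m : ℕ} (hm : ∀ μ : ZMod p, μ ≠ 0 → ∃ k, (m : ZMod p) ^ k = μ)
    (hm0 : (m : ZMod p) ≠ 0) {M N : Subgroup G} [hMn : M.Normal] (hMc : IsMulCommutative M) (hMp : IsPGroup p M)
    {x y : G} (hxp : IsPGroup p (zpowers x)) (hx : Quad M x) (hy : Quad M y)
    (hirr : ∀ W : Subgroup G, W ≤ M → x ∈ normalizer (W : Set G) → y ∈ normalizer (W : Set G) →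
      W = ⊥ ∨ W = M) (hnt : ¬ closure {x, y} ≤ centralizer (M : Set G))
    (hN : ∀ P : Subgroup G, IsPGroup p P → x ∈ P → normalizer (P : Set G) ≤ N) (hMN : M ≤ N) :
    (∃ t ∈ N, ∀ u ∈ M ⊓ centralizer {x}, t * u * t⁻¹ = u ^ m) ∧ Involves (fOver (ZMod p)) N := by
  obtain ⟨K, _, _, _, lam, E, h0, hadd, hinj, hM, hxe, hye⟩ := exists_coord hMc hMp hx hy hirr hnt
  have hzero : E 0 = 1 := by simpa using hadd 0 0
  have hinj' : ∀ c d, E c = E d → c = d := fun c d h => sub_eq_zero.mp (hinj _ (by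
    have := hadd (c - d) d
    rw [sub_add_cancel, h] at this
    simpa using this))
  have hpow : ∀ c (n : ℕ), E c ^ n = E ((n : K) • c) := fun c n => by
    induction n with
    | zero => simp [hzero]
    | succ n ih => rw [pow_succ, ih, ← hadd, Nat.cast_succ, add_smul, one_smul]
  have ev : ∀ c : Fin 2 → K, c = ![c 0, c 1] := fun c => by ext i; fin_cases i <;> rfl
  let Γ : Subgroup (G × SL(2, K)) :=
    { carrier := {x | ∀ c, x.1 * E c * x.1⁻¹ = E (x.2 • c)}
      one_mem' := fun c => by simp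
      mul_mem' := fun {x y} hx hy c => by
        rw [Prod.fst_mul, Prod.snd_mul, mul_smul, ← hx, ← hy]; group
      inv_mem' := fun {x} hx c => by
        have := hx (x.2⁻¹ • c)
        rw [smul_inv_smul] at this
        rw [Prod.fst_inv, Prod.snd_inv, ← this]; group }
  have m1 : (x, (⟨!![1, lam; 0, 1], by simp [det_fin_two]⟩ : SL(2, K))) ∈ Γ := hxe
  have m2 : (y, (⟨!![1, 0; 1, 1], by simp [det_fin_two]⟩ : SL(2, K))) ∈ Γ := hye
  obtain ⟨_, ⟨⟨t₀, s₀⟩, ht₀, rfl⟩, e1, e2⟩ := exists_diag hp2 h0 (Γ.map (MonoidHom.snd _ _))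
    (mem_map_of_mem _ m1) (mem_map_of_mem _ m2) rfl rfl hm0
  set U := M ⊓ centralizer {x}
  have hU : ∀ u, u ∈ U ↔ ∃ z, E ![z, 0] = u := fun u => by
    constructor
    · rintro ⟨h1, h2⟩
      obtain ⟨c, rfl⟩ := (hM u).mp h1
      have h3 := mul_inv_eq_iff_eq_mul.mpr (mem_centralizer_singleton_iff.mp h2).symm
      rw [hxe, ev c, mv] at h3
      have := congrFun (hinj' _ _ h3) 0
      simp [h0] at this
      exact ⟨c 0, by rw [← this, ← ev c]⟩
    · rintro ⟨z, rfl⟩
      refine ⟨(hM _).mpr ⟨_, rfl⟩, mem_centralizer_singleton_iff.mpr (mul_inv_eq_iff_eq_mul.mp ?_).symm⟩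
      rw [hxe, mv]; simp
  have ht : ∀ u ∈ U, t₀ * u * t₀⁻¹ = u ^ m := fun u hu => by
    obtain ⟨z, rfl⟩ := (hU u).mp hu
    rw [show t₀ * E ![z, 0] * t₀⁻¹ = _ from ht₀ _, hpow, smul_eq]
    congr 1
    change s₀.1 1 0 = 0 at e1
    change s₀.1 0 0 = m at e2
    ext i; fin_cases i <;> simp [mulVec, dotProduct, Fin.sum_univ_two, e1, e2]
  set X := Γ.map (MonoidHom.fst _ _) ⊓ normalizer (U : Set G)
  have hxU : x ∈ centralizer (U : Set G) := fun u hu => mem_centralizer_singleton_iff.mp hu.2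
  obtain ⟨P, hP, hxP⟩ := exists_isSylowIn_ge (H := X ⊓ centralizer (U : Set G))
    (zpowers_le.mpr ⟨⟨mem_map_of_mem _ m1, centralizer_le_normalizer _ hxU⟩, hxU⟩) hxp
  obtain ⟨k, hk, n, hn, e⟩ := hP.frattini_mem inf_le_left
    (le_normalizer_inf le_normalizer (le_normalizer_centralizer inf_le_right)) (g := t₀)
    ⟨mem_map_of_mem _ ht₀, mem_normalizer_of_conj_le (conj_le_iff.mpr fun u hu => ht u hu ▸ pow_mem hu m)⟩
  have hnN := hN P hP.isPGroup (hxP (mem_zpowers x)) hn.2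
  have hn' : ∀ u ∈ U, n * u * n⁻¹ = u ^ m := fun u hu => by
    have h1 := ht u hu
    have h2 := hk.2 _ ((mem_normalizer_iff.mp hn.1.2 u).mp hu)
    rw [← h1, e, show k * n * u * (k * n)⁻¹ = k * (n * u * n⁻¹) * k⁻¹ by group, ← h2]; group
  refine ⟨⟨n, hnN, hn'⟩, ?_⟩
  obtain ⟨⟨n, s⟩, hs, rfl⟩ := hn.1.1
  replace hs : ∀ c, n * E c * n⁻¹ = E (s.1 *ᵥ c) := hs
  change n ∈ N at hnN
  have f1 := hn' _ ((hU _).mpr ⟨1, rfl⟩)
  change n * _ * n⁻¹ = _ at f1
  rw [hs, hpow] at f1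
  have f2 := congrFun (hinj' _ _ f1) 0
  have f3 := congrFun (hinj' _ _ f1) 1
  simp [mulVec, dotProduct, Fin.sum_univ_two] at f2 f3
  let σ := ZMod.castHom (dvd_refl p) K
  have hm1 : (m : K) ≠ 0 := by rw [← map_natCast σ]; exact (_root_.map_ne_zero σ).mpr hm0
  have f4 : s.1 1 1 = (m : K)⁻¹ := by
    have := s.2
    rw [det_fin_two, f2, f3, mul_zero, sub_zero] at this
    exact eq_inv_of_mul_eq_one_right this
  have hs' : ∀ a b, n * E ![a, b] * n⁻¹ = E ![m * a + s.1 0 1 * b, (m : K)⁻¹ * b] := fun a b => by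
    rw [hs]; congr 1
    ext i; fin_cases i <;> simp [mulVec, dotProduct, Fin.sum_univ_two, f2, f3, f4]
  obtain ⟨t, htN, β, ht'⟩ : ∃ t ∈ N, ∃ β : K, ∀ a b,
      t * E ![a + b * β, b] * t⁻¹ = E ![m * a + (m : K)⁻¹ * b * β, (m : K)⁻¹ * b] := by
    by_cases h1 : (m : K)⁻¹ = m
    · have h2 : (m : K) * m = 1 := by nth_rewrite 1 [← h1]; exact inv_mul_cancel₀ hm1
      have h3 : (3 : K) = 0 := by
        obtain ⟨k, hk⟩ := hm 2 (QdFacts.two_ne_zero_zmod hp2)
        have := congrArg σ hk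
        rw [map_pow, map_natCast, map_ofNat] at this
        have h4 : ((m : K) ^ k) ^ 2 = 1 := by rw [← pow_mul, mul_comm, pow_mul, sq, h2, one_pow]
        rw [this] at h4
        linear_combination h4
      refine ⟨n * n * n, mul_mem (mul_mem hnN hnN) hnN, 0, fun a b => ?_⟩
      rw [show ∀ u, n * n * n * u * (n * n * n)⁻¹ = n * (n * (n * u * n⁻¹) * n⁻¹) * n⁻¹ from fun u => by group,
        hs', hs', hs', h1]
      congr 2
      · linear_combination (m * a + 3 * s.1 0 1 * b) * h2 + s.1 0 1 * b * h3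
      · congr 1; linear_combination m * b * h2
    · refine ⟨n, hnN, s.1 0 1 / ((m : K)⁻¹ - m), fun a b => ?_⟩
      rw [hs']
      congr 2
      have := sub_ne_zero.mpr h1
      generalize (m : K)⁻¹ = r at this
      field_simp
      ring
  have mN : ∀ c, E c ∈ N := fun c => hMN ((hM _).mpr ⟨c, rfl⟩)
  refine involves_F_of hp2 hm hm0 (fun c => ⟨E ![lam * σ (c 0) + σ (c 1) * β, σ (c 1)], mN _⟩)
    (fun c d => Subtype.ext ?_) (fun c hc => ?_) (a := ⟨x, hN _ hxp (mem_zpowers x) (le_normalizer (mem_zpowers x))⟩)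
    (t := ⟨t, htN⟩) (fun c => Subtype.ext ?_) fun c => Subtype.ext ?_
  · change _ = E _ * E _
    rw [← hadd, QuadPair.vec_add]
    simp only [Pi.add_apply, map_add]
    congr 2; ring
  · have := hinj _ (congrArg Subtype.val hc)
    have h1 := congrFun this 1
    have h2 := congrFun this 0
    simp at h1
    simp [h1, h0] at h2
    ext i; fin_cases i <;> simp [h1, h2]
  · change x * E _ * x⁻¹ = E _
    rw [hxe, mv]
    congr 2 <;> simp
    ring
  · change t * E _ * t⁻¹ = E _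
    rw [ht']
    congr 2 <;> simp
    ring

end Cfsg.Agent.Lib.FSection
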