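import Cfsg.Agent.Lib.Fi22AR

set_option autoImplicit false
set_option maxRecDepth 100000

namespace Cfsg.Agent.Lib.Fi22A
open Cfsg.Agent.Lib.PermNet

theorem tr_0 : subB (ones 3510) (grow nets allg [1, 0, 2, 3, 1, 4, 7, 5, 8, 3, 2, 6, 4, 7, 3, 1, 5, 4, 2, 7, 8, 3, 5, 1, 0, 6, 7, 8, 2, 4, 3, 1, 5, 0, 6, 2, 7, 1, 3, 2] (pt 0)) = true := by decide +kernel

theorem fix0 : fixB nets hs (pt 0) = true := by decide +kernel

theorem o0_0 : subB (ivl 1 693) (grow nets hs [1, 3, 6, 2, 4, 7, 5, 3, 6, 4, 2, 1, 3, 8, 7, 4, 6, 3, 5, 2, 1, 4, 6, 7, 2] (pt 1)) = true := by decide +kernel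

theorem fix1 : fixB nets hs (ivl 1 693) = true := by decide +kernel

theorem o1_0 : subB (ivl 694 2816) (grow nets hs [0, 1, 2, 3, 6, 4, 7, 2, 5, 1, 3, 6, 2, 4, 3, 6, 1, 7, 4, 2, 5, 6, 1, 3, 4, 2, 8, 4, 7, 5, 6, 3, 2, 1] (pt 694)) = true := by decide +kernel

theorem fix2 : fixB nets hs (ivl 694 2816) = true := by decide +kernel

theorem ch_0 : levelB nets [[0], [2], [4], [6], [8], [10], [12], [14], [16]] [] 0 [1, 0, 2, 3, 1, 4, 7, 5, 8, 3, 2, 6, 4, 7, 3, 1, 5, 4, 2, 7, 8, 3, 5, 1, 0, 6, 7, 8, 2, 4, 3, 1, 5, 0, 6, 2, 7, 1, 3, 2] 0 3510 3510 = true := by decide +kernel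

theorem ch_1 : levelB nets [[0], [4], [6], [8], [10], [12], [14], [16], [18]] [0] 694 [0, 1, 2, 3, 6, 4, 7, 8, 2, 5, 1, 4, 7, 6, 2, 3, 1, 8, 7, 2, 4, 5, 6, 8, 7, 4, 3, 2, 8, 1] 694 2816 2816 = true := by decide +kernel

theorem ch_2 : levelB nets [[6], [8], [10], [12], [14], [16], [18]] [694, 0] 855 [1, 3, 5, 2, 6, 0, 4, 1, 3, 2, 5, 0, 4, 1, 3, 0, 6, 5, 2, 1, 2] 855 2655 1680 = true := by decide +kernel

theorem ch_3 : levelB nets [[6], [20], [22]] [855, 694, 0] 16 [0, 1, 2, 1, 0, 2, 1, 2, 1, 0, 1, 2, 0] 16 676 243 = true := by decide +kernel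

theorem ch_4 : levelB nets [[6, 21, 22, 6], [6, 21, 6, 20, 6], [20, 23, 20, 20, 23]] [16, 855, 694, 0] 2 [0, 1, 2, 0, 0] 2 341 16 = true := by decide +kernel

theorem rels0_0 : RelsOn nets 3510 12 rels0 0 8 :=
  relsOn_of_B _ _ _ _ _ 8 _ (by decide +kernel) (by decide +kernel)

end Cfsg.Agent.Lib.Fi22A
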