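import Cfsg.Agent.Lib.Fi22AR

set_option autoImplicit false
set_option maxRecDepth 100000

namespace Cfsg.Agent.Lib.Fi22A
open Cfsg.Agent.Lib.PermNet

theorem rels0_8 : RelsOn nets 3510 12 rels0 8 12 :=
  relsOn_of_B _ _ _ _ _ 4 _ (by decide +kernel) (by decide +kernel)

end Cfsg.Agent.Lib.Fi22A
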