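import Cfsg.Agent.Lib.Fi22BR

set_option autoImplicit false
set_option maxRecDepth 100000

namespace Cfsg.Agent.Lib.Fi22B
open Cfsg.Agent.Lib.PermNet

theorem tr_0 : subB (ones 14080) (grow nets allg [0, 1, 2, 3, 4, 7, 5, 8, 3, 6, 2, 4, 1, 7, 3, 0, 2, 5, 4, 7, 1, 3, 5, 8, 0, 6, 2, 7, 4, 1, 3, 8, 4, 5, 7, 2, 0, 3, 6, 4, 7, 8, 2, 5, 1, 6, 3, 2, 3, 4, 5, 1] (pt 0)) = true := by decide +kernel

theorem fix0 : fixB nets hs (pt 0) = true := by decide +kernel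

theorem rels0_0 : RelsOn nets 14080 14 rels0 0 3 :=
  relsOn_of_B _ _ _ _ _ 3 _ (by decide +kernel) (by decide +kernel)

theorem rels0_3 : RelsOn nets 14080 14 rels0 3 6 :=
  relsOn_of_B _ _ _ _ _ 3 _ (by decide +kernel) (by decide +kernel)

end Cfsg.Agent.Lib.Fi22B
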