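import Cfsg.Agent.Lib.Fi22TC
import Cfsg.Agent.Lib.Fi22BC0
import Cfsg.Agent.Lib.Fi22BC1

/-! The presented group Fi22 acting on 14080 points. -/

set_option autoImplicit false
set_option maxRecDepth 100000

namespace Cfsg.Agent.Lib.Fi22B

open Cfsg.Agent.Lib.PermNet Cfsg.Agent.Lib.Words Cfsg.Agent.Lib.PermGroup Cfsg.Agent.Lib.Fi22Base

theorem hrels : ∀ w ∈ relW rels, wval nets.perm w = 1 :=
  relW_one (wval_eq_of_relsOn (K := 14) hv (by norm_num) ((((rels0_0.trans rels0_3).trans rels0_6).trans rels0_9).trans rels0_12))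

/-- The generators followed by the auxiliary elements. -/
def Y : ℕ → Spor.Fi22 := ext y 9 defs

theorem hdefs : ∀ w ∈ defRels 9 defs, wval nets.perm w = 1 :=
  derive I hrels _ (by decide +kernel)

theorem exists_phi : ∃ φ : Spor.Fi22 →* Equiv.Perm ℕ, ∀ i, φ (Y i) = nets.perm i := by
  obtain ⟨φ, h⟩ := exists_hom nets.perm (derive I hrels K (by decide +kernel))
  exact ⟨φ, map_ext φ y 9 defs nets h hdefs (by decide +kernel)⟩

noncomputable def phi : Spor.Fi22 →* Equiv.Perm ℕ := exists_phi.choose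

theorem hphi : ∀ i, phi (Y i) = nets.perm i := exists_phi.choose_spec

theorem gpY (ws : List (List ℕ))
    (hw : ws.all (fun w => w.all (fun l => decide (l < 2 * 9))) = true) : gp Y ws = gp y ws :=
  gp_ext y 9 defs ws hw

theorem hKY : ∀ w ∈ K, wval Y w = 1 := (rels_ext 9 defs (by decide +kernel)).2 hK

theorem htr : InOrb phi.range 0 (ones 14080) := (InOrb.step hv (wval_mem_range hphi _) [0, 1, 2, 3, 4, 7, 5, 8, 3, 6, 2, 4, 1, 7, 3, 0, 2, 5, 4, 7, 1, 3, 5, 8, 0, 6, 2, 7, 4, 1, 3, 8, 4, 5, 7, 2, 0, 3, 6, 4, 7, 8, 2, 5, 1, 6, 3, 2, 3, 4, 5, 1] (inOrb_pt _ 0) tr_0)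

theorem index_hs : (gp Y hs).index = 14080 ∧ ∀ g, g ∈ gp Y hs ↔ phi g 0 = 0 :=
  index_gp_eq hv hphi (by rw [gpY hs (by decide)]; exact Fi22TC.indexA) fix0 htr

theorem index_eq : (gp y hs).index = 14080 := by rw [← gpY hs (by decide)]; exact index_hs.1

end Cfsg.Agent.Lib.Fi22B
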