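import Cfsg.Agent.Lib.TCFiE7P

set_option autoImplicit false
set_option maxRecDepth 100000

namespace Cfsg.Agent.Lib.TCFiE7
open Cfsg.Agent.Lib.TCCore

theorem k0 : P.RowsS 0 56 := P.rowsS_of_chk _ _ [nat_lit 0x100c040804000704030301040001c081004000601030204010001808041c080804000102070202010001c04141814180414000106050607050000005040301040100014100c140414040c0c0810000101020204000040808101800010203030700004080c101800010703060640005004010040100, nat_lit 0x14040c0c10140410040001020302010600004080c040418000602030001410041410140001040105040500014040c14101404000701030606060001c1c04181818000707030106060001c1c0c180404040804000702010201040001c080c0400050103040301000140804100c040005020301, nat_lit 0x1020204000040804080810000701050605060105000141814041c1400050601060705000140414181c140002040600004080408101800060103040303010400004100c04081000010401030204000040c1c0001020104030700014080c10041c00050103040702010400004081c040810000102, nat_lit 0x60001c1c0c18180c04000502030402040100018080c1c08080400070204030302010001c040c0c0810000700014100c14041400050403050401] (by decide +kernel)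
theorem s0 : P.RowsS 0 56 := k0

end Cfsg.Agent.Lib.TCFiE7
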