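import Cfsg.Agent.Lib.Fi22A
import Cfsg.Agent.Lib.TCFiE7
import Cfsg.Agent.Lib.DoubleCover

/-! The group presented by the `Y332` diagram with the spider relator and one `E7` relator: a double cover of Fi22. -/

set_option autoImplicit false
set_option maxRecDepth 100000

namespace Cfsg.Agent.Lib.Fi22Cover

open Cfsg.Agent.Lib.PermNet Cfsg.Agent.Lib.Words Cfsg.Agent.Lib.PermGroup 

def es : List E := [(.pow (.mul (.mul (.mul (.mul (.mul (.mul (.mul (.mul (.g 3) (.g 2)) (.g 1)) (.g 3)) (.g 4)) (.g 5)) (.g 3)) (.g 7)) (.g 8)) 10),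
  (.pow (.mul (.mul (.mul (.mul (.mul (.mul (.g 0) (.g 1)) (.g 2)) (.g 3)) (.g 4)) (.g 5)) (.g 7)) 9)]

def extra : List (FreeGroup Spor.Fi22.Gen) := es.map (E.eval fun i => FreeGroup.of (Fi22Base.gen i))

/-- The covering group. -/
abbrev Cov : Type := Spor.CoxPresented Spor.Fi22.Gen Spor.Fi22.edges extra

def y (i : ℕ) : Cov := PresentedGroup.of (Fi22Base.gen i)

def K : List (List ℕ) := allK Spor.Fi22.edges Fi22Base.idx es

def I : List ℕ := [0, 1, 2, 3, 4, 5, 6, 7, 8]

theorem hex : extra = es.map (E.eval fun i => FreeGroup.of (Fi22Base.gen i)) := by rw [extra]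

theorem hK : ∀ w ∈ K, wval y w = 1 := cox_rels Fi22Base.hgi hex

theorem exists_hom {H : Type*} [Group H] (f : ℕ → H) (hf : ∀ w ∈ K, wval f w = 1) :
    ∃ φ : Cov →* H, ∀ i < 9, φ (y i) = f i :=
  cox_hom 9 (by decide) hex (by decide +kernel) f hf

theorem gp_top {ws : List (List ℕ)} (h : (List.range 9).all (fun i => ws.contains [2 * i]) = true) :
    gp y ws = ⊤ := by
  simp only [List.all_eq_true, List.contains_iff_mem, List.mem_range] at h
  exact cox_gp_top Fi22Base.hgi fun x => h _ (by cases x <;> decide)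

theorem bA : (gp y [[2], [4], [6], [8], [10], [12], [14], [16]]).relIndex (gp y [[0], [2], [4], [6], [8], [10], [12], [14], [16]]) ≠ 0 ∧
    (gp y [[2], [4], [6], [8], [10], [12], [14], [16]]).relIndex (gp y [[0], [2], [4], [6], [8], [10], [12], [14], [16]]) ≤ 14080 :=
  tc_wrap I hK [[0], [2], [4], [6], [8], [10], [12], [14], [16]] TCFiA.bound _ _ (by decide +kernel)

theorem bB : (gp y [[2], [4], [6], [8], [10], [12], [14]]).relIndex (gp y [[2], [4], [6], [8], [10], [12], [14], [16]]) ≠ 0 ∧
    (gp y [[2], [4], [6], [8], [10], [12], [14]]).relIndex (gp y [[2], [4], [6], [8], [10], [12], [14], [16]]) ≤ 3159 :=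
  tc_wrap I hK [[2], [4], [6], [8], [10], [12], [14], [16]] TCFiB.bound _ _ (by decide +kernel)

theorem bE7 : (gp y [[2], [4], [6], [8], [10], [14]]).relIndex (gp y [[2], [4], [6], [8], [10], [12], [14]]) ≠ 0 ∧
    (gp y [[2], [4], [6], [8], [10], [14]]).relIndex (gp y [[2], [4], [6], [8], [10], [12], [14]]) ≤ 56 :=
  tc_wrap I hK [[2], [4], [6], [8], [10], [12], [14]] TCFiE7.bound _ _ (by decide +kernel)

theorem bE6 : (gp y [[4], [6], [8], [10], [14]]).relIndex (gp y [[2], [4], [6], [8], [10], [14]]) ≠ 0 ∧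
    (gp y [[4], [6], [8], [10], [14]]).relIndex (gp y [[2], [4], [6], [8], [10], [14]]) ≤ 27 :=
  tc_wrap I hK [[2], [4], [6], [8], [10], [14]] TCFiE6.bound _ _ (by decide +kernel)

theorem bD5 : (gp y [[4], [6], [8], [10]]).relIndex (gp y [[4], [6], [8], [10], [14]]) ≠ 0 ∧
    (gp y [[4], [6], [8], [10]]).relIndex (gp y [[4], [6], [8], [10], [14]]) ≤ 16 :=
  tc_wrap I hK [[4], [6], [8], [10], [14]] TCFiD5.bound _ _ (by decide +kernel)

theorem bA4 : (gp y []).relIndex (gp y [[4], [6], [8], [10]]) ≠ 0 ∧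
    (gp y []).relIndex (gp y [[4], [6], [8], [10]]) ≤ 120 :=
  tc_wrap I hK [[4], [6], [8], [10]] TCFiA4.bound _ _ (by decide +kernel)

theorem card_top : Nat.card (gp y [[0], [2], [4], [6], [8], [10], [12], [14], [16]]) ≠ 0 ∧
    Nat.card (gp y [[0], [2], [4], [6], [8], [10], [12], [14], [16]]) ≤ 129123503308800 :=
  (card_le_of_relIndex (gp_mono (by decide)) bA
    (card_le_of_relIndex (gp_mono (by decide)) bB
    (card_le_of_relIndex (gp_mono (by decide)) bE7
    (card_le_of_relIndex (gp_mono (by decide)) bE6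
    (card_le_of_relIndex (gp_mono (by decide)) bD5
    (card_le_of_relIndex (gp_mono (by decide)) bA4
    (card_gp_nil y)))))))

theorem card_le : Nat.card Cov ≠ 0 ∧ Nat.card Cov ≤ 2 * Nat.card Spor.Fi22 := by
  have := card_top
  rw [gp_top (by decide), Subgroup.card_top] at this
  rw [Fi22A.card_eq]
  exact this

theorem exists_alpha : ∃ α : Cov →* Spor.Fi22, ∀ i < 9, α (y i) = Fi22Base.y i :=
  exists_hom _ (derive I Fi22Base.hK K (by decide +kernel))

/-- The covering map. -/
noncomputable def alpha : Cov →* Spor.Fi22 := exists_alpha.choose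

theorem alpha_y : ∀ i < 9, alpha (y i) = Fi22Base.y i := exists_alpha.choose_spec

theorem alpha_wval (w : List ℕ) (hw : w.all (fun l => decide (l < 2 * 9)) = true) :
    alpha (wval y w) = wval Fi22Base.y w := by
  rw [map_wval]; exact wval_congr alpha_y (by simpa using hw)

theorem alpha_surjective : Function.Surjective alpha := by
  rw [← MonoidHom.range_eq_top, MonoidHom.range_eq_map, ← gp_top (ws := [[0], [2], [4], [6], [8], [10], [12], [14], [16]]) (by decide),
    map_gp, gp_congr alpha_y (by decide)]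
  exact Fi22Base.gp_top (by decide)

/-- The word `(bcdefgh) ^ 9`. -/
def zw : List ℕ := rep 9 [2, 4, 6, 8, 10, 12, 14]

theorem alpha_z : alpha (wval y zw) = 1 := by
  rw [alpha_wval _ (by decide +kernel)]
  exact derive_one I Fi22Base.hK _ (by decide +kernel)

theorem perfect : commutator Cov = ⊤ := by
  let f : ℕ → Abelianization Cov := fun i => Abelianization.of (y i)
  have hf : ∀ w ∈ K, wval f w = 1 := fun w hw => by rw [← map_wval, hK w hw, map_one]
  have e1 := DoubleCover.eq_of_braid I hf 0 1 (by decide +kernel)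
  have e2 := DoubleCover.eq_of_braid I hf 1 2 (by decide +kernel)
  have e3 := DoubleCover.eq_of_braid I hf 2 3 (by decide +kernel)
  have e4 := DoubleCover.eq_of_braid I hf 3 4 (by decide +kernel)
  have e5 := DoubleCover.eq_of_braid I hf 4 5 (by decide +kernel)
  have e6 := DoubleCover.eq_of_braid I hf 5 6 (by decide +kernel)
  have e7 := DoubleCover.eq_of_braid I hf 3 7 (by decide +kernel)
  have e8 := DoubleCover.eq_of_braid I hf 7 8 (by decide +kernel)
  have h : ∀ i < 9, f i = f 0 := by
    intro i hi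
    interval_cases i <;> simp only [← e8, ← e7, ← e6, ← e5, ← e4, ← e3, ← e2, ← e1]
  have h0 : f 0 * f 0 = 1 := by
    simpa [wval, lval] using derive_one I hf [0, 0] (by decide +kernel)
  have h1 := DoubleCover.wval_const h h0 (rep 9 [0, 2, 4, 6, 8, 10, 14]) (by decide +kernel)
  rw [derive_one I hf _ (by decide +kernel), show (rep 9 [0, 2, 4, 6, 8, 10, 14]).length = 2 * 31 + 1
    by decide +kernel, pow_succ, pow_mul, sq, h0, one_pow, one_mul] at h1
  rw [eq_top_iff, ← gp_top (ws := [[0], [2], [4], [6], [8], [10], [12], [14], [16]]) (by decide), ← Abelianization.ker_of]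
  refine gp_le.2 fun w hw => ?_
  rw [MonoidHom.mem_ker, map_wval, DoubleCover.wval_const h h0 w (by revert w; decide), ← h1, one_pow]

end Cfsg.Agent.Lib.Fi22Cover
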