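import Cfsg.Agent.Lib.Fi23AR

set_option autoImplicit false
set_option maxRecDepth 100000

namespace Cfsg.Agent.Lib.Fi23A
open Cfsg.Agent.Lib.PermNet

theorem tr_0 : subB (ones 31671) (grow nets allg [9, 6, 5, 4, 3, 2, 7, 1, 8, 3, 0, 4, 2, 5, 7, 3, 6, 9, 4, 7, 1, 2, 8, 5, 3, 1, 6, 7, 4, 2, 0, 9, 3, 8, 5, 1, 6, 2, 7, 4, 1, 3, 0, 8, 2, 1, 4, 5, 0, 7, 3, 2, 6, 3, 1] (pt 0)) = true := by decide +kernel

theorem fix0 : fixB nets hs (pt 0) = true := by decide +kernel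

theorem o0_0 : subB (ivl 1 3510) (grow nets hs [1, 8, 0, 2, 7, 3, 4, 7, 1, 2, 5, 3, 8, 6, 1, 7, 4, 2, 0, 3, 5, 8, 4, 7, 2, 1, 6, 3, 2, 0, 4, 1, 5, 7] (pt 1)) = true := by decide +kernel

theorem fix1 : fixB nets hs (ivl 1 3510) = true := by decide +kernel

theorem o1_0 : subB (ivl 3511 28160) (grow nets hs [6, 5, 4, 3, 2, 7, 1, 8, 3, 0, 4, 2, 5, 7, 3, 6, 1, 4, 7, 2, 8, 3, 5, 1, 0, 7, 6, 4, 2, 3, 8, 5, 1, 2, 7, 4, 6, 1, 0, 3, 5, 2, 7, 4, 1, 8, 0, 3, 5, 4, 2, 1, 5, 6] (pt 3511)) = true := by decide +kernel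

theorem fix2 : fixB nets hs (ivl 3511 28160) = true := by decide +kernel

theorem movez : Nat.beq (appW nets [2, 4, 6, 8, 10, 12, 14, 2, 4, 6, 8, 10, 12, 14, 2, 4, 6, 8, 10, 12, 14, 2, 4, 6, 8, 10, 12, 14, 2, 4, 6, 8, 10, 12, 14, 2, 4, 6, 8, 10, 12, 14, 2, 4, 6, 8, 10, 12, 14, 2, 4, 6, 8, 10, 12, 14, 2, 4, 6, 8, 10, 12, 14] (pt 3511)) (pt 3511) = false := by decide +kernel

theorem movec : Nat.beq (appW nets [0, 2, 0, 2] (pt 1)) (pt 1) = false := by decide +kernel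

theorem rels0_0 : RelsOn nets 31671 15 rels0 0 1 :=
  relsOn_of_B _ _ _ _ _ 1 _ (by decide +kernel) (by decide +kernel)

theorem rels0_1 : RelsOn nets 31671 15 rels0 1 2 :=
  relsOn_of_B _ _ _ _ _ 1 _ (by decide +kernel) (by decide +kernel)

theorem rels0_2 : RelsOn nets 31671 15 rels0 2 3 :=
  relsOn_of_B _ _ _ _ _ 1 _ (by decide +kernel) (by decide +kernel)

theorem rels0_3 : RelsOn nets 31671 15 rels0 3 4 :=
  relsOn_of_B _ _ _ _ _ 1 _ (by decide +kernel) (by decide +kernel)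

theorem rels0_4 : RelsOn nets 31671 15 rels0 4 5 :=
  relsOn_of_B _ _ _ _ _ 1 _ (by decide +kernel) (by decide +kernel)

theorem rels0_5 : RelsOn nets 31671 15 rels0 5 6 :=
  relsOn_of_B _ _ _ _ _ 1 _ (by decide +kernel) (by decide +kernel)

end Cfsg.Agent.Lib.Fi23A
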