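import Cfsg.Agent.Lib.Fi23AR

set_option autoImplicit false
set_option maxRecDepth 100000

namespace Cfsg.Agent.Lib.Fi23A
open Cfsg.Agent.Lib.PermNet

theorem rels0_6 : RelsOn nets 31671 15 rels0 6 7 :=
  relsOn_of_B _ _ _ _ _ 1 _ (by decide +kernel) (by decide +kernel)

theorem rels0_7 : RelsOn nets 31671 15 rels0 7 8 :=
  relsOn_of_B _ _ _ _ _ 1 _ (by decide +kernel) (by decide +kernel)

theorem rels0_8 : RelsOn nets 31671 15 rels0 8 9 :=
  relsOn_of_B _ _ _ _ _ 1 _ (by decide +kernel) (by decide +kernel)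

theorem rels0_9 : RelsOn nets 31671 15 rels0 9 10 :=
  relsOn_of_B _ _ _ _ _ 1 _ (by decide +kernel) (by decide +kernel)

theorem rels0_10 : RelsOn nets 31671 15 rels0 10 11 :=
  relsOn_of_B _ _ _ _ _ 1 _ (by decide +kernel) (by decide +kernel)

theorem rels0_11 : RelsOn nets 31671 15 rels0 11 12 :=
  relsOn_of_B _ _ _ _ _ 1 _ (by decide +kernel) (by decide +kernel)

theorem rels0_12 : RelsOn nets 31671 15 rels0 12 13 :=
  relsOn_of_B _ _ _ _ _ 1 _ (by decide +kernel) (by decide +kernel)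

end Cfsg.Agent.Lib.Fi23A
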