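import Cfsg.Agent.Lib.Fi23Base
import Cfsg.Agent.Lib.Fi22Cover
import Cfsg.Agent.Lib.TCFi23
import Cfsg.Agent.Lib.Fi23AC0
import Cfsg.Agent.Lib.Fi23AC1
import Cfsg.Agent.Lib.Fi23AC2

/-! The presented group Fi23 acting on 31671 points: index, suborbits, order, simplicity. -/

set_option autoImplicit false
set_option maxRecDepth 100000

namespace Cfsg.Agent.Lib.Fi23A

open Cfsg.Agent.Lib.PermNet Cfsg.Agent.Lib.Words Cfsg.Agent.Lib.PermGroup Cfsg.Agent.Lib.Fi23Base

theorem b1 : (gp y [[0], [2], [4], [6], [8], [10], [12], [14], [16]]).relIndex (gp y [[0], [2], [4], [6], [8], [10], [12], [14], [16], [18]]) ≠ 0 ∧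
    (gp y [[0], [2], [4], [6], [8], [10], [12], [14], [16]]).relIndex (gp y [[0], [2], [4], [6], [8], [10], [12], [14], [16], [18]]) ≤ 31671 :=
  tc_wrap I hK [[0], [2], [4], [6], [8], [10], [12], [14], [16], [18]] TCFi23.bound _ _ (by decide +kernel)

theorem index1 : (gp y hs).index ≠ 0 ∧ (gp y hs).index ≤ 31671 := by
  have := b1
  rwa [gp_top (ws := [[0], [2], [4], [6], [8], [10], [12], [14], [16], [18]]) (by decide), Subgroup.relIndex_top_right] at this

theorem hrels : ∀ w ∈ relW rels, wval nets.perm w = 1 :=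
  relW_one (wval_eq_of_relsOn (K := 15) hv (by norm_num) (((((((((((((((rels0_0.trans rels0_1).trans rels0_2).trans rels0_3).trans rels0_4).trans rels0_5).trans rels0_6).trans rels0_7).trans rels0_8).trans rels0_9).trans rels0_10).trans rels0_11).trans rels0_12).trans rels0_13).trans rels0_14).append ((((rels1_0.trans rels1_3).trans rels1_6).trans rels1_9).trans rels1_12)))

/-- The generators followed by the auxiliary elements. -/
def Y : ℕ → Spor.Fi23 := ext y 10 defs

theorem hdefs : ∀ w ∈ defRels 10 defs, wval nets.perm w = 1 :=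
  derive I hrels _ (by decide +kernel)

theorem exists_phi : ∃ φ : Spor.Fi23 →* Equiv.Perm ℕ, ∀ i, φ (Y i) = nets.perm i := by
  obtain ⟨φ, h⟩ := exists_hom nets.perm (derive I hrels K (by decide +kernel))
  exact ⟨φ, map_ext φ y 10 defs nets h hdefs (by decide +kernel)⟩

noncomputable def phi : Spor.Fi23 →* Equiv.Perm ℕ := exists_phi.choose

theorem hphi : ∀ i, phi (Y i) = nets.perm i := exists_phi.choose_spec

theorem gpY (ws : List (List ℕ))
    (hw : ws.all (fun w => w.all (fun l => decide (l < 2 * 10))) = true) : gp Y ws = gp y ws :=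
  gp_ext y 10 defs ws hw

theorem hKY : ∀ w ∈ K, wval Y w = 1 := (rels_ext 10 defs (by decide +kernel)).2 hK

theorem htr : InOrb phi.range 0 (ones 31671) := (InOrb.step hv (wval_mem_range hphi _) [9, 6, 5, 4, 3, 2, 7, 1, 8, 3, 0, 4, 2, 5, 7, 3, 6, 9, 4, 7, 1, 2, 8, 5, 3, 1, 6, 7, 4, 2, 0, 9, 3, 8, 5, 1, 6, 2, 7, 4, 1, 3, 0, 8, 2, 1, 4, 5, 0, 7, 3, 2, 6, 3, 1] (inOrb_pt _ 0) tr_0)

theorem index_hs : (gp Y hs).index = 31671 ∧ ∀ g, g ∈ gp Y hs ↔ phi g 0 = 0 :=
  index_gp_eq hv hphi (by rw [gpY hs (by decide)]; exact index1) fix0 htr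

theorem index_eq : (gp y hs).index = 31671 := by rw [← gpY hs (by decide)]; exact index_hs.1

theorem orb0 : InOrb (gp nets.perm hs) 1 (ivl 1 3510) := (InOrb.step hv (fun _ h => mem_gp h) [1, 8, 0, 2, 7, 3, 4, 7, 1, 2, 5, 3, 8, 6, 1, 7, 4, 2, 0, 3, 5, 8, 4, 7, 2, 1, 6, 3, 2, 0, 4, 1, 5, 7] (inOrb_pt _ 1) o0_0)

theorem suborbit0 : ∃ q : Spor.Fi23 ⧸ gp Y hs,
    toPt index_hs.2 '' MulAction.orbit (gp Y hs) q = Set.Ico 1 (1 + 3510) ∧
      (MulAction.orbit (gp Y hs) q).ncard = 3510 :=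
  exists_suborbit hv hphi index_hs.2 htr (by norm_num) (by norm_num) orb0 fix1

theorem orb1 : InOrb (gp nets.perm hs) 3511 (ivl 3511 28160) := (InOrb.step hv (fun _ h => mem_gp h) [6, 5, 4, 3, 2, 7, 1, 8, 3, 0, 4, 2, 5, 7, 3, 6, 1, 4, 7, 2, 8, 3, 5, 1, 0, 7, 6, 4, 2, 3, 8, 5, 1, 2, 7, 4, 6, 1, 0, 3, 5, 2, 7, 4, 1, 8, 0, 3, 5, 4, 2, 1, 5, 6] (inOrb_pt _ 3511) o1_0)

theorem suborbit1 : ∃ q : Spor.Fi23 ⧸ gp Y hs,
    toPt index_hs.2 '' MulAction.orbit (gp Y hs) q = Set.Ico 3511 (3511 + 28160) ∧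
      (MulAction.orbit (gp Y hs) q).ncard = 28160 :=
  exists_suborbit hv hphi index_hs.2 htr (by norm_num) (by norm_num) orb1 fix2

theorem topY : gp Y allg = ⊤ := by rw [gpY allg (by decide)]; exact gp_top (by decide)

theorem coatom : IsCoatom (gp Y hs) :=
  isCoatom_of_cover hv hphi index_hs.2 [18] (by rw [gpY _ (by decide)]; exact gp_top (by decide)) 3511 (by norm_num) (by decide +kernel)
    [(3510, [18, 12, 10, 8, 6, 14, 4, 6, 8, 10, 12, 18], [14, 12, 10, 8, 6, 4, 0, 4, 0]), (28160, [18], [0])]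
    (by decide +kernel) ⟨orb0, orb1, trivial⟩

theorem exists_beta : ∃ β : Fi22Cover.Cov →* Spor.Fi23, ∀ i < 9, β (Fi22Cover.y i) = Y i :=
  Fi22Cover.exists_hom _ (derive I hKY _ (by decide +kernel))

/-- The map from the double cover of Fi22 onto the point stabiliser. -/
noncomputable def beta : Fi22Cover.Cov →* Spor.Fi23 := exists_beta.choose

theorem beta_y : ∀ i < 9, beta (Fi22Cover.y i) = Y i := exists_beta.choose_spec

theorem beta_wval (w : List ℕ) (hw : w.all (fun l => decide (l < 2 * 9)) = true) :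
    beta (wval Fi22Cover.y w) = wval Y w := by
  rw [map_wval]; exact wval_congr beta_y (by simpa using hw)

theorem beta_range : beta.range = gp Y hs := by
  rw [MonoidHom.range_eq_map, ← Fi22Cover.gp_top (ws := hs) (by decide), map_gp,
    gp_congr beta_y (by decide)]

theorem cover : Function.Injective (phi.comp beta) ∧
    Nat.card Fi22Cover.Cov = 2 * Nat.card Spor.Fi22 ∧
      ∀ g, Fi22Cover.alpha g = 1 ↔ g = 1 ∨ g = wval Fi22Cover.y Fi22Cover.zw := by
  have := Fi22A.simple
  refine double_cover Fi22Cover.alpha Fi22Cover.alpha_surjective Fi22Cover.card_le (phi.comp beta)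
    Fi22Cover.alpha_z ?_ (a := wval Fi22Cover.y [0]) (b := wval Fi22Cover.y [2]) ?_
  · rw [MonoidHom.comp_apply, beta_wval _ (by decide +kernel), map_wval' hphi]
    exact ne_one_of_move hv _ _ movez
  · rw [← wval_append, ← wval_append, MonoidHom.comp_apply, MonoidHom.comp_apply,
      beta_wval _ (by decide), beta_wval _ (by decide), map_wval' hphi, map_wval' hphi]
    intro e
    refine ne_one_of_move hv _ _ movec ?_
    have h := derive_eq I hrels [0, 2, 0, 2] (([0] ++ [2]) ++ invW ([2] ++ [0])) (by decide +kernel)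
    rw [h, wval_append, wval_invW, e, mul_inv_cancel]

theorem beta_injective : Function.Injective beta := Function.Injective.of_comp cover.1

theorem phi_eq_one {g : Spor.Fi23} (h : phi g = 1) : g = 1 := by
  have hg : g ∈ beta.range := by rw [beta_range, index_hs.2, h]; rfl
  obtain ⟨x, rfl⟩ := hg
  have hx : x = 1 := cover.1 (by rw [map_one]; exact h)
  rw [hx, map_one]

theorem card_hs : Nat.card (gp Y hs) = 129123503308800 := by
  rw [← beta_range, ← Nat.card_congr (MonoidHom.ofInjective beta_injective).toEquiv, cover.2.1,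
    Fi22A.card_eq]

theorem card_eq : Nat.card Spor.Fi23 = 4089470473293004800 := by
  rw [← (gp Y hs).index_mul_card, index_hs.1, card_hs]

instance finiteG : Finite Spor.Fi23 := Nat.finite_of_card_ne_zero (by rw [card_eq]; norm_num)

/-- Every relation checked on the networks holds in the group. -/
theorem hrelsY : ∀ w ∈ relW rels, wval Y w = 1 :=
  rels_of_faithful (L := ⊤) hphi (fun _ _ h => phi_eq_one h) (fun _ _ => trivial) hrels

theorem simple : IsSimpleGroup Spor.Fi23 := by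
  refine isSimpleGroup_of coatom (fun M hM h => ?_) (p := 17) (by norm_num)
    (by rw [card_hs]; norm_num) (fun M hM h => ?_)
  · exact eq_bot_iff.2 fun g hg =>
      phi_eq_one (core_of_faithful hv hphi topY index_hs.2 htr hM h hg)
  · rw [eq_top_iff, ← topY]
    exact le_of_steps I (all_append hKY hrelsY) 17 [[14, 0, 8, 4, 18, 2, 4, 12, 10, 2, 6]] allg
      [([14, 0, 8, 4, 18, 2, 4, 12, 10, 2, 6], [0], 15, 2), ([0], [2], 3, 2), ([2], [4], 3, 2), ([4], [6], 3, 2), ([6], [8], 3, 2), ([6], [14], 3, 2), ([8], [10], 3, 2), ([10], [12], 3, 2), ([12], [18], 3, 2), ([14], [16], 3, 2)]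
      (by decide +kernel) M hM h

end Cfsg.Agent.Lib.Fi23A
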