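import Cfsg.Agent.Lib.Fi24AR

set_option autoImplicit false
set_option maxRecDepth 100000

namespace Cfsg.Agent.Lib.Fi24A
open Cfsg.Agent.Lib.PermNet

theorem rels9_6 : RelsOn nets 306936 19 rels9 6 7 :=
  relsOn_of_B _ _ _ _ _ 1 _ (by decide +kernel) (by decide +kernel)

theorem rels9_7 : RelsOn nets 306936 19 rels9 7 8 :=
  relsOn_of_B _ _ _ _ _ 1 _ (by decide +kernel) (by decide +kernel)

theorem rels9_8 : RelsOn nets 306936 19 rels9 8 9 :=
  relsOn_of_B _ _ _ _ _ 1 _ (by decide +kernel) (by decide +kernel)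

theorem rels9_9 : RelsOn nets 306936 19 rels9 9 10 :=
  relsOn_of_B _ _ _ _ _ 1 _ (by decide +kernel) (by decide +kernel)

theorem rels9_10 : RelsOn nets 306936 19 rels9 10 11 :=
  relsOn_of_B _ _ _ _ _ 1 _ (by decide +kernel) (by decide +kernel)

theorem rels9_11 : RelsOn nets 306936 19 rels9 11 12 :=
  relsOn_of_B _ _ _ _ _ 1 _ (by decide +kernel) (by decide +kernel)

theorem rels9_12 : RelsOn nets 306936 19 rels9 12 13 :=
  relsOn_of_B _ _ _ _ _ 1 _ (by decide +kernel) (by decide +kernel)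

theorem rels9_13 : RelsOn nets 306936 19 rels9 13 14 :=
  relsOn_of_B _ _ _ _ _ 1 _ (by decide +kernel) (by decide +kernel)

theorem rels9_14 : RelsOn nets 306936 19 rels9 14 15 :=
  relsOn_of_B _ _ _ _ _ 1 _ (by decide +kernel) (by decide +kernel)

theorem rels9_15 : RelsOn nets 306936 19 rels9 15 16 :=
  relsOn_of_B _ _ _ _ _ 1 _ (by decide +kernel) (by decide +kernel)

theorem rels9_16 : RelsOn nets 306936 19 rels9 16 17 :=
  relsOn_of_B _ _ _ _ _ 1 _ (by decide +kernel) (by decide +kernel)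

theorem rels9_17 : RelsOn nets 306936 19 rels9 17 18 :=
  relsOn_of_B _ _ _ _ _ 1 _ (by decide +kernel) (by decide +kernel)

theorem rels9_18 : RelsOn nets 306936 19 rels9 18 19 :=
  relsOn_of_B _ _ _ _ _ 1 _ (by decide +kernel) (by decide +kernel)

theorem rels10_0 : RelsOn nets 306936 19 rels10 0 1 :=
  relsOn_of_B _ _ _ _ _ 1 _ (by decide +kernel) (by decide +kernel)

theorem rels10_1 : RelsOn nets 306936 19 rels10 1 2 :=
  relsOn_of_B _ _ _ _ _ 1 _ (by decide +kernel) (by decide +kernel)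

theorem rels10_2 : RelsOn nets 306936 19 rels10 2 3 :=
  relsOn_of_B _ _ _ _ _ 1 _ (by decide +kernel) (by decide +kernel)

theorem rels10_3 : RelsOn nets 306936 19 rels10 3 4 :=
  relsOn_of_B _ _ _ _ _ 1 _ (by decide +kernel) (by decide +kernel)

theorem rels10_4 : RelsOn nets 306936 19 rels10 4 5 :=
  relsOn_of_B _ _ _ _ _ 1 _ (by decide +kernel) (by decide +kernel)

theorem rels10_5 : RelsOn nets 306936 19 rels10 5 6 :=
  relsOn_of_B _ _ _ _ _ 1 _ (by decide +kernel) (by decide +kernel)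

theorem rels10_6 : RelsOn nets 306936 19 rels10 6 7 :=
  relsOn_of_B _ _ _ _ _ 1 _ (by decide +kernel) (by decide +kernel)

theorem rels10_7 : RelsOn nets 306936 19 rels10 7 8 :=
  relsOn_of_B _ _ _ _ _ 1 _ (by decide +kernel) (by decide +kernel)

theorem rels10_8 : RelsOn nets 306936 19 rels10 8 9 :=
  relsOn_of_B _ _ _ _ _ 1 _ (by decide +kernel) (by decide +kernel)

theorem rels10_9 : RelsOn nets 306936 19 rels10 9 10 :=
  relsOn_of_B _ _ _ _ _ 1 _ (by decide +kernel) (by decide +kernel)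

theorem rels10_10 : RelsOn nets 306936 19 rels10 10 11 :=
  relsOn_of_B _ _ _ _ _ 1 _ (by decide +kernel) (by decide +kernel)

end Cfsg.Agent.Lib.Fi24A
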