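import Cfsg.Agent.Lib.Fi24AR

set_option autoImplicit false
set_option maxRecDepth 100000

namespace Cfsg.Agent.Lib.Fi24A
open Cfsg.Agent.Lib.PermNet

theorem rels10_11 : RelsOn nets 306936 19 rels10 11 12 :=
  relsOn_of_B _ _ _ _ _ 1 _ (by decide +kernel) (by decide +kernel)

theorem rels10_12 : RelsOn nets 306936 19 rels10 12 13 :=
  relsOn_of_B _ _ _ _ _ 1 _ (by decide +kernel) (by decide +kernel)

theorem rels10_13 : RelsOn nets 306936 19 rels10 13 14 :=
  relsOn_of_B _ _ _ _ _ 1 _ (by decide +kernel) (by decide +kernel)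

theorem rels10_14 : RelsOn nets 306936 19 rels10 14 15 :=
  relsOn_of_B _ _ _ _ _ 1 _ (by decide +kernel) (by decide +kernel)

theorem rels10_15 : RelsOn nets 306936 19 rels10 15 16 :=
  relsOn_of_B _ _ _ _ _ 1 _ (by decide +kernel) (by decide +kernel)

theorem rels10_16 : RelsOn nets 306936 19 rels10 16 17 :=
  relsOn_of_B _ _ _ _ _ 1 _ (by decide +kernel) (by decide +kernel)

theorem rels10_17 : RelsOn nets 306936 19 rels10 17 18 :=
  relsOn_of_B _ _ _ _ _ 1 _ (by decide +kernel) (by decide +kernel)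

theorem rels10_18 : RelsOn nets 306936 19 rels10 18 19 :=
  relsOn_of_B _ _ _ _ _ 1 _ (by decide +kernel) (by decide +kernel)

end Cfsg.Agent.Lib.Fi24A
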