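import Cfsg.Agent.Lib.Fi24Base
import Cfsg.Agent.Lib.PermModel

/-! The sign homomorphism of the presented group Fi24; its kernel is the commutator subgroup. -/

set_option autoImplicit false

namespace Cfsg.Agent.Lib.Fi24Sign

open Cfsg.Agent.Lib.PermNet Cfsg.Agent.Lib.Words Cfsg.Agent.Lib.PermModel Cfsg.Agent.Lib.Fi24Base

theorem exists_sgn : ∃ s : Spor.Fi24 →* ℤˣ, ∀ i < 12, s (y i) = -1 := by
  refine exists_hom (fun _ => -1) fun w hw => ?_
  have h : K.all (fun w => w.all (fun l => decide (l < 2 * 12)) && decide (w.length % 2 = 0)) = true := by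
    decide +kernel
  have := List.all_eq_true.1 h w hw
  rw [Bool.and_eq_true, decide_eq_true_eq] at this
  rw [DoubleCover.wval_const (t := -1) (fun _ _ => rfl) (by simp) w this.1]
  exact Even.neg_one_pow (Nat.even_iff.2 this.2)

noncomputable def sgn : Spor.Fi24 →* ℤˣ := exists_sgn.choose

theorem sgn_y : ∀ i < 12, sgn (y i) = -1 := exists_sgn.choose_spec

theorem commutator_eq : commutator Spor.Fi24 = sgn.ker := by
  refine le_antisymm (Abelianization.commutator_subset_ker _) fun g hg => ?_
  let f : ℕ → Abelianization Spor.Fi24 := fun i => Abelianization.of (y i)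
  have hf : ∀ w ∈ K, wval f w = 1 := fun w hw => by rw [← map_wval, hK w hw, map_one]
  have e1 := DoubleCover.eq_of_braid I hf 0 1 (by decide +kernel)
  have e2 := DoubleCover.eq_of_braid I hf 1 2 (by decide +kernel)
  have e3 := DoubleCover.eq_of_braid I hf 2 3 (by decide +kernel)
  have e4 := DoubleCover.eq_of_braid I hf 3 4 (by decide +kernel)
  have e5 := DoubleCover.eq_of_braid I hf 4 5 (by decide +kernel)
  have e6 := DoubleCover.eq_of_braid I hf 5 6 (by decide +kernel)
  have e7 := DoubleCover.eq_of_braid I hf 3 7 (by decide +kernel)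
  have e8 := DoubleCover.eq_of_braid I hf 7 8 (by decide +kernel)
  have e9 := DoubleCover.eq_of_braid I hf 6 9 (by decide +kernel)
  have e10 := DoubleCover.eq_of_braid I hf 0 10 (by decide +kernel)
  have e11 := DoubleCover.eq_of_braid I hf 10 11 (by decide +kernel)
  have h : ∀ i < 12, f i = f 0 := by
    intro i hi
    interval_cases i <;>
      simp only [← e11, ← e10, ← e9, ← e8, ← e7, ← e6, ← e5, ← e4, ← e3, ← e2, ← e1]
  have h0 : f 0 * f 0 = 1 := by
    simpa [wval, lval] using derive_one I hf [0, 0] (by decide +kernel)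
  obtain ⟨w, hw, rfl⟩ := exists_word (n := 12)
    (ws := [[0], [2], [4], [6], [8], [10], [12], [14], [16], [18], [20], [22]]) (by decide)
    (by rw [gp_top (by decide)]; exact Subgroup.mem_top g)
  rw [MonoidHom.mem_ker, map_wval, DoubleCover.wval_const sgn_y (by simp) w hw,
    neg_one_pow_eq_one_iff_even (by decide)] at hg
  obtain ⟨k, hk⟩ := hg
  rw [← Abelianization.ker_of, MonoidHom.mem_ker, map_wval, DoubleCover.wval_const h h0 w hw, hk,
    ← two_mul, pow_mul, sq, h0, one_pow]

theorem index_commutator : (commutator Spor.Fi24).index = 2 := by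
  have : sgn.range = ⊤ := by
    rw [eq_top_iff]
    intro u _
    rcases Int.units_eq_one_or u with rfl | rfl
    · exact one_mem _
    · exact ⟨y 0, sgn_y 0 (by norm_num)⟩
  rw [commutator_eq, Subgroup.index_ker, this, Subgroup.card_top, Nat.card_eq_fintype_card]
  rfl

end Cfsg.Agent.Lib.Fi24Sign
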