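import Cfsg.Agent.Lib.Fi24TC
import Cfsg.Agent.Lib.Fi24Sign
import Cfsg.Agent.Lib.Fi23A
import Cfsg.Agent.Lib.Fi24AC0
import Cfsg.Agent.Lib.Fi24AC1
import Cfsg.Agent.Lib.Fi24AC2
import Cfsg.Agent.Lib.Fi24AC3
import Cfsg.Agent.Lib.Fi24AC4
import Cfsg.Agent.Lib.Fi24AC5
import Cfsg.Agent.Lib.Fi24AC6
import Cfsg.Agent.Lib.Fi24AC7

/-! The presented group Fi24 acting on 306936 points: index, order and simplicity of the derived group. -/

set_option autoImplicit false
set_option maxRecDepth 100000

namespace Cfsg.Agent.Lib.Fi24A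

open Cfsg.Agent.Lib.PermNet Cfsg.Agent.Lib.Words Cfsg.Agent.Lib.PermGroup Cfsg.Agent.Lib.Fi24Base Cfsg.Agent.Lib.PermModel Cfsg.Agent.Lib.Fi24Sign

theorem hrels : ∀ w ∈ relW rels, wval nets.perm w = 1 :=
  relW_one (wval_eq_of_relsOn (K := 19) hv (by norm_num) ((((((((((((((((((((((((((((rels0_0.trans rels0_1).trans rels0_2).trans rels0_3).trans rels0_4).trans rels0_5).trans rels0_6).trans rels0_7).trans rels0_8).trans rels0_9).trans rels0_10).trans rels0_11).trans rels0_12).trans rels0_13).trans rels0_14).trans rels0_15).trans rels0_16).trans rels0_17).trans rels0_18).append ((((((((((((((((((rels1_0.trans rels1_1).trans rels1_2).trans rels1_3).trans rels1_4).trans rels1_5).trans rels1_6).trans rels1_7).trans rels1_8).trans rels1_9).trans rels1_10).trans rels1_11).trans rels1_12).trans rels1_13).trans rels1_14).trans rels1_15).trans rels1_16).trans rels1_17).trans rels1_18)).append ((((((((((((((((((rels2_0.trans rels2_1).trans rels2_2).trans rels2_3).trans rels2_4).trans rels2_5).trans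 rels2_6).trans rels2_7).trans rels2_8).trans rels2_9).trans rels2_10).trans rels2_11).trans rels2_12).trans rels2_13).trans rels2_14).trans rels2_15).trans rels2_16).trans rels2_17).trans rels2_18)).append ((((((((((((((((((rels3_0.trans rels3_1).trans rels3_2).trans rels3_3).trans rels3_4).trans rels3_5).trans rels3_6).trans rels3_7).trans rels3_8).trans rels3_9).trans rels3_10).trans rels3_11).trans rels3_12).trans rels3_13).trans rels3_14).trans rels3_15).trans rels3_16).trans rels3_17).trans rels3_18)).append ((((((((((((((((((rels4_0.trans rels4_1).trans rels4_2).trans rels4_3).trans rels4_4).trans rels4_5).trans rels4_6).trans rels4_7).trans rels4_8).trans rels4_9).trans rels4_10).trans rels4_11).trans rels4_12).trans rels4_13).trans rels4_14).trans rels4_15).trans rels4_16).trans rels4_17).trans rels4_18)).append ((((((((((((((((((rels5_0.trans rels5_1).trans rels5_2).trans rels5_3).trans rels5_4).trans rels5_5).trans rels5_6).trans rels5_7).trans rels5_8).trans rels5_9).trans rels5_10).trans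 rels5_11).trans rels5_12).trans rels5_13).trans rels5_14).trans rels5_15).trans rels5_16).trans rels5_17).trans rels5_18)).append ((((((rels6_0.trans rels6_3).trans rels6_6).trans rels6_9).trans rels6_12).trans rels6_15).trans rels6_18)).append ((((((((((((((((((rels7_0.trans rels7_1).trans rels7_2).trans rels7_3).trans rels7_4).trans rels7_5).trans rels7_6).trans rels7_7).trans rels7_8).trans rels7_9).trans rels7_10).trans rels7_11).trans rels7_12).trans rels7_13).trans rels7_14).trans rels7_15).trans rels7_16).trans rels7_17).trans rels7_18)).append ((((((((((((((((((rels8_0.trans rels8_1).trans rels8_2).trans rels8_3).trans rels8_4).trans rels8_5).trans rels8_6).trans rels8_7).trans rels8_8).trans rels8_9).trans rels8_10).trans rels8_11).trans rels8_12).trans rels8_13).trans rels8_14).trans rels8_15).trans rels8_16).trans rels8_17).trans rels8_18)).append ((((((((((((((((((rels9_0.trans rels9_1).trans rels9_2).trans rels9_3).trans rels9_4).trans rels9_5).trans rels9_6).trans rels9_7).trans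 rels9_8).trans rels9_9).trans rels9_10).trans rels9_11).trans rels9_12).trans rels9_13).trans rels9_14).trans rels9_15).trans rels9_16).trans rels9_17).trans rels9_18)).append ((((((((((((((((((rels10_0.trans rels10_1).trans rels10_2).trans rels10_3).trans rels10_4).trans rels10_5).trans rels10_6).trans rels10_7).trans rels10_8).trans rels10_9).trans rels10_10).trans rels10_11).trans rels10_12).trans rels10_13).trans rels10_14).trans rels10_15).trans rels10_16).trans rels10_17).trans rels10_18)))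

/-- The generators followed by the auxiliary elements. -/
def Y : ℕ → Spor.Fi24 := ext y 12 defs

theorem hdefs : ∀ w ∈ defRels 12 defs, wval nets.perm w = 1 :=
  derive I hrels _ (by decide +kernel)

theorem exists_phi : ∃ φ : Spor.Fi24 →* Equiv.Perm ℕ, ∀ i, φ (Y i) = nets.perm i := by
  obtain ⟨φ, h⟩ := exists_hom nets.perm (derive I (rels_subst I [[0], [2], [4], [6], [8], [10], [12], [14], [16], [18], [20], [22], [6, 4, 2, 0, 20, 22, 6, 8, 10, 12, 18, 6, 14, 16], [10, 6, 4, 2, 0, 20, 22, 6, 8, 10, 12, 18, 6, 14, 16, 8, 20, 22, 6, 8, 4, 2]] hrels (by decide +kernel)) K (by decide +kernel))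
  exact ⟨φ, map_ext φ y 12 defs nets h hdefs (by decide +kernel)⟩

noncomputable def phi : Spor.Fi24 →* Equiv.Perm ℕ := exists_phi.choose

theorem hphi : ∀ i, phi (Y i) = nets.perm i := exists_phi.choose_spec

theorem gpY (ws : List (List ℕ))
    (hw : ws.all (fun w => w.all (fun l => decide (l < 2 * 12))) = true) : gp Y ws = gp y ws :=
  gp_ext y 12 defs ws hw

theorem hKY : ∀ w ∈ K, wval Y w = 1 := (rels_ext 12 defs (by decide +kernel)).2 hK

theorem htr : InOrb phi.range 0 (ones 306936) := (InOrb.step hv (wval_mem_range hphi _) [10, 12, 13, 12, 13, 12, 3, 13, 12, 1, 13, 12, 8, 13, 12, 11, 9, 13, 12, 3, 13, 12, 4, 13, 12, 13, 5] (inOrb_pt _ 0) tr_0)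

theorem index_hs : (gp Y hs).index = 306936 ∧ ∀ g, g ∈ gp Y hs ↔ phi g 0 = 0 :=
  index_gp_eq hv hphi (by rw [gpY hs (by decide)]; exact Fi24TC.index1) fix0 htr

theorem index_eq : (gp y hs).index = 306936 := by rw [← gpY hs (by decide)]; exact index_hs.1

theorem orb0 : InOrb (gp nets.perm hs) 1 (ivl 1 31671) := (InOrb.step hv (fun _ h => mem_gp h) [4, 2, 6, 1, 9] (InOrb.step hv (fun _ h => mem_gp h) [0, 3, 1, 2, 4, 7, 5, 8, 3, 6, 9, 4, 2, 7, 3, 5, 1, 4, 2, 7, 8, 3, 1, 5, 6, 0, 7, 2, 4, 5, 8, 3, 4, 9, 1, 6, 3, 2, 7, 0, 1, 3, 0, 2, 4, 7, 1, 3, 0, 5] (inOrb_pt _ 1) o0_0) o0_1)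

theorem suborbit0 : ∃ q : Spor.Fi24 ⧸ gp Y hs,
    toPt index_hs.2 '' MulAction.orbit (gp Y hs) q = Set.Ico 1 (1 + 31671) ∧
      (MulAction.orbit (gp Y hs) q).ncard = 31671 :=
  exists_suborbit hv hphi index_hs.2 htr (by norm_num) (by norm_num) orb0 fix1

theorem orb1 : InOrb (gp nets.perm hs) 31672 (ivl 31672 275264) := (InOrb.step hv (fun _ h => mem_gp h) [0, 2, 4, 7, 6, 3, 5, 9, 4, 1, 5] (InOrb.step hv (fun _ h => mem_gp h) [0, 10, 1, 2, 3, 4, 7, 5, 8, 3, 6, 2, 4, 9, 1, 7, 3, 0, 5, 2, 4, 7, 1, 3, 5, 6, 8, 0, 7, 2, 4, 8, 3, 1, 5, 4, 9, 7, 2, 0, 3, 5, 6, 7, 2, 8, 1, 4, 3, 5] (inOrb_pt _ 31672) o1_0) o1_1)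

theorem suborbit1 : ∃ q : Spor.Fi24 ⧸ gp Y hs,
    toPt index_hs.2 '' MulAction.orbit (gp Y hs) q = Set.Ico 31672 (31672 + 275264) ∧
      (MulAction.orbit (gp Y hs) q).ncard = 275264 :=
  exists_suborbit hv hphi index_hs.2 htr (by norm_num) (by norm_num) orb1 fix2

theorem topY : gp Y allg = ⊤ := by rw [gpY allg (by decide)]; exact gp_top (by decide)

theorem coatom : IsCoatom (gp Y hs) :=
  isCoatom_of_cover hv hphi index_hs.2 [20] (by rw [gpY _ (by decide)]; exact gp_top (by decide)) 31672 (by norm_num) (by decide +kernel)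
    [(31671, [20, 22, 6, 4, 2, 0, 20], [2, 4, 1, 1]), (275264, [20], [0])]
    (by decide +kernel) ⟨orb0, orb1, trivial⟩

theorem hRY : ∀ w ∈ K ++ Fi24M.R, wval Y w = 1 :=
  (rels_ext 12 defs (by decide +kernel)).2 (all_append hK Fi24M.hR)

theorem Y11_sq : Y 11 * Y 11 = 1 := by
  simpa [wval, lval] using derive_one I hKY [22, 22] (by decide +kernel)

theorem commute_Y11 : ∀ i < 10, Commute (Y i) (Y 11) := by
  have h := derive I hKY ((List.range 10).map fun i => [2 * i, 22] ++ invW [22, 2 * i])
    (by decide +kernel)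
  intro i hi
  have := h _ (List.mem_map.2 ⟨i, List.mem_range.2 hi, rfl⟩)
  rw [wval_append, wval_invW, mul_inv_eq_one] at this
  exact (show Y i * Y 11 = Y 11 * Y i by simpa [wval, lval] using this)

theorem exists_beta : ∃ β : Spor.Fi23 →* Spor.Fi24, ∀ i < 10, β (Fi23Base.y i) = Y i * Y 11 := by
  refine Fi23Base.exists_hom _ fun w hw => ?_
  have h := derive I hRY (Fi23Base.K.map fun w => w ++ rep (w.length % 2) [22]) (by decide +kernel)
    _ (List.mem_map.2 ⟨w, hw, rfl⟩)
  have hl : Fi23Base.K.all (fun w => w.all (fun l => decide (l < 2 * 10))) = true := by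
    decide +kernel
  rw [wval_mul_central Y11_sq commute_Y11 w (List.all_eq_true.1 hl w hw), ← h, wval_append,
    wval_rep, show wval Y [22] = Y 11 from wval_single Y 11]
  conv_lhs => rw [← Nat.div_add_mod w.length 2, pow_add, pow_mul, sq, Y11_sq, one_pow, one_mul]

/-- The embedding of Fi23 in the point stabiliser. -/
noncomputable def beta : Spor.Fi23 →* Spor.Fi24 := exists_beta.choose

theorem beta_y : ∀ i < 10, beta (Fi23Base.y i) = Y i * Y 11 := exists_beta.choose_spec

theorem phi_beta_injective : Function.Injective (phi.comp beta) := by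
  have := Fi23A.simple
  rw [← MonoidHom.ker_eq_bot_iff]
  refine (phi.comp beta).normal_ker.eq_bot_or_eq_top.resolve_right fun h => ?_
  have h1 : Fi23Base.y 0 ∈ (phi.comp beta).ker := h ▸ Subgroup.mem_top _
  rw [MonoidHom.mem_ker, MonoidHom.comp_apply, beta_y 0 (by norm_num)] at h1
  refine ne_one_of_move hv _ _ moveal ?_
  rw [← map_wval' hphi, ← h1]
  simp [wval, lval]

theorem sgn_Y : ∀ i < 12, sgn (Y i) = -1 := fun i hi => by
  rw [Y, ext_of_lt _ _ hi, sgn_y i hi]

theorem range_beta : beta.range = gp Y hs ⊓ commutator Spor.Fi24 := by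
  have top : gp Fi23Base.y Fi23A.allg = ⊤ := Fi23Base.gp_top (by decide)
  have h11 : Y 11 ∈ gp Y hs := by rw [← wval_single Y]; exact mem_gp (by decide)
  have hi : ∀ i < 10, Y i ∈ gp Y hs := fun i hi => by
    rw [← wval_single Y]; exact mem_gp (by revert i; decide)
  apply le_antisymm
  · rintro _ ⟨g, rfl⟩
    obtain ⟨w, hw, rfl⟩ := exists_word (n := 10) (by decide) (top ▸ Subgroup.mem_top g)
    rw [map_wval]
    refine wval_mem fun l hl => ?_
    have := List.all_eq_true.1 hw l hl
    simp only [decide_eq_true_eq] at this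
    rw [beta_y _ (by omega)]
    refine Subgroup.mem_inf.2 ⟨mul_mem (hi _ (by omega)) h11, ?_⟩
    rw [commutator_eq, MonoidHom.mem_ker, map_mul, sgn_Y _ (by omega),
      sgn_Y 11 (by norm_num)]
    simp
  · have hc : ∀ g, Commute (beta g) (Y 11) := by
      intro g
      obtain ⟨w, hw, rfl⟩ := exists_word (n := 10) (by decide) (top ▸ Subgroup.mem_top g)
      rw [map_wval]
      refine Subgroup.mem_centralizer_singleton_iff.1 (wval_mem fun l hl => ?_)
      have := List.all_eq_true.1 hw l hl
      simp only [decide_eq_true_eq] at this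
      rw [beta_y _ (by omega)]
      exact Subgroup.mem_centralizer_singleton_iff.2
        ((commute_Y11 _ (by omega)).mul_left (Commute.refl _)).eq
    have key : ∀ g ∈ gp Y hs, ∃ x, g = beta x ∨ g = beta x * Y 11 := by
      intro g hg
      induction hg using Subgroup.closure_induction with
      | mem g hg =>
        obtain ⟨w, hw, rfl⟩ := hg
        have : w = [22] ∨ ∃ i < 10, w = [2 * i] := by revert w; decide
        rcases this with rfl | ⟨i, hi, rfl⟩
        · exact ⟨1, Or.inr (by rw [map_one, one_mul]; exact wval_single Y 11)⟩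
        · exact ⟨_, Or.inr (by rw [beta_y i hi, mul_assoc, Y11_sq, mul_one, wval_single])⟩
      | one => exact ⟨1, Or.inl (map_one _).symm⟩
      | mul a b _ _ ha hb =>
        obtain ⟨x, ha⟩ := ha
        obtain ⟨z, hb⟩ := hb
        refine ⟨x * z, ?_⟩
        rw [map_mul]
        rcases ha with rfl | rfl <;> rcases hb with rfl | rfl
        · exact Or.inl rfl
        · exact Or.inr (mul_assoc _ _ _).symm
        · exact Or.inr (by rw [mul_assoc, ← (hc z).eq, mul_assoc])
        · exact Or.inl (by rw [mul_assoc, ← mul_assoc (Y 11), ← (hc z).eq, mul_assoc, Y11_sq, mul_one])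
      | inv a _ ha =>
        obtain ⟨x, ha⟩ := ha
        refine ⟨x⁻¹, ?_⟩
        rcases ha with rfl | rfl
        · exact Or.inl (map_inv _ _).symm
        · exact Or.inr (by rw [mul_inv_rev, inv_eq_of_mul_eq_one_right Y11_sq, ← map_inv, (hc _).eq])
    intro g hg
    obtain ⟨h1, h2⟩ := Subgroup.mem_inf.1 hg
    obtain ⟨x, rfl | rfl⟩ := key g h1
    · exact ⟨x, rfl⟩
    · exfalso
      have h3 : sgn (beta x) = 1 := by
        have : sgn.comp beta = 1 := by
          refine MonoidHom.eq_of_eqOn_dense top ?_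
          rintro _ ⟨w, hw, rfl⟩
          have : ∃ i < 10, w = [2 * i] := by revert w; decide
          obtain ⟨i, hi, rfl⟩ := this
          rw [wval_single, MonoidHom.comp_apply, beta_y i hi, map_mul, sgn_Y _ (by omega),
            sgn_Y 11 (by norm_num)]
          simp
        exact DFunLike.congr_fun this x
      rw [commutator_eq, MonoidHom.mem_ker, map_mul, h3, sgn_Y 11 (by norm_num)] at h2
      simp at h2

theorem faithful_D : ∀ g ∈ commutator Spor.Fi24, phi g = 1 → g = 1 := by
  intro g hg h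
  obtain ⟨x, rfl⟩ : g ∈ beta.range := by
    rw [range_beta]; exact ⟨(index_hs.2 g).2 (by rw [h]; rfl), hg⟩
  have hx : x = 1 := phi_beta_injective (by rw [map_one]; exact h)
  rw [hx, map_one]

theorem card_hs : Nat.card (gp Y hs) = 2 * 4089470473293004800 := by
  have h1 : gp Y hs ⊔ commutator Spor.Fi24 = ⊤ := by
    refine coatom.2 _ (left_lt_sup.2 fun h => ?_)
    have h2 := Subgroup.index_dvd_of_le h
    rw [index_commutator, index_hs.1] at h2
    norm_num at h2
  have h2 : (commutator Spor.Fi24).relIndex (gp Y hs) = 2 := by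
    rw [← Subgroup.relIndex_sup_right, h1, Subgroup.relIndex_top_right, index_commutator]
  rw [← Subgroup.index_mul_card ((commutator Spor.Fi24).subgroupOf (gp Y hs)),
    ← Subgroup.relIndex, h2, ← Subgroup.inf_subgroupOf_left, ← range_beta,
    Nat.card_congr (Subgroup.subgroupOfEquivOfLe (range_beta.le.trans inf_le_left)).toEquiv,
    ← Nat.card_congr (MonoidHom.ofInjective (Function.Injective.of_comp phi_beta_injective)).toEquiv,
    Fi23A.card_eq]

theorem card_eq : Nat.card Spor.Fi24 = 2 * 1255205709190661721292800 := by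
  rw [← (gp Y hs).index_mul_card, index_hs.1, card_hs]

instance finiteG : Finite Spor.Fi24 := Nat.finite_of_card_ne_zero (by rw [card_eq]; norm_num)

theorem card_D : Nat.card (commutator Spor.Fi24) = 1255205709190661721292800 := by
  have := (commutator Spor.Fi24).index_mul_card
  rw [index_commutator, card_eq] at this
  omega

theorem hU : ∀ w ∈ [rep 29 [26], rep 23 [26, 0, 2]], wval Y w = 1 := by
  refine rels_of_faithful hphi faithful_D (fun w hw => ?_) (derive I hrels _ (by decide +kernel))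
  have hu : sgn (wval Y [26]) = 1 := by
    rw [derive_eq [] (ext_rels y 12 defs (by decide +kernel)) (invW [26]) (invW [10, 6, 4, 2, 0, 20, 22, 6, 8, 10, 12, 18, 6, 14, 16, 8, 20, 22, 6, 8, 4, 2])
      (by decide +kernel) |> fun h => (by rw [wval_invW, wval_invW, inv_inj] at h; exact h :
        wval Y [26] = wval Y [10, 6, 4, 2, 0, 20, 22, 6, 8, 10, 12, 18, 6, 14, 16, 8, 20, 22, 6, 8, 4, 2]), map_wval,
      DoubleCover.wval_const sgn_Y (by simp) _ (by decide)]
    rfl
  rw [commutator_eq, MonoidHom.mem_ker]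
  simp only [List.mem_cons, List.not_mem_nil, or_false] at hw
  rcases hw with rfl | rfl
  · rw [wval_rep, map_pow, hu, one_pow]
  · rw [wval_rep, map_pow, show ([26, 0, 2] : List ℕ) = [26] ++ [0, 2] from rfl, wval_append,
      map_mul, hu, map_wval, DoubleCover.wval_const sgn_Y (by simp) _ (by decide)]
    simp

theorem simple : IsSimpleGroup (commutator Spor.Fi24) := by
  refine isSimpleGroup_of_index_two index_commutator coatom (fun M hM h h' => ?_) (p := 29)
    (by norm_num) (by rw [card_hs]; norm_num) (by rw [card_D]; norm_num) (fun M hM h => ?_)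
  · exact eq_bot_iff.2 fun g hg =>
      faithful_D g (h' hg) (core_of_faithful hv hphi topY index_hs.2 htr hM h hg)
  have hle := le_of_steps I (all_append hKY hU) 29 [[26]] [[0, 2], [2, 4], [0, 20], [4, 6], [20, 22], [6, 8], [6, 14], [8, 10], [14, 16], [10, 12], [12, 18]]
    [([26], [0, 2], 23, 3), ([0, 2], [2, 0], 1, 3), ([0, 2], [2, 4], 2, 3), ([2, 0], [0, 20], 2, 3), ([2, 4], [4, 6], 2, 3), ([0, 20], [20, 22], 2, 3), ([4, 6], [6, 8], 2, 3), ([4, 6], [6, 14], 2, 3), ([6, 8], [8, 10], 2, 3), ([6, 14], [14, 16], 2, 3), ([8, 10], [10, 12], 2, 3), ([10, 12], [12, 18], 2, 3)]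
    (by decide +kernel) M hM h
  have hsq := derive I hKY ((List.range 12).map fun i => [2 * i, 2 * i]) (by decide +kernel)
  have key : ∀ i j, ([2 * i, 2 * j] ∈ [[0, 2], [2, 4], [0, 20], [4, 6], [20, 22], [6, 8], [6, 14], [8, 10], [14, 16], [10, 12], [12, 18]] ∧ j < 12) →
      (Y j : Spor.Fi24 ⧸ M) = Y i := by
    intro i j hij
    have h1 := hle (mem_gp hij.1)
    have h2 := hsq _ (List.mem_map.2 ⟨j, List.mem_range.2 hij.2, rfl⟩)
    simp only [wval, lval, List.map_cons, List.map_nil, List.prod_cons, List.prod_nil, mul_one,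
      Nat.mul_mod_right, if_true, Nat.mul_div_cancel_left _ two_pos] at h1 h2
    rw [QuotientGroup.eq, inv_eq_of_mul_eq_one_right h2]
    simpa using hM.conj_mem _ h1 (Y j) |> fun h => (by
      rwa [inv_eq_of_mul_eq_one_right h2, mul_assoc, mul_assoc, h2, mul_one] at h : Y j * Y i ∈ M)
  have e1 : (Y 1 : Spor.Fi24 ⧸ M) = Y 0 := key 0 1 (by decide)
  have e2 : (Y 2 : Spor.Fi24 ⧸ M) = Y 1 := key 1 2 (by decide)
  have e10 : (Y 10 : Spor.Fi24 ⧸ M) = Y 0 := key 0 10 (by decide)
  have e3 : (Y 3 : Spor.Fi24 ⧸ M) = Y 2 := key 2 3 (by decide)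
  have e11 : (Y 11 : Spor.Fi24 ⧸ M) = Y 10 := key 10 11 (by decide)
  have e4 : (Y 4 : Spor.Fi24 ⧸ M) = Y 3 := key 3 4 (by decide)
  have e7 : (Y 7 : Spor.Fi24 ⧸ M) = Y 3 := key 3 7 (by decide)
  have e5 : (Y 5 : Spor.Fi24 ⧸ M) = Y 4 := key 4 5 (by decide)
  have e8 : (Y 8 : Spor.Fi24 ⧸ M) = Y 7 := key 7 8 (by decide)
  have e6 : (Y 6 : Spor.Fi24 ⧸ M) = Y 5 := key 5 6 (by decide)
  have e9 : (Y 9 : Spor.Fi24 ⧸ M) = Y 6 := key 6 9 (by decide)
  refine commutator_le_of_eq (y := Y) (n := 12) topY (by decide) M fun i hi => ?_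
  interval_cases i <;> simp only [e1, e2, e3, e4, e5, e6, e7, e8, e9, e10, e11]

end Cfsg.Agent.Lib.Fi24A
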