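import Cfsg.Agent.Lib.Fi24MR

set_option autoImplicit false
set_option maxRecDepth 100000

namespace Cfsg.Agent.Lib.Fi24M
open Cfsg.Agent.Lib.PermNet

theorem ch_0 : levelB nets [[0], [2], [4], [6], [8], [10], [14], [16], [20], [22]] [] 0 [8, 0, 9, 1, 2, 8, 3, 0, 4, 6, 5, 7, 3, 2, 1, 4, 6, 3, 2, 0, 4, 6, 1, 5, 7, 0, 8, 3, 9, 4, 0, 6] 0 1080 1080 = true := by decide +kernel

theorem ch_1 : levelB nets [[0], [2], [4], [6], [8], [10], [14], [16], [22]] [0] 1 [0, 8, 1, 2, 3, 4, 6, 5, 7, 3, 2, 1, 4, 6, 3, 0, 2, 4, 6, 1, 3, 0, 5, 7, 2, 4, 1, 3, 6, 2, 3, 2] 1 1079 728 = true := by decide +kernel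

theorem ch_2 : levelB nets [[2], [4], [6], [8], [10], [14], [16]] [1, 0] 3 [0, 1, 2, 3, 5, 4, 6, 2, 1, 0, 3, 5, 2, 1, 3, 5, 4, 6, 2, 0, 3, 5, 1, 2, 1, 3, 4] 3 1060 243 = true := by decide +kernel

theorem ch_3 : levelB nets [[4], [6], [8], [10], [14], [16]] [3, 1, 0] 15 [0, 4, 5, 1, 4, 1, 2, 0, 3, 1, 2] 15 686 90 = true := by decide +kernel

theorem ch_4 : levelB nets [[6], [8], [24]] [15, 3, 1, 0] 151 [0, 2, 0, 1, 2, 0, 2, 2, 0] 151 556 32 = true := by decide +kernel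

theorem ch_5 : levelB nets [[8], [25, 6, 24], [26]] [151, 15, 3, 1, 0] 6 [0, 2, 2, 1] 6 506 9 = true := by decide +kernel

theorem ch_6 : levelB nets [[25, 6, 24]] [6, 151, 15, 3, 1, 0] 7 [0] 7 2 2 = true := by decide +kernel

theorem rels0_0 : RelsOn nets 1080 11 rels0 0 11 :=
  relsOn_of_B _ _ _ _ _ 11 _ (by decide +kernel) (by decide +kernel)

end Cfsg.Agent.Lib.Fi24M
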