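import Cfsg.Agent.Lib.Fi24M
import Cfsg.Agent.Lib.TCFi24A

/-! Upper bound for the index of the transposition centraliser in the presented group Fi24. -/

set_option autoImplicit false
set_option maxRecDepth 100000

namespace Cfsg.Agent.Lib.Fi24TC

open Cfsg.Agent.Lib.PermNet Cfsg.Agent.Lib.Words Cfsg.Agent.Lib.PermGroup Cfsg.Agent.Lib.Fi24Base

theorem b1 : (gp y [[0], [2], [4], [6], [8], [10], [12], [14], [16], [18], [22]]).relIndex (gp y [[0], [2], [4], [6], [8], [10], [12], [14], [16], [18], [20], [22]]) ≠ 0 ∧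
    (gp y [[0], [2], [4], [6], [8], [10], [12], [14], [16], [18], [22]]).relIndex (gp y [[0], [2], [4], [6], [8], [10], [12], [14], [16], [18], [20], [22]]) ≤ 306936 :=
  tc_wrap I (all_append hK Fi24M.hR) [[0], [2], [4], [6], [8], [10], [12], [14], [16], [18], [20], [22]] TCFi24A.bound _ _ (by decide +kernel)

theorem index1 : (gp y [[0], [2], [4], [6], [8], [10], [12], [14], [16], [18], [22]]).index ≠ 0 ∧
    (gp y [[0], [2], [4], [6], [8], [10], [12], [14], [16], [18], [22]]).index ≤ 306936 := by
  have := b1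
  rwa [gp_top (ws := [[0], [2], [4], [6], [8], [10], [12], [14], [16], [18], [20], [22]]) (by decide), Subgroup.relIndex_top_right] at this

end Cfsg.Agent.Lib.Fi24TC
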