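import Cfsg.Agent.Lib.Fis22L

/-! Fi22: transitivity on commuting tuples of transpositions. -/

set_option autoImplicit false
set_option maxRecDepth 100000
set_option Elab.async false

namespace Cfsg.Agent.Lib.Fis22

open Cfsg Subgroup Cfsg.Agent.Lib.FisCore Cfsg.Agent.Lib.FisLoc Cfsg.Agent.Lib.FisPrim
  Cfsg.Agent.Lib.PermNet Cfsg.Agent.Lib.Words Cfsg.Agent.Lib.PermGroup Cfsg.Agent.Lib.FisPM
  Cfsg.Agent.Lib.Fi22A

abbrev td : Desc := (0, [])
abbrev ta : Desc := (6, [])
abbrev tc : Desc := (2, [])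
abbrev tq : Desc := (7, [])
abbrev ti : Desc := (8, [])
abbrev tj : Desc := (1, [])

def es : List Desc := [(4, []), (2, [6, 8, 10, 12, 14, 6, 8, 10, 16, 14, 6, 4, 18, 16, 14, 6]), (2, [6, 8, 10, 12, 14, 6, 8, 10, 16, 14, 6, 8, 18, 16, 14, 6])]

theorem adj_d {t : Desc} (h : nd.adjB td t = true) : Adj d d (el nd Y t) := P.adj h

theorem geo : Geo d (el nd Y ta) (el nd Y tc) (el nd Y tq) (es.map (el nd Y)) where
  sq := hd2
  ha := adj_d (by decide +kernel)
  hc1 := adj_d (by decide +kernel)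
  hc2 := P.adj (by decide +kernel)
  hs1 := adj_d (by decide +kernel)
  hs2 := P.adj (by decide +kernel)
  hs3 := P.adj (by decide +kernel)
  t1 := P.c_t1 el_d (ws := [[4], [6], [8], [10], [12], [14], [16], [18]]) (seq := ([(192, 3), (129, 2), (79, 1), (47, 0), (129, 4), (84, 2), (50, 1), (25, 0), (50, 3), (28, 1), (10, 0), (10, 2), (22, 0), (14, 1), (47, 5), (24, 0), (16, 1), (31, 2), (55, 3), (24, 4), (9, 0), (5, 1), (12, 2), (9, 3), (2, 0), (1, 1), (2, 2), (8, 0), (8, 1), (24, 6), (48, 0), (39, 1), (58, 2), (93, 3), (48, 4), (26, 0), (18, 1), (32, 2), (26, 3), (11, 0), (7, 1), (11, 2), (23, 0), (23, 1), (58, 5), (99, 2), (147, 1), (213, 0), (147, 3), (211, 1), (285, 0), (285, 2), (358, 0), (422, 1), (99, 4), (60, 2), (95, 1), (150, 0), (60, 3), (45, 5), (491, 5), (572, 6), (129, 7)], [7, 3, 6, 2, 4, 1, 5, 3, 7, 3])) (by decide +kernel)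
  t2 := P.c_t2 el_d (ws := [[4], [6], [8], [14], [16], [18], [11, 19, 13, 11, 8, 10, 12, 18, 10]]) (seq := ([(36, 1), (14, 0), (14, 2), (6, 0), (10, 1), (14, 3), (4, 0), (8, 1), (4, 2), (1, 0), (1, 1), (4, 4), (15, 0), (23, 1), (15, 2), (7, 0), (7, 1), (45, 3), (13, 3), (15, 5), (37, 0), (46, 1), (37, 2), (20, 0), (20, 1), (77, 3), (35, 3), (125, 4), (63, 4), (14, 6), (110, 0), (131, 1), (110, 2), (165, 0), (165, 1), (110, 3), (68, 0), (68, 1), (68, 2), (114, 0), (135, 1), (110, 4), (166, 0), (197, 1), (166, 2), (238, 0), (238, 1), (166, 3), (239, 0), (239, 1), (317, 0), (270, 1), (348, 0), (239, 2), (315, 0), (315, 1), (395, 0), (346, 1), (418, 0), (317, 2), (399, 0), (399, 1), (470, 0)], [4, 5, 3, 4, 6, 1, 4])) (by decide +kernel)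
  t3 := P.c_t3 el_d (es := es) (ws := [[14], [16], [18], [7, 15, 9, 7, 4, 6, 8, 14, 6], [11, 19, 13, 11, 8, 10, 12, 18, 10], [11, 9, 7, 15, 13, 11, 9, 7, 4, 6, 8, 10, 12, 14, 6, 8, 10]]) (seq := ([(21, 1), (45, 0), (45, 2), (77, 0), (125, 1), (45, 3), (34, 0), (13, 1), (34, 2), (63, 0), (63, 1), (45, 4), (342, 0), (268, 1), (342, 2), (279, 0), (279, 1), (342, 3), (591, 0), (591, 1), (591, 2), (540, 0), (599, 1), (45, 5), (211, 0), (146, 1), (211, 2), (286, 0), (286, 1), (211, 3), (572, 0), (572, 1), (572, 2), (642, 0), (573, 1), (211, 4), (157, 0), (157, 1), (157, 2), (228, 0), (308, 1), (157, 3), (394, 0), (467, 1), (394, 2), (314, 0), (314, 1)], [])) (by decide +kernel)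
  hE := by
    simp only [es, List.map_cons, List.map_nil, List.forall_mem_cons]
    refine ⟨?_, ?_, ?_, by simp⟩
    · refine ⟨el nd Y (2, [6, 8, 10, 12, 14, 6, 8, 10, 16, 14, 6, 4, 18, 16, 14, 6]), el nd Y (2, [6, 8, 10, 12, 14, 6, 8, 10, 16, 14, 6, 8, 18, 16, 14, 6]), adj_d (by decide +kernel), adj_d (by decide +kernel),
        P.adj (by decide +kernel), ?_⟩
      rw [← el_d]
      simp only [el, ← wval_append]
      exact one' (by decide +kernel)
    · refine ⟨el nd Y (4, []), el nd Y (2, [6, 8, 10, 12, 14, 6, 8, 10, 16, 14, 6, 8, 18, 16, 14, 6]), adj_d (by decide +kernel), adj_d (by decide +kernel),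
        P.adj (by decide +kernel), ?_⟩
      rw [← el_d]
      simp only [el, ← wval_append]
      exact one' (by decide +kernel)
    · refine ⟨el nd Y (4, []), el nd Y (2, [6, 8, 10, 12, 14, 6, 8, 10, 16, 14, 6, 4, 18, 16, 14, 6]), adj_d (by decide +kernel), adj_d (by decide +kernel),
        P.adj (by decide +kernel), ?_⟩
      rw [← el_d]
      simp only [el, ← wval_append]
      exact one' (by decide +kernel)
  hs := by
    have c := P.cen (ws := [nd.W (4, [10, 12, 18, 10]), nd.W (2, [6, 8, 10, 12, 14, 6, 8, 10]), nd.W (2, [6, 8, 10, 12, 14, 6, 18, 10])]) (ts := [td, ta]) (by decide +kernel)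
    simp only [List.forall_mem_cons, el_d] at c
    refine ⟨el nd Y (4, [10, 12, 18, 10]), el nd Y (2, [6, 8, 10, 12, 14, 6, 8, 10]), el nd Y (2, [6, 8, 10, 12, 14, 6, 18, 10]), P.adj (by decide +kernel), P.adj (by decide +kernel),
      P.adj (by decide +kernel), c.1.1.mul_right c.1.2.1, c.2.1.1.mul_right c.2.1.2.1,
      c.2.2.1.1.mul_right c.2.2.1.2.1, ?_⟩
    rw [← el_d]
    simp only [el, ← wval_append]
    exact one' (by decide +kernel)
  fix2 := by
    have := P.c_fix el_d (w := nd.W td ++ nd.W ta) (by decide +kernel)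
    rwa [wval_append, show wval Y (nd.W td) = d from el_d] at this
  fix3 := by
    have := P.c_fix el_d (w := nd.W td ++ nd.W ta ++ nd.W tc) (by decide +kernel)
    rwa [wval_append, wval_append, show wval Y (nd.W td) = d from el_d] at this

theorem r1 : ∀ x ∈ DD d, ¬ Commute x d → ∃ h, Commute h d ∧ h * el nd Y tj * h⁻¹ = x :=
  P.c_r1 el_d (ws := [[4], [6], [8], [10], [12], [14], [16], [18]]) (seq := ([(695, 0), (697, 1), (699, 2), (702, 3), (707, 4), (699, 5), (703, 2), (708, 1), (719, 0), (708, 3), (717, 1), (734, 0), (734, 2), (766, 0), (750, 1), (717, 4), (732, 1), (760, 0), (760, 2), (803, 0), (781, 1), (803, 3), (865, 0), (831, 1), (783, 2), (726, 5), (712, 4), (723, 3), (745, 2), (785, 1), (838, 0), (703, 6), (709, 2), (720, 1), (739, 0), (720, 3), (735, 1), (767, 0), (767, 2), (813, 0), (792, 1), (735, 4), (761, 1), (804, 0), (804, 2), (866, 0), (832, 1), (866, 3), (953, 0), (909, 1), (836, 2), (739, 5), (773, 0), (756, 1), (730,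 2), (773, 3), (814, 0), (797, 1), (814, 2), (882, 0), (882, 1), (977, 0), (849, 1)], [7, 6, 5, 3, 4, 2, 1, 0, 2, 3, 7, 6, 5, 1, 4, 2, 5, 3, 6, 0])) (by decide +kernel)

theorem r2 : ∀ x ∈ DD d, Commute x (el nd Y ta) → ¬ Commute x d →
    ∃ h, Commute h d ∧ Commute h (el nd Y ta) ∧ h * el nd Y tj * h⁻¹ = x :=
  P.c_r2 el_d (ws := [[4], [6], [8], [14], [16], [18], [11, 19, 13, 11, 8, 10, 12, 18, 10]]) (seq := ([(695, 0), (697, 1), (699, 2), (699, 3), (703, 2), (708, 1), (719, 0), (703, 4), (709, 2), (720, 1), (739, 0), (739, 3), (773, 0), (756, 1), (730, 2), (709, 5), (721, 2), (740, 1), (774, 0), (774, 3), (754, 0), (729, 1), (714, 2), (754, 4), (728, 0), (713, 1), (705, 2), (705, 3), (700, 2), (698, 1), (696, 0), (699, 6), (763, 2), (809, 1), (876, 0), (763, 3), (807, 1), (869, 0), (807, 2), (763, 4), (810, 2), (877, 1), (970, 0), (810, 3), (878, 1), (973, 0), (878, 2), (971, 1), (1105, 0), (973, 2), (1109, 0), (1109, 1), (1283, 0), (1288,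 1), (1514, 0), (970, 3), (1103, 0), (1103, 1), (1279, 0), (1277, 1), (1498, 0), (1279, 2), (1502, 0)], [5, 4, 3, 5, 1, 2, 4, 6, 1, 3, 0])) (by decide +kernel)

end Cfsg.Agent.Lib.Fis22
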