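import Cfsg.Agent.Lib.Fis22A

/-! Fi22: squares, twins and coverings. -/

set_option autoImplicit false
set_option maxRecDepth 100000
set_option Elab.async false

namespace Cfsg.Agent.Lib.Fis22

open Cfsg Subgroup Cfsg.Agent.Lib.FisCore Cfsg.Agent.Lib.FisLoc Cfsg.Agent.Lib.FisPrim
  Cfsg.Agent.Lib.PermNet Cfsg.Agent.Lib.Words Cfsg.Agent.Lib.PermGroup Cfsg.Agent.Lib.FisPM
  Cfsg.Agent.Lib.Fi22A

theorem sq1 : ∃ g, Commute g d ∧ g * g = d * el nd Y ta := by
  have c := P.cen (ws := [[18, 14, 16, 10, 18, 12, 10, 8, 10, 12, 18, 10, 16, 14, 18, 2, 4, 6, 14, 8, 6, 4, 2, 0, 2, 4, 6, 8, 14, 6, 4, 2, 14, 16, 10, 18, 12, 10, 8, 10, 12, 18, 10, 16, 14, 10, 8, 6, 14, 12, 10, 8, 6, 4, 6, 8, 10, 12, 14, 6, 8, 10]]) (ts := [td]) (by decide +kernel)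
  simp only [List.forall_mem_cons, el_d] at c
  refine ⟨_, c.1.1, ?_⟩
  rw [← el_d]
  simp only [el, ← wval_append]
  exact one' (by decide +kernel)

theorem sq2 : ∃ g, Commute g d ∧ g * g = el nd Y ta * el nd Y tc := by
  have c := P.cen (ws := [[6, 14, 8, 6, 4, 6, 8, 14, 6, 18, 16, 18, 6, 8, 10, 18, 12, 10, 8, 6, 4, 6, 8, 10, 12, 18, 10, 8, 6, 16]]) (ts := [td]) (by decide +kernel)
  simp only [List.forall_mem_cons, el_d] at c
  refine ⟨_, c.1.1, ?_⟩
  simp only [el, ← wval_append]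
  exact one' (by decide +kernel)

theorem sq3 : ∃ g, Commute g d ∧ g * g = d * (el nd Y ta * el nd Y tc) := by
  have c := P.cen (ws := [[16, 10, 18, 12, 10, 8, 10, 12, 18, 10, 6, 14, 8, 6, 4, 6, 8, 14, 6, 16, 14, 18]]) (ts := [td]) (by decide +kernel)
  simp only [List.forall_mem_cons, el_d] at c
  refine ⟨_, c.1.1, ?_⟩
  rw [← el_d]
  simp only [el, ← wval_append]
  exact one' (by decide +kernel)

theorem tz : ∃ h, Commute h d ∧ h * (el nd Y ta * el nd Y tc * el nd Y tq) * h⁻¹ =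
    d * (el nd Y ta * el nd Y tc * el nd Y tq) := by
  have c := P.cen (ws := [[10, 8, 6, 4, 14, 6, 8, 10, 6, 4, 10, 18, 12, 10, 8, 10, 12, 18, 10, 6]]) (ts := [td]) (by decide +kernel)
  simp only [List.forall_mem_cons, el_d] at c
  refine ⟨_, c.1.1, ?_⟩
  rw [← el_d]
  simp only [el, ← wval_invW, ← wval_append]
  exact one' (by decide +kernel)

theorem tw : ∃ h a', Commute h d ∧ Adj d d a' ∧ Adj d (el nd Y ta) a' ∧
    h * (el nd Y ta * el nd Y tc * el nd Y tq) * h⁻¹ =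
      el nd Y ta * a' * (el nd Y ta * el nd Y tc * el nd Y tq) ∧
    Commute (el nd Y ta * a') (el nd Y ta * el nd Y tc * el nd Y tq) := by
  have c := P.cen (ws := [[10, 18, 12, 10]]) (ts := [td]) (by decide +kernel)
  simp only [List.forall_mem_cons, el_d] at c
  refine ⟨_, el nd Y (9, []), c.1.1, adj_d (by decide +kernel), P.adj (by decide +kernel), ?_, ?_⟩
  · simp only [el, ← wval_invW, ← wval_append]
    exact one' (by decide +kernel)
  · simp only [commute_iff_eq, el, ← wval_append]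
    exact one' (by decide +kernel)

theorem sep : ∀ x ∈ DD d, Commute x d → Commute x (el nd Y ta) → ¬ Commute x (el nd Y tc) →
    ∃ t ∈ DD d, Commute t d ∧ Commute t (el nd Y ta) ∧ Commute t (el nd Y tc) ∧ t ≠ el nd Y tc ∧
      ¬ Commute t x :=
  P.c_sep el_d (us := [(4, [])]) (by decide +kernel)

theorem twin : Twin d (el nd Y ta) (el nd Y ti) (el nd Y tj) :=
  P.c_twin el_d (us := [(6, []), (8, []), (3, []), (4, [])]) (w := [10, 8, 6, 12, 14, 16, 18, 10, 8, 6, 14, 16, 18, 14, 16, 6, 14, 12, 8, 10]) (by decide +kernel)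

theorem cover : ∀ x ∈ DD d, ∃ y, Commute y d ∧ Commute y (el nd Y tj) ∧
    Commute x (y * el nd Y ta * y⁻¹) :=
  P.c_cover el_d (ws := [[6], [8], [10], [12], [14], [16], [18]]) (seq := [2, 3, 1, 0, 2, 4, 5, 1]) (by decide +kernel)

theorem cnt : {x | x ∈ DD d ∧ Commute x d ∧ Commute x (el nd Y ta)}.ncard ≤ 182 :=
  P.c_cnt el_d (len := 22) (by decide +kernel)

theorem braid : d * el nd Y tj * d = el nd Y tj * d * el nd Y tj := by
  rw [← el_d]
  simp only [el, ← wval_append]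
  exact one' (by decide +kernel)

end Cfsg.Agent.Lib.Fis22
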