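import Cfsg.Agent.Lib.FisInv

/-! Lifting a class of transpositions through a double cover. -/

set_option autoImplicit false

namespace Cfsg.Agent.Lib.FisLift

open Cfsg Subgroup Cfsg.Agent.Lib.FisCore Cfsg.Agent.Lib.FisLoc Cfsg.Agent.Lib.FisPrim
  Cfsg.Agent.Lib.PermNet Cfsg.Agent.Lib.Words Cfsg.Agent.Lib.FisInv

variable {E : Type*} [Group E] {F : Type*} [Group F]

structure DC (π : E →* F) (z : E) : Prop where
  surj : Function.Surjective π
  ker : ∀ g, π g = 1 ↔ g = 1 ∨ g = z
  ne : z ≠ 1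

/-- The centraliser of `a` has no subgroup of index two that contains `a`. -/
def Perf (a : F) : Prop := ∀ K : Subgroup F, a ∈ K →
  (∀ g h, Commute g a → Commute h a → g ∉ K → h ∉ K → g * h ∈ K) → ∀ g, Commute g a → g ∈ K

/-- An odd number of commuting members of the class with trivial product. -/
def OddRel (a : F) : Prop := ∃ l : List F, Odd l.length ∧ l.prod = 1 ∧ (∀ x ∈ l, x ∈ DD a) ∧
  ∀ x ∈ l, ∀ y ∈ l, Commute x y

section par
variable {K : Subgroup F} {a : F}
  (hK : ∀ g h, Commute g a → Commute h a → g ∉ K → h ∉ K → g * h ∈ K)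
include hK

theorem par_braid {x y : F} (hx : Commute x a) (hy : Commute y a) (h : x * y * x = y * x * y)
    (hm : x ∈ K) : y ∈ K := by
  by_contra hn
  have h1 : x * y ∉ K := fun h1 => hn ((K.mul_mem_cancel_left hm).1 h1)
  have h2 := hK _ _ hy (hx.mul_left hy) hn h1
  rw [← mul_assoc, ← h, K.mul_mem_cancel_right hm] at h2
  exact h1 h2

theorem par_conj {g x : F} (hg : Commute g a) (hx : Commute x a) (hm : x ∈ K) :
    g * x * g⁻¹ ∈ K := by
  by_cases h : g ∈ K
  · exact K.mul_mem (K.mul_mem h hm) (K.inv_mem h)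
  · exact hK _ _ (hg.mul_left hx) hg.inv_left (fun h1 => h ((K.mul_mem_cancel_right hm).1 h1))
      (fun h1 => h (K.inv_mem_iff.1 h1))

theorem par_prod (l : List F) (hl : ∀ x ∈ l, Commute x a ∧ x ∉ K) :
    Commute l.prod a ∧ (l.prod ∈ K ↔ Even l.length) := by
  induction l with
  | nil => simp
  | cons x l ih =>
    obtain ⟨c, e⟩ := ih fun y hy => hl y (List.mem_cons_of_mem _ hy)
    obtain ⟨c1, n1⟩ := hl x List.mem_cons_self
    rw [List.prod_cons, List.length_cons, Nat.even_add_one, ← e]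
    exact ⟨c1.mul_left c, fun h h' => n1 ((K.mul_mem_cancel_right h').1 h), hK _ _ c1 c n1⟩

end par

variable {π : E →* F} {z : E}

theorem DC.pi_z (h : DC π z) : π z = 1 := (h.ker z).2 (Or.inr rfl)

theorem DC.comm (h : DC π z) (g : E) : Commute g z := by
  rcases (h.ker (g * z * g⁻¹)).1 (by simp [h.pi_z]) with e | e
  · exact absurd (by simpa using e) h.ne
  · exact commute_of_conj_eq e

theorem DC.sq (h : DC π z) : z * z = 1 := by
  rcases (h.ker (z * z)).1 (by simp [h.pi_z]) with e | e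
  · exact e
  · exact absurd (mul_eq_left.1 e) h.ne

theorem DC.eq_or (h : DC π z) {g k : E} (e : π g = π k) : g = k ∨ g = z * k := by
  rcases (h.ker (g * k⁻¹)).1 (by simp [e]) with e | e
  · exact Or.inl (mul_inv_eq_one.1 e)
  · exact Or.inr (mul_inv_eq_iff_eq_mul.1 e)

theorem DC.card (h : DC π z) : Nat.card E = 2 * Nat.card F := by
  have h1 : Nat.card π.ker = 2 := by
    rw [← Set.ncard_pair (Ne.symm h.ne), ← Nat.card_coe_set_eq]
    refine Nat.card_congr (Equiv.setCongr ?_)
    ext g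
    exact h.ker g
  rw [← π.ker.card_mul_index, h1, index_ker, MonoidHom.range_eq_top.2 h.surj, card_top]

theorem DC.zpow (h : DC π z) (n : ℕ) : z ^ (2 * n + 1) = z := by
  rw [pow_succ, pow_mul, _root_.sq, h.sq, one_pow, one_mul]

theorem DC.zpow' (h : DC π z) (n : ℕ) : z ^ (2 * n) = 1 := by
  rw [pow_mul, _root_.sq, h.sq, one_pow]

theorem map_mem {a x : E} (π : E →* F) (hx : x ∈ DD a) : π x ∈ DD (π a) := π.map_isConj hx

theorem DC.lift (h : DC π z) {a : E} {y : F} (hy : y ∈ DD (π a)) : ∃ x ∈ DD a, π x = y := by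
  obtain ⟨g, rfl⟩ := isConj_iff.1 hy
  obtain ⟨g, rfl⟩ := h.surj g
  exact ⟨_, conj_mem (self_mem a) g, by simp⟩

theorem DC.comm3 (h : DC π z) {x y : E} (hx : x ^ 3 = 1) (c : Commute (π x) (π y)) :
    Commute x y := by
  rcases h.eq_or (g := y * x * y⁻¹) (k := x) (by simp [c.symm.eq]) with e | e
  · exact (commute_of_conj_eq e).symm
  · have h1 : (y * x * y⁻¹) ^ 3 = 1 := by rw [conj_pow, hx]; simp
    rw [e, (h.comm x).symm.mul_pow, hx, mul_one, h.zpow 1] at h1
    exact absurd h1 h.ne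

theorem DC.one_of_cube (h : DC π z) {x : E} (hx : x ^ 3 = 1) (e : π x = 1) : x = 1 := by
  rcases (h.ker x).1 e with e | e
  · exact e
  · rw [e, h.zpow 1] at hx; exact absurd hx h.ne

theorem wval_mul_z (h : DC π z) (x : ℕ → E) (w : List ℕ) :
    wval (fun i => z * x i) w = z ^ w.length * wval x w := by
  induction w with
  | nil => simp
  | cons l w ih =>
    have : lval (fun i => z * x i) l = z * lval x l := by
      unfold lval
      split_ifs
      · rfl
      · rw [mul_inv_rev, inv_eq_of_mul_eq_one_right h.sq, (h.comm _).eq]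
    rw [wval_cons, wval_cons, ih, this, List.length_cons, pow_succ', mul_assoc, mul_assoc,
      ← mul_assoc (lval x l), ((h.comm (lval x l)).pow_right _).eq, mul_assoc]

/-- A homomorphism into a perfect double cover that is onto the quotient is onto. -/
theorem DC.range_top (h : DC π z) (hp : commutator E = ⊤) {L : Subgroup E}
    (hL : ∀ y, ∃ x ∈ L, π x = y) : L = ⊤ := by
  rw [eq_top_iff, ← hp, commutator_def, commutator_le]
  intro a _ b _
  obtain ⟨x, hx, e1⟩ := hL (π a)
  obtain ⟨y, hy, e2⟩ := hL (π b)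
  have zi := inv_eq_of_mul_eq_one_right h.sq
  have k1 : ∀ u v : E, z * u * v * (z * u)⁻¹ * v⁻¹ = u * v * u⁻¹ * v⁻¹ := fun u v => by
    calc z * u * v * (z * u)⁻¹ * v⁻¹ = z * (u * v * u⁻¹) * z⁻¹ * v⁻¹ := by group
      _ = _ := by rw [conj_eq_of_commute (h.comm _).symm]
  have k2 : ∀ u v : E, u * (z * v) * u⁻¹ * (z * v)⁻¹ = u * v * u⁻¹ * v⁻¹ := fun u v => by
    calc u * (z * v) * u⁻¹ * (z * v)⁻¹ = (u * z) * (v * u⁻¹ * v⁻¹) * z⁻¹ := by group
      _ = z * (u * v * u⁻¹ * v⁻¹) * z⁻¹ := by rw [(h.comm u).eq]; group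
      _ = _ := by rw [conj_eq_of_commute (h.comm _).symm]
  have m := L.mul_mem (L.mul_mem (L.mul_mem hx hy) (L.inv_mem hx)) (L.inv_mem hy)
  rw [commutatorElement_def]
  rcases h.eq_or e1.symm with rfl | rfl <;> rcases h.eq_or e2.symm with rfl | rfl
  · exact m
  · rwa [k2]
  · rwa [k1]
  · rwa [k1, k2]

section lift
variable (h : DC π z) {a : E} (hP : Perf (π a))
include h hP

theorem DC.comm_base {g : E} (c : Commute (π g) (π a)) : Commute g a := by
  have key : ∀ g, π g ∈ (centralizer {a}).map π → Commute g a := by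
    rintro g ⟨k, hk, e⟩
    have hk := mem_centralizer_singleton_iff.1 hk
    rcases h.eq_or e.symm with rfl | rfl
    · exact hk
    · exact (h.comm a).symm.mul_left hk
  refine key g (hP ((centralizer {a}).map π) ⟨a, mem_centralizer_singleton_iff.2 rfl, rfl⟩
    (fun x y cx cy nx ny => ?_) _ c)
  obtain ⟨x, rfl⟩ := h.surj x
  obtain ⟨y, rfl⟩ := h.surj y
  have k : ∀ x, Commute (π x) (π a) → π x ∉ (centralizer {a}).map π → x * a * x⁻¹ = z * a := by
    intro x cx nx
    rcases h.eq_or (g := x * a * x⁻¹) (k := a) (by simp [cx.eq]) with e | e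
    · exact absurd ⟨x, mem_centralizer_singleton_iff.2 (commute_of_conj_eq e), rfl⟩ nx
    · exact e
  refine ⟨x * y, mem_centralizer_singleton_iff.2 (commute_of_conj_eq ?_), map_mul _ _ _⟩
  rw [conj_mul', k y cy ny, ← conj_mul, k x cx nx, conj_eq_of_commute (h.comm x), ← mul_assoc, h.sq,
    one_mul]

theorem DC.comm_cls {x g : E} (hx : x ∈ DD a) (c : Commute (π g) (π x)) : Commute g x := by
  obtain ⟨k, rfl⟩ := isConj_iff.1 hx
  refine commute_fwd k (h.comm_base hP ?_)
  simpa using commute_back (π k) (by simpa using c)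

theorem DC.inj {x y : E} (hx : x ∈ DD a) (hy : y ∈ DD a) (e : π x = π y) : x = y := by
  obtain ⟨g, rfl⟩ := exists_conj hy hx
  exact conj_eq_of_commute (h.comm_cls hP hy (commute_of_conj_eq (by simpa using e)))

theorem DC.sq_base (hpa : π a * π a = 1) (hO : OddRel (π a)) : a * a = 1 := by
  obtain ⟨l, h1, h2, h3, h4⟩ := hO
  have hl : ∀ l : List F, (∀ x ∈ l, x ∈ DD (π a)) → ∃ m : List E, (∀ x ∈ m, x ∈ DD a) ∧ m.map π = l := by
    intro l
    induction l with
    | nil => exact fun _ => ⟨[], by simp, rfl⟩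
    | cons y l ih =>
      intro hl
      obtain ⟨m, h1, rfl⟩ := ih fun x hx => hl x (List.mem_cons_of_mem _ hx)
      obtain ⟨x, hx, rfl⟩ := h.lift (hl y List.mem_cons_self)
      exact ⟨x :: m, by simpa using ⟨hx, h1⟩, rfl⟩
  obtain ⟨m, hm, rfl⟩ := hl l h3
  have hc : ∀ x ∈ m, ∀ y ∈ m, Commute x y := fun x hx y hy =>
    h.comm_cls hP (hm y hy) (h4 _ (List.mem_map_of_mem hx) _ (List.mem_map_of_mem hy))
  by_contra hn
  have e : a * a = z := ((h.ker _).1 (by rw [map_mul, hpa])).resolve_left hn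
  have key : ∀ m : List E, (∀ x ∈ m, x ∈ DD a) → (∀ x ∈ m, ∀ y ∈ m, Commute x y) →
      m.prod * m.prod = z ^ m.length := by
    intro m
    induction m with
    | nil => simp
    | cons x m ih =>
      intro h1 h2
      have c : Commute x m.prod := Commute.list_prod_right _ _ fun y hy =>
        h2 x List.mem_cons_self y (List.mem_cons_of_mem _ hy)
      obtain ⟨g, hg⟩ := isConj_iff.1 (h1 x List.mem_cons_self)
      have : x * x = z := by rw [← hg, conj_mul, e, conj_eq_of_commute (h.comm g)]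
      rw [List.prod_cons, List.length_cons, pow_succ', ← ih
        (fun y hy => h1 y (List.mem_cons_of_mem _ hy))
        (fun y hy w hw => h2 y (List.mem_cons_of_mem _ hy) w (List.mem_cons_of_mem _ hw)), ← this,
        mul_assoc, ← mul_assoc m.prod, ← c.eq]
      simp only [mul_assoc]
  have k := key m hm hc
  obtain ⟨n, hn⟩ := h1
  rw [List.length_map] at hn
  rw [hn, h.zpow] at k
  rcases (h.ker m.prod).1 (by rw [map_list_prod, h2]) with e | e
  · rw [e, mul_one] at k; exact h.ne k.symm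
  · rw [e, h.sq] at k; exact h.ne k.symm

theorem DC.braid {x y : E} (hx : x ∈ DD a) (hy : y ∈ DD a)
    (e : π x * π y * π x = π y * π x * π y) : x * y * x = y * x * y := by
  have := h.inj hP (conj_mem hy x) (mem_back y hx) (by
    simp only [map_mul, map_inv]
    rw [mul_inv_eq_iff_eq_mul, mul_assoc, mul_assoc, eq_inv_mul_iff_mul_eq, ← mul_assoc,
      ← mul_assoc, e])
  rw [mul_inv_eq_iff_eq_mul, mul_assoc, mul_assoc, eq_inv_mul_iff_mul_eq, ← mul_assoc,
      ← mul_assoc] at this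
  exact this.symm

theorem DC.adj {x y : E} (hx : x ∈ DD a) (hy : y ∈ DD a) (e : Adj (π a) (π x) (π y)) : Adj a x y :=
  ⟨hx, hy, fun e' => e.2.2.1 (by rw [e']), h.comm_cls hP hy e.2.2.2⟩

theorem DC.cls {u : E} (c : Cls (π a) (π u)) : Cls a u ∨ Cls a (z * u) := by
  suffices ∃ v, Cls a v ∧ π v = π u by
    obtain ⟨v, h1, e⟩ := this
    rcases h.eq_or e with rfl | rfl
    exacts [Or.inl h1, Or.inr h1]
  rcases c with e | e | ⟨x, y, h1, e⟩ | ⟨x, y, w, h1, h2, h3, e⟩
  · exact ⟨1, Or.inl rfl, by rw [e, map_one]⟩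
  · obtain ⟨x, hx, e⟩ := h.lift e
    exact ⟨x, Or.inr (Or.inl hx), e⟩
  · obtain ⟨x, hx, rfl⟩ := h.lift h1.1
    obtain ⟨y, hy, rfl⟩ := h.lift h1.2.1
    exact ⟨x * y, Or.inr (Or.inr (Or.inl ⟨x, y, h.adj hP hx hy h1, rfl⟩)), by rw [e, map_mul]⟩
  · obtain ⟨x, hx, rfl⟩ := h.lift h1.1
    obtain ⟨y, hy, rfl⟩ := h.lift h1.2.1
    obtain ⟨w, hw, rfl⟩ := h.lift h2.2.1
    exact ⟨x * y * w, Or.inr (Or.inr (Or.inr ⟨x, y, w, h.adj hP hx hy h1, h.adj hP hx hw h2,
      h.adj hP hy hw h3, rfl⟩)), by rw [e, map_mul, map_mul]⟩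

end lift

theorem cls_sq {a u : E} (ha : a * a = 1) (h : Cls a u) : u * u = 1 := by
  have k : ∀ {x y : E}, x * x = 1 → y * y = 1 → Commute x y → x * y * (x * y) = 1 :=
    fun {x y} h1 h2 c => by rw [mul_assoc, ← mul_assoc y, ← c.eq, mul_assoc, h2, mul_one, h1]
  rcases h with rfl | h | ⟨x, y, h, rfl⟩ | ⟨x, y, w, h1, h2, h3, rfl⟩
  · exact mul_one 1
  · exact mul_self ha h
  · exact k (mul_self ha h.1) (mul_self ha h.2.1) h.2.2.2
  · exact k (k (mul_self ha h1.1) (mul_self ha h1.2.1) h1.2.2.2) (mul_self ha h2.2.1)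
      (h2.2.2.2.mul_left h3.2.2.2)

theorem DC.sq_of_cls (h : DC π z) {a u : E} (hP : Perf (π a)) (ha : a * a = 1)
    (c : Cls (π a) (π u)) : u * u = 1 := by
  rcases h.cls hP c with c | c
  · exact cls_sq ha c
  · have := cls_sq ha c
    rwa [mul_assoc, ← mul_assoc u, (h.comm u).eq, ← mul_assoc, ← mul_assoc, h.sq, one_mul] at this

theorem cube_of_braid {x y : E} (hx : x * x = 1) (hy : y * y = 1) (e : x * y * x = y * x * y) :
    (x * y) ^ 3 = 1 := by
  calc (x * y) ^ 3 = (x * y * x) * (y * x * y) := by simp only [pow_succ, pow_zero, one_mul, mul_assoc]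
    _ = (y * x * y) * (y * x * y) := by rw [e]
    _ = y * x * (y * y) * x * y := by simp only [mul_assoc]
    _ = 1 := by rw [hy, mul_one, mul_assoc y, hx, mul_one, hy]

theorem braid_of_cube {x y : E} (hx : x * x = 1) (hy : y * y = 1) (e : (x * y) ^ 3 = 1) :
    x * y * x = y * x * y := by
  have : (x * y * x) * (y * x * y) = 1 := by
    rw [← e]; simp only [pow_succ, pow_zero, one_mul, mul_assoc]
  rw [eq_inv_of_mul_eq_one_left this]
  simp only [mul_inv_rev, inv_eq_of_mul_eq_one_right hx, inv_eq_of_mul_eq_one_right hy, mul_assoc]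

theorem DC.pow_rel (h : DC π z) {a x y : E} (hP : Perf (π a)) (ha : a * a = 1) (hx : x ∈ DD a)
    (hy : y ∈ DD a) {m : ℕ} (hm : m = 1 ∨ m = 2 ∨ m = 3) (e : (π x * π y) ^ m = 1) :
    (x * y) ^ m = 1 := by
  have sx := mul_self ha hx
  have sy := mul_self ha hy
  have px : π x * π x = 1 := by rw [← map_mul, sx, map_one]
  have py : π y * π y = 1 := by rw [← map_mul, sy, map_one]
  rcases hm with rfl | rfl | rfl
  · rw [pow_one] at e ⊢
    rw [h.inj hP hx hy (by rw [eq_inv_of_mul_eq_one_left e, inv_eq_of_mul_eq_one_right py]), sy]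
  · have c : Commute x y := h.comm_cls hP hy (by
      rw [_root_.sq] at e
      rw [commute_iff_eq, eq_inv_of_mul_eq_one_left e, mul_inv_rev, inv_eq_of_mul_eq_one_right px,
        inv_eq_of_mul_eq_one_right py])
    rw [c.mul_pow, _root_.sq, _root_.sq, sx, sy, mul_one]
  · exact cube_of_braid sx sy (h.braid hP hx hy (braid_of_cube px py e))

/-- The word is a Coxeter relator in the letters of `I`. -/
def shape (I : List ℕ) : List ℕ → Bool
  | p :: q :: w => I.contains (p / 2) && I.contains (q / 2) &&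
    ([1, 2, 3].any fun m => p :: q :: w == rep m [2 * (p / 2), 2 * (q / 2)])
  | _ => false

theorem DC.shape_rel (h : DC π z) {a : E} (hP : Perf (π a)) (ha : a * a = 1) {I : List ℕ}
    {x : ℕ → E} (hx : ∀ i ∈ I, x i ∈ DD a) {w : List ℕ} (hw : shape I w = true)
    (e : π (wval x w) = 1) : wval x w = 1 := by
  match w, hw with
  | p :: q :: w, hw =>
    simp only [shape, Bool.and_eq_true, List.contains_iff_mem, List.any_eq_true, beq_iff_eq] at hw
    obtain ⟨⟨h1, h2⟩, m, hm, e'⟩ := hw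
    have : wval x [2 * (p / 2), 2 * (q / 2)] = x (p / 2) * x (q / 2) := by
      rw [← wval_single x, ← wval_single x, ← wval_append]; rfl
    rw [e', wval_rep, this] at e ⊢
    exact h.pow_rel hP ha (hx _ h1) (hx _ h2) (by simpa using hm) (by rwa [map_pow, map_mul] at e)

/-- A local isomorphism from two embeddings of the same group. -/
theorem loc0_of {C M G : Type*} [Group C] [Group M] [Group G] (β : C →* M) (ψ : C →* G) (z : C)
    (hk : ∀ g, β g = 1 ↔ ψ g = 1) (h1 : ∀ m, Commute m (β z) ↔ m ∈ β.range)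
    (h2 : ∀ g, Commute g (ψ z) → g ∈ ψ.range) : ∃ f : M → G, Loc0 (β z) f ∧ ∀ c, f (β c) = ψ c := by
  classical
  have key : ∀ c c', β c = β c' ↔ ψ c = ψ c' := fun c c' => by
    rw [← mul_inv_eq_one, ← map_inv, ← map_mul, hk, map_mul, map_inv, mul_inv_eq_one]
  let f : M → G := fun m => if h : m ∈ β.range then ψ h.choose else 1
  have hf : ∀ c, f (β c) = ψ c := fun c => by
    have : β c ∈ β.range := ⟨c, rfl⟩
    simp only [f, dif_pos this]
    exact (key _ _).1 this.choose_spec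
  refine ⟨f, ⟨fun g k hg hk => ?_, fun g k hg hk e => ?_, fun e he => ?_⟩, hf⟩
  · obtain ⟨g, rfl⟩ := (h1 g).1 hg
    obtain ⟨k, rfl⟩ := (h1 k).1 hk
    rw [← map_mul, hf, hf, hf, map_mul]
  · obtain ⟨g, rfl⟩ := (h1 g).1 hg
    obtain ⟨k, rfl⟩ := (h1 k).1 hk
    rw [hf, hf] at e
    exact (key _ _).2 e
  · rw [hf] at he
    obtain ⟨c, rfl⟩ := h2 e he
    exact ⟨β c, (h1 _).2 ⟨c, rfl⟩, hf c⟩

/-- The centraliser of an involution as a double cover of the quotient. -/
theorem dc_of_quot {G : Type*} [Group G] {d : G} (hd : orderOf d = 2)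
    [((zpowers d).subgroupOf (centralizer ({d} : Set G))).Normal]
    (e : centralizer ({d} : Set G) ⧸ (zpowers d).subgroupOf (centralizer ({d} : Set G)) ≃* F) :
    DC (e.toMonoidHom.comp (QuotientGroup.mk' _))
      (⟨d, mem_centralizer_singleton_iff.2 rfl⟩ : centralizer ({d} : Set G)) := by
  have h1 : d ≠ 1 := fun h => by simp [h] at hd
  refine ⟨e.surjective.comp (QuotientGroup.mk'_surjective _), fun g => ?_,
    fun h => h1 (congrArg Subtype.val h)⟩
  rw [MonoidHom.comp_apply, MulEquiv.coe_toMonoidHom, e.map_eq_one_iff, QuotientGroup.mk'_apply,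
    QuotientGroup.eq_one_iff, mem_subgroupOf, Subtype.ext_iff, Subtype.ext_iff]
  constructor
  · rintro ⟨n, hn⟩
    simp only at hn
    rw [← zpow_mod_orderOf, hd] at hn
    rcases Int.emod_two_eq_zero_or_one n with e | e
    · left; simpa [e] using hn.symm
    · right; simpa [e] using hn.symm
  · rintro (h | h)
    · rw [h]; exact one_mem _
    · rw [h]; exact mem_zpowers d

end Cfsg.Agent.Lib.FisLift
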