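import Cfsg.Agent.Lib.Fis22F
import Cfsg.Agent.Lib.FisLift
import Cfsg.Agent.Lib.Fi23A

/-! The perfect double cover of Fi22 is unique. -/

set_option autoImplicit false
set_option maxRecDepth 100000

namespace Cfsg.Agent.Lib.Fis22

open Cfsg Subgroup Cfsg.Agent.Lib.FisCore Cfsg.Agent.Lib.FisLoc Cfsg.Agent.Lib.FisPrim
  Cfsg.Agent.Lib.PermNet Cfsg.Agent.Lib.Words Cfsg.Agent.Lib.PermGroup Cfsg.Agent.Lib.FisPM
  Cfsg.Agent.Lib.FisInv Cfsg.Agent.Lib.FisLift Cfsg.Agent.Lib.Fi22A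

theorem wval_prod {G : Type*} [Group G] (y : ℕ → G) (w : List ℕ) :
    wval y w = (w.map fun p => wval y [p]).prod := by
  induction w with
  | nil => rfl
  | cons p w ih => rw [List.map_cons, List.prod_cons, ← ih, ← wval_append]; rfl

theorem t_eq : wval Y (hs.getD 8 []) = wval Y [18] := one' (by decide +kernel)

theorem perf : Perf d := by
  intro K hd hK g hg
  have cm : ∀ p ∈ [4, 6, 8, 10, 12, 14, 16, 18], Commute (wval Y [p]) d := fun p hp => by
    have := (by decide : ∀ p ∈ [4, 6, 8, 10, 12, 14, 16, 18], [p] ∈ hs ∨ p = 18) p hp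
    rcases this with h | rfl
    · exact mem_centralizer_singleton_iff.1 (hs_le (mem_gp h))
    · rw [← t_eq]; exact mem_centralizer_singleton_iff.1 (hs_le (mem_gp (by decide)))
  have br : ∀ p ∈ [4, 6, 8, 10, 12, 14, 16, 18], ∀ q ∈ [4, 6, 8, 10, 12, 14, 16, 18],
      nd.oneB [p, q, p] [q, p, q] = true → (wval Y [p] ∈ K ↔ wval Y [q] ∈ K) := fun p hp q hq h => by
    have e : wval Y [p] * wval Y [q] * wval Y [p] = wval Y [q] * wval Y [p] * wval Y [q] := by
      simp only [← wval_append]; exact one' h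
    exact ⟨par_braid hK (cm p hp) (cm q hq) e, par_braid hK (cm q hq) (cm p hp) e.symm⟩
  have e1 := br 4 (by decide) 6 (by decide) (by decide +kernel)
  have e2 := br 6 (by decide) 8 (by decide) (by decide +kernel)
  have e3 := br 8 (by decide) 10 (by decide) (by decide +kernel)
  have e4 := br 10 (by decide) 12 (by decide) (by decide +kernel)
  have e5 := br 6 (by decide) 14 (by decide) (by decide +kernel)
  have e6 := br 14 (by decide) 16 (by decide) (by decide +kernel)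
  have e7 := br 10 (by decide) 18 (by decide) (by decide +kernel)
  have all : ∀ p ∈ [4, 6, 8, 10, 12, 14, 16, 18], (wval Y [p] ∈ K ↔ wval Y [4] ∈ K) := by
    simp only [List.forall_mem_cons, ← e7, ← e6, ← e5, ← e4, ← e3, ← e2, ← e1]
    simp
  have h4 : wval Y [4] ∈ K := by
    by_contra hn
    have := (par_prod hK ((rep 9 [4, 6, 8, 10, 12, 14, 16]).map fun p => wval Y [p]) fun x hx => by
      obtain ⟨p, hp, rfl⟩ := List.mem_map.1 hx
      have hp := (by decide +kernel : ∀ p ∈ rep 9 [4, 6, 8, 10, 12, 14, 16],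
        p ∈ [4, 6, 8, 10, 12, 14, 16, 18]) p hp
      exact ⟨cm p hp, fun h => hn ((all p hp).1 h)⟩).2
    rw [← wval_prod, one' (v := []) (by decide +kernel), List.length_map] at this
    exact absurd (this.1 K.one_mem) (by decide +kernel)
  refine gp_le.2 (fun w hw => ?_) (mem_hs hg)
  have := (by decide : ∀ w ∈ hs, w = [0] ∨ w = hs.getD 8 [] ∨
    ∃ p ∈ [4, 6, 8, 10, 12, 14, 16, 18], w = [p]) w hw
  rcases this with rfl | rfl | ⟨p, hp, rfl⟩
  · exact hd
  · rw [t_eq]; exact (all 18 (by decide)).2 h4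
  · exact (all p hp).2 h4

theorem oddRel : OddRel d := by
  have h : ∀ i ∈ [0, 1, 2, 3, 5, 6, 10], i < ts.length := by decide
  refine ⟨[0, 1, 2, 3, 5, 6, 10].map (tup nd Y ts), by decide, ?_, fun x hx => ?_,
    fun x hx y hy => ?_⟩
  · rw [← base.prod h, show xorAll cs [0, 1, 2, 3, 5, 6, 10] = 0 by decide, pi_zero]
  · obtain ⟨i, hi, rfl⟩ := List.mem_map.1 hx
    exact base.mem i (h i hi)
  · obtain ⟨i, hi, rfl⟩ := List.mem_map.1 hx
    obtain ⟨j, hj, rfl⟩ := List.mem_map.1 hy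
    exact base.comm i (h i hi) j (h j hj)

theorem gen_mem {i : ℕ} (hi : i < 10) : Y i ∈ DD d := by
  have : Y i = el nd Y (i, []) := by
    rw [← wval_single Y i]; interval_cases i <;> rfl
  rw [this]
  refine P.el_mem ?_
  interval_cases i <;> decide +kernel

theorem Y_eq {i : ℕ} (hi : i < 9) : Y i = Fi22Base.y i := ext_of_lt _ _ hi

theorem covK : ∀ w ∈ Fi22Cover.K, wval Y w = 1 := derive Fi22Base.I hKY _ (by decide +kernel)

theorem alpha_dc : DC Fi22Cover.alpha (wval Fi22Cover.y Fi22Cover.zw) := by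
  refine ⟨Fi22Cover.alpha_surjective, Fi23A.cover.2.2, fun h => ?_⟩
  have h1 : Function.Injective Fi22Cover.alpha :=
    (injective_iff_map_eq_one _).2 fun g hg => by
      rcases (Fi23A.cover.2.2 g).1 hg with e | e
      exacts [e, e.trans h]
  have h2 := Nat.card_congr (Equiv.ofBijective _ ⟨h1, Fi22Cover.alpha_surjective⟩)
  rw [Fi23A.cover.2.1, card_eq] at h2
  norm_num at h2

section cover
variable {E : Type*} [Group E] {π : E →* Spor.Fi22} {z : E} (h : DC π z)
include h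

theorem lift_sq {a : E} (ha : π a = d) : a * a = 1 :=
  h.sq_base (ha ▸ perf) (ha ▸ hd2) (ha ▸ oddRel)

theorem sq_of_sq {u : E} (hu : π u * π u = 1) : u * u = 1 := by
  obtain ⟨a, ha⟩ := h.surj d
  exact h.sq_of_cls (ha ▸ perf) (lift_sq h ha) (ha ▸ classify hu)

theorem lift_rel {a : E} (ha : π a = d) {x : ℕ → E} (hx : ∀ i < 9, x i ∈ DD a ∧ π (x i) = Y i) :
    ∀ w ∈ Fi22Cover.K, w ≠ rep 9 [0, 2, 4, 6, 8, 10, 14] → wval x w = 1 := by
  intro w hw hn
  have hp : ∀ w : List ℕ, (∀ l ∈ w, l < 2 * 9) → π (wval x w) = wval Y w := fun w hw => by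
    rw [map_wval]; exact wval_congr (fun i hi => (hx i hi).2) hw
  have := (by decide +kernel : ∀ w ∈ Fi22Cover.K, (∀ l ∈ w, l < 2 * 9) ∧
    (shape (List.range 9) w = true ∨ w = rep 9 [0, 2, 4, 6, 8, 10, 14] ∨
      w = rep 5 [6, 4, 2, 6, 8, 10, 6, 14, 16] ++ rep 5 [6, 4, 2, 6, 8, 10, 6, 14, 16])) w hw
  rcases this with ⟨h1, h2 | h2 | h2⟩
  · exact h.shape_rel (ha ▸ perf) (lift_sq h ha) (fun i hi => (hx i (by simpa using hi)).1) h2
      (by rw [hp w h1, covK w hw])
  · exact absurd h2 hn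
  · rw [h2, wval_append]
    refine sq_of_sq h ?_
    rw [← map_mul, ← wval_append, ← h2, hp w h1, covK w hw]

theorem exists_lift : ∃ x : ℕ → E, (∀ i < 9, π (x i) = Y i) ∧
    ∀ w ∈ Fi22Cover.K, wval x w = 1 := by
  obtain ⟨a, ha⟩ := h.surj d
  have : ∀ i, ∃ x, i < 9 → x ∈ DD a ∧ π x = Y i := fun i => by
    by_cases hi : i < 9
    · obtain ⟨x, hx⟩ := h.lift (a := a) (ha ▸ gen_mem (i := i) (by omega))
      exact ⟨x, fun _ => hx⟩
    · exact ⟨1, fun h => absurd h hi⟩
  choose x hx using this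
  have hp : π (wval x (rep 9 [0, 2, 4, 6, 8, 10, 14])) = 1 := by
    rw [map_wval, wval_congr (fun i hi => (hx i hi).2) (by decide +kernel)]
    exact covK _ (by decide +kernel)
  rcases (h.ker _).1 hp with e | e
  · refine ⟨x, fun i hi => (hx i hi).2, fun w hw => ?_⟩
    by_cases hn : w = rep 9 [0, 2, 4, 6, 8, 10, 14]
    · rw [hn, e]
    · exact lift_rel h ha hx w hw hn
  · have hx' : ∀ i < 9, z * x i ∈ DD (z * a) ∧ π (z * x i) = Y i := fun i hi => by
      obtain ⟨g, hg⟩ := isConj_iff.1 (hx i hi).1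
      refine ⟨isConj_iff.2 ⟨g, ?_⟩, by rw [map_mul, h.pi_z, one_mul, (hx i hi).2]⟩
      rw [← conj_mul, hg, conj_eq_of_commute (h.comm g)]
    refine ⟨fun i => z * x i, fun i hi => (hx' i hi).2, fun w hw => ?_⟩
    by_cases hn : w = rep 9 [0, 2, 4, 6, 8, 10, 14]
    · rw [hn, wval_mul_z h, e, show (rep 9 [0, 2, 4, 6, 8, 10, 14]).length = 2 * 31 + 1 by
        decide +kernel, h.zpow, h.sq]
    · exact lift_rel h (by rw [map_mul, h.pi_z, one_mul, ha]) hx' w hw hn

theorem exists_psi [Finite E] (hp : commutator E = ⊤) : ∃ ψ : Fi22Cover.Cov →* E,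
    Function.Bijective ψ ∧ ψ (wval Fi22Cover.y Fi22Cover.zw) = z := by
  obtain ⟨x, h1, h2⟩ := exists_lift h
  obtain ⟨ψ, hψ⟩ := Fi22Cover.exists_hom x h2
  have e : ∀ g, π (ψ g) = Fi22Cover.alpha g := fun g => by
    have : gp Fi22Cover.y allg ≤ (π.comp ψ).eqLocus Fi22Cover.alpha := gp_le.2 fun w hw => by
      obtain ⟨i, hi, rfl⟩ := (by decide : ∀ w ∈ allg, ∃ i < 9, w = [2 * i]) w hw
      rw [wval_single]
      exact ((congrArg π (hψ i hi)).trans (h1 i hi)).trans
        ((Y_eq hi).trans (Fi22Cover.alpha_y i hi).symm)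
    exact this (by rw [Fi22Cover.gp_top (by decide)]; trivial)
  have hs : Function.Surjective ψ := MonoidHom.range_eq_top.1 (h.range_top hp fun y => by
    obtain ⟨g, rfl⟩ := Fi22Cover.alpha_surjective y
    exact ⟨_, ⟨g, rfl⟩, e g⟩)
  have : Finite Fi22Cover.Cov := Nat.finite_of_card_ne_zero Fi22Cover.card_le.1
  have hb : Function.Bijective ψ :=
    (Nat.bijective_iff_surjective_and_card _).2 ⟨hs, by rw [h.card, alpha_dc.card]⟩
  refine ⟨ψ, hb, ((h.ker _).1 (by rw [e, alpha_dc.pi_z])).resolve_left fun e => ?_⟩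
  exact alpha_dc.ne (hb.1 (by rw [e, map_one]))

end cover

end Cfsg.Agent.Lib.Fis22
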