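import Cfsg.Agent.Lib.Fis23A

/-! Fi23: squares, twins and coverings. -/

set_option autoImplicit false
set_option maxRecDepth 100000
set_option Elab.async false

namespace Cfsg.Agent.Lib.Fis23

open Cfsg Subgroup Cfsg.Agent.Lib.FisCore Cfsg.Agent.Lib.FisLoc Cfsg.Agent.Lib.FisPrim
  Cfsg.Agent.Lib.PermNet Cfsg.Agent.Lib.Words Cfsg.Agent.Lib.PermGroup Cfsg.Agent.Lib.FisPM
  Cfsg.Agent.Lib.Fi23A

theorem sq2 : ∃ g, Commute g d ∧ g * g = el nd Y ta * el nd Y tc := by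
  have c := P.cen (ws := [[0, 2, 4, 0, 2]]) (ts := [td]) (by decide +kernel)
  simp only [List.forall_mem_cons, el_d] at c
  refine ⟨_, c.1.1, ?_⟩
  simp only [el, ← wval_append]
  exact eqc (by decide +kernel)

theorem sq3 : ∃ g, Commute g d ∧ g * g = d * (el nd Y ta * el nd Y tc) := by
  have c := P.cen (ws := [[14, 6, 8, 4, 6, 14, 16, 2, 4, 6, 14, 8, 6, 4, 2, 0, 2, 4, 6, 8, 14, 6, 4, 2, 16, 14, 6, 4, 8, 6, 14, 10, 8, 2, 4, 6, 14, 12, 10, 8, 6, 4, 2, 0, 2, 4, 6, 8, 10, 12, 14, 6, 4, 2, 8, 10, 14, 16, 10, 8, 6, 14, 12, 10, 8, 6, 4, 6, 8, 10, 12, 14, 6, 8, 10, 16, 14, 2, 4, 6, 14, 8, 6, 4, 2, 0, 2, 4, 6, 8, 14, 6, 4, 2]]) (ts := [td]) (by decide +kernel)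
  simp only [List.forall_mem_cons, el_d] at c
  refine ⟨_, c.1.1, ?_⟩
  rw [← el_d]
  simp only [el, ← wval_append]
  exact eqc (by decide +kernel)

theorem sq4 : ∃ g, Commute g d ∧ g * g = el nd Y ta * el nd Y tc * el nd Y ts := by
  have c := P.cen (ws := [[2, 4, 6, 14, 8, 6, 4, 2, 0, 2, 4, 6, 8, 14, 6, 4, 2, 16, 6, 14, 8, 6, 4, 6, 8, 14, 6, 16, 14, 16]]) (ts := [td]) (by decide +kernel)
  simp only [List.forall_mem_cons, el_d] at c
  refine ⟨_, c.1.1, ?_⟩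
  simp only [el, ← wval_append]
  exact eqc (by decide +kernel)

theorem sq5 : ∃ g, Commute g d ∧ g * g = d * (el nd Y ta * el nd Y tc * el nd Y ts) := by
  have c := P.cen (ws := [[6, 8, 10, 4, 6, 8, 2, 4, 6, 14, 12, 10, 8, 6, 4, 2, 0, 2, 4, 6, 8, 10, 12, 14, 6, 4, 2, 8, 6, 4, 10, 8, 6, 16, 10, 8, 2, 4, 6, 14, 12, 10, 8, 6, 4, 2, 0, 2, 4, 6, 8, 10, 12, 14, 6, 4, 2, 8, 10, 16, 10, 8, 6, 14, 12, 10, 8, 6, 4, 6, 8, 10, 12, 14, 6, 8, 10, 16]]) (ts := [td]) (by decide +kernel)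
  simp only [List.forall_mem_cons, el_d] at c
  refine ⟨_, c.1.1, ?_⟩
  rw [← el_d]
  simp only [el, ← wval_append]
  exact eqc (by decide +kernel)

theorem sep : ∀ x ∈ DD d, Commute x d → Commute x (el nd Y ta) → ¬ Commute x (el nd Y tc) →
    ∃ t ∈ DD d, Commute t d ∧ Commute t (el nd Y ta) ∧ Commute t (el nd Y tc) ∧ t ≠ el nd Y tc ∧
      ¬ Commute t x :=
  P.c_sep el_d (us := [(7, []), (10, [18, 12, 10, 8, 6, 4, 14, 6, 8, 10, 12, 18])]) (by decide +kernel)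

theorem twin : Twin d (el nd Y ta) (el nd Y ti) (el nd Y tj) :=
  P.c_twin el_d (us := [(3, []), (4, []), (0, [2, 4, 6, 8, 10, 14, 6, 4, 2, 16, 14]), (5, [])]) (w := []) (by decide +kernel)

theorem cover : ∀ x ∈ DD d, ∃ y, Commute y d ∧ Commute y (el nd Y tj) ∧
    Commute x (y * el nd Y ta * y⁻¹) :=
  P.c_cover el_d (ws := [[0], [2], [4], [6], [8], [10], [14], [16]]) (seq := [1, 0, 2, 3, 1, 6, 4, 7, 3, 2, 3]) (by decide +kernel)

theorem cnt : {x | x ∈ DD d ∧ Commute x d ∧ Commute x (el nd Y ta)}.ncard ≤ 695 :=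
  P.c_cnt el_d (len := 110) (by decide +kernel)

theorem braid : d * el nd Y tj * d = el nd Y tj * d * el nd Y tj := by
  have := (P.eqB_iff (t := (9, [] ++ dw)) (u := (10, [] ++ [18])) rfl rfl).1 (by decide +kernel)
  rw [el_conj tj, el_conj td, el_d, ← d, inv_eq hd2 (self_mem d),
    show wval Y [18] = el nd Y tj from rfl, inv_eq hd2 (P.el_mem (t := tj) rfl)] at this
  exact this

end Cfsg.Agent.Lib.Fis23
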