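import Cfsg.Agent.Lib.Fis22L
import Cfsg.Agent.Lib.Fis23B
import Cfsg.Agent.Lib.Fis23C
import Cfsg.Agent.Lib.Fis23R

/-! Fi23 satisfies the hypotheses of the recognition theorem. -/

set_option autoImplicit false
set_option maxRecDepth 100000
set_option Elab.async false

namespace Cfsg.Agent.Lib.Fis23

open Cfsg Subgroup Cfsg.Agent.Lib.FisCore Cfsg.Agent.Lib.FisLoc Cfsg.Agent.Lib.FisPrim
  Cfsg.Agent.Lib.PermNet Cfsg.Agent.Lib.Words Cfsg.Agent.Lib.PermGroup Cfsg.Agent.Lib.FisPM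
  Cfsg.Agent.Lib.Fi23A Cfsg.Agent.Lib.FisLift Cfsg.Agent.Lib.FisInv

theorem dc : DC Fi22Cover.alpha z := Fis22.alpha_dc

theorem comm_iff (m : Spor.Fi23) : Commute m (Fi23A.beta z) ↔ m ∈ Fi23A.beta.range := by
  rw [beta_z, beta_range]
  exact ⟨mem_hs, fun h => mem_centralizer_singleton_iff.1 (hs_le h)⟩

theorem exists_pre {g : Spor.Fi23} (h : Commute g d) : ∃ x, Fi23A.beta x = g :=
  (comm_iff g).1 (beta_z ▸ h)

theorem nsq (g : Spor.Fi23) : g * g ≠ d := fun h => by
  obtain ⟨x, rfl⟩ := exists_pre (g := g) (h ▸ (Commute.refl g).mul_right (Commute.refl g))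
  have e : x * x = z := beta_injective (by rw [map_mul, h, beta_z])
  exact dc.ne (e.symm.trans (Fis22.sq_of_sq dc (by rw [← map_mul, e, dc.pi_z])))

theorem alpha_0 : Fi22Cover.alpha (Fi22Cover.y 0) = Fis22.d := by
  rw [Fi22Cover.alpha_y 0 (by decide), ← Fis22.Y_eq (by decide)]
  exact (wval_single _ 0).symm

theorem Y_el {i : ℕ} (hi : i < 10) : Y i = el nd Y (i, []) := by
  rw [← wval_single Y i]; interval_cases i <;> rfl

theorem adj_beta {x : Fi22Cover.Cov} (hx : x ∈ DD (Fi22Cover.y 0)) : Adj d d (Fi23A.beta x) := by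
  refine ⟨self_mem d, IsConj.trans ?_ (map_mem Fi23A.beta hx), fun e => ?_, ?_⟩
  · rw [beta_y 0 (by decide), Y_el (by decide)]; exact geo.ha.2.1
  · have h1 := map_mem Fi22Cover.alpha hx
    rw [← beta_injective (beta_z.trans e), dc.pi_z, alpha_0] at h1
    exact Fis22.nb_d (isConj_one_left.1 h1 ▸ Commute.one_right _)
  · rw [← beta_z]; exact (z_comm x).symm.map _

theorem adj_beta' {x y : Fi22Cover.Cov} (h : Adj (Fi22Cover.y 0) x y) :
    Adj d (Fi23A.beta x) (Fi23A.beta y) :=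
  ⟨(adj_beta h.1).2.1, (adj_beta h.2.1).2.1, fun e => h.2.2.1 (beta_injective e), h.2.2.2.map _⟩

theorem small_beta {v : Fi22Cover.Cov} (h : Cls (Fi22Cover.y 0) v) : Small d (Fi23A.beta v) := by
  rcases h with rfl | h | ⟨x, y, h, rfl⟩ | ⟨x, y, w, h1, h2, h3, rfl⟩
  · exact Or.inl (map_one _)
  · exact Or.inr (Or.inl (adj_beta h))
  · exact Or.inr (Or.inr (Or.inl ⟨_, _, adj_beta h.1, adj_beta h.2.1, adj_beta' h, map_mul _ _ _⟩))
  · exact Or.inr (Or.inr (Or.inr ⟨_, _, _, adj_beta h1.1, adj_beta h1.2.1, adj_beta h2.2.1,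
      adj_beta' h1, adj_beta' h2, adj_beta' h3, by rw [map_mul, map_mul]⟩))

theorem f1 (u : Spor.Fi23) (h : Commute u d) (hu : u * u = 1) : Small d u ∨ Small d (d * u) := by
  obtain ⟨x, rfl⟩ := exists_pre h
  have e : x * x = 1 := beta_injective (by rw [map_mul, hu, map_one])
  rcases dc.cls (a := Fi22Cover.y 0) (u := x) (alpha_0 ▸ Fis22.perf)
    (alpha_0 ▸ Fis22.classify (by rw [← map_mul, e, map_one])) with c | c
  · exact Or.inl (small_beta c)
  · have := small_beta c
    rw [map_mul, beta_z] at this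
    exact Or.inr this

theorem q1 (u : Spor.Fi23) (hu : u * u = 1) : ∃ x ∈ DD d, Commute u x := by
  let f : DD d → DD d := fun x => ⟨u * x * u⁻¹, conj_mem x.2 u⟩
  have hf : Function.Involutive f := fun x => Subtype.ext (by
    simp only [f]; rw [← conj_mul', hu]; simp)
  have : Fact (Nat.Prime 2) := ⟨Nat.prime_two⟩
  have := Fintype.ofFinite (DD d)
  classical
  obtain ⟨x, hx⟩ := Equiv.Perm.exists_fixed_point_of_prime (p := 2) (n := 1) (σ := hf.toPerm f) (by
    rw [← Nat.card_eq_fintype_card, Nat.card_coe_set_eq, P.ncard_D]; decide)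
    (by ext x; simp [pow_succ, hf x])
  exact ⟨x, x.2, commute_of_conj_eq (congrArg Subtype.val hx)⟩

/-- The diagram symmetry. -/
def sg : List (List ℕ) := [[12], [10], [8], [6], [4], [2], [0], [14], [16]]

theorem cov_eq {u v : List ℕ} (hu : u.all (fun l => decide (l < 2 * 9)) = true)
    (hv : v.all (fun l => decide (l < 2 * 9)) = true) (h : nd.cenB [u ++ invW v] gens = true) :
    wval Fi22Cover.y u = wval Fi22Cover.y v :=
  beta_injective (by rw [beta_wval _ hu, beta_wval _ hv]; exact eqc h)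

theorem thK : ∀ w ∈ Fi22Cover.K, wval (fun i => z * wval Fi22Cover.y (sg.getD i [])) w = 1 := by
  intro w hw
  rw [wval_mul_z dc, ← wval_subst]
  have := (by decide +kernel : ∀ w ∈ Fi22Cover.K, (w.length = 2 * (w.length / 2) ∧
    (deriveB Fi22Cover.I Fi22Cover.K [subst sg w] = true ∨
      w = rep 10 [6, 4, 2, 6, 8, 10, 6, 14, 16])) ∨ w = rep 9 [0, 2, 4, 6, 8, 10, 14]) w hw
  rcases this with ⟨h1, h2 | rfl⟩ | rfl
  · rw [h1, dc.zpow', derive_one _ Fi22Cover.hK _ h2, mul_one]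
  · rw [h1, dc.zpow', one_mul]
    exact cov_eq (v := []) (by decide +kernel) rfl (by decide +kernel)
  · rw [show (rep 9 [0, 2, 4, 6, 8, 10, 14]).length = 2 * 31 + 1 by decide +kernel, dc.zpow,
      cov_eq (v := Fi22Cover.zw) (by decide +kernel) (by decide +kernel) (by decide +kernel)]
    exact dc.sq

theorem exists_theta : ∃ θ : Fi22Cover.Cov →* Fi22Cover.Cov, Function.Bijective θ ∧ θ z = z ∧
    ∀ i < 9, θ (Fi22Cover.y i) = z * wval Fi22Cover.y (sg.getD i []) := by
  obtain ⟨θ, hθ⟩ := Fi22Cover.exists_hom _ thK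
  have hs : Function.Surjective θ := MonoidHom.range_eq_top.1 (dc.range_top Fi22Cover.perfect (by
    have : gp Fi22Base.y Fi22A.allg ≤ θ.range.map Fi22Cover.alpha := gp_le.2 fun w hw => by
      obtain ⟨i, hi, rfl, h⟩ := (by decide : ∀ w ∈ Fi22A.allg, ∃ i < 9, sg.getD i [] = w ∧
        w.all (fun l => decide (l < 2 * 9)) = true) w hw
      exact ⟨_, ⟨_, hθ i hi⟩, by rw [map_mul, dc.pi_z, one_mul, Fi22Cover.alpha_wval _ h]⟩
    intro y
    exact this (by rw [Fi22Base.gp_top (by decide)]; trivial)))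
  have : Finite Fi22Cover.Cov := Nat.finite_of_card_ne_zero Fi22Cover.card_le.1
  have hb : Function.Bijective θ := ⟨Finite.injective_iff_surjective.2 hs, hs⟩
  refine ⟨θ, hb, ((dc.ker _).1 ?_).resolve_left fun e => dc.ne (hb.1 (by rw [e, map_one])), hθ⟩
  rw [z, map_wval, wval_congr hθ (by decide +kernel), wval_mul_z dc, ← wval_subst, map_mul, map_pow,
    dc.pi_z, one_pow, one_mul, Fi22Cover.alpha_wval _ (by decide +kernel),
    ← wval_ext _ 9 Fi22A.defs _ (by decide +kernel)]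
  exact Fis22.one' (v := []) (by decide +kernel)

theorem sw : ∃ θ : Spor.Fi23 → Spor.Fi23, Loc0 d θ ∧ θ d = d ∧
    ∃ a g, Adj d d a ∧ Adj d d g ∧ θ a = d * g := by
  obtain ⟨θ, hb, h1, h2⟩ := exists_theta
  obtain ⟨f, hf, e⟩ := loc0_of Fi23A.beta (Fi23A.beta.comp θ) z (fun g => by
    rw [MonoidHom.comp_apply, map_eq_one_iff _ beta_injective, map_eq_one_iff _ beta_injective,
      map_eq_one_iff _ hb.1]) comm_iff (fun g hg => by
    rw [MonoidHom.comp_apply, h1] at hg
    obtain ⟨x, rfl⟩ := (comm_iff g).1 hg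
    obtain ⟨x, rfl⟩ := hb.2 x
    exact ⟨x, rfl⟩)
  refine ⟨f, beta_z ▸ hf, by rw [← beta_z, e, MonoidHom.comp_apply, h1], _, el nd Y (6, []),
    adj_beta (self_mem _), adj_d (by decide +kernel), ?_⟩
  rw [e, MonoidHom.comp_apply, h2 0 (by decide), map_mul, beta_z, beta_wval _ (by decide)]
  rfl

theorem prim : Prim d (el nd Y ta) (el nd Y tc) (el nd Y ts) (el nd Y ti) (el nd Y tj) [] 695 where
  toGeo := geo
  hi := adj_d (by decide +kernel)
  hai := (P.adj (by decide +kernel)).2.2.2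
  hj := P.el_mem rfl
  hja := (P.adj (by decide +kernel)).2.2.2
  hji := (P.adj (by decide +kernel)).2.2.2
  hjd := nb_d
  braid := braid
  r1 := r1
  r2 := r2
  sq2 := sq2
  sq3 := sq3
  sq4 := sq4
  sq5 := sq5
  sep := sep
  twin := twin
  genX := fun K hK g h1 h2 => P.gp_le_of (cs := [td, ta]) (by decide +kernel)
    (fun x hx h => hK x hx (el_d ▸ h td (by simp)) (h ta (by simp))) (memX g h1 h2)
  genH := fun K hK g h1 => P.gp_le_of (us := gens.take 9) (cs := [td]) (by decide +kernel)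
    (fun x hx h => hK x hx (el_d ▸ h td (by simp))) (mem_hs h1)
  genM := fun K hK hj => by
    rw [eq_top_iff, ← topY]
    refine gp_le.2 fun w hw => ?_
    rcases (by decide : ∀ w ∈ allg, w ∈ hs ∨ w = [18]) w hw with h | rfl
    · exact hK _ (mem_centralizer_singleton_iff.1 (hs_le (mem_gp h)))
    · exact hj
  genY := fun K hK g h1 h2 => by
    refine gp_le.2 (fun w hw => ?_) (memY g h1 h2)
    have c := P.cen (ws := ys.map nd.W) (ts := [td, tj]) (by decide +kernel) w hw
    refine hK _ (el_d ▸ c td (by simp)) (c tj (by simp)) ?_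
    rcases (by decide +kernel : ∀ w ∈ ys.map nd.W, nd.cenB [w] [ta] = true ∨
      nd.cenB [w] [ti] = true) w hw with h | h
    · exact Or.inl (P.cen h w (by simp) ta (by simp))
    · exact Or.inr (P.cen h w (by simp) ti (by simp))
  cover := cover
  cnt := cnt
  big := by rw [P.ncard_D]; decide
  nsq := nsq
  f1 := f1
  q1 := q1
  sw := Or.inl sw
  rigid := rigid

end Cfsg.Agent.Lib.Fis23
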