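import Cfsg.Agent.Lib.FisPrim

/-! The recognition theorem when products of three transpositions need not be squares in the
centraliser. -/

set_option autoImplicit false

namespace Cfsg.Agent.Lib.FisPrim2

open Cfsg Subgroup Cfsg.Agent.Lib.FisCore Cfsg.Agent.Lib.FisLoc Cfsg.Agent.Lib.FisPrim

universe u
variable {M : Type*} [Group M] {G : Type u} [Group G]

def T1 (d0 : M) : Prop :=
  ∀ x y, Adj d0 d0 x → Adj d0 d0 y → ∃ h, Commute h d0 ∧ h * x * h⁻¹ = y

section
variable {d0 x a : M} {d : G} {f fa : M → G}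

theorem exists_loc (h : Loc d0 d d0 f) (fd : f d0 = d) (hS : T1 d0) (ha : Adj d0 d0 a)
    (hR : Rigid d0 a) :
    ∃ fa : M → G, Loc d0 d a fa ∧ ∀ g, Commute g d0 → Commute g a → fa g = f g := by
  have had := ha.2.2.2.symm
  obtain ⟨m, hm⟩ := isConj_iff.1 ha.2.1
  obtain ⟨c, hc⟩ := isConj_iff.1 ((h.cls a had).1 ha.2.1)
  have h1 := h.transport' m c
  rw [hm] at h1
  set f1 : M → G := fun y => c * f (m⁻¹ * y * m) * c⁻¹ with hf1
  have e1 : f1 a = f a := by
    simp only [hf1]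
    rw [← hc, ← fd, show m⁻¹ * a * m = d0 by rw [← hm]; group]
  obtain ⟨y, hy, ey⟩ := h1.surj d (by
    rw [e1, ← fd]; exact (h.comm (Commute.refl _) had).2 had.symm)
  have hyD : y ∈ DD d0 := (h1.cls y hy).2 (ey ▸ self_mem d)
  have hya : a ≠ y := fun e => ha.2.2.1 (h.inj _ _ (Commute.refl _) had (by rw [fd, ← e1, e, ey]))
  have conv : ∀ z, Adj d0 a z → Adj d0 d0 (m⁻¹ * z * m⁻¹⁻¹) := fun z hz => by
    have := hz.conj m⁻¹
    rwa [← hm, show m⁻¹ * (m * d0 * m⁻¹) * m⁻¹⁻¹ = d0 by group] at this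
  obtain ⟨k, hk, ek⟩ := hS _ _ (conv y ⟨ha.2.1, hyD, hya, hy.symm⟩) (conv d0 ha.symm)
  have hk' : (m * k * m⁻¹) * a * (m * k * m⁻¹)⁻¹ = a := by
    rw [← hm]; exact conj_eq_of_commute (commute_conj hk m)
  have ek' : (m * k * m⁻¹)⁻¹ * d0 * (m * k * m⁻¹) = y := by
    have : d0 = m * (k * (m⁻¹ * y * m⁻¹⁻¹) * k⁻¹) * m⁻¹ := by rw [ek]; group
    nth_rewrite 1 [this]; group
  have h2 := h1.transport' (m * k * m⁻¹) 1
  rw [hk'] at h2
  set f2 : M → G := fun y => 1 * f1 ((m * k * m⁻¹)⁻¹ * y * (m * k * m⁻¹)) * 1⁻¹ with hf2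
  have e2 : f2 a = f a := by
    simp only [hf2, one_mul, inv_one, mul_one]
    rw [← e1]; congr 1
    nth_rewrite 1 [← hk']; group
  have e3 : f2 d0 = d := by simp only [hf2, one_mul, inv_one, mul_one]; rw [ek', ey]
  clear_value f2
  have hex : ∀ g, Commute g d0 → Commute g a → ∃ g', Commute g' a ∧ f2 g' = f g := fun g h1 h3 =>
    h2.surj _ (by rw [e2]; exact (h.comm h1 had).2 h3)
  choose! β hβ using hex
  obtain ⟨α, hα, eα⟩ := hR β (fun g k g1 g2 k1 k2 => by
      refine h2.inj _ _ (hβ _ (g1.mul_left k1) (g2.mul_left k2)).1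
        ((hβ g g1 g2).1.mul_left (hβ k k1 k2).1) ?_
      rw [(hβ _ (g1.mul_left k1) (g2.mul_left k2)).2, h2.mul _ _ (hβ g g1 g2).1 (hβ k k1 k2).1,
        (hβ g g1 g2).2, (hβ k k1 k2).2, h.mul _ _ g1 k1])
    (fun g g1 g2 e => h.inj _ _ g1 (Commute.one_left _) (by
      rw [← (hβ g g1 g2).2, e, h2.one, h.one]))
    (fun g g1 g2 hD => (h2.cls _ (hβ g g1 g2).1).2 (by
      rw [(hβ g g1 g2).2]; exact (h.cls g g1).1 hD))
    (h2.inj _ _ (hβ _ (Commute.refl _) had.symm).1 had.symm (by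
      rw [(hβ _ (Commute.refl _) had.symm).2, e3, fd]))
    (h2.inj _ _ (hβ _ had (Commute.refl _)).1 (Commute.refl _) (by
      rw [(hβ _ had (Commute.refl _)).2, e2]))
  have ea : α a = a := by
    rw [eα a had (Commute.refl _)]
    exact h2.inj _ _ (hβ _ had (Commute.refl _)).1 (Commute.refl _) (by
      rw [(hβ _ had (Commute.refl _)).2, e2])
  have h3 := h2.transport α.symm (fun y => by rw [← hα (α.symm y), α.apply_symm_apply]) 1
  rw [show α.symm a = a by rw [α.symm_apply_eq, ea]] at h3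
  refine ⟨_, h3, fun g g1 g2 => ?_⟩
  simp only [one_mul, inv_one, mul_one, MulEquiv.symm_symm]
  rw [eα g g1 g2, (hβ g g1 g2).2]

theorem comm_of_twin (h : Loc d0 d d0 f) (fd : f d0 = d) (hS : T1 d0) (ha : Adj d0 d0 a)
    (hfa : Loc d0 d a fa) (e : ∀ g, Commute g d0 → Commute g a → fa g = f g) {i j : M}
    (hi : Adj d0 d0 i) (hai : Commute a i) (hj : j ∈ DD d0) (hja : Commute j a) (hji : Commute j i)
    (hjd : ¬ Commute j d0) (hT : Twin d0 a i j) {b : M} (h1 : Commute b i) (h2 : Commute b d0)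
    (h3 : Commute b j) : Commute (f b) (fa j) := by
  have had := ha.2.2.2.symm
  have hid := hi.2.2.2.symm
  obtain ⟨c, hc, ec⟩ := hS a i ha hi
  have h4 := hfa.transport' c (f c)
  rw [ec] at h4
  set fi : M → G := fun y => f c * fa (c⁻¹ * y * c) * (f c)⁻¹ with hfi
  have e' : ∀ g, Commute g d0 → Commute g i → fi g = f g := fun g g1 g2 => by
    have g3 : Commute (c⁻¹ * g * c) d0 := (hc.inv_left.mul_left g1).mul_left hc
    simp only [hfi]
    rw [e _ g3 (by simpa [← ec, mul_assoc] using commute_conj g2 c⁻¹), ← h.conj hc g3]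
    congr 1; group
  clear_value fi
  obtain ⟨j2, k1, k2⟩ := h4.surj (fa j) (by
    rw [e' i hid (Commute.refl _), ← e i hid hai.symm]
    exact (hfa.comm hja hai.symm).2 hji)
  have k3 : Commute (f b) (fi j) := by rw [← e' b h2 h1]; exact (h4.comm h1 hji).2 h3
  rcases hT j2 ((h4.cls _ k1).2 (k2 ▸ (hfa.cls _ hja).1 hj)) (fun g g1 g2 g3 g4 => by
    rw [← h4.comm g2 k1, k2, e' g g3 g2, ← e g g3 g1]
    exact (hfa.comm g1 hja).2 g4) (fun hc' => hjd (by
      rw [← hfa.comm hja had.symm, ← k2, e d0 (Commute.refl _) had.symm,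
        ← e' d0 (Commute.refl _) hid.symm]
      exact (h4.comm k1 hid.symm).2 hc')) with rfl | rfl
  · exact k2 ▸ k3
  · rw [← k2, h4.conj hid.symm hji, e' d0 (Commute.refl _) hid.symm]
    have k4 : Commute (f b) (f d0) := (h.comm h2 (Commute.refl _)).2 h2
    exact (k4.mul_right k3).mul_right k4.inv_right

end

structure Prim2 (d a c s i j : M) (E : List M) (k : ℕ) : Prop extends Geo d a c s E where
  hi : Adj d d i
  hai : Commute a i
  hj : j ∈ DD d
  hja : Commute j a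
  hji : Commute j i
  hjd : ¬ Commute j d
  braid : d * j * d = j * d * j
  r1 : ∀ x ∈ DD d, ¬ Commute x d → ∃ h, Commute h d ∧ h * j * h⁻¹ = x
  r2 : ∀ x ∈ DD d, Commute x a → ¬ Commute x d →
    ∃ h, Commute h d ∧ Commute h a ∧ h * j * h⁻¹ = x
  sq2 : ∃ g, Commute g d ∧ g * g = a * c
  sq3 : ∃ g, Commute g d ∧ g * g = d * (a * c)
  sq1 : ∃ g, Commute g d ∧ g * g = d * a
  tz : ∃ h, Commute h d ∧ h * (a * c * s) * h⁻¹ = d * (a * c * s)
  tw : ∃ h a', Commute h d ∧ Adj d d a' ∧ Adj d a a' ∧ h * (a * c * s) * h⁻¹ = a * a' * (a * c * s) ∧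
    Commute (a * a') (a * c * s)
  sep : ∀ x ∈ DD d, Commute x d → Commute x a → ¬ Commute x c →
    ∃ t ∈ DD d, Commute t d ∧ Commute t a ∧ Commute t c ∧ t ≠ c ∧ ¬ Commute t x
  twin : Twin d a i j
  genX : ∀ K : Subgroup M, (∀ x ∈ DD d, Commute x d → Commute x a → x ∈ K) →
    ∀ g, Commute g d → Commute g a → g ∈ K
  genH : ∀ K : Subgroup M, (∀ x ∈ DD d, Commute x d → x ∈ K) → ∀ g, Commute g d → g ∈ K
  genM : ∀ K : Subgroup M, (∀ g, Commute g d → g ∈ K) → j ∈ K → K = ⊤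
  genY : ∀ K : Subgroup M, (∀ b, Commute b d → Commute b j → Commute b a ∨ Commute b i → b ∈ K) →
    ∀ g, Commute g d → Commute g j → g ∈ K
  cover : ∀ x ∈ DD d, ∃ y, Commute y d ∧ Commute y j ∧ Commute x (y * a * y⁻¹)
  cnt : {x | x ∈ DD d ∧ Commute x d ∧ Commute x a}.ncard ≤ k
  big : (3 + E.length) * k < (DD d).ncard
  nsq : ∀ g : M, g * g ≠ d
  f1 : ∀ u, Commute u d → u * u = 1 → Small d u ∨ Small d (d * u)
  q1 : ∀ u : M, u * u = 1 → ∃ x ∈ DD d, Commute u x
  rigid : Rigid d a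

variable {d a c s i j : M} {E : List M} {k : ℕ}

theorem Prim2.sq_pair (P : Prim2 d a c s i j E k) {x y : M} (h1 : Adj d d x) (h2 : Adj d d y)
    (h3 : Adj d x y) : Sq d (x * y) ∧ Sq d (d * (x * y)) := by
  obtain ⟨g, e, rfl, rfl⟩ := P.conj3 h1 h2 h3
  refine ⟨by rw [conj_mul]; exact Sq.conj P.sq2 e, ?_⟩
  nth_rewrite 2 [← e]
  rw [conj_mul, conj_mul]; exact Sq.conj P.sq3 e

theorem Prim2.nsq' (P : Prim2 d a c s i j E k) {x : M} (hx : x ∈ DD d) (g : M) : g * g ≠ x := by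
  obtain ⟨m, rfl⟩ := isConj_iff.1 hx
  intro e
  refine P.nsq (m⁻¹ * g * m) ?_
  calc m⁻¹ * g * m * (m⁻¹ * g * m) = m⁻¹ * (g * g) * m := by group
    _ = d := by rw [e]; group

theorem Prim2.pair_sq (P : Prim2 d a c s i j E k) (x y : M) (h : Adj d x y) : ∃ g, g * g = x * y := by
  obtain ⟨g, rfl, rfl⟩ := P.conj2 h
  obtain ⟨m, e1, e2⟩ := P.conj2 P.hc2
  obtain ⟨t, -, e⟩ := P.sq2
  refine ⟨g * m⁻¹ * t * (g * m⁻¹)⁻¹, ?_⟩
  rw [conj_mul, e, ← e2]; nth_rewrite 1 [← e1]; group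

theorem Prim2.trip_nD (P : Prim2 d a c s i j E k) (u : M) (h : IsTrip d u) : u ∉ DD d := by
  obtain ⟨x, y, w, h1, h2, h3, rfl⟩ := h
  obtain ⟨g, rfl, rfl, rfl⟩ := P.conj3 h1 h2 h3
  obtain ⟨t, -, e⟩ := P.sq3
  intro hD
  refine P.nsq' hD (g * t * g⁻¹) ?_
  rw [conj_mul, e]; group

theorem Prim2.pair_nD (P : Prim2 d a c s i j E k) {u : M} (h : IsPair d u) : u ∉ DD d := by
  obtain ⟨x, y, h, rfl⟩ := h
  obtain ⟨g, e⟩ := P.pair_sq x y h
  exact fun hD => P.nsq' hD g e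

theorem Prim2.trip_nPair (P : Prim2 d a c s i j E k) {u : M} (h : IsTrip d u) : ¬ IsPair d u := by
  obtain ⟨x, y, w, h1, h2, h3, rfl⟩ := h
  obtain ⟨g, rfl, rfl, rfl⟩ := P.conj3 h1 h2 h3
  intro h
  have h := h.conj g⁻¹
  rw [conj_mul, conj_mul, show g⁻¹ * (g * (d * a * c) * g⁻¹) * g⁻¹⁻¹ = d * a * c by group] at h
  obtain ⟨p, q, hpq, e⟩ := h
  have hq : d * a * c * p = q := by
    rw [e, hpq.2.2.2.eq, mul_assoc, mul_self P.sq hpq.1, mul_one]
  have hD : d * a * c * p ∈ DD d := hq ▸ hpq.2.1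
  have cda := P.ha.2.2.2
  have cdc := P.hc1.2.2.2
  have cac := P.hc2.2.2.2
  rcases P.four hpq.1 (e ▸ (Commute.refl p).mul_right hpq.2.2.2) with h | h
  · simp only [List.mem_cons] at h
    rcases h with rfl | rfl | rfl | h
    · rw [← ((Commute.refl p).mul_right cda |>.mul_right cdc).eq, ← mul_assoc, ← mul_assoc, P.sq,
        one_mul] at hD
      exact P.pair_nD ⟨_, _, P.hc2, rfl⟩ hD
    · rw [mul_assoc, ← cac.eq, mul_assoc, ← mul_assoc p, mul_self P.sq P.ha.2.1, one_mul] at hD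
      exact P.pair_nD ⟨_, _, P.hc1, rfl⟩ hD
    · rw [mul_assoc, mul_self P.sq P.hc1.2.1, mul_one] at hD
      exact P.pair_nD ⟨_, _, P.ha, rfl⟩ hD
    · obtain ⟨p', q', -, -, h3, e'⟩ := P.hE p h
      exact P.pair_nD ⟨_, _, h3, e'⟩ hD
  · exact P.trip_nD _ h hD

theorem Prim2.three (P : Prim2 d a c s i j E k) {x y : M} (hx : x ∈ DD d) (hy : y ∈ DD d)
    (h : ¬ Commute x y) : (x * y) ^ 3 = 1 := by
  obtain ⟨m, rfl⟩ := isConj_iff.1 hy
  obtain ⟨g, hg, e⟩ := P.r1 _ (mem_back m hx) (fun h' => h (commute_fwd m h'))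
  have e' : x = m * g * j * (m * g)⁻¹ := by rw [conj_mul', e]; group
  rw [e', ← conj_eq_of_commute hg, ← conj_mul', conj_mul, conj_pow]
  have : (j * d) ^ 3 = (j * d * j) * (d * j * d) := by simp only [pow_succ, pow_zero]; group
  rw [this, ← P.braid, show d * j * d * (d * j * d) = d * j * (d * d) * j * d by group, P.sq,
    mul_one, mul_assoc d, mul_self P.sq P.hj, mul_one, P.sq]
  group

theorem Prim2.comm_j (P : Prim2 d a c s i j E k) {g : M} {n : ℕ} (hn : Odd n) (hg : g ^ n = 1)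
    (h : ∀ x, Commute x d → Commute x a → Commute g x) : Commute g j := by
  have h1 := conj_eq_of_commute (h d (Commute.refl _) P.ha.2.2.2)
  rcases P.twin _ (conj_mem P.hj g) (fun x x1 _ x3 x4 => by
    rw [← conj_eq_of_commute (h x x3 x1)]; exact commute_conj x4 g)
    (fun hc => P.hjd (by rwa [← h1, commute_conj_iff] at hc)) with e | e
  · exact commute_of_conj_eq e
  · refine commute_of_sq hn hg (commute_of_conj_eq ?_)
    rw [conj_mul', e, ← conj_mul, ← conj_mul, ← conj_inv, h1, e, inv_eq P.sq (self_mem d)]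
    calc d * (d * j * d) * d = d * d * j * (d * d) := by group
      _ = j := by rw [P.sq]; group

theorem Prim2.q4 [IsSimpleGroup M] (P : Prim2 d a c s i j E k) (Y : Subgroup M)
    (hY : Odd (Nat.card Y)) (h1 : ∀ g ∈ Y, Commute g (d * a))
    (h2 : ∀ t ∈ DD d, Commute t d → Commute t a → ∀ g ∈ Y, t * g * t⁻¹ ∈ Y) : Y = ⊥ := by
  refine eq_bot_iff.2 fun g hg => ?_
  have hn : g ^ Nat.card Y = 1 := congrArg Subtype.val (pow_card_eq_one' (x := (⟨g, hg⟩ : Y)))
  have hd := self_mem d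
  have ha2 := mul_self P.sq P.ha.2.1
  have hda : Commute g d ∧ Commute g a := by
    have e := conj_eq_of_commute (h1 g hg)
    rw [← conj_mul] at e
    have hA := P.ha.conj g
    have k1 : Commute (g * d * g⁻¹) (d * a) := e ▸ (Commute.refl _).mul_right hA.2.2.2
    have e2 : g * d * g⁻¹ * (d * a) = g * a * g⁻¹ := by
      rw [← e, ← mul_assoc, mul_self P.sq hA.1, one_mul]
    have c1 := P.q2 _ _ _ P.ha hA.1 k1
    have c2 := P.q2 _ _ _ P.ha.symm hA.1 (P.ha.2.2.2.eq ▸ k1)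
    by_cases e3 : g * d * g⁻¹ = d
    · exact ⟨commute_of_conj_eq e3, commute_of_conj_eq (by
        rw [← e2, e3, ← mul_assoc, P.sq, one_mul])⟩
    by_cases e4 : g * d * g⁻¹ = a
    · have e5 : g * a * g⁻¹ = d := by rw [← e2, e4, P.ha.2.2.2.eq, ← mul_assoc, ha2, one_mul]
      exact absurd (conj_eq_of_commute (commute_of_sq hY hn (commute_of_conj_eq (by
        rw [conj_mul', e4, e5])))) e3
    exact absurd (e2 ▸ hA.2.1) (P.trip_nD _ ⟨_, _, _, ⟨hA.1, hd, e3, c1⟩, ⟨hA.1, P.ha.2.1, e4, c2⟩,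
      P.ha, (mul_assoc _ _ _).symm⟩)
  have hX : ∀ t ∈ DD d, Commute t d → Commute t a → Commute g t := fun t ht t1 t2 => by
    by_cases e1 : d = t
    · exact e1 ▸ hda.1
    by_cases e2 : a = t
    · exact e2 ▸ hda.2
    have ht2 := mul_self P.sq ht
    have hr : t * (g * t * g⁻¹) ∈ Y := by
      have := Y.mul_mem (h2 t ht t1 t2 g hg) (Y.inv_mem hg)
      rwa [inv_eq P.sq ht, mul_assoc, mul_assoc, ← mul_assoc g] at this
    have hD := conj_mem ht g
    have k1 : Commute (g * t * g⁻¹) d := (hda.1.mul_left t1).mul_left hda.1.inv_left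
    have k2 : Commute (g * t * g⁻¹) a := (hda.2.mul_left t2).mul_left hda.2.inv_left
    generalize hv : g * t * g⁻¹ = v at hr hD k1 k2
    have hv2 := mul_self P.sq hD
    by_cases hc : Commute v t
    · have := eq_one_of_odd hY hr (by
        rw [mul_assoc, ← mul_assoc v, hc.eq, mul_assoc, hv2, mul_one, ht2])
      exact commute_of_conj_eq (by rw [hv, eq_inv_of_mul_eq_one_right this, inv_eq P.sq ht])
    exfalso
    obtain ⟨m, m1, m2, rfl⟩ := P.t2 t ⟨hd, ht, e1, t1.symm⟩ ⟨P.ha.2.1, ht, e2, t2.symm⟩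
    obtain ⟨w, w0, w1, w2, w3, w4, w5⟩ := P.sep (m⁻¹ * v * m) (mem_back m hD)
      ((m1.inv_left.mul_left k1).mul_left m1) ((m2.inv_left.mul_left k2).mul_left m2)
      (fun h => hc (commute_fwd m h))
    have wD := conj_mem w0 m
    have c1 : Commute (m * w * m⁻¹) d := (m1.mul_left w1).mul_left m1.inv_left
    have c2 : Commute (m * w * m⁻¹) a := (m2.mul_left w2).mul_left m2.inv_left
    have c3 := commute_conj w3 m
    have c4 : m * w * m⁻¹ ≠ m * c * m⁻¹ := by simpa using w4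
    have c5 : ¬ Commute v (m * w * m⁻¹) := fun h => w5 (commute_back m h).symm
    generalize m * w * m⁻¹ = w' at wD c1 c2 c3 c4 c5
    generalize m * c * m⁻¹ = t at *
    have hw2 := mul_self P.sq wD
    have h3 := P.three hD wD c5
    have h4 := Y.mul_mem (Y.inv_mem hr) (h2 w' wD c1 c2 _ hr)
    have e3 : (t * v)⁻¹ * (w' * (t * v) * w'⁻¹) = (v * w')⁻¹ := by
      rw [← mul_assoc w', c3.eq, inv_eq P.sq wD, mul_inv_rev, inv_eq P.sq hD]
      rw [eq_comm, inv_eq_iff_mul_eq_one, ← h3]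
      simp only [pow_succ, pow_zero]; group
    rw [e3, Y.inv_mem_iff] at h4
    have h5 := Y.mul_mem hr h4
    rw [mul_assoc, ← mul_assoc v, hv2, one_mul] at h5
    have := eq_one_of_odd hY h5 (by
      rw [mul_assoc, ← mul_assoc w', c3.eq, mul_assoc, hw2, mul_one, ht2])
    exact c4 (by rw [eq_inv_of_mul_eq_one_right this, inv_eq P.sq ht])
  have hX' : ∀ x, Commute x d → Commute x a → Commute g x := fun x x1 x2 =>
    (mem_centralizer_singleton_iff.1 (P.genX (centralizer {g})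
      (fun t ht t1 t2 => mem_centralizer_singleton_iff.2 (hX t ht t1 t2).symm) x x1 x2)).symm
  have hj := P.comm_j hY hn hX'
  obtain ⟨m, hm⟩ := isConj_iff.1 P.ha.2.1
  have hH : ∀ x, Commute x d → Commute (m⁻¹ * g * m) x := fun x hx =>
    (mem_centralizer_singleton_iff.1 (P.genH (centralizer {m⁻¹ * g * m}) (fun t ht t1 => by
      refine mem_centralizer_singleton_iff.2 (commute_back m ?_).symm
      have t2 := commute_conj t1 m
      rw [hm] at t2
      by_cases hc : Commute (m * t * m⁻¹) d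
      · exact hX' _ hc t2
      · obtain ⟨h, k1, k2, e⟩ := P.r2 _ (conj_mem ht m) t2 hc
        rw [← e]
        exact ((hX' h k1 k2).mul_right hj).mul_right (hX' h k1 k2).inv_right) x hx)).symm
  have hn' : (m⁻¹ * g * m) ^ Nat.card Y = 1 := by
    have := conj_pow (a := m⁻¹) (b := g) (i := Nat.card Y)
    rw [inv_inv] at this
    rw [this, hn]; group
  have hM := P.genM (centralizer {m⁻¹ * g * m})
    (fun x hx => mem_centralizer_singleton_iff.2 (hH x hx).symm)
    (mem_centralizer_singleton_iff.2 (P.comm_j hY hn' fun x hx _ => hH x hx).symm)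
  have hZ : m⁻¹ * g * m ∈ center M := mem_center_iff.2 fun x =>
    mem_centralizer_singleton_iff.1 (hM ▸ mem_top x)
  rcases (inferInstance : (center M).Normal).eq_bot_or_eq_top with h | h
  · rw [h, mem_bot] at hZ
    have : g = m * (m⁻¹ * g * m) * m⁻¹ := by group
    rw [mem_bot, this, hZ]; group
  · exact absurd (mem_center_iff.1 (h ▸ mem_top d) j) P.hjd

theorem Prim2.s4 [Finite M] [IsSimpleGroup M] (P : Prim2 d a c s i j E k) :
    S4 d (3 + E.length) k := by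
  classical
  refine ⟨P.sq, P.nsq, P.q1, P.pair_sq, P.trip_nD, P.q2, fun x y h Y h1 h2 h3 => ?_,
    fun x y h => ?_, fun u h => ?_, fun x y h => ?_, P.big, ⟨_, _, P.ha⟩⟩
  · obtain ⟨g, rfl, rfl⟩ := P.conj2 h
    have := P.q4 (Y.comap (MulAut.conj g).toMonoidHom) (by
      rwa [← card_map_of_injective (f := (MulAut.conj g).toMonoidHom) (MulAut.conj g).injective,
        map_comap_eq_self_of_surjective (MulAut.conj g).surjective])
      (fun x hx => by
        have := h2 _ hx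
        rw [conj_mul] at this
        exact (commute_conj_iff g).1 this)
      (fun t ht t1 t2 x hx => by
        have := h3 _ (conj_mem ht g) (commute_conj t1 g) (commute_conj t2 g) _ hx
        rw [mem_comap, map_mul, map_mul, map_inv]
        exact this)
    rw [← map_comap_eq_self_of_surjective (f := (MulAut.conj g).toMonoidHom)
      (MulAut.conj g).surjective Y, this, Subgroup.map_bot]
  · obtain ⟨g, rfl, rfl⟩ := P.conj2 h
    obtain ⟨p, q, r, h1, h2, h3, c1, c2, c3, e⟩ := P.hs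
    refine ⟨[d, a, c, s, r, q, p].map fun x => g * x * g⁻¹, by simp; decide, ?_, ?_⟩
    · have : d * a * c * s * r * q * p = 1 := by
        rw [e, mul_assoc (p * q) r r, mul_self P.sq h2.2.1, mul_one, mul_assoc p q q, mul_self P.sq h1.2.1,
          mul_one, mul_self P.sq h1.1]
      simp only [List.map_cons, List.map_nil, List.prod_cons, List.prod_nil, mul_one, conj_mul]
      simp only [← mul_assoc] at this ⊢
      simp only [mul_assoc g, this]; group
    · intro t ht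
      obtain ⟨t, ht', rfl⟩ := List.mem_map.1 ht
      rw [conj_mul, commute_conj_iff, conj_mem_iff]
      simp only [List.mem_cons, List.not_mem_nil, or_false] at ht'
      rcases ht' with rfl | rfl | rfl | rfl | rfl | rfl | rfl
      · exact ⟨self_mem _, (Commute.refl _).mul_right P.ha.2.2.2⟩
      · exact ⟨P.ha.2.1, P.ha.2.2.2.symm.mul_right (Commute.refl _)⟩
      · exact ⟨P.hc1.2.1, P.hc1.2.2.2.symm.mul_right P.hc2.2.2.2.symm⟩
      · exact ⟨P.hs1.2.1, P.hs1.2.2.2.symm.mul_right P.hs2.2.2.2.symm⟩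
      · exact ⟨h2.2.1, c3⟩
      · exact ⟨h1.2.1, c2⟩
      · exact ⟨h1.1, c1⟩
  · obtain ⟨x, y, w, h1, h2, h3, rfl⟩ := h
    obtain ⟨g, rfl, rfl, rfl⟩ := P.conj3 h1 h2 h3
    refine (ncard_conj_le (T := ((d :: a :: c :: E).toFinset : Set M)) g fun t ht => ?_).trans ?_
    · rw [conj_mul, conj_mul] at ht
      obtain ⟨t1, t2, t3⟩ := ht
      rcases P.four (mem_back g t1) (commute_back g t2) with h | h
      · simpa using h
      · refine absurd ?_ (P.trip_nPair h)
        have := t3.conj g⁻¹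
        rwa [show g⁻¹ * (g * (d * a * c) * g⁻¹ * t) * g⁻¹⁻¹ = d * a * c * (g⁻¹ * t * g) by group]
          at this
    · rw [Set.ncard_coe_finset]
      refine (List.toFinset_card_le _).trans ?_
      simp only [List.length_cons]; omega
  · obtain ⟨g, rfl, rfl⟩ := P.conj2 h
    refine le_trans (ncard_conj_le g fun t ht => ?_) P.cnt
    exact ⟨mem_back g ht.1, commute_back g ht.2.1, commute_back g ht.2.2⟩

theorem Prim2.t1' (P : Prim2 d a c s i j E k) : T1 d := fun x y hx hy => by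
  obtain ⟨g, hg, rfl⟩ := P.t1 x hx
  obtain ⟨h, hh, rfl⟩ := P.t1 y hy
  exact ⟨h * g⁻¹, hh.mul_left hg.inv_left, by group⟩

/-- The class of `a c s` in the centraliser of `d`. -/
def TT (d u v : M) : Prop := ∃ h, Commute h d ∧ h * u * h⁻¹ = v

theorem Prim2.tt_mul (P : Prim2 d a c s i j E k) {v : M} (h : TT d (a * c * s) v) :
    TT d (a * c * s) (d * v) := by
  obtain ⟨g, hg, rfl⟩ := h
  obtain ⟨t, ht, e⟩ := P.tz
  refine ⟨g * t, hg.mul_left ht, ?_⟩
  rw [conj_mul', e, ← conj_mul, conj_eq_of_commute hg]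

theorem Prim2.small (P : Prim2 d a c s i j E k) {v : M} (h : Small d v) :
    (v ∈ DD d ∨ Sq d v ∨ TT d (a * c * s) v) ∧
      (d * v ∈ DD d ∨ Sq d (d * v) ∨ TT d (a * c * s) (d * v)) := by
  rcases h with rfl | h | ⟨x, y, h1, h2, h3, rfl⟩ | ⟨x, y, w, h1, h2, h3, h4, h5, h6, rfl⟩
  · exact ⟨Or.inr (Or.inl ⟨1, Commute.one_left _, mul_one 1⟩), Or.inl (by
      rw [mul_one]; exact self_mem d)⟩
  · refine ⟨Or.inl h.2.1, Or.inr (Or.inl ?_)⟩
    obtain ⟨g, hg, rfl⟩ := P.t1 v h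
    have := Sq.conj P.sq1 (conj_eq_of_commute hg)
    rwa [← conj_mul, conj_eq_of_commute hg] at this
  · exact ⟨Or.inr (Or.inl (P.sq_pair h1 h2 h3).1), Or.inr (Or.inl (P.sq_pair h1 h2 h3).2)⟩
  · suffices h : (Sq d (x * y * w) ∧ Sq d (d * (x * y * w))) ∨ TT d (a * c * s) (x * y * w) by
      rcases h with h | h
      exacts [⟨Or.inr (Or.inl h.1), Or.inr (Or.inl h.2)⟩,
        ⟨Or.inr (Or.inr h), Or.inr (Or.inr (P.tt_mul h))⟩]
    obtain ⟨g, e, rfl, rfl⟩ := P.conj3 h1 h2 h4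
    obtain ⟨w, rfl⟩ : ∃ v, w = g * v * g⁻¹ := ⟨g⁻¹ * w * g, by group⟩
    nth_rewrite 2 [← e] at h3
    rcases P.t3 w (by simpa [mul_assoc] using adj_back g h3)
      (by simpa [mul_assoc] using adj_back g h5)
      (by simpa [mul_assoc] using adj_back g h6) with h | ⟨h, c1, c2, c3, rfl⟩
    · left
      obtain ⟨p, q, p1, p2, p3, e'⟩ := P.hE w h
      have := P.sq_pair p1 p2 p3
      rw [← e'] at this
      have h2 := this.2
      rw [← mul_assoc, ← mul_assoc, ← mul_assoc, P.sq, one_mul] at h2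
      refine ⟨by rw [conj_mul, conj_mul]; exact h2.conj e, ?_⟩
      nth_rewrite 2 [← e]
      rw [conj_mul, conj_mul, conj_mul]
      exact Sq.conj (by simpa [mul_assoc] using this.1) e
    · right
      refine ⟨g * h, (commute_of_conj_eq e).mul_left c1, ?_⟩
      rw [conj_mul', conj_mul, conj_mul, ← conj_mul (b := h), ← conj_mul (b := h),
        conj_eq_of_commute c2, conj_eq_of_commute c3]

theorem Prim2.loc (P : Prim2 d a c s i j E k) {z : G} {f : M → G} (h : Loc0 d f) (fd : f d = z)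
    (hn : ∃ g : G, Commute (g * z * g⁻¹) z ∧ g * z * g⁻¹ ≠ z) : Loc d z d f := by
  have hd := Commute.refl d
  have hz : z * z = 1 := by rw [← fd, ← h.mul _ _ hd hd, P.sq, h.one]
  have nsq : ∀ v, Sq d v → f v ∉ DD z := by
    rintro _ ⟨g, hg, rfl⟩ he
    obtain ⟨c, hc⟩ := isConj_iff.1 (IsConj.symm he)
    have h1 : (c * f g * c⁻¹) * (c * f g * c⁻¹) = f d := by rw [fd, ← hc, h.mul _ _ hg hg]; group
    obtain ⟨y, hy, e⟩ := h.surj (c * f g * c⁻¹) (h1 ▸ (Commute.refl _).mul_right (Commute.refl _))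
    exact P.nsq y (h.inj _ _ (hy.mul_left hy) hd (by rw [h.mul _ _ hy hy, e, h1]))
  have cs : ∀ u, Commute u d → f u ∈ DD z → u ∈ DD d ∨ TT d (a * c * s) u := fun u hu he => by
    have hu2 : u * u = 1 := h.inj _ _ (hu.mul_left hu) (Commute.one_left _) (by
      rw [h.mul _ _ hu hu, h.one, mul_self hz he])
    have : u ∈ DD d ∨ Sq d u ∨ TT d (a * c * s) u := by
      rcases P.f1 u hu hu2 with h1 | h1
      · exact (P.small h1).1
      · have := (P.small h1).2
        rwa [← mul_assoc, P.sq, one_mul] at this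
    exact this.imp_right fun h1 => h1.resolve_left fun h2 => nsq u h2 he
  have cu : Commute (a * c * s) d :=
    (P.ha.2.2.2.symm.mul_left P.hc1.2.2.2.symm).mul_left P.hs1.2.2.2.symm
  have ct : ∀ v, TT d (a * c * s) v → Commute v d := by
    rintro _ ⟨g, hg, rfl⟩
    exact (hg.mul_left cu).mul_left hg.inv_left
  have nT : ∀ u, TT d (a * c * s) u → f u ∉ DD z := by
    rintro _ ⟨g, hg, rfl⟩ he
    rw [h.conj hg cu, conj_mem_iff] at he
    have aT : ∀ v, TT d (a * c * s) v → f v ∈ DD z := by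
      rintro _ ⟨g, hg, rfl⟩
      rw [h.conj hg cu]; exact conj_mem he _
    obtain ⟨m, hm⟩ := isConj_iff.1 (IsConj.symm he)
    have u2 : f (a * c * s) * f (a * c * s) = 1 := mul_self hz he
    have key : ∀ r, Sq d r → r ≠ 1 → Commute r (a * c * s) → TT d (a * c * s) (r * (a * c * s)) →
        ∃ w, Adj d d w ∧ f w = m * f (r * (a * c * s)) * m⁻¹ := fun r h1 h2 h3 h4 => by
      have cr : Commute r d := by obtain ⟨g, hg, rfl⟩ := h1; exact hg.mul_left hg
      obtain ⟨w, hw, e⟩ := h.surj (m * f (r * (a * c * s)) * m⁻¹) (by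
        rw [fd, ← hm]
        exact commute_conj ((h.comm (cr.mul_left cu) cu).2 (h3.mul_left (Commute.refl _))) m)
      have e2 : f (d * w) = m * f r * m⁻¹ := by
        rw [h.mul _ _ hd hw, e, fd, ← hm, conj_mul, h3.eq, h.mul _ _ cu cr, ← mul_assoc (f _), u2,
          one_mul]
      rcases cs w hw (e ▸ conj_mem (aT _ h4) m) with h5 | h5
      · refine ⟨w, ⟨self_mem d, h5, fun e3 => h2 (h.inj _ _ cr (Commute.one_left _) ?_), hw.symm⟩, e⟩
        rw [← e3, P.sq, h.one] at e2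
        rw [h.one]; simpa using e2.symm
      · have := aT _ (P.tt_mul h5)
        rw [e2, conj_mem_iff] at this
        exact absurd this (nsq r h1)
    obtain ⟨t, a', t1, t2, t3, t4, t5⟩ := P.tw
    have sp := P.sq_pair P.ha t2 t3
    have T1 : TT d (a * c * s) (a * a' * (a * c * s)) := ⟨t, t1, t4⟩
    obtain ⟨w, w1, w2⟩ := key _ sp.1 (fun e => t3.2.2.1 (by
      rw [eq_inv_of_mul_eq_one_left e, inv_eq P.sq t2.2.1])) t5 T1
    obtain ⟨v, v1, v2⟩ := key _ sp.2 (fun e => P.pair_nD ⟨_, _, t3, rfl⟩ (by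
      rw [eq_inv_of_mul_eq_one_right e, inv_eq P.sq (self_mem d)]; exact self_mem d))
      (cu.symm.mul_left t5) (by rw [mul_assoc d]; exact P.tt_mul T1)
    rw [mul_assoc d, h.mul _ _ hd (ct _ T1), ← conj_mul, ← w2, fd] at v2
    have fw : f w * f w = 1 := by
      rw [← h.mul _ _ w1.2.2.2.symm w1.2.2.2.symm, mul_self P.sq w1.2.1, h.one]
    have e : f (v * w) = m * z * m⁻¹ := by
      rw [h.mul _ _ v1.2.2.2.symm w1.2.2.2.symm, v2, mul_assoc, fw, mul_one]
    refine nsq _ (P.sq_pair v1 w1 ⟨v1.2.1, w1.2.1, fun e' => ?_, ?_⟩).1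
      (e ▸ conj_mem (self_mem z) m)
    · rw [e', mul_self P.sq w1.2.1, h.one] at e
      exact nsq 1 ⟨1, Commute.one_left _, mul_one 1⟩ (by
        rw [h.one, e]; exact conj_mem (self_mem z) m)
    · rw [← h.comm v1.2.2.2.symm w1.2.2.2.symm, v2]
      refine Commute.mul_left ?_ (Commute.refl _)
      rw [w2, ← fd]
      exact commute_conj ((h.comm hd (ct _ T1)).2 (ct _ T1).symm) m
  have back : ∀ u, Commute u d → f u ∈ DD z → u ∈ DD d := fun u hu he =>
    (cs u hu he).resolve_right fun h1 => nT u h1 he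
  obtain ⟨g, hg, hne⟩ := hn
  obtain ⟨u, hu, eu⟩ := h.surj (g * z * g⁻¹) (by rw [fd]; exact hg)
  have hD : f u ∈ DD z := eu ▸ conj_mem (self_mem z) g
  refine ⟨h, fun x hx => ⟨fun hxD => ?_, back x hx⟩⟩
  by_cases e : d = x
  · rw [← e, fd]; exact self_mem _
  · obtain ⟨c, hc, rfl⟩ := P.t1' u x
      ⟨self_mem _, back u hu hD, fun e => hne (by rw [← eu, ← e, fd]), hu.symm⟩
      ⟨self_mem _, hxD, e, hx.symm⟩
    rw [h.conj hc hu]
    exact conj_mem hD _

theorem Prim2.recog [Finite M] [IsSimpleGroup M] [Finite G] (P : Prim2 d a c s i j E k) {z : G}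
    {f : M → G} (hf : Loc0 d f) (fd : f d = z)
    (hn : ∃ g : G, Commute (g * z * g⁻¹) z ∧ g * z * g⁻¹ ≠ z) : Nonempty (G ≃* M) := by
  have hf := P.loc hf fd hn
  obtain ⟨fa, hfa, e⟩ := exists_loc hf fd P.t1' P.ha P.rigid
  let K : Subgroup M :=
    { carrier := {y | Commute y d ∧ Commute (f y) (fa j)}
      one_mem' := ⟨Commute.one_left _, by rw [hf.one]; exact Commute.one_left _⟩
      mul_mem' := fun {x y} hx hy => ⟨hx.1.mul_left hy.1, by
        rw [hf.mul _ _ hx.1 hy.1]; exact hx.2.mul_left hy.2⟩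
      inv_mem' := fun {x} hx => ⟨hx.1.inv_left, by rw [hf.inv hx.1]; exact hx.2.inv_left⟩ }
  obtain ⟨Θ, hΘ⟩ := hf.exists_hom fd P.sq P.ha.2.2.2.symm hfa e P.hj P.hja P.hjd
    (fun y y1 y2 => (P.genY K (fun b b1 b2 b3 => ⟨b1, by
      rcases b3 with b3 | b3
      · rw [← e b b1 b3]; exact (hfa.comm b3 P.hja).2 b2
      · exact comm_of_twin hf fd P.t1' P.ha hfa e P.hi P.hai P.hj P.hja P.hji P.hjd P.twin b3 b1
          b2⟩) y y1 y2).2) P.r1 P.r2 P.cover P.genM
  exact ⟨(MulEquiv.ofBijective Θ ⟨hΘ.inj, hΘ.surjective P.s4⟩).symm⟩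

end Cfsg.Agent.Lib.FisPrim2
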