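import Cfsg.Agent.Lib.Fis22B
import Cfsg.Agent.Lib.Fis22R
import Cfsg.Agent.Lib.Fis23L
import Cfsg.Agent.Lib.FisPrim2

/-! Fi22 satisfies the hypotheses of the recognition theorem. -/

set_option autoImplicit false
set_option maxRecDepth 100000
set_option Elab.async false

namespace Cfsg.Agent.Lib.Fis22

open Cfsg Subgroup Cfsg.Agent.Lib.FisCore Cfsg.Agent.Lib.FisLoc Cfsg.Agent.Lib.FisPrim
  Cfsg.Agent.Lib.PermNet Cfsg.Agent.Lib.Words Cfsg.Agent.Lib.PermGroup Cfsg.Agent.Lib.FisPM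
  Cfsg.Agent.Lib.Fi22A Cfsg.Agent.Lib.FisLift Cfsg.Agent.Lib.FisInv Cfsg.Agent.Lib.FisPrim2

theorem nsq (g : Spor.Fi22) : g * g ≠ d := fun h => by
  obtain ⟨x, rfl⟩ := Fi22Cover.alpha_surjective g
  rcases Fis23.dc.eq_or (g := x * x) (k := Fi22Cover.y 0) (by rw [map_mul, h, Fis23.alpha_0]) with
    e | e
  · exact Fis23.prim.nsq' (Fis23.adj_beta (self_mem _)).2.1 (Fi23A.beta x) (by rw [← map_mul, e])
  · obtain ⟨θ, -, h1, h2⟩ := Fis23.exists_theta
    refine Fis23.prim.nsq' (Fis23.P.el_mem (t := (6, [])) rfl) (Fi23A.beta (θ x)) ?_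
    rw [← map_mul, ← map_mul, e, map_mul θ, h1, h2 0 (by decide), ← mul_assoc, Fis23.dc.sq, one_mul,
      Fi23A.beta_wval _ (by decide)]
    rfl

theorem q1 (u : Spor.Fi22) (hu : u * u = 1) : ∃ x ∈ DD d, Commute u x := by
  rcases classify hu with rfl | h | ⟨x, y, h, rfl⟩ | ⟨x, y, w, h1, h2, h3, rfl⟩
  · exact ⟨d, self_mem d, Commute.one_left _⟩
  · exact ⟨u, h, Commute.refl _⟩
  · exact ⟨x, h.1, (Commute.refl _).mul_left h.2.2.2.symm⟩
  · exact ⟨x, h1.1, ((Commute.refl _).mul_left h1.2.2.2.symm).mul_left h2.2.2.2.symm⟩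

def hq : List Desc := [(0, []), (2, []), (3, []), (4, []), (5, []), (6, []), (7, []), (8, []),
  (9, [])]

theorem mem_hq {g : Spor.Fi22} (h : Commute g d) : g ∈ gp Y (hq.map nd.W) := by
  refine gp_le.2 (fun w hw => ?_) (mem_hs h)
  rcases (by decide : ∀ w ∈ hs, w = hs.getD 8 [] ∨ w ∈ hq.map nd.W) w hw with rfl | h
  · rw [t_eq]; exact mem_gp (by decide)
  · exact mem_gp h

theorem prim : Prim2 d (el nd Y ta) (el nd Y tc) (el nd Y tq) (el nd Y ti) (el nd Y tj)
    (es.map (el nd Y)) 182 where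
  toGeo := geo
  hi := adj_d (by decide +kernel)
  hai := (P.adj (by decide +kernel)).2.2.2
  hj := P.el_mem rfl
  hja := (P.adj (by decide +kernel)).2.2.2
  hji := (P.adj (by decide +kernel)).2.2.2
  hjd := nb_d
  braid := braid
  r1 := r1
  r2 := r2
  sq1 := sq1
  sq2 := sq2
  sq3 := sq3
  tz := tz
  tw := tw
  sep := sep
  twin := twin
  genX := fun K hK g h1 h2 => P.gp_le_of (cs := [td, ta]) (by decide +kernel)
    (fun x hx h => hK x hx (el_d ▸ h td (by simp)) (h ta (by simp))) (memX g h1 h2)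
  genH := fun K hK g h1 => P.gp_le_of (us := hq) (cs := [td]) (by decide +kernel)
    (fun x hx h => hK x hx (el_d ▸ h td (by simp))) (mem_hq h1)
  genM := fun K hK hj => by
    rw [eq_top_iff, ← topY]
    refine gp_le.2 fun w hw => ?_
    rcases (by decide : ∀ w ∈ allg, w ∈ hs ∨ w = [2]) w hw with h | rfl
    · exact hK _ (mem_centralizer_singleton_iff.1 (hs_le (mem_gp h)))
    · exact hj
  genY := fun K hK g h1 h2 => by
    refine gp_le.2 (fun w hw => ?_) (memY g h1 h2)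
    have c := P.cen (ws := ys.map nd.W) (ts := [td, tj]) (by decide +kernel) w hw
    refine hK _ (el_d ▸ c td (by simp)) (c tj (by simp)) ?_
    rcases (by decide +kernel : ∀ w ∈ ys.map nd.W, nd.cenB [w] [ta] = true ∨
      nd.cenB [w] [ti] = true) w hw with h | h
    · exact Or.inl (P.cen h w (by simp) ta (by simp))
    · exact Or.inr (P.cen h w (by simp) ti (by simp))
  cover := cover
  cnt := cnt
  big := by rw [P.ncard_D, List.length_map]; decide
  nsq := nsq
  f1 := fun u h hu => geo.small h (classify hu)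
  q1 := q1
  rigid := rigid

end Cfsg.Agent.Lib.Fis22
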