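import Cfsg.Agent.Lib.FisMk
import Cfsg.Agent.Lib.Fi22A

/-! The point model of Fi22 on its 3510 transpositions. -/

set_option autoImplicit false
set_option maxRecDepth 100000

namespace Cfsg.Agent.Lib.Fis22

open Cfsg Subgroup Cfsg.Agent.Lib.FisCore Cfsg.Agent.Lib.FisLoc Cfsg.Agent.Lib.FisPrim
  Cfsg.Agent.Lib.PermNet Cfsg.Agent.Lib.Words Cfsg.Agent.Lib.PermGroup Cfsg.Agent.Lib.FisPM
  Cfsg.Agent.Lib.Fi22A

noncomputable def nd : ND := ⟨3510, 12, 693, nets, [[0], [2], [4], [6], [8], [10], [12], [14], [16], [18]], [[], [2, 0], [2, 0, 4, 2], [2, 0, 4, 2, 6, 4], [2, 0, 4, 2, 6, 4, 8, 6], [2, 0, 4, 2, 6, 4, 8, 6, 10, 8], [2, 0, 4, 2, 6, 4, 8, 6, 10, 8, 12, 10], [2, 0, 4, 2, 6, 4, 14, 6], [2, 0, 4, 2, 6, 4, 14, 6, 16, 14], [2, 4, 6, 8, 10, 14, 6, 4, 2, 8, 6, 4, 14, 6, 8, 10]]⟩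

/-- The base transposition. -/
def d : Spor.Fi22 := wval Y [0]

theorem one' {u v : List ℕ} (h : nd.oneB u v = true) : wval Y u = wval Y v :=
  one_of (n := nd) hv (by decide) hphi (fun _ => phi_eq_one) h

theorem hd2 : d * d = 1 := by rw [d, ← wval_append]; exact one' (v := []) (by decide +kernel)

theorem hs_le : gp Y hs ≤ centralizer {d} := gp_le.2 fun w hw => by
  rw [mem_centralizer_singleton_iff, d, ← wval_append, ← wval_append]
  refine one' ?_
  revert w
  simp only [hs, List.forall_mem_cons]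
  refine ⟨?_, ?_, ?_, ?_, ?_, ?_, ?_, ?_, ?_, by simp⟩ <;> decide +kernel

theorem nb_d : ¬ Commute (wval Y [2]) d := fun h => by
  have h1 : wval Y [2, 0, 3, 1] = 1 := (wval_comm Y 1 0).2 (by simpa [d, wval, lval] using h)
  refine ne_one_of_move hv [2, 0, 3, 1] 0 (by decide +kernel) ?_
  rw [← map_wval' hphi, h1, map_one]

theorem P0 : PM0 nd Y phi d where
  hv := hv
  hK := by decide
  hφ := hphi
  inj := fun _ => phi_eq_one
  stab := stab_of index_hs.2 coatom hs_le nb_d
  tr := htr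
  lt := fun g => lt_of_gp_top hv hphi topY g (by norm_num)
  tab := fun k hk => tab_of (n := nd) hv (by decide) hphi (fun _ => phi_eq_one) (by
    have : k < 10 := hk
    interval_cases k <;> decide +kernel)

theorem P : PM nd Y phi d :=
  P0.toPM' (fun _ h => mem_centralizer_singleton_iff.1 (hs_le h)) orb0 orb1 (by decide)
    (t := (2, [])) (u := (1, [])) (p := 36) (q := 695) (by decide +kernel) (by decide +kernel)
    (mem_centralizer_singleton_iff.1 (hs_le (mem_gp (w := [4]) (by decide)))) nb_d (by decide)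

theorem el_d : el nd Y (0, []) = d := rfl

theorem up1 : Nat.card (fixer phi.range [0]) ≤ 18393661440 :=
  P.card_fixer_le _ _ _ _ _ _ _ ch_0 (by rw [P.card_range, card_eq]; norm_num)

theorem mem_hs {g : Spor.Fi22} (h : Commute g d) : g ∈ gp Y hs := by
  rw [index_hs.2, P.stab]; exact h

end Cfsg.Agent.Lib.Fis22
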