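import Cfsg.Agent.Lib.Fis22M
import Cfsg.Agent.S1684

/-! Double covers of the unitary group: lifting the generators. -/

set_option autoImplicit false
set_option maxRecDepth 100000
set_option Elab.async false

namespace Cfsg.Agent.Lib.Fis22U

open Cfsg Subgroup Cfsg.Agent.Lib.FisCore Cfsg.Agent.Lib.FisLoc Cfsg.Agent.Lib.FisPrim
  Cfsg.Agent.Lib.PermNet Cfsg.Agent.Lib.Words Cfsg.Agent.Lib.PermGroup Cfsg.Agent.Lib.FisPM
  Cfsg.Agent.Lib.FisLift Cfsg.Agent.Lib.GF4 Cfsg.Agent.S1684

/-! ### Rewriting of words -/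

noncomputable def forceL (w : List ℕ) : (List ℕ → Bool) → Bool :=
  List.rec (motive := fun _ => (List ℕ → Bool) → Bool) (fun k => k [])
    (fun a _ ih k => ih fun l => forceB a fun a' => k (a' :: l)) w

theorem forceL_eq (w : List ℕ) (k : List ℕ → Bool) : forceL w k = k w := by
  induction w generalizing k with
  | nil => rfl
  | cons a w ih => exact (ih _).trans (forceB_eq _ _)

def stp (R : List (List ℕ × List ℕ)) (s : ℕ × ℕ) (w : List ℕ) : List ℕ :=
  if (R.getD s.2 ([], [])).1.isPrefixOf (w.drop s.1) then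
    w.take s.1 ++ ((R.getD s.2 ([], [])).2 ++ w.drop (s.1 + (R.getD s.2 ([], [])).1.length)) else w

noncomputable def run (R : List (List ℕ × List ℕ)) (st : List (ℕ × ℕ)) : List ℕ → Bool :=
  List.rec (motive := fun _ => List ℕ → Bool) List.isEmpty (fun s _ ih w => forceL (stp R s w) ih) st

theorem wval_stp {G : Type*} [Group G] {y : ℕ → G} {R : List (List ℕ × List ℕ)}
    (hR : ∀ r ∈ R, wval y r.1 = wval y r.2) (s : ℕ × ℕ) (w : List ℕ) :
    wval y (stp R s w) = wval y w := by
  have e : wval y (R.getD s.2 ([], [])).1 = wval y (R.getD s.2 ([], [])).2 := by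
    rcases lt_or_ge s.2 R.length with h | h
    · rw [List.getD_eq_getElem _ _ h]; exact hR _ (List.getElem_mem h)
    · rw [List.getD_eq_default _ _ h]
  unfold stp
  split_ifs with h
  · obtain ⟨t, ht⟩ := List.isPrefixOf_iff_prefix.1 h
    rw [wval_append, wval_append, ← e, ← List.drop_drop, ← ht, List.drop_left, ← wval_append, ht,
      ← wval_append, List.take_append_drop]
  · rfl

theorem one_of_run {G : Type*} [Group G] {y : ℕ → G} {R : List (List ℕ × List ℕ)}
    (hR : ∀ r ∈ R, wval y r.1 = wval y r.2) (st : List (ℕ × ℕ)) (w : List ℕ)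
    (h : run R st w = true) : wval y w = 1 := by
  induction st generalizing w with
  | nil => rw [List.isEmpty_iff.1 h]; rfl
  | cons s st ih => rw [← wval_stp hR s w]; exact ih _ ((forceL_eq _ _).symm.trans h)

def r0 : List ℕ := rep 9 [14, 12, 4, 6, 8, 10, 2]
def r1 : List ℕ := rep 3 [4, 6, 8, 16, 14, 12, 14, 16, 8, 6]
def r2a : List ℕ := [16, 8, 6, 10, 8, 14, 16, 8, 6, 14, 10, 12, 14, 8, 16, 14, 8, 10, 6, 8, 16]
def r2b : List ℕ := [6, 8, 6, 10, 8, 6, 12, 14, 12]
def r3 : List ℕ := [16, 8, 6, 4, 10, 8, 16, 2, 6, 8, 10, 4, 6, 8, 16, 12, 4, 2, 6, 4, 8, 6, 10, 8,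
  12, 4, 2, 6, 4, 12]
def r4 : List ℕ := [16, 8, 14, 12, 4, 16, 14, 6, 8, 16, 12, 14, 4, 6, 8, 16, 12, 4, 6, 8, 14, 12, 4, 6]

def I8 : List ℕ := [1, 2, 3, 4, 5, 6, 7, 8]

def KA : List (List ℕ) := r1 :: K0.filter (shape I8)

def rules : List (List ℕ × List ℕ) := [([], [8, 8]), ([], [16, 16]), ([], [14, 14]), ([], [12, 12]), ([], [6, 6]), ([], [6, 8, 16, 14, 12, 14, 16, 8, 6, 4, 6, 8, 16, 14, 12, 14, 16, 8, 6, 4, 6, 8, 16, 14, 12, 14, 16, 8, 6, 4]), ([6, 6], []), ([8, 8], []), ([16, 16], []), ([14, 14], []), ([12, 12], []), ([4, 4], []), ([8, 14], [14, 8]), ([8, 12], [12, 8]), ([6, 14], [14, 6]), ([6, 12], [12, 6]), ([6, 8, 6], [8, 6, 8]), ([12, 8], [8, 12]), ([12, 6], [6, 12]), ([12, 16], [16, 12]), ([14, 8], [8, 14]), ([14, 6], [6, 14]), ([16, 12], [12, 16]), ([16, 4], [4, 16]), ([8, 4], [4, 8]), ([8, 16, 8], [16, 8, 16]), ([16, 6], [6, 16]), ([16, 14, 16], [14, 16, 14]), ([14, 12, 14], [12, 14, 12]), ([8, 6, 8], [6, 8, 6]), ([4, 16], [16, 4]), ([4, 14], [14,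 4]), ([14, 4], [4, 14]), ([12, 4, 12], [4, 12, 4]), ([6, 16], [16, 6]), ([4, 6, 4], [6, 4, 6]), ([6, 4, 6], [4, 6, 4]), ([4, 8], [8, 4]), ([4, 12, 4], [12, 4, 12]), ([12, 14, 12], [14, 12, 14]), ([14, 16, 14], [16, 14, 16]), ([16, 8, 16], [8, 16, 8])]

def steps : List (ℕ × ℕ) := [(72, 0), (73, 1), (74, 2), (75, 3), (76, 2), (77, 1), (78, 0), (79, 4), (80, 5), (118, 1), (119, 2), (120, 1), (121, 0), (122, 4), (123, 3), (124, 5), (160, 0), (161, 1), (162, 0), (163, 4), (164, 2), (165, 3), (166, 5), (202, 1), (203, 2), (204, 3), (205, 5), (79, 6), (78, 7), (77, 8), (76, 9), (75, 10), (74, 9), (73, 8), (72, 7), (71, 6), (70, 11), (67, 12), (68, 13), (66, 14), (67, 15), (68, 16), (70, 7), (67, 17), (68, 18), (69, 19), (66, 20), (67, 21), (63, 22), (64, 23), (62, 13), (63, 24), (64, 25), (66, 26), (67, 27), (69, 28), (71, 10), (70, 9), (68, 22), (69, 8), (66, 14), (67, 15), (65, 12), (66, 13), (67, 29), (69, 6), (63, 30), (64, 31), (62, 19), (59, 32), (60, 21), (57,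 22), (58, 23), (59, 26), (60, 27), (62, 28), (64, 33), (59, 14), (60, 34), (61, 15), (62, 14), (58, 31), (59, 30), (54, 21), (55, 20), (56, 28), (58, 19), (59, 33), (61, 31), (62, 35), (64, 15), (65, 36), (67, 37), (68, 11), (66, 16), (68, 7), (63, 38), (65, 17), (66, 18), (67, 19), (61, 21), (60, 18), (61, 39), (63, 32), (64, 20), (65, 21), (58, 23), (59, 26), (57, 32), (58, 21), (59, 40), (61, 22), (62, 23), (55, 13), (56, 24), (54, 15), (52, 30), (51, 19), (52, 33), (54, 35), (56, 16), (51, 23), (52, 22), (53, 26), (54, 23), (49, 12), (50, 24), (51, 13), (47, 34), (48, 14), (46, 30), (47, 31), (48, 35), (50, 15), (51, 16), (53, 24), (54, 25), (56, 26), (57, 41), (59, 12), (60, 13), (61, 24), (62, 25), (64, 26), (65, 27), (67, 28), (69, 10), (68, 9), (66, 22), (67, 8), (64, 14), (65, 15), (63, 12), (64, 13), (65, 29), (67, 6), (61, 30), (62, 31), (60, 19), (58, 27), (60, 28), (62, 33), (55, 29), (57, 14), (58, 34), (59, 15), (60, 14), (53, 30), (52, 34), (53,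 36), (55, 37), (56, 31), (57, 30), (50, 17), (51, 19), (49, 37), (50, 30), (51, 38), (53, 18), (54, 17), (47, 21), (48, 20), (46, 26), (43, 12), (44, 13), (42, 14), (43, 15), (44, 16), (46, 25), (48, 27), (43, 17), (44, 18), (45, 19), (46, 17), (42, 20), (43, 21), (39, 22), (40, 23), (38, 13), (39, 24), (40, 25), (42, 26), (43, 27), (45, 20), (46, 28), (48, 19), (49, 39), (51, 32), (52, 21), (53, 20), (54, 28), (56, 19), (57, 33), (59, 31), (60, 35), (62, 15), (63, 36), (65, 37), (66, 11), (64, 16), (66, 7), (61, 38), (63, 17), (64, 18), (65, 19), (59, 21), (58, 18), (59, 39), (61, 32), (62, 20), (63, 21), (56, 23), (57, 26), (55, 32), (56, 21), (57, 40), (59, 22), (60, 23), (53, 13), (54, 24), (52, 15), (50, 33), (52, 35), (54, 16), (47, 40), (49, 23), (50, 22), (51, 26), (52, 23), (45, 13), (44, 22), (45, 41), (47, 12), (48, 24), (49, 13), (42, 14), (43, 15), (41, 12), (42, 13), (43, 29), (45, 34), (46, 14), (39, 30), (40, 31), (38, 19), (35, 32), (36, 21),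 (33, 22), (34, 23), (35, 26), (36, 27), (38, 28), (40, 33), (35, 14), (36, 34), (37, 15), (38, 14), (34, 31), (35, 30), (30, 21), (31, 20), (32, 28), (34, 19), (35, 33), (37, 31), (38, 35), (40, 15), (41, 36), (43, 37), (44, 30), (45, 31), (46, 35), (48, 15), (49, 16), (51, 24), (52, 25), (54, 26), (55, 41), (57, 12), (58, 13), (59, 24), (60, 25), (62, 26), (63, 27), (65, 28), (67, 10), (66, 9), (64, 22), (65, 8), (70, 15), (71, 6), (69, 13), (70, 7), (68, 22), (69, 8), (64, 17), (65, 19), (66, 39), (68, 9), (67, 10), (66, 9), (65, 8), (64, 7), (62, 14), (63, 6), (59, 30), (60, 37), (61, 31), (62, 11), (60, 12), (53, 29), (55, 34), (56, 14), (57, 15), (58, 34), (59, 14), (60, 16), (62, 7), (59, 20), (60, 21), (52, 26), (53, 41), (55, 12), (56, 13), (57, 25), (59, 26), (60, 27), (62, 9), (56, 19), (57, 17), (58, 18), (54, 27), (56, 20), (57, 21), (58, 28), (60, 19), (61, 10), (53, 12), (54, 25), (56, 26), (57, 22), (58, 27), (60, 9), (59, 8), (52, 14), (53, 34),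 (54, 16), (56, 13), (57, 12), (58, 7), (55, 15), (56, 14), (57, 6), (51, 31), (52, 30), (53, 37), (48, 17), (49, 18), (45, 21), (46, 32), (47, 20), (48, 21), (49, 28), (51, 19), (52, 17), (53, 33), (55, 31), (56, 11), (52, 24), (53, 13), (54, 12), (48, 15), (49, 14), (50, 34), (46, 37), (39, 38), (41, 18), (42, 17), (43, 19), (44, 18), (45, 17), (46, 33), (48, 31), (49, 30), (50, 35), (52, 15), (53, 14), (54, 16), (56, 7), (53, 20), (54, 21), (49, 26), (50, 23), (51, 22), (45, 24), (46, 13), (47, 12), (38, 15), (39, 36), (41, 37), (42, 30), (43, 35), (45, 15), (46, 14), (47, 16), (49, 24), (50, 13), (51, 25), (53, 26), (54, 27), (56, 9), (50, 19), (51, 17), (52, 18), (46, 20), (47, 21), (48, 32), (42, 26), (43, 23), (44, 22), (40, 16), (42, 24), (43, 13), (44, 25), (46, 26), (47, 23), (48, 27), (50, 20), (51, 21), (52, 28), (54, 19), (55, 10), (39, 37), (40, 35), (42, 15), (43, 34), (44, 16), (46, 24), (47, 12), (48, 25), (50, 26), (51, 22), (52, 27), (54, 9),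 (53, 8), (38, 17), (39, 18), (40, 33), (42, 30), (43, 37), (44, 35), (46, 14), (47, 34), (48, 16), (50, 13), (51, 12), (52, 7), (49, 15), (50, 14), (51, 6), (45, 31), (46, 30), (47, 37), (41, 19), (42, 17), (43, 18), (37, 20), (38, 21), (39, 32), (34, 23), (35, 22), (31, 13), (32, 12), (33, 24), (34, 13), (35, 25), (37, 26), (38, 23), (39, 27), (41, 20), (42, 21), (43, 28), (45, 19), (46, 17), (47, 33), (49, 31), (50, 11), (30, 15), (31, 14), (28, 30), (27, 19), (28, 33), (30, 31), (31, 35), (33, 15), (34, 34), (35, 16), (37, 24), (38, 12), (39, 25), (41, 26), (42, 22), (43, 27), (45, 20), (46, 32), (47, 28), (49, 10), (45, 24), (46, 13), (47, 12), (41, 15), (42, 14), (43, 34), (37, 31), (38, 30), (39, 37), (33, 19), (34, 17), (35, 18), (30, 21), (31, 32), (27, 23), (28, 22), (29, 26), (30, 23), (31, 27), (33, 20), (34, 21), (35, 28), (37, 19), (38, 17), (39, 33), (41, 31), (42, 30), (43, 35), (45, 15), (46, 14), (47, 16), (49, 7), (46, 20), (47, 21), (42, 26),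 (43, 23), (44, 22), (38, 24), (39, 13), (40, 12), (34, 15), (35, 14), (36, 34), (30, 31), (31, 30), (32, 37), (28, 18), (26, 32), (27, 21), (28, 28), (30, 19), (31, 17), (32, 33), (34, 31), (35, 30), (36, 35), (38, 15), (39, 14), (40, 16), (42, 24), (43, 13), (44, 25), (46, 26), (47, 27), (49, 9), (48, 8), (51, 14), (52, 15), (53, 6), (50, 12), (51, 13), (52, 7), (47, 20), (48, 40), (50, 22), (51, 8), (43, 19), (44, 17), (45, 18), (46, 17), (47, 19), (48, 39), (50, 9), (49, 10), (48, 9), (47, 8), (46, 7), (45, 6), (42, 30), (43, 37), (44, 11), (41, 34), (42, 16), (44, 7), (40, 25), (42, 26), (43, 8), (35, 26), (36, 23), (37, 22), (38, 27), (40, 20), (41, 21), (42, 9), (34, 21), (35, 32), (36, 28), (38, 19), (39, 17), (40, 18), (41, 10), (25, 24), (23, 34), (22, 30), (23, 35), (25, 16), (27, 13), (28, 12), (29, 25), (31, 23), (32, 22), (33, 26), (34, 23), (35, 22), (36, 27), (38, 20), (39, 21), (40, 9), (30, 24), (31, 13), (26, 15), (27, 14), (28, 34), (24, 37),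 (21, 19), (22, 18), (23, 17), (24, 33), (26, 31), (27, 30), (28, 35), (30, 15), (31, 16), (33, 24), (34, 13), (35, 12), (36, 25), (38, 26), (39, 8), (37, 29), (39, 6), (30, 17), (31, 18), (32, 33), (34, 31), (35, 30), (29, 37), (30, 35), (32, 15), (33, 14), (34, 34), (35, 36), (37, 37), (38, 11), (36, 16), (38, 7), (34, 23), (28, 16), (30, 24), (31, 13), (32, 12), (33, 24), (34, 25), (36, 26), (37, 8), (32, 32), (23, 24), (24, 13), (25, 12), (26, 25), (28, 26), (29, 23), (30, 22), (31, 23), (32, 27), (34, 20), (35, 21), (36, 9), (29, 38), (21, 26), (22, 23), (23, 22), (24, 27), (26, 20), (27, 21), (20, 21), (21, 32), (22, 28), (24, 19), (25, 17), (26, 18), (27, 39), (29, 32), (30, 28), (32, 19), (33, 17), (34, 18), (35, 10), (18, 16), (20, 24), (21, 13), (22, 12), (23, 25), (25, 26), (15, 22), (16, 23), (14, 13), (15, 24), (16, 25), (18, 26), (19, 23), (20, 22), (21, 27), (23, 20), (24, 21), (25, 40), (27, 22), (28, 23), (29, 22), (30, 27), (32, 20), (33, 21),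 (34, 9), (15, 30), (16, 37), (17, 35), (19, 15), (20, 14), (21, 34), (22, 16), (13, 15), (14, 34), (15, 16), (17, 24), (18, 13), (19, 12), (20, 25), (22, 26), (23, 41), (25, 12), (26, 13), (27, 24), (28, 13), (29, 12), (30, 25), (32, 26), (33, 8), (31, 29), (33, 6), (26, 33), (28, 31), (29, 30), (21, 29), (23, 34), (24, 14), (13, 19), (14, 17), (15, 18), (16, 33), (18, 31), (19, 30), (12, 30), (13, 37), (14, 35), (16, 15), (17, 14), (18, 34), (19, 36), (21, 37), (22, 30), (23, 31), (24, 35), (26, 15), (27, 14), (28, 34), (29, 36), (31, 37), (32, 11), (23, 21), (24, 32), (25, 28), (27, 19), (9, 22), (10, 27), (12, 20), (13, 21), (14, 32), (15, 28), (17, 19), (6, 21), (7, 20), (8, 28), (10, 19), (11, 17), (12, 18), (13, 33), (15, 31), (16, 30), (17, 38), (19, 18), (20, 17), (21, 19), (22, 18), (23, 33), (25, 31), (26, 30), (27, 38), (29, 18), (30, 17), (31, 10), (21, 26), (22, 23), (23, 22), (24, 27), (7, 13), (8, 12), (9, 25), (11, 26), (12, 23), (13, 22), (14,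 27), (5, 26), (6, 22), (7, 27), (9, 20), (10, 21), (11, 32), (12, 28), (14, 19), (15, 39), (17, 32), (18, 21), (19, 20), (20, 21), (21, 32), (22, 28), (24, 19), (25, 39), (27, 32), (28, 21), (29, 20), (30, 9), (28, 16), (30, 7), (23, 40), (25, 22), (26, 23), (18, 16), (20, 24), (21, 13), (13, 40), (15, 22), (16, 23), (5, 15), (6, 14), (7, 34), (8, 16), (10, 24), (11, 13), (1, 12), (2, 13), (3, 24), (4, 13), (5, 12), (6, 25), (8, 26), (9, 23), (10, 22), (11, 41), (13, 12), (14, 13), (15, 24), (16, 25), (18, 26), (19, 23), (20, 22), (21, 41), (23, 12), (24, 13), (25, 24), (26, 25), (28, 26), (29, 8), (27, 29), (29, 34), (30, 14), (31, 15), (32, 6), (26, 26), (27, 41), (29, 12), (30, 13), (31, 7), (20, 17), (21, 19), (22, 39), (24, 32), (25, 21), (26, 20), (27, 40), (29, 22), (30, 8), (19, 37), (20, 30), (21, 31), (22, 38), (24, 18), (25, 17), (26, 19), (27, 39), (29, 9), (28, 10), (27, 9), (26, 8), (25, 7), (24, 6), (23, 11), (17, 29), (19, 34), (20, 14), (21,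 15), (22, 6), (16, 26), (17, 41), (19, 12), (20, 13), (21, 7), (10, 17), (11, 19), (12, 39), (14, 32), (15, 21), (16, 20), (17, 40), (19, 22), (20, 8), (9, 37), (10, 30), (11, 31), (12, 38), (14, 18), (15, 17), (16, 19), (17, 39), (19, 9), (18, 10), (17, 9), (16, 8), (15, 7), (14, 6), (13, 11), (7, 29), (9, 34), (10, 14), (11, 15), (12, 6), (6, 26), (7, 41), (9, 12), (10, 13), (11, 7), (5, 21), (6, 20), (7, 40), (9, 22), (10, 8), (4, 18), (5, 17), (6, 19), (7, 39), (9, 9), (8, 10), (7, 9), (6, 8), (5, 7), (4, 6), (3, 11), (2, 10), (1, 9), (0, 8)]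

theorem r4_cube {G : Type*} [Group G] {y : ℕ → G} (h : ∀ w ∈ KA, wval y w = 1) :
    wval y r4 ^ 3 = 1 := by
  rw [← wval_rep]
  refine one_of_run (R := rules) (fun r hr => ?_) steps _ (by decide +kernel)
  have := derive I8 h (relW rules) (by decide +kernel) _ (List.mem_map_of_mem hr)
  rwa [wval_append, wval_invW, mul_inv_eq_one] at this

/-! ### A presentation of the fourfold cover -/

def K2 : List (List ℕ) := K0 ++ [r1, r2a ++ [0] ++ r2b, r3 ++ [18], r4, [18, 18]] ++
  I1.map fun i => [18, 2 * i, 18, 2 * i]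

def ls : List (List ℕ) := [[0], [2], [4], [6], [8], [10], [12], [14], [16], [18]]

theorem card_le2 {X : Type*} [Group X] (x : ℕ → X) (hx : ∀ w ∈ K2, wval x w = 1) :
    Nat.card (gp x ls) ≠ 0 ∧ Nat.card (gp x ls) ≤ 36787322880 := by
  have hm : ∀ i, (if i < 10 then x i else 1) ∈ gp x ls := fun i => by
    split_ifs with h
    · rw [← wval_single x i]; exact mem_gp (by revert i; decide)
    · exact one_mem _
  let v : ℕ → gp x ls := fun i => ⟨_, hm i⟩
  have ev : ∀ w : List ℕ, (∀ l ∈ w, l < 2 * 10) → (wval v w).1 = wval x w := fun w hw =>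
    (map_wval (gp x ls).subtype v w).trans (wval_congr (fun i hi => if_pos hi) hw)
  have hv : ∀ w ∈ K2, wval v w = 1 := fun w hw => Subtype.ext (by
    rw [ev w (by revert w; decide +kernel), hx w hw]; rfl)
  have ht : gp v ls = ⊤ := by
    refine map_injective (gp x ls).subtype_injective ?_
    rw [map_gp, ← MonoidHom.range_eq_map, range_subtype]
    exact gp_congr (n := 10) (fun i hi => if_pos hi) (by decide)
  have h2 : v 9 * v 9 = 1 := by simpa [wval, lval] using hv [18, 18] (by decide +kernel)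
  have hc : ∀ g, Commute g (v 9) := fun g => by
    have : gp v ls ≤ centralizer {v 9} := gp_le.2 fun w hw => by
      obtain ⟨i, rfl, h⟩ := (by decide +kernel : ∀ w ∈ ls, ∃ i < 10, w = [2 * i] ∧
        deriveB (9 :: I1) K2 [[2 * i, 2 * 9, 2 * i + 1, 2 * 9 + 1]] = true) w hw |>.imp fun _ h => h.2
      rw [wval_single, mem_centralizer_singleton_iff]
      exact (wval_comm v i 9).1 (derive_one _ hv _ h)
    exact mem_centralizer_singleton_iff.1 (this (ht ▸ mem_top g))
  have : (zpowers (v 9)).Normal := ⟨by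
    rintro _ ⟨n, rfl⟩ g
    rw [conj_eq_of_commute ((hc g).zpow_right n)]
    exact ⟨n, rfl⟩⟩
  let q := QuotientGroup.mk' (zpowers (v 9))
  have q9 : q (v 9) = 1 := (QuotientGroup.eq_one_iff _).2 (mem_zpowers _)
  have hq : ∀ w ∈ K2, wval (fun i => q (v i)) w = 1 := fun w hw => by
    rw [← map_wval, hv w hw, map_one]
  have hb := card_le (fun i => q (v i)) fun w hw => by
    rcases (by decide +kernel : ∀ w ∈ K1, w ∈ K2 ∨ w ++ [2 * 9] ∈ K2) w hw with h | h
    · exact hq w h
    · have := hq _ h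
      rwa [wval_append, wval_single, q9, mul_one] at this
  have ht2 : gp (fun i => q (v i)) (I1.map fun l => [2 * l]) = ⊤ := by
    rw [eq_top_iff, ← map_top_of_surjective q (QuotientGroup.mk'_surjective _), ← ht, map_gp]
    refine gp_le.2 fun w hw => ?_
    rcases (by decide : ∀ w ∈ ls, w ∈ (I1.map fun l => [2 * l]) ∨ w = [2 * 9]) w hw with h | rfl
    · exact mem_gp h
    · rw [wval_single, q9]; exact one_mem _
  rw [ht2, card_top] at hb
  have h3 : orderOf (v 9) ≤ 2 := orderOf_le_of_pow_eq_one (by norm_num) (by rw [sq, h2])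
  have h4 : 0 < orderOf (v 9) := (isOfFinOrder_iff_pow_eq_one.2
    ⟨2, by norm_num, by rw [sq, h2]⟩).orderOf_pos
  rw [card_eq_card_quotient_mul_card_subgroup (zpowers (v 9)), Nat.card_zpowers]
  exact ⟨mul_ne_zero hb.1 h4.ne', (Nat.mul_le_mul hb.2 h3).trans (by norm_num)⟩

theorem dc_of_card {X E : Type*} [Group X] [Group E] [Finite X] {ψ : X →* E}
    (hs : Function.Surjective ψ) (hc : Nat.card X ≤ 2 * Nat.card E) {w : X} (h1 : w ≠ 1)
    (h2 : ψ w = 1) : DC ψ w := by
  refine ⟨hs, fun g => ⟨fun hg => ?_, by rintro (rfl | rfl); exacts [map_one _, h2]⟩, h1⟩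
  have : Finite E := Finite.of_surjective _ hs
  have h3 := ψ.ker.card_mul_index
  rw [index_ker, MonoidHom.range_eq_top.2 hs, card_top] at h3
  have h4 : (ψ.ker : Set X).ncard ≤ 2 := by
    rw [← Nat.card_coe_set_eq]
    exact Nat.le_of_mul_le_mul_right (h3.le.trans hc) Nat.card_pos
  have h5 := Set.eq_of_subset_of_ncard_le (s := {1, w}) (t := (ψ.ker : Set X)) (by
    rintro _ (rfl | rfl); exacts [map_one ψ, h2]) (by rwa [Set.ncard_pair h1.symm])
  exact (h5.symm.le : _) hg

end Cfsg.Agent.Lib.Fis22U
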