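import Cfsg.Agent.Lib.Fis22U

/-! Double covers of the unitary group are quotients of the fourfold cover. -/

set_option autoImplicit false
set_option maxRecDepth 100000
set_option Elab.async false

namespace Cfsg.Agent.Lib.Fis22U

open Cfsg Subgroup Cfsg.Agent.Lib.FisCore Cfsg.Agent.Lib.FisLoc Cfsg.Agent.Lib.FisPrim
  Cfsg.Agent.Lib.PermNet Cfsg.Agent.Lib.Words Cfsg.Agent.Lib.PermGroup Cfsg.Agent.Lib.FisPM
  Cfsg.Agent.Lib.FisLift Cfsg.Agent.Lib.GF4 Cfsg.Agent.Lib.Fis22

abbrev F := PSU 6 K4 2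
abbrev H := S1684.H
abbrev zz := S1684.z
noncomputable abbrev ff := S1684.f

theorem exists_al : ∃ α : H →* F, DC α (zz 0) ∧ ∀ i < 9, α (zz i) = ff i := by
  obtain ⟨α, hα⟩ := S1684.hom_of_bound S1684.hz S1684.hf (fun z hz => S1684.card_le z hz) S1684.gp_z
    Fi22A.card_hs.ge
  have h : ∀ i < 9, α (zz i) = ff i := fun i hi => by
    have := hα [2 * i] (by revert i; decide)
    rwa [wval_single, wval_single] at this
  refine ⟨α, dc_of_card ?_ (Fi22A.card_hs.le.trans (le_trans (by norm_num)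
    (Nat.mul_le_mul_left 2 S1684.card_PSU))) S1684.z_zero ?_, h⟩
  · rw [← MonoidHom.range_eq_top, eq_top_iff, ← S1684.gp_f]
    exact gp_le.2 fun w hw => ⟨_, hα w hw⟩
  · rw [h 0 (by decide), ff, S1684.f, S1684.g_zero, map_one]

theorem ff0 : ff 0 = 1 := by rw [ff, S1684.f, S1684.g_zero, map_one]

theorem cH (g : H) : Commute (g : Spor.Fi22) d := mem_centralizer_singleton_iff.1 (hs_le g.2)

theorem conj_H {x : H} (hx : Adj d d x) : x ∈ DD (zz 5) := by
  obtain ⟨h, h1, h2⟩ := geo.t1 x hx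
  exact isConj_iff.2 ⟨⟨h, mem_hs h1⟩, Subtype.ext h2⟩

open Classical in
noncomputable def up (t : Desc) : H :=
  if h : el nd Fi22A.Y t ∈ H then ⟨_, h⟩ else 1

theorem up_eq {t : Desc} (h : Adj d d (el nd Fi22A.Y t)) : (up t : Spor.Fi22) = el nd Fi22A.Y t := by
  rw [up, dif_pos (mem_hs h.2.2.2.symm)]

theorem up_prod {l : List Desc} (h : ∀ t ∈ l, Adj d d (el nd Fi22A.Y t)) :
    ((l.map up).prod : H) = wval Fi22A.Y (l.map nd.W).flatten := by
  induction l with
  | nil => rfl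
  | cons t l ih =>
    rw [List.map_cons, List.prod_cons, Subgroup.coe_mul, ih fun u hu => h u (List.mem_cons_of_mem _ hu),
      up_eq (h t List.mem_cons_self), List.map_cons, List.flatten_cons, wval_append]
    rfl

def hep : List Desc := [(2, []), (7, []), (4, [10, 12, 18, 10]), (2, [6, 8, 10, 12, 14, 6, 8, 10]), (2, [6, 8, 10, 12, 14, 6, 18, 10])]

theorem perfH (K : Subgroup H) (h0 : zz 0 ∈ K) (h5 : zz 5 ∈ K)
    (hK : ∀ g h, Commute g (zz 5) → Commute h (zz 5) → g ∉ K → h ∉ K → g * h ∈ K) (g : H)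
    (hg : Commute g (zz 5)) : g ∈ K := by
  have cm : ∀ {x : H}, Commute (x : Spor.Fi22) (el nd Fi22A.Y ta) → Commute x (zz 5) :=
    fun h => Subtype.ext h
  have key : ∀ x : H, Adj d d x → Adj d (el nd Fi22A.Y ta) x → (x ∈ K ↔ zz 1 ∈ K) := by
    intro x h1 h2
    obtain ⟨h, k1, k2, k3⟩ := geo.t2 x h1 h2
    have e : x = ⟨h, mem_hs k1⟩ * zz 1 * (⟨h, mem_hs k1⟩ : H)⁻¹ := Subtype.ext k3.symm
    refine ⟨fun hx => ?_, fun hx => e ▸ par_conj hK (cm k2) (cm geo.hc2.2.2.2.symm) hx⟩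
    have := par_conj hK (cm (x := ⟨h, mem_hs k1⟩) k2).inv_left (cm h2.2.2.2.symm) hx
    rw [e] at this
    simpa [mul_assoc] using this
  have h1 : zz 1 ∈ K := by
    by_contra hn
    have ho := (by decide +kernel : ∀ t ∈ hep, nd.adjB td t = true ∧ nd.adjB ta t = true)
    have := (par_prod hK (hep.map up) fun x hx => by
      obtain ⟨t, ht, rfl⟩ := List.mem_map.1 hx
      have k1 := adj_d (ho t ht).1
      have k2 := P.adj (ho t ht).2
      have k3 := up_eq k1
      rw [← k3] at k1 k2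
      exact ⟨cm k2.2.2.2.symm, fun h => hn ((key _ k1 k2).1 h)⟩).2
    rw [show (hep.map up).prod = zz 0 * zz 5 from Subtype.ext (by
      rw [up_prod fun t ht => adj_d (ho t ht).1]
      exact (one' (v := [0] ++ [12]) (by decide +kernel)).trans (wval_append _ _ _))] at this
    exact absurd (this.1 (K.mul_mem h0 h5)) (by decide)
  have := prim.genX (K.map H.subtype) (fun x hx c1 c2 => by
    refine ⟨⟨x, mem_hs c1⟩, ?_, rfl⟩
    by_cases e1 : d = x
    · subst e1; exact h0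
    by_cases e2 : el nd Fi22A.Y ta = x
    · subst e2; exact h5
    exact (key ⟨x, mem_hs c1⟩ ⟨self_mem d, hx, e1, c1.symm⟩ ⟨geo.ha.2.1, hx, e2, c2.symm⟩).2 h1)
    g (cH g) (congrArg Subtype.val hg)
  obtain ⟨x, hx, e⟩ := this
  exact Subtype.ext (a2 := g) e ▸ hx

section alpha
variable {α : H →* F} (hα : DC α (zz 0))
include hα

theorem perfF : Perf (α (zz 5)) := by
  have key : ∀ g, Commute (α g) (α (zz 5)) → Commute g (zz 5) := fun g c => by
    rcases hα.eq_or (g := g * zz 5 * g⁻¹) (k := zz 5) (by simp [c.eq]) with e | e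
    · exact commute_of_conj_eq e
    · refine absurd ?_ (prim.pair_nD ⟨_, _, geo.ha, rfl⟩)
      have := conj_mem geo.ha.2.1 (g : Spor.Fi22)
      rwa [show (g : Spor.Fi22) * el nd Fi22A.Y ta * (g : Spor.Fi22)⁻¹ =
        d * el nd Fi22A.Y ta from congrArg Subtype.val e] at this
  intro K h1 h2 g hg
  obtain ⟨g, rfl⟩ := hα.surj g
  exact perfH (K.comap α) (by rw [mem_comap, hα.pi_z]; exact K.one_mem) h1 (fun x y cx cy nx ny => by
    rw [mem_comap, map_mul]; exact h2 _ _ (cx.map α) (cy.map α) nx ny) g (key g hg)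

theorem oddF : OddRel (α (zz 5)) := by
  have ho := (by decide +kernel : ∀ t ∈ ta :: tc :: es, nd.adjB td t = true)
  have hc := P.cen (ws := (ta :: tc :: es).map nd.W) (ts := ta :: tc :: es) (by decide +kernel)
  refine ⟨((ta :: tc :: es).map up).map α, by
    rw [List.length_map, List.length_map]; decide, ?_, fun x hx => ?_, fun x hx y hy => ?_⟩
  · rw [← map_list_prod, show ((ta :: tc :: es).map up).prod = zz 0 from Subtype.ext (by
      rw [up_prod fun t ht => adj_d (ho t ht)]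
      exact one' (v := [0]) (by decide +kernel)), hα.pi_z]
  · obtain ⟨x, hx', rfl⟩ := List.mem_map.1 hx
    obtain ⟨t, ht, rfl⟩ := List.mem_map.1 hx'
    exact map_mem α (conj_H (by rw [up_eq (adj_d (ho t ht))]; exact adj_d (ho t ht)))
  · obtain ⟨x, hx', rfl⟩ := List.mem_map.1 hx
    obtain ⟨t, ht, rfl⟩ := List.mem_map.1 hx'
    obtain ⟨y, hy', rfl⟩ := List.mem_map.1 hy
    obtain ⟨u, hu, rfl⟩ := List.mem_map.1 hy'
    refine Commute.map (Subtype.ext ?_) α
    rw [Subgroup.coe_mul, Subgroup.coe_mul, up_eq (adj_d (ho t ht)), up_eq (adj_d (ho u hu))]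
    exact hc _ (List.mem_map_of_mem ht) u hu

end alpha

theorem zz_mem : ∀ i ∈ I8, zz i ∈ DD (zz 5) := fun i hi => conj_H (by
  simp only [I8, List.mem_cons, List.not_mem_nil, or_false] at hi
  rcases hi with rfl | rfl | rfl | rfl | rfl | rfl | rfl | rfl
  exacts [adj_d (t := (2, [])) (by decide +kernel), adj_d (t := (3, [])) (by decide +kernel),
    adj_d (t := (4, [])) (by decide +kernel), adj_d (t := (5, [])) (by decide +kernel),
    adj_d (t := (6, [])) (by decide +kernel), adj_d (t := (7, [])) (by decide +kernel),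
    adj_d (t := (8, [])) (by decide +kernel), by
      rw [show (zz 8 : Spor.Fi22) = el nd Fi22A.Y (0, [2, 4, 6, 8, 14, 6, 4, 2]) from
        one' (by decide +kernel)]
      exact adj_d (by decide +kernel)])

theorem facts : Perf (ff 5) ∧ OddRel (ff 5) ∧ ∀ i ∈ I8, ff i ∈ DD (ff 5) := by
  obtain ⟨α, h1, h2⟩ := exists_al
  rw [← h2 5 (by decide)]
  refine ⟨perfF h1, oddF h1, fun i hi => ?_⟩
  rw [← h2 i (by revert i; decide)]
  exact map_mem α (zz_mem i hi)

section cover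
variable {E : Type*} [Group E] {π : E →* F} {z : E} (h : DC π z)
include h

theorem lift_sq {a : E} (ha : π a = ff 5) : a * a = 1 :=
  h.sq_base (ha ▸ facts.1) (by
    rw [ha]; simpa [wval, lval] using S1684.hf [10, 10] (by decide)) (ha ▸ facts.2.1)

theorem lift_KA {a : E} (ha : π a = ff 5) {x : ℕ → E} (hx : ∀ i ∈ I8, x i ∈ DD a)
    (hp : ∀ i < 9, π (x i) = ff i) : ∀ w ∈ KA, wval x w = 1 := by
  have hw : ∀ w ∈ S1684.K1, π (wval x w) = 1 := fun w hw => by
    rw [map_wval, wval_congr hp (by revert w; decide +kernel), S1684.hf w hw]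
  intro w hw'
  rcases List.mem_cons.1 hw' with rfl | hw'
  · have e : wval x r1 = (x 2 * (wval x [6, 8, 16, 14] * x 6 * (wval x [6, 8, 16, 14])⁻¹)) ^ 3 := by
      have hI : ∀ i ∈ I8, x i * x i = 1 := fun i hi => mul_self (lift_sq h ha) (hx i hi)
      rw [← wval_single x 2, ← wval_single x 6, ← wval_invW, ← wval_append, ← wval_append,
        ← wval_append, ← wval_rep, ← wval_nf hI, ← wval_nf hI (rep 3 _)]
      rfl
    have := hw r1 (by decide +kernel)
    rw [e] at this ⊢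
    exact h.pow_rel (ha ▸ facts.1) (lift_sq h ha) (hx 2 (by decide)) (conj_mem (hx 6 (by decide)) _)
      (Or.inr (Or.inr rfl)) (by rwa [map_pow, map_mul] at this)
  · obtain ⟨h1, h2⟩ := List.mem_filter.1 hw'
    exact h.shape_rel (ha ▸ facts.1) (lift_sq h ha) hx h2 (hw w (List.mem_append_left _ h1))

theorem exists_lift0 : ∃ (a : E) (x : ℕ → E), π a = ff 5 ∧ (∀ i ∈ I8, x i ∈ DD a) ∧
    (∀ i < 9, π (x i) = ff i) ∧ wval x r0 = 1 := by
  obtain ⟨a, ha⟩ := h.surj (ff 5)
  have : ∀ i, ∃ x, (i ∈ I8 → x ∈ DD a) ∧ (i < 9 → π x = ff i) := fun i => by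
    by_cases hi : i ∈ I8
    · obtain ⟨x, h1, h2⟩ := h.lift (a := a) (ha ▸ facts.2.2 i hi)
      exact ⟨x, fun _ => h1, fun _ => h2⟩
    · refine ⟨1, fun h => absurd h hi, fun h => ?_⟩
      rw [(by decide : ∀ i < 9, i ∉ I8 → i = 0) i h hi, ff0, map_one]
  choose x h1 h2 using this
  rcases (h.ker (wval x r0)).1 (by
    rw [map_wval, wval_congr h2 (by decide +kernel), S1684.hf _ (by decide +kernel)]) with e | e
  · exact ⟨a, x, ha, h1, h2, e⟩
  · refine ⟨z * a, fun i => z * x i, by rw [map_mul, h.pi_z, one_mul, ha], fun i hi => ?_,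
      fun i hi => by rw [map_mul, h.pi_z, one_mul, h2 i hi], ?_⟩
    · obtain ⟨g, hg⟩ := isConj_iff.1 (h1 i hi)
      exact isConj_iff.2 ⟨g, by rw [← conj_mul, hg, conj_eq_of_commute (h.comm g)]⟩
    · rw [wval_mul_z h, e, show r0.length = 2 * 31 + 1 by decide +kernel, h.zpow, h.sq]

theorem exists_lift : ∃ x : ℕ → E, (∀ i < 9, π (x i) = ff i) ∧ π (x 9) = 1 ∧
    ∀ w ∈ K2, wval x w = 1 := by
  obtain ⟨a, x, ha, h1, h2, h3⟩ := exists_lift0 h
  let x' : ℕ → E := fun i => if i = 0 then (wval x r2a)⁻¹ * (wval x r2b)⁻¹ else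
    if i = 9 then (wval x r3)⁻¹ else x i
  have e8 : ∀ i ∈ I8, x' i = x i := fun i hi => by
    simp only [x', if_neg ((by decide : ∀ i ∈ I8, i ≠ 0) i hi),
      if_neg ((by decide : ∀ i ∈ I8, i ≠ 9) i hi)]
  have ew : ∀ w : List ℕ, (∀ l ∈ w, l / 2 ∈ I8) → wval x' w = wval x w := fun w hw => by
    induction w with
    | nil => rfl
    | cons l w ih =>
      rw [wval_cons, wval_cons, ih fun m hm => hw m (List.mem_cons_of_mem _ hm), lval, lval,
        e8 _ (hw l List.mem_cons_self)]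
  have hp : ∀ w : List ℕ, (∀ l ∈ w, l < 2 * 9) → π (wval x w) = wval ff w := fun w hw => by
    rw [map_wval, wval_congr h2 hw]
  have p0 : π (x' 0) = 1 := by
    have := S1684.hf (r2a ++ [2 * 0] ++ r2b) (by decide +kernel)
    rw [wval_append, wval_append, wval_single, show S1684.f 0 = 1 from ff0, mul_one] at this
    simp only [x', if_pos, map_mul, map_inv, hp r2a (by decide), hp r2b (by decide)]
    rw [eq_inv_of_mul_eq_one_left this]; group
  have p9 : π (x' 9) = 1 := by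
    change π (wval x r3)⁻¹ = 1
    rw [map_inv, hp r3 (by decide), S1684.hf r3 (by decide +kernel), inv_one]
  have cz : ∀ u, π u = 1 → u * u = 1 ∧ ∀ g, Commute g u := fun u hu => by
    rcases (h.ker u).1 hu with rfl | rfl
    exacts [⟨mul_one 1, fun g => Commute.one_right g⟩, ⟨h.sq, h.comm⟩]
  have hA := lift_KA h ha h1 h2
  have sq : ∀ i < 10, x' i * x' i = 1 := fun i hi => by
    rcases (by decide : ∀ i < 10, i = 0 ∨ i = 9 ∨ i ∈ I8) i hi with rfl | rfl | hi
    exacts [(cz _ p0).1, (cz _ p9).1, by rw [e8 i hi]; exact mul_self (lift_sq h ha) (h1 i hi)]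
  refine ⟨x', fun i hi => ?_, p9, fun w hw => ?_⟩
  · rcases (by decide : ∀ i < 9, i = 0 ∨ i ∈ I8) i hi with rfl | hi'
    · rw [p0, ff0]
    · rw [e8 i hi', h2 i hi]
  rcases (by decide +kernel : ∀ w ∈ K2, (w ∈ KA ∧ ∀ l ∈ w, l / 2 ∈ I8) ∨ w = r0 ∨ w = r4 ∨
    w = r2a ++ [2 * 0] ++ r2b ∨ w = r3 ++ [2 * 9] ∨ ∃ j ∈ [0, 9], w = [2 * j] ++ [2 * j] ∨
      ∃ i < 10, w = rep 2 ([2 * j] ++ [2 * i])) w hw with
    ⟨k1, k2⟩ | rfl | rfl | rfl | rfl | ⟨j, hj, rfl | ⟨i, hi, rfl⟩⟩
  · rw [ew w k2, hA w k1]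
  · rw [ew _ (by decide +kernel), h3]
  · rw [ew _ (by decide)]
    exact h.one_of_cube (r4_cube hA) (by rw [hp _ (by decide), S1684.hf _ (by decide +kernel)])
  · rw [wval_append, wval_append, wval_single, ew r2a (by decide), ew r2b (by decide)]
    simp [x']
  · rw [wval_append, wval_single, ew r3 (by decide)]
    exact mul_inv_cancel _
  · rw [wval_append, wval_single, sq j ((by decide : ∀ j ∈ [0, 9], j < 10) j hj)]
  · have c : Commute (x' i) (x' j) := by
      simp only [List.mem_cons, List.not_mem_nil, or_false] at hj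
      rcases hj with rfl | rfl
      exacts [(cz _ p0).2 _, (cz _ p9).2 _]
    rw [wval_rep, wval_append, wval_single, wval_single, c.symm.mul_pow, _root_.sq, _root_.sq,
      sq i hi, sq j ((by decide : ∀ j ∈ [0, 9], j < 10) j hj), mul_one]

end cover

end Cfsg.Agent.Lib.Fis22U
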