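import Cfsg.Agent.Lib.Fis22V

/-! The perfect double covers of the unitary group are isomorphic to the transposition centraliser. -/

set_option autoImplicit false
set_option maxRecDepth 100000
set_option Elab.async false

namespace Cfsg.Agent.Lib.Fis22U

open Cfsg Subgroup Cfsg.Agent.Lib.FisCore Cfsg.Agent.Lib.FisLoc Cfsg.Agent.Lib.FisPrim
  Cfsg.Agent.Lib.PermNet Cfsg.Agent.Lib.Words Cfsg.Agent.Lib.PermGroup Cfsg.Agent.Lib.FisPM
  Cfsg.Agent.Lib.FisLift Cfsg.Agent.Lib.GF4 Cfsg.Agent.Lib.Fi22Cover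

/-- The fourfold cover. -/
def XC : Subgroup Cov := centralizer {y 0}

theorem mem_XC {g : Cov} : g ∈ XC ↔ Commute (Fi22Cover.alpha g) Fis22.d := by
  rw [XC, mem_centralizer_singleton_iff, ← Fis23.alpha_0]
  exact ⟨fun h => Commute.map h Fi22Cover.alpha, Fis23.dc.comm_base (Fis23.alpha_0 ▸ Fis22.perf)⟩

def zc : XC := ⟨Fis23.z, mem_centralizer_singleton_iff.2 (Fis23.z_comm _).symm⟩
def ac : XC := ⟨y 0, mem_centralizer_singleton_iff.2 rfl⟩

/-- The projection to the transposition centraliser. -/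
noncomputable def pr : XC →* H :=
  (Fi22Cover.alpha.comp XC.subtype).codRestrict _ fun g => Fis22.mem_hs (mem_XC.1 g.2)

theorem pr_dc : DC pr zc := by
  refine ⟨fun h => ?_, fun g => ?_, fun h => Fis23.dc.ne (congrArg Subtype.val h)⟩
  · obtain ⟨g, hg⟩ := alpha_surjective h
    exact ⟨⟨g, mem_XC.2 (hg ▸ cH h)⟩, Subtype.ext hg⟩
  · rw [Subtype.ext_iff, Subtype.ext_iff, Subtype.ext_iff]
    exact Fis23.dc.ker g

theorem card_XC : Nat.card XC = 36787322880 := by rw [pr_dc.card, Fi22A.card_hs]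

instance : Finite XC := Nat.finite_of_card_ne_zero (by rw [card_XC]; norm_num)

def wx : List (List ℕ) := [[0], [4], [6], [8], [10], [12], [14], [16],
  [2, 4, 6, 14, 8, 6, 4, 2, 0, 2, 4, 6, 8, 14, 6, 4, 2], []]

theorem alpha_wx : ∀ i < 9, Fi22Cover.alpha (wval y (wx.getD i [])) = zz i := fun i hi => by
  rw [alpha_wval _ (by revert i; decide), ← wval_ext _ 9 Fi22A.defs _ (by revert i; decide)]
  exact Fis22.one' ((by decide +kernel :
    ∀ i < 9, Fis22.nd.oneB (wx.getD i []) (S1684.ws.getD i []) = true) i hi)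

theorem yy_mem (i : ℕ) : Fis23.z * wval y (wx.getD i []) ∈ XC := by
  refine XC.mul_mem zc.2 ?_
  by_cases hi : i < 9
  · exact mem_XC.2 (alpha_wx i hi ▸ cH _)
  · have : wx.getD i [] = [] := by
      by_cases e : i = 9
      · rw [e]; rfl
      · exact List.getD_eq_default _ _ (by change 10 ≤ i; omega)
    rw [this]; exact XC.one_mem

def yy (i : ℕ) : XC := ⟨_, yy_mem i⟩

theorem yy9 : yy 9 = zc := Subtype.ext (mul_one _)
theorem yy0 : yy 0 = zc * ac := Subtype.ext (congrArg (Fis23.z * ·) (wval_single y 0))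

theorem pr_yy : ∀ i < 9, pr (yy i) = zz i := fun i hi => Subtype.ext (by
  change Fi22Cover.alpha (_ * _) = _
  rw [map_mul, Fis23.dc.pi_z, one_mul, alpha_wx i hi])

def chk (w : List ℕ) : Prop := (subst wx w).all (fun l => decide (l < 2 * 9)) = true ∧
  ((w.length = 2 * (w.length / 2) ∧ Fis23.nd.cenB [subst wx w ++ invW []] Fis23.gens = true) ∨
    (w.length = 2 * (w.length / 2) + 1 ∧ Fis23.nd.cenB [subst wx w ++ invW zw] Fis23.gens = true))

noncomputable instance (w : List ℕ) : Decidable (chk w) := by unfold chk; infer_instance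

theorem chk1 : ∀ w ∈ K2.take 45, chk w := by decide +kernel
theorem chk2 : ∀ w ∈ (K2.drop 45).take 3, chk w := by decide +kernel
theorem chk3 : ∀ w ∈ (K2.drop 45).drop 3, chk w := by decide +kernel

theorem yy_rel : ∀ w ∈ K2, wval yy w = 1 := fun w hw => Subtype.ext (by
  have hc : chk w := by
    rw [← List.take_append_drop 45 K2, ← List.take_append_drop 3 (K2.drop 45)] at hw
    rcases List.mem_append.1 hw with h | h
    · exact chk1 w h
    · exact (List.mem_append.1 h).elim (chk2 w) (chk3 w)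
  refine (map_wval XC.subtype yy w).trans ((wval_mul_z Fis23.dc _ w).trans ?_)
  rw [← wval_subst]
  obtain ⟨h1, ⟨h2, h3⟩ | ⟨h2, h3⟩⟩ := hc
  · rw [h2, Fis23.dc.zpow', Fis23.cov_eq h1 rfl h3]; exact mul_one _
  · rw [h2, Fis23.dc.zpow, Fis23.cov_eq h1 (by decide +kernel) h3]; exact Fis23.dc.sq)

theorem yy_top : gp yy ls = ⊤ := by
  refine eq_top_iff.2 fun g _ => ?_
  have : gp zz (S1684.I1.map fun l => [2 * l]) ≤ (gp yy ls).map pr := gp_le.2 fun w hw => by
    obtain ⟨i, hi, rfl, h⟩ := (by decide : ∀ w ∈ (S1684.I1.map fun l => [2 * l]),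
      ∃ i < 9, w = [2 * i] ∧ w ∈ ls) w hw
    exact ⟨_, mem_gp h, by rw [wval_single, wval_single, pr_yy i hi]⟩
  obtain ⟨k, hk, e⟩ := this (S1684.gp_z ▸ mem_top (pr g))
  rcases pr_dc.eq_or e.symm with rfl | rfl
  · exact hk
  · refine mul_mem ?_ hk
    rw [← yy9, ← wval_single yy 9]; exact mem_gp (by decide)

theorem beta_0 : Fi23A.beta (y 0) = el Fis23.nd Fi23A.Y Fis23.ta := by
  rw [Fi23A.beta_y 0 (by decide), Fis23.Y_el (by decide)]

theorem bij_of {σ : XC →* XC} (h : Function.Injective σ) : Function.Bijective σ :=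
  ⟨h, Finite.injective_iff_surjective.1 h⟩

theorem sigma1 : ∃ σ : XC →* XC, Function.Bijective σ ∧ σ zc = ac ∧ σ ac = zc := by
  obtain ⟨n, n1, n2⟩ := Fis23.geo.conj2 Fis23.geo.ha.symm
  rw [← beta_0] at n1 n2
  rw [← Fis23.beta_z] at n1 n2
  have : ∀ x : XC, ∃ x' : XC, Fi23A.beta x' = n * Fi23A.beta x * n⁻¹ := fun x => by
    obtain ⟨v, hv⟩ := (Fis23.comm_iff (n * Fi23A.beta x * n⁻¹)).1 (by
      rw [← n2]; exact commute_conj (Commute.map (mem_centralizer_singleton_iff.1 x.2) _) n)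
    refine ⟨⟨v, mem_centralizer_singleton_iff.2 (Fi23A.beta_injective ?_)⟩, hv⟩
    rw [map_mul, map_mul, hv, ← n1]
    exact commute_conj ((Fis23.z_comm _).map _) n
  choose s hs using this
  refine ⟨MonoidHom.mk' s fun a b => Subtype.ext (Fi23A.beta_injective ?_), bij_of fun a b e => ?_,
    Subtype.ext (Fi23A.beta_injective ((hs _).trans n1)),
    Subtype.ext (Fi23A.beta_injective ((hs _).trans n2))⟩
  · rw [Subgroup.coe_mul, map_mul, hs, hs, hs, Subgroup.coe_mul, map_mul, conj_mul]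
  · have := (hs a).symm.trans ((congrArg (fun x : XC => Fi23A.beta x) e).trans (hs b))
    exact Subtype.ext (Fi23A.beta_injective (by simpa using this))

theorem sigma2 : ∃ σ : XC →* XC, Function.Bijective σ ∧ σ zc = zc ∧ σ ac = zc * ac := by
  obtain ⟨θ, hb, h1, h2⟩ := Fis23.exists_theta
  obtain ⟨n, n1, n2⟩ := Fis23.geo.t1 _ (Fis23.adj_d (t := (6, [])) (by decide +kernel))
  obtain ⟨k, rfl⟩ := Fis23.exists_pre n1
  have e : k⁻¹ * θ (y 0) * k⁻¹⁻¹ = Fis23.z * y 0 := by
    have : k * y 0 * k⁻¹ = wval y [12] := Fi23A.beta_injective (by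
      rw [map_mul, map_mul, map_inv, beta_0, n2, Fi23A.beta_wval _ (by decide)]; rfl)
    rw [h2 0 (by decide), show Fis23.sg.getD 0 [] = [12] from rfl, ← this, ← conj_mul,
      conj_eq_of_commute (Fis23.z_comm _)]
    group
  refine ⟨(((MulAut.conj k⁻¹).toMonoidHom.comp θ).comp XC.subtype).codRestrict _ fun g => ?_,
    bij_of fun a b h => ?_, Subtype.ext ?_, Subtype.ext e⟩
  · have := commute_conj (Commute.map (mem_centralizer_singleton_iff.1 g.2) θ) k⁻¹
    rw [e] at this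
    have h3 := (Fis23.z_comm _).mul_right this
    rw [← mul_assoc, Fis23.dc.sq, one_mul] at h3
    exact mem_centralizer_singleton_iff.2 h3
  · exact Subtype.ext (hb.1 (by simpa using congrArg Subtype.val h))
  · change k⁻¹ * θ Fis23.z * k⁻¹⁻¹ = Fis23.z
    rw [h1, conj_eq_of_commute (Fis23.z_comm _)]

theorem pr_ac : (pr ac : Spor.Fi22) = Fis22.d := Fis23.alpha_0

theorem ac_ne : ac ≠ 1 ∧ ac ≠ zc := by
  have : pr ac ≠ 1 := fun h => Fis22.nb_d (by rw [← pr_ac, h]; exact Commute.one_right _)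
  exact ⟨fun h => this (by rw [h, map_one]), fun h => this (by rw [h, pr_dc.pi_z])⟩

theorem exists_loc {G : Type*} [Group G] {d : G} {π : centralizer ({d} : Set G) →* F}
    (h : DC π ⟨d, mem_centralizer_singleton_iff.2 rfl⟩)
    (hp : commutator (centralizer ({d} : Set G)) = ⊤) :
    ∃ f : Spor.Fi22 → G, Loc0 Fis22.d f ∧ f Fis22.d = d := by
  obtain ⟨x, h1, h2, h3⟩ := exists_lift h
  obtain ⟨ψ, hψ⟩ := S1684.hom_of_bound yy_rel h3 (fun z hz => card_le2 z hz) yy_top card_XC.ge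
  have e : ∀ i < 10, ψ (yy i) = x i := fun i hi => by
    have := hψ [2 * i] (by revert i; decide)
    rwa [wval_single, wval_single] at this
  have hs : Function.Surjective ψ := MonoidHom.range_eq_top.1 (h.range_top hp (by
    have : gp ff (S1684.I1.map fun l => [2 * l]) ≤ ψ.range.map π := gp_le.2 fun w hw => by
      obtain ⟨i, hi, rfl⟩ := (by decide : ∀ w ∈ (S1684.I1.map fun l => [2 * l]),
        ∃ i < 9, w = [2 * i]) w hw
      exact ⟨_, ⟨_, e i (by omega)⟩, by rw [wval_single, h1 i hi]⟩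
    exact fun y => this (S1684.gp_f ▸ mem_top y)))
  have hc : Nat.card XC ≤ 2 * Nat.card (centralizer ({d} : Set G)) := by
    rw [card_XC, h.card]
    exact le_trans (by norm_num) (Nat.mul_le_mul_left 2 (Nat.mul_le_mul_left 2 S1684.card_PSU))
  have key : ∀ (σ : XC →* XC) (w v : XC), Function.Bijective σ → σ w = zc → σ v = ac → ψ w = 1 →
      (ψ v : G) = d → ∃ f : Spor.Fi22 → G, Loc0 Fis22.d f ∧ f Fis22.d = d := by
    intro σ w v hb k1 k2 k3 k4
    have dc := dc_of_card hs hc (w := w) (fun e => pr_dc.ne (by rw [← k1, e, map_one])) k3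
    have bv : (H.subtype.comp (pr.comp σ)) v = Fis22.d := by
      rw [MonoidHom.comp_apply, MonoidHom.comp_apply, k2]; exact pr_ac
    obtain ⟨f, hf, ef⟩ := loc0_of (H.subtype.comp (pr.comp σ)) ((Subgroup.subtype _).comp ψ) v
      (fun g => by
        rw [MonoidHom.comp_apply, MonoidHom.comp_apply, MonoidHom.comp_apply,
          map_eq_one_iff _ (subtype_injective _), map_eq_one_iff _ (subtype_injective _), pr_dc.ker,
          dc.ker, ← k1, map_eq_one_iff _ hb.1, hb.1.eq_iff])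
      (fun m => by
        rw [bv]
        refine ⟨fun hm => ?_, by rintro ⟨g, rfl⟩; exact cH _⟩
        obtain ⟨g, hg⟩ := (pr_dc.surj.comp hb.2) ⟨m, Fis22.mem_hs hm⟩
        exact ⟨g, congrArg Subtype.val hg⟩)
      (fun g hg => by
        obtain ⟨u, hu⟩ := hs ⟨g, mem_centralizer_singleton_iff.2 (k4 ▸ hg)⟩
        exact ⟨u, congrArg Subtype.val hu⟩)
    exact ⟨f, bv ▸ hf, by rw [← bv, ef]; exact k4⟩
  have z1 := (h.ker (ψ zc)).1 (by rw [← yy9, e 9 (by decide), h2])
  have z2 := (h.ker (ψ ac)).1 (by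
    have := h1 0 (by decide)
    rw [← e 0 (by decide), yy0, map_mul, map_mul, ← yy9, e 9 (by decide), h2, one_mul, ff0] at this
    exact this)
  obtain ⟨s1, b1, s11, s12⟩ := sigma1
  obtain ⟨s2, b2, s21, s22⟩ := sigma2
  rcases z1 with z1 | z1 <;> rcases z2 with z2 | z2
  · exact absurd (((dc_of_card hs hc pr_dc.ne z1).ker ac).1 z2) (not_or.2 ac_ne)
  · exact key (MonoidHom.id _) zc ac Function.bijective_id rfl rfl z1 (congrArg Subtype.val z2)
  · exact key s1 ac zc b1 s12 s11 z2 (congrArg Subtype.val z1)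
  · exact key (s1.comp s2) (zc * ac) zc (b1.comp b2) (by
      rw [MonoidHom.comp_apply, map_mul s2, s21, s22, ← mul_assoc, pr_dc.sq, one_mul, s12])
      (by rw [MonoidHom.comp_apply, s21, s11]) (by rw [map_mul, z1, z2, h.sq])
      (congrArg Subtype.val z1)

end Cfsg.Agent.Lib.Fis22U
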