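import Cfsg.Agent.Lib.FisMk
import Cfsg.Agent.Lib.Fi23A

/-! The point model of Fi23 on its 31671 transpositions. -/

set_option autoImplicit false
set_option maxRecDepth 100000
set_option Elab.async false

namespace Cfsg.Agent.Lib.Fis23

open Cfsg Subgroup Cfsg.Agent.Lib.FisCore Cfsg.Agent.Lib.FisLoc Cfsg.Agent.Lib.FisPrim
  Cfsg.Agent.Lib.PermNet Cfsg.Agent.Lib.Words Cfsg.Agent.Lib.PermGroup Cfsg.Agent.Lib.FisPM
  Cfsg.Agent.Lib.Fi23A

def dw : List ℕ := [18, 12, 10, 8, 6, 4, 2, 14, 6, 4, 8, 6, 10, 8, 12, 10, 14, 6, 4, 8, 6, 14, 18, 12, 10, 8, 6, 4, 2, 4, 6, 8, 10, 12, 18, 14, 6, 8, 4, 6, 14, 10, 12, 8, 10, 6, 8, 4, 6, 14, 2, 4, 6, 8, 10, 12, 18]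

noncomputable def nd : ND := ⟨31671, 15, 3510, nets, [[0], [2], [4], [6], [8], [10], [12], [14], [16], [18], [18, 12, 10, 8, 6, 4, 2, 14, 6, 4, 8, 6, 10, 8, 12, 10, 14, 6, 4, 8, 6, 14, 18, 12, 10, 8, 6, 4, 2, 4, 6, 8, 10, 12, 18, 14, 6, 8, 4, 6, 14, 10, 12, 8, 10, 6, 8, 4, 6, 14, 2, 4, 6, 8, 10, 12, 18]], [[18, 12, 10, 8, 6, 4, 2, 0, 14, 6, 4, 8, 6, 10, 8, 12, 10, 14, 6, 4, 8, 6, 14, 18, 12, 10, 8, 6, 4, 2], [18, 12, 10, 8, 6, 4, 2, 14, 6, 4, 8, 6, 10, 8, 12, 10, 14, 6, 4, 8, 6, 14, 18, 12, 10, 8, 6, 4], [18, 12, 10, 8, 6, 4, 2, 14, 6, 4, 8, 6, 10, 8, 12, 10, 14, 6, 4, 2, 8, 6, 14, 18, 12, 10, 8, 6], [18, 12, 10, 8, 6, 4, 2, 14, 6, 4, 8, 6, 10, 8, 12, 10, 14, 6, 4, 2, 8, 6, 4, 14, 18, 12, 10, 8], [18, 12, 10, 8, 6, 4, 2, 14, 6, 4, 8, 6, 10, 8, 12, 10, 14, 6, 4, 2, 8, 6, 4, 14, 6, 18, 12, 10], [18, 12, 10, 8, 6, 4, 2, 14, 6, 4, 8, 6, 10, 8, 12, 10, 14, 6, 4, 2, 8, 6, 4, 14, 6, 8, 18, 12], [18, 12, 10, 8, 6, 4, 2, 14, 6, 4,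 8, 6, 10, 8, 12, 10, 14, 6, 4, 2, 8, 6, 4, 14, 6, 8, 10, 18], [18, 12, 10, 8, 6, 4, 2, 14, 6, 4, 8, 6, 10, 8, 12, 10, 14, 6, 4, 2, 8, 6, 4, 18, 12, 10, 8, 6], [18, 12, 10, 8, 6, 4, 14, 6, 8, 10, 12, 16, 14, 6, 4, 8, 6, 10, 8, 14, 6, 4, 18, 12, 10, 8, 6, 14], [18, 12, 10, 8, 6, 4, 2, 14, 6, 4, 8, 6, 10, 8, 12, 10, 14, 6, 4, 2, 8, 6, 4, 14, 6, 8, 10, 12], []]⟩

/-- The base transposition. -/
def d : Spor.Fi23 := wval Y dw

/-- The central involution of the double cover of Fi22. -/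
def z : Fi22Cover.Cov := wval Fi22Cover.y Fi22Cover.zw

theorem beta_z : Fi23A.beta z = d := by
  rw [z, beta_wval _ (by decide +kernel)]
  exact one_of3 (n := nd) hv (by decide) hphi (fun _ => phi_eq_one) rfl (by decide +kernel)
    (by decide +kernel) (by decide +kernel)

theorem z_comm (g : Fi22Cover.Cov) : Commute g z := by
  rcases (cover.2.2 (g * z * g⁻¹)).1 (by
    rw [map_mul, map_mul, z, Fi22Cover.alpha_z]; simp) with e | e
  · have : z = 1 := by simpa using e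
    rw [this]; exact Commute.one_right _
  · exact commute_of_conj_eq e

theorem hs_le : gp Y hs ≤ centralizer {d} := by
  rw [← beta_range, ← beta_z]
  rintro _ ⟨g, rfl⟩
  exact mem_centralizer_singleton_iff.2 ((z_comm g).map Fi23A.beta)

theorem nb_d : ¬ Commute (wval Y [18]) d := fun h => by
  have h1 : wval Y ([18] ++ dw ++ invW [18] ++ invW dw) = 1 := by
    rw [wval_append, wval_append, wval_append, wval_invW, wval_invW, ← d, h.eq]; group
  refine ne_one_of_move hv _ 0 (?_ : Nat.beq (appW nets ([18] ++ dw ++ invW [18] ++ invW dw) (pt 0))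
    (pt 0) = false) ?_
  · decide +kernel
  · rw [← map_wval' hphi, h1, map_one]

theorem stab (g : Spor.Fi23) : phi g 0 = 0 ↔ Commute g d :=
  stab_of index_hs.2 coatom hs_le nb_d g

theorem tab1 : wval Y (getW nd.bw 1) = T d Y (getW nd.bl 1) := by
  rw [T, d, ← wval_invW, ← wval_append, ← wval_append]
  exact derive_eq Fi23Base.I hKY _ _ (by decide +kernel)

theorem tab0 : wval Y (getW nd.bw 0) = T d Y (getW nd.bl 0) :=
  tab_step (n := nd) hv hphi stab [0, 2] tab1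
    (derive_eq Fi23Base.I hKY _ _ (by decide +kernel)) (by decide +kernel)

theorem tab2 : wval Y (getW nd.bw 2) = T d Y (getW nd.bl 2) :=
  tab_step (n := nd) hv hphi stab [4, 2] tab1
    (derive_eq Fi23Base.I hKY _ _ (by decide +kernel)) (by decide +kernel)

theorem tab3 : wval Y (getW nd.bw 3) = T d Y (getW nd.bl 3) :=
  tab_step (n := nd) hv hphi stab [6, 4] tab2
    (derive_eq Fi23Base.I hKY _ _ (by decide +kernel)) (by decide +kernel)

theorem tab4 : wval Y (getW nd.bw 4) = T d Y (getW nd.bl 4) :=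
  tab_step (n := nd) hv hphi stab [8, 6] tab3
    (derive_eq Fi23Base.I hKY _ _ (by decide +kernel)) (by decide +kernel)

theorem tab5 : wval Y (getW nd.bw 5) = T d Y (getW nd.bl 5) :=
  tab_step (n := nd) hv hphi stab [10, 8] tab4
    (derive_eq Fi23Base.I hKY _ _ (by decide +kernel)) (by decide +kernel)

theorem tab6 : wval Y (getW nd.bw 6) = T d Y (getW nd.bl 6) :=
  tab_step (n := nd) hv hphi stab [12, 10] tab5
    (derive_eq Fi23Base.I hKY _ _ (by decide +kernel)) (by decide +kernel)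

theorem tab9 : wval Y (getW nd.bw 9) = T d Y (getW nd.bl 9) :=
  tab_step (n := nd) hv hphi stab [18, 12] tab6
    (derive_eq Fi23Base.I hKY _ _ (by decide +kernel)) (by decide +kernel)

theorem tab7 : wval Y (getW nd.bw 7) = T d Y (getW nd.bl 7) :=
  tab_step (n := nd) hv hphi stab [14, 6] tab3
    (derive_eq Fi23Base.I hKY _ _ (by decide +kernel)) (by decide +kernel)

theorem tab8 : wval Y (getW nd.bw 8) = T d Y (getW nd.bl 8) :=
  tab_step (n := nd) hv hphi stab [16, 14] tab7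
    (derive_eq Fi23Base.I hKY _ _ (by decide +kernel)) (by decide +kernel)

theorem P0 : PM0 nd Y phi d where
  hv := hv
  hK := by decide
  hφ := hphi
  inj := fun _ => phi_eq_one
  stab := stab
  tr := htr
  lt := fun g => lt_of_gp_top hv hphi topY g (by norm_num)
  tab := fun k hk => by
    have : k < 11 := hk
    interval_cases k
    exacts [tab0, tab1, tab2, tab3, tab4, tab5, tab6, tab7, tab8, tab9, by
      simp only [T, show getW nd.bl 10 = [] from rfl, wval_nil, inv_one, one_mul, mul_one]; rfl]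

theorem P : PM nd Y phi d :=
  P0.toPM' (fun _ h => mem_centralizer_singleton_iff.1 (hs_le h)) orb0 orb1 (by decide)
    (t := (0, [])) (u := (9, [])) (p := 2400) (q := 8895) (by decide +kernel) (by decide +kernel)
    (mem_centralizer_singleton_iff.1 (hs_le (mem_gp (w := [0]) (by decide)))) nb_d (by decide)

theorem el_d : el nd Y (10, []) = d := P0.el_d rfl rfl

theorem mem_hs {g : Spor.Fi23} (h : Commute g d) : g ∈ gp Y hs := by
  rw [index_hs.2, P.stab]; exact h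

def gens : List Desc := [(0, []), (1, []), (2, []), (3, []), (4, []), (5, []), (6, []), (7, []),
  (8, []), (9, [])]

theorem eqc {u v : List ℕ} (h : nd.cenB [u ++ invW v] gens = true) : wval Y u = wval Y v := by
  have := simple
  exact P.eq_of_cen (by rw [show gens.map nd.W = allg by decide +kernel]; exact topY) (fun h => nb_d (h _)) h

theorem hd2 : d * d = 1 := by
  have h : z * z = 1 := by
    rcases (cover.2.2 (z * z)).1 (by rw [map_mul, z, Fi22Cover.alpha_z, mul_one]) with e | e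
    · exact e
    · have : z = 1 := mul_eq_left.1 e
      rw [this, mul_one]
  rw [← beta_z, ← map_mul, h, map_one]

theorem up1 : Nat.card (fixer phi.range [0]) ≤ 129123503308800 := by
  have : fixer phi.range [0] = (gp Y hs).map phi := by
    ext g
    constructor
    · rintro ⟨⟨g, rfl⟩, h⟩
      exact ⟨g, (index_hs.2 g).2 (h 0 (by simp)), rfl⟩
    · rintro ⟨g, h, rfl⟩
      exact ⟨⟨g, rfl⟩, by simpa using (index_hs.2 g).1 h⟩
  rw [this, card_map_of_injective ((injective_iff_map_eq_one phi).2 P.inj), card_hs]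

end Cfsg.Agent.Lib.Fis23
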