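import Cfsg.Agent.Lib.FisRig

/-! Involutions of a group generated by transpositions, from a base and a Sylow subgroup. -/

set_option autoImplicit false

namespace Cfsg.Agent.Lib.FisInv

open Cfsg Subgroup Cfsg.Agent.Lib.FisCore Cfsg.Agent.Lib.FisLoc Cfsg.Agent.Lib.FisPrim
  Cfsg.Agent.Lib.PermNet Cfsg.Agent.Lib.Words Cfsg.Agent.Lib.PermGroup Cfsg.Agent.Lib.FisPM

variable {M : Type*} [Group M]

def Cls (d u : M) : Prop := u = 1 ∨ u ∈ DD d ∨ IsPair d u ∨ IsTrip d u

theorem Cls.conj {d u : M} (h : Cls d u) (g : M) : Cls d (g * u * g⁻¹) := by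
  rcases h with rfl | h | h | h
  · exact Or.inl (by simp)
  · exact Or.inr (Or.inl (conj_mem h g))
  · exact Or.inr (Or.inr (Or.inl (h.conj g)))
  · exact Or.inr (Or.inr (Or.inr (h.conj g)))

theorem Cls.back {d u : M} (g : M) (h : Cls d (g * u * g⁻¹)) : Cls d u := by
  simpa [mul_assoc] using h.conj g⁻¹

def pi (t : ℕ → M) : ℕ → ℕ → M
  | 0, _ => 1
  | k + 1, e => pi t k e * (if e.testBit k then t k else 1)

def piW : ℕ → ℕ → List ℕ
  | 0, _ => []
  | k + 1, e => piW k e ++ (if e.testBit k then [2 * k] else [])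

theorem wval_piW (t : ℕ → M) (k e : ℕ) : wval t (piW k e) = pi t k e := by
  induction k with
  | zero => rfl
  | succ k ih =>
    rw [piW, wval_append, ih, pi]
    split_ifs
    · rw [wval_single]
    · rfl

def ap (l : List ℕ) (i : ℕ) : ℕ := l.getD i 0

def cmp (s r : List ℕ) : List ℕ := r.map (ap s)

def lin (cs s : List ℕ) : ℕ → ℕ → ℕ
  | 0, _ => 0
  | k + 1, e => lin cs s k e ^^^ (if e.testBit k then ap cs (ap s k) else 0)

def xorAll (cs : List ℕ) : List ℕ → ℕ
  | [] => 0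
  | i :: l => ap cs i ^^^ xorAll cs l

structure Base (d : M) (t : ℕ → M) (nB r : ℕ) (cs : List ℕ) : Prop where
  sq : d * d = 1
  le : r ≤ nB
  mem : ∀ i < nB, t i ∈ DD d
  comm : ∀ i < nB, ∀ j < nB, Commute (t i) (t j)
  code : ∀ i < nB, t i = pi t r (ap cs i)
  clt : ∀ i < nB, ap cs i < 2 ^ r

def Act (t : ℕ → M) (nB : ℕ) (g : M) (l : List ℕ) : Prop :=
  l.length = nB ∧ ∀ i < nB, ap l i < nB ∧ g * t i * g⁻¹ = t (ap l i)

variable {d : M} {t : ℕ → M} {nB r : ℕ} {cs : List ℕ}

theorem ap_cmp (s l : List ℕ) {i : ℕ} (hi : i < l.length) : ap (cmp s l) i = ap s (ap l i) := by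
  simp [ap, cmp, List.getD_eq_getElem?_getD, List.getElem?_eq_getElem hi]

theorem ap_range {i : ℕ} (hi : i < nB) : ap (List.range nB) i = i := by
  simp [ap, List.getD_eq_getElem?_getD, hi]

theorem Act.mul {g h : M} {s l : List ℕ} (hg : Act t nB g s) (hh : Act t nB h l) :
    Act t nB (g * h) (cmp s l) := by
  refine ⟨by simp [cmp, hh.1], fun i hi => ?_⟩
  rw [ap_cmp s l (hh.1 ▸ hi), conj_mul', (hh.2 i hi).2]
  exact hg.2 _ (hh.2 i hi).1

theorem act_id {g : M} (h : ∀ i < nB, Commute g (t i)) : Act t nB g (List.range nB) :=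
  ⟨by simp, fun i hi => by rw [ap_range hi]; exact ⟨hi, conj_eq_of_commute (h i hi)⟩⟩

theorem Act.comm {g h : M} {s : List ℕ} (hg : Act t nB g s) (hh : Act t nB h s) :
    ∀ i < nB, Commute (h⁻¹ * g) (t i) := fun i hi => commute_of_conj_eq (by
  rw [conj_mul', (hg.2 i hi).2, ← (hh.2 i hi).2]; group)

theorem pi_zero (k : ℕ) : pi t k 0 = 1 := by
  induction k with
  | zero => rfl
  | succ k ih => simp [pi, ih]

theorem comm_pi {g : M} {k : ℕ} (h : ∀ i < k, Commute g (t i)) (e : ℕ) : Commute g (pi t k e) := by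
  induction k with
  | zero => exact Commute.one_right _
  | succ k ih =>
    refine (ih fun i hi => h i (by omega)).mul_right ?_
    split_ifs
    exacts [h k (by omega), Commute.one_right _]

theorem Base.pi_xor' (B : Base d t nB r cs) {k : ℕ} (hk : k ≤ nB) (e f : ℕ) :
    pi t k (e ^^^ f) = pi t k e * pi t k f := by
  induction k with
  | zero => simp [pi]
  | succ k ih =>
    have c := comm_pi (k := k) (fun i hi => B.comm k (by omega) i (by omega)) f
    have s := mul_self B.sq (B.mem k (by omega))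
    simp only [pi, ih (by omega), Nat.testBit_xor]
    cases e.testBit k <;> cases f.testBit k <;> simp
    · rw [mul_assoc]
    · rw [mul_assoc, mul_assoc, c.eq]
    · rw [mul_assoc, ← mul_assoc (t k), c.eq, mul_assoc, s, mul_one]

theorem Base.pi_xor (B : Base d t nB r cs) (e f : ℕ) :
    pi t r (e ^^^ f) = pi t r e * pi t r f := B.pi_xor' B.le e f

theorem Base.pi_sq (B : Base d t nB r cs) (e : ℕ) : pi t r e * pi t r e = 1 := by
  rw [← B.pi_xor, Nat.xor_self, pi_zero]

theorem Base.conj_pi (B : Base d t nB r cs) {g : M} {s : List ℕ} (h : Act t nB g s) {k : ℕ}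
    (hk : k ≤ nB) (e : ℕ) :
    g * pi t k e * g⁻¹ = pi t r (lin cs s k e) ∧ lin cs s k e < 2 ^ r := by
  induction k with
  | zero => simp [pi, lin, pi_zero]
  | succ k ih =>
    obtain ⟨h1, h2⟩ := ih (by omega)
    obtain ⟨h3, h4⟩ := h.2 k (by omega)
    rw [pi, lin, ← conj_mul, h1, B.pi_xor]
    split_ifs
    · exact ⟨by rw [h4, ← B.code _ h3], Nat.xor_lt_two_pow h2 (B.clt _ h3)⟩
    · exact ⟨by simp [pi_zero], by simpa using h2⟩

theorem Base.prod (B : Base d t nB r cs) {l : List ℕ} (h : ∀ i ∈ l, i < nB) :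
    pi t r (xorAll cs l) = (l.map t).prod := by
  induction l with
  | nil => exact pi_zero r
  | cons i l ih =>
    rw [xorAll, B.pi_xor, ih fun j hj => h j (List.mem_cons_of_mem _ hj), List.map_cons,
      List.prod_cons, ← B.code i (h i List.mem_cons_self)]

/-- The subgroup of the products of base elements. -/
def Base.grp (B : Base d t nB r cs) : Subgroup M where
  carrier := {g | ∃ e < 2 ^ r, g = pi t r e}
  one_mem' := ⟨0, by positivity, (pi_zero r).symm⟩
  mul_mem' := by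
    rintro _ _ ⟨e, he, rfl⟩ ⟨f, hf, rfl⟩
    exact ⟨_, Nat.xor_lt_two_pow he hf, (B.pi_xor e f).symm⟩
  inv_mem' := by
    rintro _ ⟨e, he, rfl⟩
    exact ⟨e, he, inv_eq_of_mul_eq_one_right (B.pi_sq e)⟩

theorem Base.inj (B : Base d t nB r cs) (h : 2 ^ r ≤ Nat.card B.grp) :
    ∀ e < 2 ^ r, ∀ f < 2 ^ r, pi t r e = pi t r f → e = f := by
  classical
  have e1 : (B.grp : Set M) = ((Finset.range (2 ^ r)).image (pi t r) : Finset M) := by
    ext g
    simp only [Finset.coe_image, Finset.coe_range, Set.mem_image, Set.mem_Iio]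
    exact ⟨fun ⟨e, he, h⟩ => ⟨e, he, h.symm⟩, fun ⟨e, he, h⟩ => ⟨e, he, h.symm⟩⟩
  have e2 : Nat.card B.grp = ((Finset.range (2 ^ r)).image (pi t r)).card := by
    rw [← Set.ncard_coe_finset, ← e1]; rfl
  have := Finset.injOn_of_card_image_eq (s := Finset.range (2 ^ r)) (f := pi t r)
    (le_antisymm Finset.card_image_le (by rw [← e2, Finset.card_range]; exact h))
  intro e he f hf
  exact this (by simpa using he) (by simpa using hf)

def covOK (nB : ℕ) (cs : List ℕ) (l : List ℕ) : Bool :=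
  decide (l.length ≤ 3) && l.all (fun i => decide (i < nB)) && decide ((l.map (ap cs)).Nodup)

def covB (nB top : ℕ) (cs : List ℕ) : ℕ → List (List ℕ) → Bool
  | k, [] => decide (top ≤ k)
  | k, l :: L => (xorAll cs l == k) && covOK nB cs l && covB nB top cs (k + 1) L

theorem exists_of_covB {top k : ℕ} {L : List (List ℕ)} (h : covB nB top cs k L = true) {e : ℕ}
    (h1 : k ≤ e) (h2 : e < top) : ∃ l, xorAll cs l = e ∧ covOK nB cs l = true := by
  induction L generalizing k with
  | nil => simp only [covB, decide_eq_true_eq] at h; omega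
  | cons l L ih =>
    simp only [covB, Bool.and_eq_true, beq_iff_eq] at h
    by_cases he : e = k
    · exact ⟨l, he ▸ h.1.1, h.1.2⟩
    · exact ih h.2 (by omega)

theorem Base.cls_pi (B : Base d t nB r cs) (hc : 2 ^ r ≤ Nat.card B.grp) {L : List (List ℕ)}
    (h : covB nB (2 ^ r) cs 0 L = true) {e : ℕ} (he : e < 2 ^ r) : Cls d (pi t r e) := by
  obtain ⟨l, rfl, h1⟩ := exists_of_covB h (Nat.zero_le e) he
  simp only [covOK, Bool.and_eq_true, decide_eq_true_eq, List.all_eq_true] at h1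
  obtain ⟨⟨h1, h2⟩, h3⟩ := h1
  have adj : ∀ i ∈ l, ∀ j ∈ l, ap cs i ≠ ap cs j → Adj d (t i) (t j) := fun i hi j hj hne =>
    ⟨B.mem i (h2 i hi), B.mem j (h2 j hj), fun e => hne (B.inj hc _ (B.clt i (h2 i hi)) _
      (B.clt j (h2 j hj)) (by rw [← B.code i (h2 i hi), ← B.code j (h2 j hj), e])),
      B.comm i (h2 i hi) j (h2 j hj)⟩
  rw [B.prod h2]
  match l, h1, h2, h3, adj with
  | [], _, _, _, _ => exact Or.inl rfl
  | [i], _, h2, _, _ => exact Or.inr (Or.inl (by simpa using B.mem i (h2 i (by simp))))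
  | [i, j], _, _, h3, adj =>
    simp at h3
    exact Or.inr (Or.inr (Or.inl ⟨_, _, adj i (by simp) j (by simp) h3, by simp⟩))
  | [i, j, k], _, _, h3, adj =>
    simp at h3
    exact Or.inr (Or.inr (Or.inr ⟨_, _, _, adj i (by simp) j (by simp) h3.1.1,
      adj i (by simp) k (by simp) h3.1.2, adj j (by simp) k (by simp) h3.2, by simp [mul_assoc]⟩))
  | _ :: _ :: _ :: _ :: _, h1, _, _, _ => simp only [List.length_cons] at h1; omega

/-- The permutation of a word in the listed permutations. -/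
def wperm (nB : ℕ) (ns : List (List ℕ)) : List ℕ → List ℕ
  | [] => List.range nB
  | k :: c => cmp (ns.getD k (List.range nB)) (wperm nB ns c)

theorem exists_act {ns : List (List ℕ)} (h : ∀ s ∈ ns, ∃ g, Act t nB g s) (c : List ℕ) :
    ∃ g, Act t nB g (wperm nB ns c) := by
  induction c with
  | nil => exact ⟨1, act_id fun _ _ => Commute.one_left _⟩
  | cons k c ih =>
    obtain ⟨g, hg⟩ := ih
    have : ∃ x, Act t nB x (ns.getD k (List.range nB)) := by
      by_cases hk : k < ns.length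
      · rw [List.getD_eq_getElem _ _ hk]; exact h _ (List.getElem_mem hk)
      · rw [List.getD_eq_default _ _ (by omega)]; exact ⟨1, act_id fun _ _ => Commute.one_left _⟩
    obtain ⟨x, hx⟩ := this
    exact ⟨_, hx.mul hg⟩

def closedB (nB : ℕ) (gs S : List (List ℕ)) : Bool :=
  S.contains (List.range nB) && gs.all fun g => S.all fun s => S.contains (cmp g s)

theorem act_of_mem {X : Set M} {gs S : List (List ℕ)} (h : closedB nB gs S = true)
    (hX : ∀ x ∈ X, x * x = 1 ∧ ∃ s ∈ gs, Act t nB x s) {g : M} (hg : g ∈ closure X) :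
    ∃ s ∈ S, Act t nB g s := by
  simp only [closedB, Bool.and_eq_true, List.all_eq_true, List.contains_iff_mem] at h
  induction hg using closure_induction_left with
  | one => exact ⟨_, h.1, act_id fun _ _ => Commute.one_left _⟩
  | mul_left x hx y _ ih =>
    obtain ⟨s, hs, h1⟩ := ih
    obtain ⟨-, γ, hγ, h2⟩ := hX x hx
    exact ⟨_, h.2 γ hγ s hs, h2.mul h1⟩
  | inv_mul_cancel x hx y _ ih =>
    obtain ⟨s, hs, h1⟩ := ih
    obtain ⟨e, γ, hγ, h2⟩ := hX x hx
    rw [inv_eq_of_mul_eq_one_right e]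
    exact ⟨_, h.2 γ hγ s hs, h2.mul h1⟩

def sq3 (s : List ℕ) : List ℕ := cmp (cmp (cmp s s) (cmp s s)) (cmp (cmp s s) (cmp s s))

/-- Each listed permutation has order dividing 8; an involution among them is conjugate to `om`. -/
def invB (nB : ℕ) (cs : List ℕ) (ns : List (List ℕ)) (om : List ℕ)
    (S : List (List ℕ × List ℕ)) : Bool :=
  S.all fun p => (sq3 p.1 == List.range nB) &&
    ((List.range nB).any (fun i => ap cs (ap (cmp p.1 p.1) i) != ap cs i) ||
      p.1 == List.range nB || cmp (wperm nB ns p.2) p.1 == cmp om (wperm nB ns p.2))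

def cosB (r : ℕ) (cs om : List ℕ) (reps etas : List ℕ) : Bool :=
  (List.range (2 ^ r)).all fun e => (lin cs om r e ^^^ e != 0) ||
    reps.any fun k => etas.any fun η => e == lin cs om r η ^^^ k ^^^ η

theorem Base.classify [Finite M] (B : Base d t nB r cs) (hc : 2 ^ r ≤ Nat.card B.grp)
    (hcen : ∀ g, (∀ i < nB, Commute g (t i)) → g ∈ B.grp)
    {L : List (List ℕ)} (h1 : covB nB (2 ^ r) cs 0 L = true)
    {X : Set M} {gs : List (List ℕ)} {S : List (List ℕ × List ℕ)}
    (h2 : closedB nB gs (S.map Prod.fst) = true)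
    (hX : ∀ x ∈ X, x * x = 1 ∧ ∃ s ∈ gs, Act t nB x s) {m : ℕ} (hm : 2 ^ m ≤ Nat.card (closure X))
    (hm' : ¬ 2 ^ (m + 1) ∣ Nat.card M) {ns : List (List ℕ)} (hns : ∀ s ∈ ns, ∃ g, Act t nB g s)
    {om : List ℕ} (h3 : invB nB cs ns om S = true) {w : M} (hw : Act t nB w om) (hw2 : w * w = 1)
    {reps etas : List ℕ} (h4 : cosB r cs om reps etas = true)
    (h5 : ∀ k ∈ reps, Cls d (w * pi t r k)) {u : M} (hu : u * u = 1) : Cls d u := by
  simp only [invB, List.all_eq_true, Bool.and_eq_true, beq_iff_eq, Bool.or_eq_true,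
    List.any_eq_true, List.mem_range, bne_iff_ne] at h3
  have hid : ∀ g, Act t nB g (List.range nB) → g ∈ B.grp := fun g hg => hcen g fun i hi =>
    commute_of_conj_eq (by rw [(hg.2 i hi).2, ap_range hi])
  have hP : IsPGroup 2 (closure X) := fun ⟨g, hg⟩ => ⟨4, Subtype.ext (by
    obtain ⟨s, hs, ha⟩ := act_of_mem h2 hX hg
    obtain ⟨p, hp, rfl⟩ := List.mem_map.1 hs
    have a2 := ha.mul ha
    have a8 := (a2.mul a2).mul (a2.mul a2)
    rw [← sq3, (h3 p hp).1] at a8
    obtain ⟨e, -, he⟩ := hid _ a8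
    have := B.pi_sq e
    rw [← he] at this
    change g ^ 2 ^ 4 = 1
    rw [← this]; simp only [pow_succ, pow_zero, mul_assoc, one_mul]; norm_num [pow_succ, mul_assoc])⟩
  obtain ⟨Q, hQ⟩ := hP.exists_le_sylow
  have hQ' : closure X = Q := eq_of_le_of_card_ge hQ (by
    obtain ⟨k, hk⟩ := IsPGroup.iff_card.1 Q.isPGroup'
    refine le_trans ?_ hm
    rw [hk]
    refine Nat.pow_le_pow_right (by norm_num) (not_lt.1 fun hlt => hm' ?_)
    exact (pow_dvd_pow 2 hlt).trans (hk ▸ card_subgroup_dvd_card _))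
  have hzp : IsPGroup 2 (zpowers u) := fun ⟨g, hg⟩ => ⟨1, Subtype.ext (by
    obtain ⟨k, rfl⟩ := hg
    change (u ^ k) ^ 2 ^ 1 = 1
    rw [pow_one, ← zpow_natCast, ← zpow_mul, mul_comm, zpow_mul, zpow_natCast, pow_two, hu, one_zpow])⟩
  obtain ⟨R, hR⟩ := hzp.exists_le_sylow
  obtain ⟨c, hc'⟩ := MulAction.exists_smul_eq M R Q
  refine Cls.back c ?_
  have hm : c * u * c⁻¹ ∈ closure X := by
    rw [hQ', ← hc', Sylow.smul_def, Sylow.pointwise_smul_def]
    exact smul_mem_pointwise_smul _ (MulAut.conj c) _ (hR (mem_zpowers u))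
  have hu' : c * u * c⁻¹ * (c * u * c⁻¹) = 1 := by rw [conj_mul, hu]; simp
  generalize c * u * c⁻¹ = v at hm hu'
  obtain ⟨s, hs, ha⟩ := act_of_mem h2 hX hm
  obtain ⟨p, hp, rfl⟩ := List.mem_map.1 hs
  rcases (h3 p hp).2 with (⟨i, hi, h⟩ | h) | h
  · exfalso
    have := (ha.mul ha).2 i hi
    rw [hu', one_mul, inv_one, mul_one] at this
    exact h (B.inj hc _ (B.clt _ this.1) _ (B.clt _ hi) (by
      rw [← B.code _ this.1, ← B.code _ hi, ← this.2]))
  · obtain ⟨e, he, rfl⟩ := hid v (h ▸ ha)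
    exact B.cls_pi hc h1 he
  · obtain ⟨g, hg⟩ := exists_act hns p.2
    have a1 := hg.mul ha
    rw [h] at a1
    obtain ⟨e, -, he⟩ := hcen _ (a1.comm (hw.mul hg))
    obtain ⟨k1, k2⟩ := B.conj_pi hg B.le e
    refine Cls.back g ?_
    have e1 : g * v * g⁻¹ = w * pi t r (lin cs (wperm nB ns p.2) r e) := by
      rw [← k1, ← he]; group
    have e2 : g * v * g⁻¹ * (g * v * g⁻¹) = 1 := by rw [conj_mul, hu']; simp
    rw [e1] at e2 ⊢
    generalize lin cs (wperm nB ns p.2) r e = f at e2 k2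
    have hwi := inv_eq_of_mul_eq_one_right hw2
    have cw : ∀ η, w * pi t r η = pi t r (lin cs om r η) * w := fun η => by
      rw [← (B.conj_pi hw B.le η).1, inv_mul_cancel_right]
    have e3 : lin cs om r f ^^^ f = 0 := B.inj hc _
      (Nat.xor_lt_two_pow (B.conj_pi hw B.le f).2 k2) 0 (by positivity) (by
        rw [B.pi_xor, pi_zero, ← e2]; nth_rewrite 1 [cw]
        rw [mul_assoc, ← mul_assoc w, hw2, one_mul])
    simp only [cosB, List.all_eq_true, Bool.or_eq_true, List.any_eq_true, List.mem_range,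
      bne_iff_ne, beq_iff_eq] at h4
    obtain ⟨k, hk, η, -, rfl⟩ := (h4 f k2).resolve_left (not_not.2 e3)
    have := (h5 k hk).conj (pi t r η)
    rw [inv_eq_of_mul_eq_one_right (B.pi_sq η)] at this
    have e4 : w * pi t r (lin cs om r η) = pi t r η * w := by
      rw [← (B.conj_pi hw B.le η).1, ← mul_assoc, ← mul_assoc, hw2, one_mul, hwi]
    rwa [B.pi_xor, B.pi_xor, ← mul_assoc, ← mul_assoc, e4, mul_assoc (pi t r η)]

section chk
variable {n : ND} {Y : ℕ → M} {φ : M →* Equiv.Perm ℕ}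

noncomputable def actB (n : ND) (ts : List Desc) (w s : List ℕ) : Bool :=
  band (band (n.okL ts) (Nat.beq s.length ts.length)) ((List.range ts.length).all fun i =>
    band (Nat.ble (Nat.succ (ap s i)) ts.length)
      (n.eqB ((ts.getD i (0, [])).1, (ts.getD i (0, [])).2 ++ invW w) (ts.getD (ap s i) (0, []))))

theorem act_of_actB (P : PM0 n Y φ d) {ts : List Desc} {w s : List ℕ} (h : actB n ts w s = true) :
    Act (tup n Y ts) ts.length (wval Y w) s := by
  obtain ⟨h1, h2⟩ := band_eq h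
  obtain ⟨o, h1⟩ := band_eq h1
  refine ⟨Nat.eq_of_beq_eq_true h1, fun i hi => ?_⟩
  obtain ⟨h3, h4⟩ := band_eq (List.all_eq_true.1 h2 i (List.mem_range.2 hi))
  have h3 : ap s i < ts.length := Nat.le_of_ble_eq_true h3
  rw [List.getD_eq_getElem _ _ hi, List.getD_eq_getElem _ _ h3] at h4
  have := (P.eqB_iff (t := (ts[i].1, ts[i].2 ++ invW w)) (okL_mem o ts[i] (List.getElem_mem hi))
    (okL_mem o _ (List.getElem_mem h3))).1 h4
  rw [el_conj, wval_invW, inv_inv] at this
  exact ⟨h3, by rw [tup_eq hi, tup_eq h3, this]⟩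

noncomputable def baseB (n : ND) (ts : List Desc) (r : ℕ) (cs : List ℕ) : Bool :=
  band (band (n.okL ts) (Nat.ble r ts.length)) (band (n.cenB (ts.map n.W) ts)
    ((List.range ts.length).all fun i => band (decide (ap cs i < 2 ^ r))
      (n.oneB (n.W (ts.getD i (0, []))) (subst (ts.map n.W) (piW r (ap cs i))))))

theorem base_of_baseB (P : PM0 n Y φ d) (hd : d * d = 1) {ts : List Desc}
    (h : baseB n ts r cs = true) : Base d (tup n Y ts) ts.length r cs := by
  obtain ⟨h1, h2⟩ := band_eq h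
  obtain ⟨o, h1⟩ := band_eq h1
  obtain ⟨h2, h3⟩ := band_eq h2
  have h3 := fun i hi => band_eq (List.all_eq_true.1 h3 i (List.mem_range.2 hi))
  refine ⟨hd, Nat.le_of_ble_eq_true h1, fun i hi => ?_, fun i hi j hj => ?_, fun i hi => ?_,
    fun i hi => of_decide_eq_true (h3 i hi).1⟩
  · rw [tup_eq hi]; exact P.el_mem (okL_mem o _ (List.getElem_mem hi))
  · rw [tup_eq hi, tup_eq hj]
    exact P.cen h2 _ (List.mem_map_of_mem (List.getElem_mem hi)) _ (List.getElem_mem hj)
  · have := P.one (h3 i hi).2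
    rw [List.getD_eq_getElem _ _ hi, ← wval_tup, wval_piW] at this
    rw [tup_eq hi]; exact this

theorem gp_le_grp {ts : List Desc} (B : Base d (tup n Y ts) ts.length r cs) :
    gp Y (ts.map n.W) ≤ B.grp := by
  refine gp_le.2 fun w hw => ?_
  obtain ⟨i, hi, rfl⟩ := List.getElem_of_mem hw
  have hi' : i < ts.length := by simpa using hi
  refine ⟨_, B.clt i hi', ?_⟩
  rw [← B.code i hi', tup, List.getD_eq_getElem _ _ hi]

theorem exists_tup {ts : List Desc} {t : Desc} (h : t ∈ ts) :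
    ∃ i < ts.length, el n Y t = tup n Y ts i := by
  obtain ⟨i, hi, rfl⟩ := List.getElem_of_mem h
  exact ⟨i, hi, (tup_eq hi).symm⟩

/-- A word is the product of the listed pairwise commuting members. -/
noncomputable def clsB (n : ND) (w : List ℕ) : List Desc → Bool
  | [x] => band (n.okD x) (n.oneB w (n.W x))
  | [x, y] => band (n.adjB x y) (n.oneB w (n.W x ++ n.W y))
  | [x, y, z] => band (band (n.adjB x y) (band (n.adjB x z) (n.adjB y z)))
      (n.oneB w (n.W x ++ n.W y ++ n.W z))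
  | _ => false

theorem cls_of_clsB (P : PM n Y φ d) {w : List ℕ} {l : List Desc} (h : clsB n w l = true) :
    Cls d (wval Y w) := by
  match l, h with
  | [x], h =>
    obtain ⟨h1, h2⟩ := band_eq h
    exact Or.inr (Or.inl (P.one h2 ▸ P.el_mem h1))
  | [x, y], h =>
    obtain ⟨h1, h2⟩ := band_eq h
    exact Or.inr (Or.inr (Or.inl ⟨_, _, P.adj h1, by rw [P.one h2, wval_append]; rfl⟩))
  | [x, y, z], h =>
    obtain ⟨h1, h2⟩ := band_eq h
    obtain ⟨h1, h3⟩ := band_eq h1
    obtain ⟨h3, h4⟩ := band_eq h3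
    exact Or.inr (Or.inr (Or.inr ⟨_, _, _, P.adj h1, P.adj h3, P.adj h4, by
      rw [P.one h2, wval_append, wval_append]; rfl⟩))

end chk

end Cfsg.Agent.Lib.FisInv
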