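import Cfsg.Agent.Lib.FisCore

/-! Local isomorphisms between centralisers of transpositions, and how they glue. -/

set_option autoImplicit false

namespace Cfsg.Agent.Lib.FisLoc

open Cfsg Subgroup Cfsg.Agent.Lib.FisCore

variable {M : Type*} [Group M] {G : Type*} [Group G]

/-- `f` restricts to an isomorphism from the centraliser of `x` onto that of `f x`. -/
structure Loc0 (x : M) (f : M → G) : Prop where
  mul : ∀ g h, Commute g x → Commute h x → f (g * h) = f g * f h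
  inj : ∀ g h, Commute g x → Commute h x → f g = f h → g = h
  surj : ∀ e, Commute e (f x) → ∃ g, Commute g x ∧ f g = e

structure Loc (d0 : M) (d : G) (x : M) (f : M → G) : Prop extends Loc0 x f where
  cls : ∀ g, Commute g x → (g ∈ DD d0 ↔ f g ∈ DD d)

variable {d0 x a : M} {d : G} {f fa : M → G}

theorem Loc0.one (h : Loc0 x f) : f 1 = 1 := by
  have := h.mul 1 1 (Commute.one_left x) (Commute.one_left x)
  rw [mul_one] at this
  exact left_eq_mul.1 this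

theorem Loc0.inv (h : Loc0 x f) {g : M} (hg : Commute g x) : f g⁻¹ = (f g)⁻¹ :=
  eq_inv_of_mul_eq_one_left (by rw [← h.mul _ _ hg.inv_left hg, inv_mul_cancel, h.one])

theorem Loc0.conj (h : Loc0 x f) {g y : M} (hg : Commute g x) (hy : Commute y x) :
    f (g * y * g⁻¹) = f g * f y * (f g)⁻¹ := by
  rw [h.mul _ _ (hg.mul_left hy) hg.inv_left, h.mul _ _ hg hy, h.inv hg]

theorem Loc0.comm (h : Loc0 x f) {g y : M} (hg : Commute g x) (hy : Commute y x) :
    Commute (f g) (f y) ↔ Commute g y := by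
  rw [commute_iff_eq, commute_iff_eq, ← h.mul _ _ hg hy, ← h.mul _ _ hy hg]
  exact ⟨h.inj _ _ (hg.mul_left hy) (hy.mul_left hg), fun e => by rw [e]⟩

theorem Loc0.transport (h : Loc0 x f) (α : M ≃* M) (c : G) :
    Loc0 (α x) (fun y => c * f (α.symm y) * c⁻¹) := by
  have key : ∀ g, Commute g (α x) → Commute (α.symm g) x := fun g hg => by
    simpa using hg.map α.symm
  refine ⟨fun g k hg hk => ?_, fun g k hg hk e => ?_, fun e he => ?_⟩
  · rw [map_mul, h.mul _ _ (key g hg) (key k hk)]; group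
  · exact α.symm.injective (h.inj _ _ (key g hg) (key k hk) (by simpa using e))
  · obtain ⟨g, hg, e'⟩ := h.surj (c⁻¹ * e * c⁻¹⁻¹) (by
      simpa [mul_assoc] using commute_conj he c⁻¹)
    exact ⟨α g, hg.map α, by simp [e', mul_assoc]⟩

theorem conj_mem_iff {d y : G} (c : G) : c * y * c⁻¹ ∈ DD d ↔ y ∈ DD d :=
  ⟨fun h => by simpa [mul_assoc] using conj_mem h c⁻¹, fun h => conj_mem h c⟩

theorem Loc.transport (h : Loc d0 d x f) (α : M ≃* M) (hα : ∀ y, α y ∈ DD d0 ↔ y ∈ DD d0) (c : G) :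
    Loc d0 d (α x) (fun y => c * f (α.symm y) * c⁻¹) := by
  refine ⟨h.toLoc0.transport α c, fun g hg => ?_⟩
  rw [conj_mem_iff, ← h.cls _ (by simpa using hg.map α.symm), ← hα (α.symm g), α.apply_symm_apply]

theorem Loc.transport' (h : Loc d0 d x f) (m : M) (c : G) :
    Loc d0 d (m * x * m⁻¹) (fun y => c * f (m⁻¹ * y * m) * c⁻¹) :=
  h.transport (MulAut.conj m) (fun y => conj_mem_iff m) c

theorem Loc0.comp {θ : M → M} (h : Loc0 x f) (hθ : Loc0 x θ) (e : θ x = x) : Loc0 x (f ∘ θ) := by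
  have key : ∀ g, Commute g x → Commute (θ g) x := fun g hg => by
    have := (hθ.comm hg (Commute.refl x)).2 hg
    rwa [e] at this
  refine ⟨fun g k hg hk => ?_, fun g k hg hk e' => ?_, fun y hy => ?_⟩
  · simp only [Function.comp, hθ.mul _ _ hg hk, h.mul _ _ (key g hg) (key k hk)]
  · exact hθ.inj _ _ hg hk (h.inj _ _ (key g hg) (key k hk) e')
  · obtain ⟨g, hg, rfl⟩ := h.surj y (by simpa [e] using hy)
    obtain ⟨k, hk, rfl⟩ := hθ.surj g (e.symm ▸ hg)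
    exact ⟨k, hk, rfl⟩

/-- The facts about the small group that determine the fusion of `d` in its centraliser. -/
structure S2 (d0 : M) : Prop where
  sq : d0 * d0 = 1
  nsq : ∀ g : M, g * g ≠ d0
  cls : ∀ u, Commute u d0 → u * u = 1 →
    u ∈ DD d0 ∨ d0 * u ∈ DD d0 ∨ ∃ g, Commute g d0 ∧ g * g = u
  t1 : ∀ x y, Adj d0 d0 x → Adj d0 d0 y → ∃ h, Commute h d0 ∧ h * x * h⁻¹ = y
  ex : ∃ t t', Adj d0 d0 t ∧ Adj d0 d0 t' ∧ Adj d0 t t' ∧ ∃ g, Commute g d0 ∧ g * g = t * t'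
  sw : (∃ θ : M → M, Loc0 d0 θ ∧ θ d0 = d0 ∧ ∃ a g, Adj d0 d0 a ∧ Adj d0 d0 g ∧ θ a = d0 * g) ∨
    ∀ t, Adj d0 d0 t → ∃ g, Commute g d0 ∧ g * g = d0 * t

theorem Loc0.nsq (h : Loc0 d0 f) (fd : f d0 = d) (hS : S2 d0) {e : G} (he : e ∈ DD d) (g : G) :
    g * g ≠ e := by
  intro hg
  obtain ⟨c, hc⟩ := isConj_iff.1 (IsConj.symm he)
  have h1 : (c * g * c⁻¹) * (c * g * c⁻¹) = f d0 := by rw [fd, ← hc, ← hg]; group
  obtain ⟨y, hy, e⟩ := h.surj (c * g * c⁻¹) (h1 ▸ (Commute.refl _).mul_right (Commute.refl _))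
  exact hS.nsq y (h.inj _ _ (hy.mul_left hy) (Commute.refl _) (by rw [h.mul _ _ hy hy, e, h1]))

theorem Loc0.cases (h : Loc0 d0 f) (fd : f d0 = d) (hS : S2 d0) {u : M} (hu : Commute u d0)
    (he : f u ∈ DD d) : u ∈ DD d0 ∨ Adj d0 d0 (d0 * u) := by
  have hd : d * d = 1 := by rw [← fd, ← h.mul _ _ (Commute.refl _) (Commute.refl _), hS.sq, h.one]
  have hu2 : u * u = 1 := h.inj _ _ (hu.mul_left hu) (Commute.one_left _) (by
    rw [h.mul _ _ hu hu, h.one, mul_self hd he])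
  rcases hS.cls u hu hu2 with h1 | h1 | ⟨g, hg, rfl⟩
  · exact Or.inl h1
  · refine Or.inr ⟨self_mem _, h1, fun e => ?_, (Commute.refl _).mul_right hu.symm⟩
    rw [left_eq_mul.1 e, h.one] at he
    exact h.nsq fd hS he 1 (mul_one 1)
  · exact absurd (h.mul _ _ hg hg).symm (h.nsq fd hS he _)

theorem Loc0.loc (h : Loc0 d0 f) (fd : f d0 = d) (hS : S2 d0) (ha : Adj d0 d0 a)
    (he : f a ∈ DD d) : Loc d0 d d0 f := by
  have h1 : ∀ g, Commute g d0 → g ∈ DD d0 → f g ∈ DD d := fun g hg hD => by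
    by_cases e : d0 = g
    · rw [← e, fd]; exact self_mem _
    · obtain ⟨c, hc, rfl⟩ := hS.t1 a g ha ⟨self_mem _, hD, e, hg.symm⟩
      rw [h.conj hc ha.2.2.2.symm]
      exact conj_mem he _
  refine ⟨h, fun g hg => ⟨h1 g hg, fun hD => ?_⟩⟩
  refine (h.cases fd hS hg hD).resolve_right fun h2 => ?_
  have h3 : ∀ t, Adj d0 d0 t → f (d0 * t) ∈ DD d := fun t ht => by
    obtain ⟨c, hc, rfl⟩ := hS.t1 _ t h2 ht
    have : d0 * (c * (d0 * g) * c⁻¹) = c * g * c⁻¹ := by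
      rw [← mul_assoc, ← mul_assoc, ← hc.eq, mul_assoc c, ← mul_assoc d0, hS.sq, one_mul]
    rw [this, h.conj hc hg]
    exact conj_mem hD _
  obtain ⟨t, t', ht, ht', htt, s, hs, es⟩ := hS.ex
  obtain ⟨c, hc⟩ := isConj_iff.1 (IsConj.symm (h1 t ht.2.2.2.symm ht.2.1))
  obtain ⟨v, hv, ev⟩ := h.surj (c * f t' * c⁻¹) (by
    rw [fd, ← hc]
    exact commute_conj ((h.comm ht'.2.2.2.symm ht.2.2.2.symm).2 htt.2.2.2.symm) c)
  have hvD : f v ∈ DD d := ev ▸ conj_mem (h1 t' ht'.2.2.2.symm ht'.2.1) c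
  have h4 : f (d0 * v) ∈ DD d := by
    rcases h.cases fd hS hv hvD with h4 | h4
    · refine h3 v ⟨self_mem _, h4, fun e => htt.2.2.1 ?_, hv.symm⟩
      refine h.inj _ _ ht.2.2.2.symm ht'.2.2.2.symm ?_
      rw [← e, fd, ← hc] at ev
      simpa using ev
    · exact h1 _ h4.2.2.2.symm h4.2.1
  rw [h.mul _ _ (Commute.refl _) hv, fd, ev] at h4
  have : d * (c * f t' * c⁻¹) = c * (f s * f s) * c⁻¹ := by
    rw [← h.mul _ _ hs hs, es, h.mul _ _ ht.2.2.2.symm ht'.2.2.2.symm, ← hc]; group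
  rw [this, conj_mem_iff] at h4
  exact h.nsq fd hS h4 _ rfl

theorem Loc0.fusion (h : Loc0 d0 f) (fd : f d0 = d) (hS : S2 d0)
    (hn : ∃ g : G, Commute (g * d * g⁻¹) d ∧ g * d * g⁻¹ ≠ d) :
    ∃ f' : M → G, Loc d0 d d0 f' ∧ f' d0 = d := by
  obtain ⟨g, hg, hne⟩ := hn
  obtain ⟨u, hu, eu⟩ := h.surj (g * d * g⁻¹) (by rw [fd]; exact hg)
  have hD : f u ∈ DD d := eu ▸ conj_mem (self_mem d) g
  rcases h.cases fd hS hu hD with h1 | h1
  · exact ⟨f, h.loc fd hS ⟨self_mem _, h1, fun e => hne (by rw [← eu, ← e, fd]), hu.symm⟩ hD, fd⟩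
  · rcases hS.sw with ⟨θ, hθ, e, a, b, ha, hb, eab⟩ | h2
    · refine ⟨f ∘ θ, (h.comp hθ e).loc (by simp [e, fd]) hS ha ?_, by simp [e, fd]⟩
      obtain ⟨c, hc, rfl⟩ := hS.t1 _ b h1 hb
      have : d0 * (c * (d0 * u) * c⁻¹) = c * u * c⁻¹ := by
        rw [← mul_assoc, ← mul_assoc, ← hc.eq, mul_assoc c, ← mul_assoc d0, hS.sq, one_mul]
      rw [Function.comp, eab, this, h.conj hc hu]
      exact conj_mem hD _
    · obtain ⟨s, hs, es⟩ := h2 _ h1
      rw [← mul_assoc, hS.sq, one_mul] at es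
      rw [← es, h.mul _ _ hs hs] at hD
      exact absurd rfl (h.nsq fd hS hD _)

/-- Every class-preserving embedding of `C(d0, a)` into itself fixing `d0` and `a` comes from an
automorphism of the whole group. -/
def Rigid (d0 a : M) : Prop := ∀ β : M → M,
  (∀ g h, Commute g d0 → Commute g a → Commute h d0 → Commute h a → β (g * h) = β g * β h) →
  (∀ g, Commute g d0 → Commute g a → β g = 1 → g = 1) →
  (∀ g, Commute g d0 → Commute g a → g ∈ DD d0 → β g ∈ DD d0) → β d0 = d0 → β a = a →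
  ∃ α : M ≃* M, (∀ y, α y ∈ DD d0 ↔ y ∈ DD d0) ∧ ∀ g, Commute g d0 → Commute g a → α g = β g

theorem Loc.exists_loc (h : Loc d0 d d0 f) (fd : f d0 = d) (hS : S2 d0) (ha : Adj d0 d0 a)
    (hR : Rigid d0 a) :
    ∃ fa : M → G, Loc d0 d a fa ∧ ∀ g, Commute g d0 → Commute g a → fa g = f g := by
  have had := ha.2.2.2.symm
  obtain ⟨m, hm⟩ := isConj_iff.1 ha.2.1
  obtain ⟨c, hc⟩ := isConj_iff.1 ((h.cls a had).1 ha.2.1)
  have h1 := h.transport' m c
  rw [hm] at h1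
  set f1 : M → G := fun y => c * f (m⁻¹ * y * m) * c⁻¹ with hf1
  have e1 : f1 a = f a := by
    simp only [hf1]
    rw [← hc, ← fd, show m⁻¹ * a * m = d0 by rw [← hm]; group]
  obtain ⟨y, hy, ey⟩ := h1.surj d (by
    rw [e1, ← fd]; exact (h.comm (Commute.refl _) had).2 had.symm)
  have hyD : y ∈ DD d0 := (h1.cls y hy).2 (ey ▸ self_mem d)
  have hya : a ≠ y := fun e => ha.2.2.1 (h.inj _ _ (Commute.refl _) had (by rw [fd, ← e1, e, ey]))
  have conv : ∀ z, Adj d0 a z → Adj d0 d0 (m⁻¹ * z * m⁻¹⁻¹) := fun z hz => by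
    have := hz.conj m⁻¹
    rwa [← hm, show m⁻¹ * (m * d0 * m⁻¹) * m⁻¹⁻¹ = d0 by group] at this
  obtain ⟨k, hk, ek⟩ := hS.t1 _ _ (conv y ⟨ha.2.1, hyD, hya, hy.symm⟩) (conv d0 ha.symm)
  have hk' : (m * k * m⁻¹) * a * (m * k * m⁻¹)⁻¹ = a := by
    rw [← hm]; exact conj_eq_of_commute (commute_conj hk m)
  have ek' : (m * k * m⁻¹)⁻¹ * d0 * (m * k * m⁻¹) = y := by
    have : d0 = m * (k * (m⁻¹ * y * m⁻¹⁻¹) * k⁻¹) * m⁻¹ := by rw [ek]; group
    nth_rewrite 1 [this]; group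
  have h2 := h1.transport' (m * k * m⁻¹) 1
  rw [hk'] at h2
  set f2 : M → G := fun y => 1 * f1 ((m * k * m⁻¹)⁻¹ * y * (m * k * m⁻¹)) * 1⁻¹ with hf2
  have e2 : f2 a = f a := by
    simp only [hf2, one_mul, inv_one, mul_one]
    rw [← e1]; congr 1
    nth_rewrite 1 [← hk']; group
  have e3 : f2 d0 = d := by simp only [hf2, one_mul, inv_one, mul_one]; rw [ek', ey]
  clear_value f2
  have hex : ∀ g, Commute g d0 → Commute g a → ∃ g', Commute g' a ∧ f2 g' = f g := fun g h1 h3 =>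
    h2.surj _ (by rw [e2]; exact (h.comm h1 had).2 h3)
  choose! β hβ using hex
  obtain ⟨α, hα, eα⟩ := hR β (fun g k g1 g2 k1 k2 => by
      refine h2.inj _ _ (hβ _ (g1.mul_left k1) (g2.mul_left k2)).1
        ((hβ g g1 g2).1.mul_left (hβ k k1 k2).1) ?_
      rw [(hβ _ (g1.mul_left k1) (g2.mul_left k2)).2, h2.mul _ _ (hβ g g1 g2).1 (hβ k k1 k2).1,
        (hβ g g1 g2).2, (hβ k k1 k2).2, h.mul _ _ g1 k1])
    (fun g g1 g2 e => h.inj _ _ g1 (Commute.one_left _) (by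
      rw [← (hβ g g1 g2).2, e, h2.one, h.one]))
    (fun g g1 g2 hD => (h2.cls _ (hβ g g1 g2).1).2 (by
      rw [(hβ g g1 g2).2]; exact (h.cls g g1).1 hD))
    (h2.inj _ _ (hβ _ (Commute.refl _) had.symm).1 had.symm (by
      rw [(hβ _ (Commute.refl _) had.symm).2, e3, fd]))
    (h2.inj _ _ (hβ _ had (Commute.refl _)).1 (Commute.refl _) (by
      rw [(hβ _ had (Commute.refl _)).2, e2]))
  have ea : α a = a := by
    rw [eα a had (Commute.refl _)]
    exact h2.inj _ _ (hβ _ had (Commute.refl _)).1 (Commute.refl _) (by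
      rw [(hβ _ had (Commute.refl _)).2, e2])
  have h3 := h2.transport α.symm (fun y => by rw [← hα (α.symm y), α.apply_symm_apply]) 1
  rw [show α.symm a = a by rw [α.symm_apply_eq, ea]] at h3
  refine ⟨_, h3, fun g g1 g2 => ?_⟩
  simp only [one_mul, inv_one, mul_one, MulEquiv.symm_symm]
  rw [eα g g1 g2, (hβ g g1 g2).2]

/-- A transposition not commuting with `d0` and fixed by `C(a, i, d0, j)` is `j` or its image under
`d0`. -/
def Twin (d0 a i j : M) : Prop := ∀ j2 ∈ DD d0,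
  (∀ h, Commute h a → Commute h i → Commute h d0 → Commute h j → Commute h j2) →
  ¬ Commute j2 d0 → j2 = j ∨ j2 = d0 * j * d0⁻¹

theorem Loc.comm_of_twin (h : Loc d0 d d0 f) (fd : f d0 = d) (hS : S2 d0) (ha : Adj d0 d0 a)
    (hfa : Loc d0 d a fa) (e : ∀ g, Commute g d0 → Commute g a → fa g = f g) {i j : M}
    (hi : Adj d0 d0 i) (hai : Commute a i) (hj : j ∈ DD d0) (hja : Commute j a) (hji : Commute j i)
    (hjd : ¬ Commute j d0) (hT : Twin d0 a i j) {b : M} (h1 : Commute b i) (h2 : Commute b d0)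
    (h3 : Commute b j) : Commute (f b) (fa j) := by
  have had := ha.2.2.2.symm
  have hid := hi.2.2.2.symm
  obtain ⟨c, hc, ec⟩ := hS.t1 a i ha hi
  have h4 := hfa.transport' c (f c)
  rw [ec] at h4
  set fi : M → G := fun y => f c * fa (c⁻¹ * y * c) * (f c)⁻¹ with hfi
  have e' : ∀ g, Commute g d0 → Commute g i → fi g = f g := fun g g1 g2 => by
    have g3 : Commute (c⁻¹ * g * c) d0 := (hc.inv_left.mul_left g1).mul_left hc
    simp only [hfi]
    rw [e _ g3 (by simpa [← ec, mul_assoc] using commute_conj g2 c⁻¹), ← h.conj hc g3]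
    congr 1; group
  clear_value fi
  obtain ⟨j2, k1, k2⟩ := h4.surj (fa j) (by
    rw [e' i hid (Commute.refl _), ← e i hid hai.symm]
    exact (hfa.comm hja hai.symm).2 hji)
  have k3 : Commute (f b) (fi j) := by rw [← e' b h2 h1]; exact (h4.comm h1 hji).2 h3
  rcases hT j2 ((h4.cls _ k1).2 (k2 ▸ (hfa.cls _ hja).1 hj)) (fun g g1 g2 g3 g4 => by
    rw [← h4.comm g2 k1, k2, e' g g3 g2, ← e g g3 g1]
    exact (hfa.comm g1 hja).2 g4) (fun hc' => hjd (by
      rw [← hfa.comm hja had.symm, ← k2, e d0 (Commute.refl _) had.symm,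
        ← e' d0 (Commute.refl _) hid.symm]
      exact (h4.comm k1 hid.symm).2 hc')) with rfl | rfl
  · exact k2 ▸ k3
  · rw [← k2, h4.conj hid.symm hji, e' d0 (Commute.refl _) hid.symm]
    have k4 : Commute (f b) (f d0) := (h.comm h2 (Commute.refl _)).2 h2
    exact (k4.mul_right k3).mul_right k4.inv_right

theorem Loc.exists_hom [IsSimpleGroup M] (h : Loc d0 d d0 f) (fd : f d0 = d) (hd : d0 * d0 = 1)
    (had : Commute a d0)
    (hfa : Loc d0 d a fa) (e : ∀ g, Commute g d0 → Commute g a → fa g = f g) {j : M}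
    (hj : j ∈ DD d0) (hja : Commute j a) (hjd : ¬ Commute j d0)
    (hY : ∀ y, Commute y d0 → Commute y j → Commute (f y) (fa j))
    (r1 : ∀ x ∈ DD d0, ¬ Commute x d0 → ∃ c, Commute c d0 ∧ c * j * c⁻¹ = x)
    (r2 : ∀ x ∈ DD d0, Commute x a → ¬ Commute x d0 →
      ∃ c, Commute c d0 ∧ Commute c a ∧ c * j * c⁻¹ = x)
    (cover : ∀ x ∈ DD d0, ∃ y, Commute y d0 ∧ Commute y j ∧ Commute x (y * a * y⁻¹))
    (gen : ∀ K : Subgroup M, (∀ c, Commute c d0 → c ∈ K) → j ∈ K → K = ⊤) :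
    ∃ Θ : M →* G, Good d0 d Θ := by
  let R : M → G → Prop := fun x y => (x ∈ DD d0 ∧ Commute x d0 ∧ y = f x) ∨
    ∃ c, Commute c d0 ∧ x = c * j * c⁻¹ ∧ y = f c * fa j * (f c)⁻¹
  have hne : ∀ c, Commute c d0 → ¬ Commute (c * j * c⁻¹) d0 := fun c hc h1 => hjd (by
    rwa [← conj_eq_of_commute hc, commute_conj_iff] at h1)
  have fn : ∀ x y y', R x y → R x y' → y = y' := by
    rintro x y y' (⟨-, h1, rfl⟩ | ⟨c, hc, rfl, rfl⟩) (⟨-, h2, rfl⟩ | ⟨c', hc', e1, rfl⟩)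
    · rfl
    · exact absurd (e1 ▸ h1) (hne c' hc')
    · exact absurd h2 (hne c hc)
    · have := conj_eq_of_commute (hY (c'⁻¹ * c) (hc'.inv_left.mul_left hc) (commute_of_conj_eq (by
        calc c'⁻¹ * c * j * (c'⁻¹ * c)⁻¹ = c'⁻¹ * (c * j * c⁻¹) * c' := by group
          _ = j := by rw [e1]; group)))
      rw [h.mul _ _ hc'.inv_left hc, h.inv hc'] at this
      nth_rewrite 2 [← this]
      group
  have hD : ∀ x y, R x y → x ∈ DD d0 := by
    rintro x y (⟨h1, -⟩ | ⟨c, -, rfl, -⟩)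
    exacts [h1, conj_mem hj c]
  let S : M × G → Prop := fun p => ∀ x y, R x y → R (p.1 * x * p.1⁻¹) (p.2 * y * p.2⁻¹)
  have Smul : ∀ p q, S p → S q → S (p * q) := fun p q hp hq x y hxy => by
    have := hp _ _ (hq x y hxy)
    simpa [mul_assoc] using this
  let P : Subgroup (M × G) :=
    { carrier := {p | S p ∧ S p⁻¹}
      one_mem' := ⟨fun x y h => by simpa using h, fun x y h => by simpa using h⟩
      mul_mem' := fun {p q} hp hq => ⟨Smul _ _ hp.1 hq.1, by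
        rw [mul_inv_rev]; exact Smul _ _ hq.2 hp.2⟩
      inv_mem' := fun {p} hp => ⟨hp.2, by simpa using hp.1⟩ }
  have S1 : ∀ c, Commute c d0 → S (c, f c) := by
    rintro c hc x y (⟨h1, h2, rfl⟩ | ⟨k, hk, rfl, rfl⟩)
    · exact Or.inl ⟨conj_mem h1 c, (hc.mul_left h2).mul_left hc.inv_left, (h.conj hc h2).symm⟩
    · exact Or.inr ⟨c * k, hc.mul_left hk, by group, by rw [h.mul _ _ hc hk]; group⟩
  have P1 : ∀ c, Commute c d0 → (c, f c) ∈ P := fun c hc =>
    ⟨S1 c hc, by simpa [h.inv hc] using S1 c⁻¹ hc.inv_left⟩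
  have Ra : ∀ x ∈ DD d0, Commute x a → R x (fa x) := fun x hx hxa => by
    by_cases hc : Commute x d0
    · exact Or.inl ⟨hx, hc, e x hc hxa⟩
    · obtain ⟨c, c1, c2, rfl⟩ := r2 x hx hxa hc
      exact Or.inr ⟨c, c1, rfl, by rw [hfa.conj c2 hja, e c c1 c2]⟩
  have S2' : S (j, fa j) := fun x y hxy => by
    obtain ⟨c, c1, c2, c3⟩ := cover x (hD x y hxy)
    have h1 := (P1 c c1).2 x y hxy
    simp only [Prod.inv_mk, inv_inv] at h1
    have h2 : Commute (c⁻¹ * x * c) a := by simpa [mul_assoc] using commute_conj c3 c⁻¹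
    have h3 := fn _ _ _ h1 (Ra _ (hD _ _ h1) h2)
    have h4 := Ra _ (conj_mem (hD _ _ h1) j) ((hja.mul_left h2).mul_left hja.inv_left)
    rw [hfa.conj hja h2, ← h3] at h4
    have h5 := (P1 c c1).1 _ _ h4
    have h6 := conj_eq_of_commute (hY c c1 c2)
    have h7 := conj_eq_of_commute c2
    change R (j * x * j⁻¹) (fa j * y * (fa j)⁻¹)
    rw [← h6, ← h7]
    rw [h7]
    convert h5 using 1
    · nth_rewrite 1 [← h7]; nth_rewrite 2 [← h7]; group
    · group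
  have hj2 := mul_self hd hj
  have P2 : (j, fa j) ∈ P := ⟨S2', by
    rw [Prod.inv_mk, ← hfa.inv hja, inv_eq hd hj]; exact S2'⟩
  have sur : Function.Surjective ((MonoidHom.fst M G).comp P.subtype) := by
    rw [← MonoidHom.range_eq_top]
    exact gen _ (fun c hc => ⟨⟨_, P1 c hc⟩, rfl⟩) ⟨⟨_, P2⟩, rfl⟩
  have Rj : R j (fa j) := Ra j hj hja
  have K2 : ∀ c, (c, 1) ∈ P → c = 1 := by
    let K : Subgroup M := P.comap (MonoidHom.inl M G)
    have : K.Normal := ⟨fun c hc g => by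
      obtain ⟨⟨⟨g1, g2⟩, hp⟩, rfl⟩ := sur g
      have := P.mul_mem (P.mul_mem hp hc) (P.inv_mem hp)
      simpa [K] using this⟩
    rcases this.eq_bot_or_eq_top with h1 | h1
    · intro c hc
      exact mem_bot.1 (h1 ▸ (hc : c ∈ K))
    · exfalso
      have h2 : (d0, 1) ∈ P := (h1 ▸ mem_top d0 : d0 ∈ K)
      have h3 := fn _ _ _ ((P1 d0 (Commute.refl _)).1 _ _ Rj) (h2.1 _ _ Rj)
      simp only [one_mul, inv_one, mul_one] at h3
      apply hjd
      rw [← hfa.comm hja had.symm, e d0 (Commute.refl _) had.symm]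
      exact (commute_of_conj_eq h3).symm
  have inj : Function.Injective ((MonoidHom.fst M G).comp P.subtype) := by
    rw [injective_iff_map_eq_one]
    rintro ⟨⟨g1, g2⟩, hp⟩ (rfl : g1 = 1)
    have R0 : R d0 (f d0) := Or.inl ⟨self_mem _, Commute.refl _, rfl⟩
    have h1 := fn _ _ _ (by simpa using hp.1 _ _ R0) R0
    obtain ⟨c, hc, rfl⟩ := h.surj g2 (commute_of_conj_eq h1)
    have := K2 c (by simpa using P.mul_mem (P1 c hc) (P.inv_mem hp))
    subst this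
    exact Subtype.ext (by simp [h.one])
  let E := MulEquiv.ofBijective _ ⟨inj, sur⟩
  let Θ : M →* G := ((MonoidHom.snd M G).comp P.subtype).comp E.symm.toMonoidHom
  have hΘ : ∀ c, Commute c d0 → Θ c = f c := fun c hc => by
    have : E.symm c = ⟨_, P1 c hc⟩ := by rw [MulEquiv.symm_apply_eq]; rfl
    simp [Θ, this]
  refine ⟨Θ, (injective_iff_map_eq_one _).2 fun c hc => ?_, by
    rw [hΘ _ (Commute.refl _), fd], fun g hg => ?_, fun y hy hg => ?_⟩
  · obtain ⟨⟨⟨g1, g2⟩, hp⟩, rfl⟩ := E.surjective c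
    have : g2 = 1 := by simpa [Θ] using hc
    subst this
    exact K2 g1 hp
  · obtain ⟨c, hc, rfl⟩ := h.surj g (by rwa [hΘ _ (Commute.refl _)] at hg)
    exact ⟨c, hΘ c hc⟩
  · obtain ⟨c, hc, rfl⟩ := h.surj y (by rwa [hΘ _ (Commute.refl _)] at hg)
    exact ⟨c, (h.cls c hc).2 hy, hΘ c hc⟩

end Cfsg.Agent.Lib.FisLoc
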