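import Cfsg.Agent.Lib.FisRig

/-! Building the point model from a checked action. -/

set_option autoImplicit false

namespace Cfsg.Agent.Lib.FisPM

open Cfsg Subgroup Cfsg.Agent.Lib.FisCore Cfsg.Agent.Lib.FisLoc Cfsg.Agent.Lib.FisPrim
  Cfsg.Agent.Lib.PermNet Cfsg.Agent.Lib.Words Cfsg.Agent.Lib.PermGroup

variable {M : Type*} [Group M] {n : ND} {Y : ℕ → M} {φ : M →* Equiv.Perm ℕ}

theorem one_of (hv : n.nets.Valid n.N) (hK : n.N ≤ 2 ^ n.K) (hφ : ∀ i, φ (Y i) = n.nets.perm i)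
    (inj : ∀ g, φ g = 1 → g = 1) {u v : List ℕ} (h : n.oneB u v = true) :
    wval Y u = wval Y v := by
  have := wval_eq_of_relsOn hv hK (relsOn_of_B _ _ _ _ 0 n.K n.K (by simp) h) (u, v)
    List.mem_cons_self
  rw [← mul_inv_eq_one]
  apply inj
  rw [map_mul, map_inv, map_wval' hφ, map_wval' hφ, this, mul_inv_cancel]

theorem stab_of {d : M} {H : Subgroup M} (hs : ∀ g, g ∈ H ↔ φ g 0 = 0) (hco : IsCoatom H)
    (h1 : H ≤ centralizer {d}) {x : M} (hx : ¬ Commute x d) (g : M) : φ g 0 = 0 ↔ Commute g d := by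
  have : H = centralizer {d} := by
    by_contra hne
    have := hco.2 _ (lt_of_le_of_ne h1 hne)
    exact hx (mem_centralizer_singleton_iff.1 (this ▸ mem_top x))
  rw [← hs, this, mem_centralizer_singleton_iff]; rfl

theorem tab_of (hv : n.nets.Valid n.N) (hK : n.N ≤ 2 ^ n.K) (hφ : ∀ i, φ (Y i) = n.nets.perm i)
    (inj : ∀ g, φ g = 1 → g = 1) {dw : List ℕ} {k : ℕ}
    (h : n.oneB (getW n.bw k) (invW (getW n.bl k) ++ (dw ++ getW n.bl k)) = true) :
    wval Y (getW n.bw k) = T (wval Y dw) Y (getW n.bl k) := by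
  rw [one_of hv hK hφ inj h, wval_append, wval_append, wval_invW, T, mul_assoc]

theorem tab_step {d : M} (hv : n.nets.Valid n.N) (hφ : ∀ i, φ (Y i) = n.nets.perm i)
    (stab : ∀ g, φ g 0 = 0 ↔ Commute g d) {wi wj vi vj : List ℕ} (u : List ℕ)
    (h1 : wval Y wi = T d Y vi) (h2 : wval Y wj = wval Y (invW u ++ (wi ++ u)))
    (h3 : Nat.beq (backI n.nets (vi ++ u) 0) (backI n.nets vj 0) = true) : wval Y wj = T d Y vj := by
  have h4 := Nat.eq_of_beq_eq_true h3
  rw [backI_eq hv, backI_eq hv, ← map_wval' hφ, ← map_wval' hφ, eq_comm,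
    Equiv.Perm.inv_eq_iff_eq, ← map_inv, ← Equiv.Perm.mul_apply, ← map_mul, eq_comm, stab,
    wval_append] at h4
  rw [h2, wval_append, wval_append, wval_invW, h1, T, T]
  nth_rewrite 2 [← conj_eq_of_commute h4]
  group

theorem one_of3 (hv : n.nets.Valid n.N) (hK : n.N ≤ 2 ^ n.K) (hφ : ∀ i, φ (Y i) = n.nets.perm i)
    (inj : ∀ g, φ g = 1 → g = 1) {u v : List ℕ} (hK' : n.K = 15)
    (h1 : relsOnB n.nets n.N n.K [(u, v)] 0 5 = true) (h2 : relsOnB n.nets n.N n.K [(u, v)] 5 5 = true)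
    (h3 : relsOnB n.nets n.N n.K [(u, v)] 10 5 = true) : wval Y u = wval Y v := by
  have := wval_eq_of_relsOn hv hK (((relsOn_of_B _ _ _ _ 0 5 5 rfl h1).trans
    (relsOn_of_B _ _ _ _ 5 5 10 rfl h2)).trans (relsOn_of_B _ _ _ _ 10 5 n.K (by simp [hK']) h3))
    (u, v) List.mem_cons_self
  rw [← mul_inv_eq_one]
  apply inj
  rw [map_mul, map_inv, map_wval' hφ, map_wval' hφ, this, mul_inv_cancel]

/-- A word that commutes with generators of a simple group that is not abelian is trivial. -/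
theorem PM0.eq_of_cen [IsSimpleGroup M] {d : M} (P : PM0 n Y φ d) {gs : List Desc}
    (hg : gp Y (gs.map n.W) = ⊤) (hx : ¬ ∀ x, Commute x d) {u v : List ℕ}
    (h : n.cenB [u ++ invW v] gs = true) : wval Y u = wval Y v := by
  have h1 : wval Y (u ++ invW v) ∈ center M := by
    rw [mem_center_iff]
    intro g
    refine mem_centralizer_singleton_iff.1 ((gp_le.2 fun w hw => ?_ :
      gp Y (gs.map n.W) ≤ centralizer {wval Y (u ++ invW v)}) (hg ▸ mem_top g))
    obtain ⟨t, ht, rfl⟩ := List.mem_map.1 hw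
    exact mem_centralizer_singleton_iff.2 (P.cen h _ List.mem_cons_self t ht).symm
  rcases (inferInstance : (center M).Normal).eq_bot_or_eq_top with h | h
  · rwa [h, mem_bot, wval_append, wval_invW, mul_inv_eq_one] at h1
  · exact absurd (mem_center_iff.1 (h ▸ mem_top d)) hx

theorem PM0.toPM' {d : M} (P : PM0 n Y φ d) {hs : List (List ℕ)}
    (hK : ∀ g ∈ gp Y hs, Commute g d) {r : ℕ}
    (o0 : InOrb (gp n.nets.perm hs) 1 (ivl 1 n.k0))
    (o1 : InOrb (gp n.nets.perm hs) (n.k0 + 1) (ivl (n.k0 + 1) r))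
    (hr : n.N ≤ n.k0 + 1 + r) {t u : Desc} {p q : ℕ}
    (ht : (band (n.okD t) (Nat.beq (n.posI t) p)) = true)
    (hu : (band (n.okD u) (Nat.beq (n.posI u) q)) = true)
    (h0 : Commute (el n Y t) d) (h1 : ¬ Commute (el n Y u) d) (hp : 1 ≤ p ∧ p ≤ n.k0 ∧ n.k0 < q) :
    PM n Y φ d := by
  obtain ⟨g0, e0⟩ := isConj_iff.1 (P.el_mem (band_eq ht).1)
  obtain ⟨g1, e1⟩ := isConj_iff.1 (P.el_mem (band_eq hu).1)
  have p0 := P.pos_eq ht
  have p1 := P.pos_eq hu
  rw [← e0, P.pos_d] at p0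
  rw [← e1, P.pos_d] at p1
  refine P.toPM (K := gp n.nets.perm hs) ?_ o0 o1 hr (g0 := g0) (g1 := g1) (e0 ▸ h0) (by omega)
    (by omega) (e1 ▸ h1) (by omega)
  rw [← map_gp' P.hφ]
  exact map_mono fun g hg => mem_centralizer_singleton_iff.2 (hK g hg)

/-- The listed members sit at the listed points. -/
noncomputable def atB (n : ND) : List Desc → List ℕ → Bool
  | t :: ts, p :: ps => band (band (n.okD t) (Nat.beq (n.posI t) p)) (atB n ts ps)
  | _, [] => true
  | [], _ :: _ => false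

theorem PM0.fix_of_at {d : M} (P : PM0 n Y φ d) {ts : List Desc} {ps : List ℕ}
    (h : atB n ts ps = true) {g : M} (hg : ∀ t ∈ ts, Commute g (el n Y t)) :
    ∀ p ∈ ps, φ g p = p := by
  induction ps generalizing ts with
  | nil => simp
  | cons p ps ih =>
    cases ts with
    | nil => exact Bool.noConfusion h
    | cons t ts =>
      obtain ⟨h1, h2⟩ := band_eq h
      intro q hq
      rcases List.mem_cons.1 hq with rfl | hq
      · rw [← P.pos_eq h1, ← P.comm_iff (P.el_mem (band_eq h1).1)]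
        exact hg t List.mem_cons_self
      · exact ih h2 (fun u hu => hg u (List.mem_cons_of_mem _ hu)) q hq

theorem PM0.lower [Finite M] {d : M} (P : PM0 n Y φ d) (gs us : List (List ℕ)) (bs : List ℕ) (b : ℕ)
    (seq : List (ℕ × ℕ) × List ℕ) (lo len k : ℕ)
    (h : levelI n.nets (us.map (subst gs)) bs b seq lo len k = true) {m : ℕ}
    (hm : m ≤ Nat.card (fixer (gp n.nets.perm gs) (b :: bs))) :
    k * m ≤ Nat.card (fixer (gp n.nets.perm gs) bs) := by
  have := P.finite_gp gs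
  exact le_card_fixerI P.hv _ (all_subst_mem_gp gs us) bs b seq lo len k h hm

theorem PM0.lower_one [Finite M] {d : M} (P : PM0 n Y φ d) (gs : List (List ℕ)) (bs : List ℕ) :
    1 ≤ Nat.card (fixer (gp n.nets.perm gs) bs) := by
  have := P.finite_gp gs
  exact one_le_card_fixer bs

theorem PM0.card_gp {d : M} (P : PM0 n Y φ d) (gs : List (List ℕ)) :
    Nat.card (fixer (gp n.nets.perm gs) []) = Nat.card (gp Y gs) := by
  rw [fixer_nil, ← map_gp' P.hφ, card_map_of_injective ((injective_iff_map_eq_one φ).2 P.inj)]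

end Cfsg.Agent.Lib.FisPM
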