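import Cfsg.Agent.Lib.FisPrim
import Cfsg.Agent.Lib.PermGroup

/-! A group acting through permutation networks on a class of involutions: checks on bit masks. -/

set_option autoImplicit false

namespace Cfsg.Agent.Lib.FisPM

open Cfsg Subgroup Cfsg.Agent.Lib.FisCore Cfsg.Agent.Lib.FisLoc Cfsg.Agent.Lib.FisPrim
  Cfsg.Agent.Lib.PermNet Cfsg.Agent.Lib.Words Cfsg.Agent.Lib.PermGroup

noncomputable def bitB (m i : ℕ) : Bool := Nat.beq (Nat.land (Nat.shiftRight m i) 1) 1

theorem bitB_eq (m i : ℕ) : bitB m i = m.testBit i := by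
  change Nat.beq ((m >>> i) &&& 1) 1 = _
  rw [Nat.testBit, Nat.one_and_eq_mod_two, Nat.and_one_is_mod]
  rcases Nat.mod_two_eq_zero_or_one (m >>> i) with h | h <;> rw [h] <;> rfl

noncomputable def sI (s m i : ℕ) : ℕ :=
  @Bool.rec (fun _ => ℕ) (@Bool.rec (fun _ => ℕ) i (Nat.sub i s)
    (band (Nat.ble s i) (bitB m (Nat.sub i s)))) (Nat.add i s) (bitB m i)

theorem sI_eq (s m i : ℕ) : sI s m i = sIdx s m i := by
  unfold sI sIdx
  rw [bitB_eq, bitB_eq]
  cases h1 : m.testBit i
  · by_cases h2 : s ≤ i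
    · rw [Nat.ble_eq_true_of_le h2]
      change @Bool.rec _ _ _ (m.testBit (i - s)) = _
      cases h3 : m.testBit (i - s) <;> simp [h2]
    · have : Nat.ble s i = false := by
        cases hb : Nat.ble s i
        · rfl
        · exact absurd (Nat.le_of_ble_eq_true hb) h2
      rw [this]; simp [h2]
  · simp

noncomputable def fwdN (n : Net) : ℕ → ℕ :=
  Net.rec (motive := fun _ => ℕ → ℕ) (fun i => i) (fun s m _ ih i => force (ih i) (sI s m)) n

noncomputable def bwdN (n : Net) : ℕ → ℕ :=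
  Net.rec (motive := fun _ => ℕ → ℕ) (fun i => i) (fun s m _ ih i => force (sI s m i) ih) n

theorem fwdN_eq {N : ℕ} (n : Net) (h : n.Valid N) (i : ℕ) : fwdN n i = n.perm i := by
  induction n with
  | nil => rfl
  | cons s m r ih =>
    change sI s m (fwdN r i) = _
    rw [ih h.2.2, sI_eq, Net.perm, Equiv.Perm.mul_apply, sPerm_apply h.1]

theorem bwdN_eq {N : ℕ} (n : Net) (h : n.Valid N) (i : ℕ) : bwdN n i = n.perm⁻¹ i := by
  induction n generalizing i with
  | nil => rfl
  | cons s m r ih =>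
    change bwdN r (sI s m i) = _
    rw [ih h.2.2, sI_eq, Net.perm, mul_inv_rev, Equiv.Perm.mul_apply, sPerm_inv, sPerm_apply h.1]

noncomputable def backL (nets : NL) (l i : ℕ) : ℕ :=
  @Bool.rec (fun _ => ℕ) (fwdN (nets.get (Nat.shiftRight l 1)) i)
    (bwdN (nets.get (Nat.shiftRight l 1)) i) (Nat.beq (Nat.land l 1) 0)

/-- The preimage of a point under a word. -/
noncomputable def backI (nets : NL) (w : List ℕ) : ℕ → ℕ :=
  List.rec (motive := fun _ => ℕ → ℕ) (fun i => i) (fun l _ ih i => force (backL nets l i) ih) w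

theorem backI_eq {N : ℕ} {nets : NL} (hv : nets.Valid N) (w : List ℕ) (i : ℕ) :
    backI nets w i = (wval nets.perm w)⁻¹ i := by
  induction w generalizing i with
  | nil => rfl
  | cons l w ih =>
    change backI nets w (backL nets l i) = _
    rw [ih, wval_cons, mul_inv_rev, Equiv.Perm.mul_apply]
    congr 1
    unfold backL lval
    have e1 : Nat.shiftRight l 1 = l / 2 := by
      change l >>> 1 = _
      rw [Nat.shiftRight_eq_div_pow]
    have e2 : Nat.land l 1 = l % 2 := by
      change l &&& 1 = _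
      rw [Nat.and_one_is_mod]
    rw [e1, e2]
    rcases Nat.mod_two_eq_zero_or_one l with h | h
    · rw [h, if_pos rfl]
      exact bwdN_eq _ (NL.valid_get nets hv _) i
    · rw [h, if_neg (by omega), inv_inv]
      exact fwdN_eq _ (NL.valid_get nets hv _) i

noncomputable def fixI (nets : NL) (ws : List (List ℕ)) (p : ℕ) : Bool :=
  List.rec (motive := fun _ => Bool) true (fun w _ ih => band (Nat.beq (backI nets w p) p) ih) ws

theorem fix_of_fixI {N : ℕ} {nets : NL} (hv : nets.Valid N) {ws : List (List ℕ)} {p : ℕ}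
    (h : fixI nets ws p = true) : ∀ w ∈ ws, wval nets.perm w p = p := by
  induction ws with
  | nil => simp
  | cons a ws ih =>
    obtain ⟨h1, h2⟩ := band_eq h
    intro w hw
    rcases List.mem_cons.1 hw with rfl | hw
    · have := Nat.eq_of_beq_eq_true h1
      rw [backI_eq hv, Equiv.Perm.inv_eq_iff_eq] at this
      exact this.symm
    · exact ih h2 w hw

noncomputable def fixPtsI (nets : NL) (ws : List (List ℕ)) (bs : List ℕ) : Bool :=
  List.rec (motive := fun _ => Bool) true (fun b _ ih => band (fixI nets ws b) ih) bs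

theorem fix_of_fixPtsI {N : ℕ} {nets : NL} (hv : nets.Valid N) {ws : List (List ℕ)} {bs : List ℕ}
    (h : fixPtsI nets ws bs = true) : ∀ w ∈ ws, ∀ b ∈ bs, wval nets.perm w b = b := by
  induction bs with
  | nil => simp
  | cons a bs ih =>
    obtain ⟨h1, h2⟩ := band_eq h
    intro w hw b hb
    rcases List.mem_cons.1 hb with rfl | hb
    · exact fix_of_fixI hv h1 w hw
    · exact ih h2 w hw b hb

/-- Grow a set point by point: each step moves a known point by one of the words. -/
noncomputable def growI (nets : NL) (ws : List (List ℕ)) (st : List (ℕ × ℕ)) : ℕ → ℕ :=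
  List.rec (motive := fun _ => ℕ → ℕ) (fun x => x)
    (fun a _ ih x => force (@Bool.rec (fun _ => ℕ) x
      (Nat.lor x (pt (backI nets (getW ws a.2) a.1))) (bitB x a.1)) ih) st

/-- Either way of growing a set. -/
noncomputable def growE (nets : NL) (ws : List (List ℕ)) (s : List (ℕ × ℕ) × List ℕ) (x : ℕ) : ℕ :=
  force (growI nets ws s.1 x) (grow nets ws s.2)

theorem inOrb_growE {N : ℕ} {nets : NL} (hv : nets.Valid N) {A : Subgroup (Equiv.Perm ℕ)}
    {ws : List (List ℕ)} (hws : ∀ w ∈ ws, wval nets.perm w ∈ A) {b : ℕ}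
    (s : List (ℕ × ℕ) × List ℕ) {x : ℕ} (h : InOrb A b x) : InOrb A b (growE nets ws s x) := by
  refine InOrb.grow hv hws s.2 ?_
  generalize s.1 = st
  induction st generalizing x with
  | nil => exact h
  | cons a st ih =>
    refine ih (x := @Bool.rec (fun _ => ℕ) x
      (Nat.lor x (pt (backI nets (getW ws a.2) a.1))) (bitB x a.1)) ?_
    rw [bitB_eq]
    cases hb : x.testBit a.1
    · exact h
    · intro i hi
      change Nat.testBit (_ ||| _) _ = true at hi
      rw [Nat.testBit_or, Bool.or_eq_true, testBit_pt, backI_eq hv] at hi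
      rcases hi with hi | hi
      · exact h i hi
      · obtain ⟨g, hg, e⟩ := h _ hb
        have hw : wval nets.perm (getW ws a.2) ∈ A := by
          rcases getW_mem_or ws a.2 with h' | h'
          · exact hws _ h'
          · rw [h']; exact A.one_mem
        exact ⟨_, A.mul_mem (A.inv_mem hw) hg, by
          rw [Equiv.Perm.mul_apply, e, of_decide_eq_true hi]⟩

noncomputable def popc3 (w msk k : ℕ) : ℕ → ℕ → ℕ :=
  Nat.rec (motive := fun _ => ℕ → ℕ → ℕ) (fun _ acc => acc)
    (fun _ ih x acc => force (Nat.shiftRight x w) fun x' =>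
      force (Nat.land x msk) fun c => force (Nat.add acc (popc w c 0)) (ih x')) k

theorem popc3_eq (w k x acc : ℕ) : popc3 w (2 ^ w - 1) k x acc = popc (w * k) x acc := by
  induction k generalizing x acc with
  | zero => rfl
  | succ k ih =>
    change popc3 w (2 ^ w - 1) k (x >>> w) (acc + popc w (x &&& (2 ^ w - 1)) 0) = _
    rw [ih, popc_eq, popc_eq, popc_eq, show w * (k + 1) = w + w * k by ring, Finset.card_filter,
      Finset.card_filter, Finset.card_filter, Finset.sum_range_add, zero_add, add_assoc]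
    congr 2
    · refine Finset.sum_congr rfl fun i hi => ?_
      rw [Nat.testBit_and, Nat.testBit_two_pow_sub_one, decide_eq_true (Finset.mem_range.1 hi),
        Bool.and_true]
    · simp only [Nat.testBit_shiftRight]

/-- The number of set bits among the lowest `32 k`, plus `acc`. -/
noncomputable def popc2 (k x acc : ℕ) : ℕ := popc3 32 4294967295 k x acc

theorem popc2_eq (k x acc : ℕ) : popc2 k x acc = popc (32 * k) x acc := by
  rw [← popc3_eq, popc2]
  norm_num

noncomputable def levelI (nets : NL) (ws : List (List ℕ)) (bs : List ℕ) (b : ℕ)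
    (s : List (ℕ × ℕ) × List ℕ) (lo len n : ℕ) : Bool :=
  band (fixPtsI nets ws bs)
    (forceB (Nat.shiftRight (growE nets ws s (pt b)) lo) (fun x => Nat.ble n (popc2 len x 0)))

theorem le_card_fixerI {N : ℕ} {nets : NL} (hv : nets.Valid N) {A : Subgroup (Equiv.Perm ℕ)}
    [Finite A] (ws : List (List ℕ)) (hws : ∀ w ∈ ws, wval nets.perm w ∈ A) (bs : List ℕ) (b : ℕ)
    (s : List (ℕ × ℕ) × List ℕ) (lo len n : ℕ) (h : levelI nets ws bs b s lo len n = true) {m : ℕ}
    (hm : m ≤ Nat.card (fixer A (b :: bs))) : n * m ≤ Nat.card (fixer A bs) := by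
  obtain ⟨h1, h2⟩ := band_eq h
  have hws' : ∀ w ∈ ws, wval nets.perm w ∈ fixer A bs := fun w hw =>
    ⟨hws w hw, fix_of_fixPtsI hv h1 w hw⟩
  have ho := inOrb_growE hv hws' s (inOrb_pt (fixer A bs) b)
  have h3 : n ≤ popc2 len (growE nets ws s (pt b) >>> lo) 0 := Nat.le_of_ble_eq_true h2
  rw [popc2_eq, popc_eq, zero_add] at h3
  have := finite_fixer (A := A) bs
  rw [card_fixer bs b]
  refine Nat.mul_le_mul (h3.trans ?_) hm
  rw [← Set.ncard_coe_finset]
  refine Set.ncard_le_ncard_of_injOn (fun i => lo + i) ?_ (fun _ _ _ _ e => by simpa using e)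
    (Set.finite_range _)
  intro i hi
  simp only [Finset.coe_filter, Set.mem_ofPred_eq, Nat.testBit_shiftRight] at hi
  obtain ⟨g, hg, e⟩ := ho _ hi.2
  exact ⟨⟨g, hg⟩, e⟩

/-- The numerical data: networks, and a table of words for class members with their locators. -/
structure ND where
  N : ℕ
  K : ℕ
  k0 : ℕ
  nets : NL
  bw : List (List ℕ)
  bl : List (List ℕ)

/-- A member of the class: an entry of the table, conjugated by a word. -/
abbrev Desc := ℕ × List ℕ

namespace ND
variable (n : ND)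

noncomputable def W (t : Desc) : List ℕ := invW t.2 ++ (getW n.bw t.1 ++ t.2)
noncomputable def L (t : Desc) : List ℕ := getW n.bl t.1 ++ t.2
noncomputable def posI (t : Desc) : ℕ := backI n.nets (n.L t) 0
noncomputable def ptm (t : Desc) : ℕ := pt (n.posI t)
noncomputable def nbm (t : Desc) : ℕ := appW n.nets (n.L t) (ones (Nat.succ n.k0))
noncomputable def okD (t : Desc) : Bool := Nat.ble (Nat.succ t.1) n.bw.length

/-- All words fix the points of all listed members. -/
noncomputable def cenB (ws : List (List ℕ)) (ts : List Desc) : Bool :=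
  List.rec (motive := fun _ => Bool) true
    (fun t _ ih => band (band (n.okD t) (forceB (n.posI t) (fixI n.nets ws))) ih) ts

noncomputable def comB (t u : Desc) : Bool := bitB (n.nbm u) (n.posI t)
noncomputable def eqB (t u : Desc) : Bool := Nat.beq (n.posI t) (n.posI u)
noncomputable def adjB (t u : Desc) : Bool :=
  band (band (n.okD t) (n.okD u)) (band (n.comB t u) (!n.eqB t u))

/-- The points commuting with all members of the list, inside `x`. -/
noncomputable def inter (ts : List Desc) : ℕ → ℕ :=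
  List.rec (motive := fun _ => ℕ → ℕ) (fun x => x)
    (fun t _ ih x => force (Nat.land x (n.nbm t)) ih) ts

/-- The points of the list, together with `x`. -/
noncomputable def union (ts : List Desc) : ℕ → ℕ :=
  List.rec (motive := fun _ => ℕ → ℕ) (fun x => x)
    (fun t _ ih x => force (Nat.lor x (n.ptm t)) ih) ts

noncomputable def okL (ts : List Desc) : Bool :=
  List.rec (motive := fun _ => Bool) true (fun t _ ih => band (n.okD t) ih) ts

noncomputable def movGo (w : List ℕ) (j : ℕ) : ℕ → ℕ :=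
  Nat.rec (motive := fun _ => ℕ → ℕ) (fun x => x)
    (fun k ih x => force (plane n.N n.K k) fun p =>
      force (Nat.lor x (Nat.xor p (appW n.nets w p))) ih) j

/-- Points moved by the word, together with `x`. -/
noncomputable def mov (w : List ℕ) (x : ℕ) : ℕ := n.movGo w n.K x

noncomputable def oneB (u v : List ℕ) : Bool := relsOnB n.nets n.N n.K [(u, v)] 0 n.K

noncomputable def full (x : ℕ) : Bool := subB (ones n.N) x

end ND

variable {M : Type*} [Group M]

def T (d : M) (Y : ℕ → M) (v : List ℕ) : M := (wval Y v)⁻¹ * d * wval Y v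

structure PM0 (n : ND) (Y : ℕ → M) (φ : M →* Equiv.Perm ℕ) (d : M) : Prop where
  hv : n.nets.Valid n.N
  hK : n.N ≤ 2 ^ n.K
  hφ : ∀ i, φ (Y i) = n.nets.perm i
  inj : ∀ g, φ g = 1 → g = 1
  stab : ∀ g, φ g 0 = 0 ↔ Commute g d
  tr : InOrb φ.range 0 (ones n.N)
  lt : ∀ g, φ g 0 < n.N
  tab : ∀ k < n.bw.length, wval Y (getW n.bw k) = T d Y (getW n.bl k)

structure PM (n : ND) (Y : ℕ → M) (φ : M →* Equiv.Perm ℕ) (d : M) : Prop extends PM0 n Y φ d where
  nb : ∀ g, Commute (g * d * g⁻¹) d ↔ φ g 0 ≤ n.k0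

open Classical in
noncomputable def pos (φ : M →* Equiv.Perm ℕ) (d x : M) : ℕ :=
  if h : x ∈ DD d then φ (isConj_iff.1 h).choose 0 else 0

noncomputable def el (n : ND) (Y : ℕ → M) (t : Desc) : M := wval Y (n.W t)

variable {n : ND} {Y : ℕ → M} {φ : M →* Equiv.Perm ℕ} {d : M}

namespace PM0
variable (P : PM0 n Y φ d)
include P

theorem apply_eq_iff (g h : M) : φ g 0 = φ h 0 ↔ g * d * g⁻¹ = h * d * h⁻¹ := by
  have : φ g 0 = φ h 0 ↔ φ (h⁻¹ * g) 0 = 0 := by
    rw [map_mul, map_inv, Equiv.Perm.mul_apply, Equiv.Perm.inv_eq_iff_eq]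
  rw [this, P.stab]
  refine ⟨fun e => ?_, fun e => commute_of_conj_eq ?_⟩
  · rw [← conj_eq_of_commute e, conj_eq_of_commute e]; nth_rewrite 2 [← conj_eq_of_commute e]; group
  · rw [conj_mul', e]; group

theorem pos_d (g : M) : pos φ d (g * d * g⁻¹) = φ g 0 := by
  have h := conj_mem (self_mem d) g
  rw [pos, dif_pos h, P.apply_eq_iff, (isConj_iff.1 h).choose_spec]

theorem pos_conj {x : M} (hx : x ∈ DD d) (g : M) : pos φ d (g * x * g⁻¹) = φ g (pos φ d x) := by
  obtain ⟨c, rfl⟩ := isConj_iff.1 hx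
  rw [← conj_mul', P.pos_d, P.pos_d, map_mul, Equiv.Perm.mul_apply]

theorem pos_lt {x : M} (hx : x ∈ DD d) : pos φ d x < n.N := by
  obtain ⟨c, rfl⟩ := isConj_iff.1 hx
  rw [P.pos_d]; exact P.lt c

theorem pos_inj {x y : M} (hx : x ∈ DD d) (hy : y ∈ DD d) (e : pos φ d x = pos φ d y) : x = y := by
  obtain ⟨c, rfl⟩ := isConj_iff.1 hx
  obtain ⟨c', rfl⟩ := isConj_iff.1 hy
  rwa [P.pos_d, P.pos_d, P.apply_eq_iff] at e

theorem pos_self : pos φ d d = 0 := by simpa using P.pos_d 1

theorem comm_iff {x : M} (hx : x ∈ DD d) (g : M) : Commute g x ↔ φ g (pos φ d x) = pos φ d x := by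
  rw [← P.pos_conj hx]
  exact ⟨fun h => by rw [conj_eq_of_commute h],
    fun h => commute_of_conj_eq (P.pos_inj (conj_mem hx g) hx h)⟩

theorem ncard_D : (DD d).ncard = n.N := by
  rw [← Set.InjOn.ncard_image (f := pos φ d) fun x hx y hy e => P.pos_inj hx hy e]
  have : pos φ d '' DD d = (Finset.range n.N : Set ℕ) := by
    ext p
    simp only [Finset.coe_range, Set.mem_Iio]
    refine ⟨by rintro ⟨x, hx, rfl⟩; exact P.pos_lt hx, fun hp => ?_⟩
    obtain ⟨_, ⟨g, rfl⟩, e⟩ := P.tr p (by rw [testBit_ones]; simpa using hp)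
    exact ⟨_, conj_mem (self_mem d) g, by rw [P.pos_d, e]⟩
  rw [this, Set.ncard_coe_finset, Finset.card_range]

theorem ncard_le {S : Set M} {x m : ℕ} (hS : ∀ g ∈ S, g ∈ DD d ∧ x.testBit (pos φ d g) = true)
    {len : ℕ} (h : (band (subB x (ones (32 * len))) (Nat.ble (popc2 len x 0) m)) = true) : S.ncard ≤ m := by
  obtain ⟨h1, h2⟩ := band_eq h
  have h2 := Nat.le_of_ble_eq_true h2
  rw [popc2_eq, popc_eq, zero_add, ← Set.ncard_coe_finset] at h2
  refine le_trans (Set.ncard_le_ncard_of_injOn (pos φ d) (fun g hg => ?_)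
    (fun g hg k hk e => P.pos_inj (hS g hg).1 (hS k hk).1 e) (Finset.finite_toSet _)) h2
  have e : x &&& ones (32 * len) = x := Nat.eq_of_beq_eq_true h1
  have := (hS g hg).2
  simp only [Finset.coe_filter, Finset.mem_range, Set.mem_ofPred_eq, this, and_true]
  rw [← e, Nat.testBit_and, testBit_ones, Bool.and_eq_true] at this
  simpa using this.2

theorem el_eq {t : Desc} (h : n.okD t = true) : el n Y t = T d Y (n.L t) := by
  rw [el, ND.W, ND.L, wval_append, wval_append, wval_invW, P.tab _ (Nat.le_of_ble_eq_true h), T, T,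
    wval_append]
  group

theorem el_mem {t : Desc} (h : n.okD t = true) : el n Y t ∈ DD d := by
  rw [P.el_eq h]; exact mem_back _ (self_mem d)

theorem bit_app (w : List ℕ) (x i : ℕ) :
    (appW n.nets w x).testBit i = x.testBit (φ (wval Y w) i) := by
  rw [testBit_appW P.hv, map_wval' P.hφ]

theorem posI_eq {t : Desc} (h : n.okD t = true) : n.posI t = pos φ d (el n Y t) := by
  rw [ND.posI, backI_eq P.hv, P.el_eq h, T]
  have := P.pos_d (wval Y (n.L t))⁻¹
  rw [inv_inv] at this
  rw [this, map_inv, map_wval' P.hφ]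

theorem bit_ptm {t : Desc} (h : n.okD t = true) (i : ℕ) :
    (n.ptm t).testBit i = true ↔ i = pos φ d (el n Y t) := by
  rw [ND.ptm, testBit_pt, P.posI_eq h, decide_eq_true_iff]

theorem bit_ptm' {t : Desc} (h : n.okD t = true) {x : M} (hx : x ∈ DD d) :
    (n.ptm t).testBit (pos φ d x) = true ↔ x = el n Y t := by
  rw [P.bit_ptm h]
  exact ⟨P.pos_inj hx (P.el_mem h), fun e => by rw [e]⟩

theorem pos_eq {t : Desc} {p : ℕ} (h : (band (n.okD t) (Nat.beq (n.posI t) p)) = true) :
    pos φ d (el n Y t) = p := by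
  obtain ⟨h1, h2⟩ := band_eq h
  rw [← P.posI_eq h1]; exact Nat.eq_of_beq_eq_true h2

theorem cen {ws : List (List ℕ)} {ts : List Desc} (h : n.cenB ws ts = true) :
    ∀ w ∈ ws, ∀ t ∈ ts, Commute (wval Y w) (el n Y t) := by
  induction ts with
  | nil => simp
  | cons t ts ih =>
    obtain ⟨h1, h2⟩ := band_eq h
    obtain ⟨h0, h1⟩ := band_eq h1
    intro w hw u hu
    rcases List.mem_cons.1 hu with rfl | hu
    · rw [P.comm_iff (P.el_mem h0), ← P.posI_eq h0, map_wval' P.hφ]
      exact fix_of_fixI P.hv h1 w hw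
    · exact ih h2 w hw u hu

theorem eqB_iff {t u : Desc} (ht : n.okD t = true) (hu : n.okD u = true) :
    n.eqB t u = true ↔ el n Y t = el n Y u := by
  rw [ND.eqB, P.posI_eq ht, P.posI_eq hu, Nat.beq_eq]
  exact ⟨P.pos_inj (P.el_mem ht) (P.el_mem hu), fun e => by rw [e]⟩

theorem one {u v : List ℕ} (h : n.oneB u v = true) : wval Y u = wval Y v := by
  have := wval_eq_of_relsOn P.hv P.hK (relsOn_of_B _ _ _ _ 0 n.K n.K (by simp) h) (u, v)
    List.mem_cons_self
  rw [← mul_inv_eq_one]
  apply P.inj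
  rw [map_mul, map_inv, map_wval' P.hφ, map_wval' P.hφ, this, mul_inv_cancel]

theorem ne_one {w : List ℕ} {x : ℕ} (h : Nat.beq (appW n.nets w x) x = false) : wval Y w ≠ 1 := by
  intro e
  have : appW n.nets w x = x := Nat.eq_of_testBit_eq fun i => by rw [P.bit_app, e]; simp
  rw [this, Nat.beq_refl] at h
  exact Bool.noConfusion h

theorem ne_one' {w : List ℕ} {x : ℕ} (h : Nat.beq (backI n.nets w x) x = false) :
    wval Y w ≠ 1 := by
  intro e
  rw [backI_eq P.hv, ← map_wval' P.hφ, e, map_one] at h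
  simp at h

theorem bit_mov {w : List ℕ} {y : M} (hy : y ∈ DD d) (hc : Commute (wval Y w) y) {x : ℕ}
    (h : (n.mov w x).testBit (pos φ d y) = true) : x.testBit (pos φ d y) = true := by
  rw [P.comm_iff hy] at hc
  unfold ND.mov at h
  generalize n.K = j at h
  induction j generalizing x with
  | zero => exact h
  | succ j ih =>
    have := ih (x := x ||| (plane n.N n.K j ^^^ appW n.nets w (plane n.N n.K j))) h
    simpa [Nat.testBit_or, Nat.testBit_xor, P.bit_app, hc] using this

theorem bit_full {x : ℕ} (h : n.full x = true) {y : M} (hy : y ∈ DD d) :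
    x.testBit (pos φ d y) = true := by
  have e : ones n.N &&& x = ones n.N := Nat.eq_of_beq_eq_true h
  have := congrArg (fun z => Nat.testBit z (pos φ d y)) e
  simpa [Nat.testBit_and, testBit_ones, P.pos_lt hy] using this

theorem bit_union {ts : List Desc} (h : n.okL ts = true) {y : M} (hy : y ∈ DD d) {x : ℕ}
    (hx : (n.union ts x).testBit (pos φ d y) = true) :
    x.testBit (pos φ d y) = true ∨ ∃ t ∈ ts, y = el n Y t := by
  induction ts generalizing x with
  | nil => exact Or.inl hx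
  | cons t ts ih =>
    obtain ⟨h1, h2⟩ := band_eq h
    rcases ih h2 (x := x ||| n.ptm t) hx with h | ⟨u, hu, e⟩
    · rw [Nat.testBit_or, Bool.or_eq_true, P.bit_ptm' h1 hy] at h
      exact h.imp_right fun e => ⟨t, List.mem_cons_self, e⟩
    · exact Or.inr ⟨u, List.mem_cons_of_mem _ hu, e⟩

/-- Growing a set of points by words in `K`. -/
theorem bit_grow {K : Subgroup M} {ws : List (List ℕ)} (hws : ∀ w ∈ ws, wval Y w ∈ K)
    (seq : List ℕ) {x : ℕ} {y : M} (hy : y ∈ DD d)
    (h : (grow n.nets ws seq x).testBit (pos φ d y) = true) :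
    ∃ g ∈ K, x.testBit (pos φ d (g * y * g⁻¹)) = true := by
  induction seq generalizing x with
  | nil => exact ⟨1, K.one_mem, by rw [one_mul, inv_one, mul_one]; exact h⟩
  | cons j seq ih =>
    obtain ⟨g, hg, h⟩ := ih (x := x ||| appW n.nets (getW ws j) x) h
    rw [Nat.testBit_or, Bool.or_eq_true] at h
    rcases h with h | h
    · exact ⟨g, hg, h⟩
    · rw [P.bit_app, ← P.pos_conj (conj_mem hy g), ← conj_mul'] at h
      refine ⟨_, K.mul_mem ?_ hg, h⟩
      rcases getW_mem_or ws j with h' | h'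
      · exact hws _ h'
      · rw [h']; exact K.one_mem

theorem orbit {K : Subgroup M} {ws : List (List ℕ)} (hws : ∀ w ∈ ws, wval Y w ∈ K)
    (s : List (ℕ × ℕ) × List ℕ) {t : Desc} (ht : n.okD t = true) {y : M} (hy : y ∈ DD d)
    (h : (growE n.nets ws s (n.ptm t)).testBit (pos φ d y) = true) :
    ∃ g ∈ K, g * el n Y t * g⁻¹ = y := by
  obtain ⟨_, ⟨g, hg, rfl⟩, e⟩ := inOrb_growE P.hv (A := K.map φ)
    (fun w hw => ⟨_, hws w hw, map_wval' P.hφ w⟩) s (inOrb_pt _ (n.posI t)) _ h
  rw [P.posI_eq ht, ← P.pos_conj (P.el_mem ht)] at e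
  exact ⟨g, hg, P.pos_inj (conj_mem (P.el_mem ht) g) hy e⟩

omit P in
theorem finite_range [Finite M] : Finite φ.range := Finite.of_surjective _ φ.rangeRestrict_surjective

theorem card_range : Nat.card (fixer φ.range []) = Nat.card M := by
  rw [fixer_nil]
  exact (Nat.card_congr (MonoidHom.ofInjective
    ((injective_iff_map_eq_one φ).2 P.inj)).toEquiv).symm

theorem card_fixer_le [Finite M] (ws : List (List ℕ)) (bs : List ℕ) (b : ℕ) (seq : List ℕ)
    (lo len k : ℕ) (h : levelB n.nets ws bs b seq lo len k = true) {m : ℕ}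
    (hm : Nat.card (fixer φ.range bs) < k * (m + 1)) : Nat.card (fixer φ.range (b :: bs)) ≤ m := by
  have := finite_range (φ := φ)
  have h1 := le_card_fixer P.hv ws (wval_mem_range P.hφ ws) bs b seq lo len k h le_rfl
  exact Nat.lt_succ_iff.1 (Nat.lt_of_mul_lt_mul_left (h1.trans_lt hm))

theorem card_fixer_leI [Finite M] (ws : List (List ℕ)) (bs : List ℕ) (b : ℕ)
    (s : List (ℕ × ℕ) × List ℕ) (lo len k : ℕ) (h : levelI n.nets ws bs b s lo len k = true) {m : ℕ}
    (hm : Nat.card (fixer φ.range bs) < k * (m + 1)) : Nat.card (fixer φ.range (b :: bs)) ≤ m := by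
  have := finite_range (φ := φ)
  have h1 := le_card_fixerI P.hv ws (wval_mem_range P.hφ ws) bs b s lo len k h le_rfl
  exact Nat.lt_succ_iff.1 (Nat.lt_of_mul_lt_mul_left (h1.trans_lt hm))

theorem finite_gp [Finite M] (ws : List (List ℕ)) : Finite (gp n.nets.perm ws) := by
  rw [← map_gp' P.hφ]
  exact Finite.of_surjective _ (φ.subgroupMap_surjective _)

theorem mem_gp_of_card [Finite M] {ws : List (List ℕ)} {ps : List ℕ} {m : ℕ}
    (h1 : fixPtsI n.nets ws ps = true) (h2 : Nat.card (fixer φ.range ps) ≤ m)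
    (h3 : m ≤ Nat.card (fixer (gp n.nets.perm ws) [])) {g : M} (hg : ∀ p ∈ ps, φ g p = p) :
    g ∈ gp Y ws := by
  have := finite_range (φ := φ)
  have := finite_fixer (A := φ.range) ps
  rw [fixer_nil] at h3
  have hle : gp n.nets.perm ws ≤ fixer φ.range ps := gp_le.2 fun w hw =>
    ⟨wval_mem_range P.hφ ws w hw, fix_of_fixPtsI P.hv h1 w hw⟩
  have e := eq_of_le_of_card_ge hle (h2.trans h3)
  have : φ g ∈ gp n.nets.perm ws := e ▸ ⟨⟨g, rfl⟩, hg⟩
  rw [← map_gp' P.hφ] at this
  obtain ⟨k, hk, e'⟩ := this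
  rwa [← (injective_iff_map_eq_one φ).2 P.inj e']

/-- The neighbours of the base point, from the two suborbits. -/
theorem toPM {K : Subgroup (Equiv.Perm ℕ)} (hK : K ≤ (centralizer ({d} : Set M)).map φ) {r : ℕ}
    (o0 : InOrb K 1 (ivl 1 n.k0)) (o1 : InOrb K (n.k0 + 1) (ivl (n.k0 + 1) r))
    (hr : n.N ≤ n.k0 + 1 + r) {g0 g1 : M} (h0 : Commute (g0 * d * g0⁻¹) d) (h0' : 1 ≤ φ g0 0)
    (h0'' : φ g0 0 ≤ n.k0) (h1 : ¬ Commute (g1 * d * g1⁻¹) d) (h1' : n.k0 < φ g1 0) :
    PM n Y φ d := by
  have key : ∀ {b x : ℕ} {g g' : M}, InOrb K b x → x.testBit (φ g 0) = true →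
      x.testBit (φ g' 0) = true → Commute (g * d * g⁻¹) d → Commute (g' * d * g'⁻¹) d := by
    intro b x g g' ho e1 e2 hc
    obtain ⟨_, h1, e1⟩ := ho _ e1
    obtain ⟨_, h2, e2⟩ := ho _ e2
    obtain ⟨c, hc1, rfl⟩ := hK h1
    obtain ⟨c', hc2, rfl⟩ := hK h2
    have hc3 : Commute (c' * c⁻¹) d := mem_centralizer_singleton_iff.1
      (mul_mem hc2 (inv_mem hc1))
    have : φ (c' * c⁻¹ * g) 0 = φ g' 0 := by
      rw [map_mul, map_mul, Equiv.Perm.mul_apply, Equiv.Perm.mul_apply, ← e1, ← e2]; simp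
    rw [P.apply_eq_iff] at this
    rw [← this, conj_mul', ← conj_eq_of_commute hc3]
    rw [conj_eq_of_commute hc3]; nth_rewrite 2 [← conj_eq_of_commute hc3]
    exact commute_conj hc _
  refine ⟨P, fun g => ⟨fun h => ?_, fun h => ?_⟩⟩
  · by_contra hlt
    have := P.lt g
    have := P.lt g1
    exact h1 (key o1 (by rw [testBit_ivl]; simp; omega) (by rw [testBit_ivl]; simp; omega) h)
  · by_cases e : φ g 0 = 0
    · rw [conj_eq_of_commute ((P.stab g).1 e)]
    · exact key o0 (by rw [testBit_ivl]; simp; omega) (by rw [testBit_ivl]; simp; omega) h0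

end PM0

theorem bit_sub {x y i : ℕ} (h : subB x y = true) (hi : x.testBit i = true) : y.testBit i = true := by
  have e : x &&& y = x := Nat.eq_of_beq_eq_true h
  rw [← e, Nat.testBit_and] at hi
  exact (Bool.and_eq_true _ _ ▸ hi : _ ∧ _).2

theorem okL_mem {ts : List Desc} (h : n.okL ts = true) : ∀ t ∈ ts, n.okD t = true := by
  induction ts with
  | nil => simp
  | cons t ts ih =>
    obtain ⟨h1, h2⟩ := band_eq h
    intro u hu
    rcases List.mem_cons.1 hu with rfl | hu
    exacts [h1, ih h2 u hu]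

/-- The common centraliser of the listed members. -/
def cenL (n : ND) (Y : ℕ → M) (ts : List Desc) : Subgroup M where
  carrier := {g | ∀ t ∈ ts, Commute g (el n Y t)}
  one_mem' := fun _ _ => Commute.one_left _
  mul_mem' := fun hg hk t ht => (hg t ht).mul_left (hk t ht)
  inv_mem' := fun hg t ht => (hg t ht).inv_left

namespace PM
variable (P : PM n Y φ d)
include P

theorem bit_nbm {t : Desc} (h : n.okD t = true) {x : M} (hx : x ∈ DD d) :
    (n.nbm t).testBit (pos φ d x) = true ↔ Commute x (el n Y t) := by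
  obtain ⟨c, rfl⟩ := isConj_iff.1 hx
  rw [ND.nbm, P.bit_app, testBit_ones, P.pos_d, ← Equiv.Perm.mul_apply, ← map_mul,
    decide_eq_true_iff, Nat.lt_succ_iff, ← P.nb, P.el_eq h, T, conj_mul',
    ← commute_conj_iff (a := c * d * c⁻¹) (wval Y (n.L t))]
  congr! 1
  group

theorem comB_iff {t u : Desc} (ht : n.okD t = true) (hu : n.okD u = true) :
    n.comB t u = true ↔ Commute (el n Y t) (el n Y u) := by
  rw [← P.bit_nbm hu (P.el_mem ht), ND.comB, bitB_eq, P.posI_eq ht]

theorem adj {t u : Desc} (h : n.adjB t u = true) : Adj d (el n Y t) (el n Y u) := by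
  obtain ⟨h1, h2⟩ := band_eq h
  obtain ⟨ht, hu⟩ := band_eq h1
  obtain ⟨h3, h4⟩ := band_eq h2
  refine ⟨P.el_mem ht, P.el_mem hu, fun e => ?_, (P.comB_iff ht hu).1 h3⟩
  rw [(P.eqB_iff ht hu).2 e] at h4
  exact Bool.noConfusion h4

theorem ncomm {t u : Desc} (h : (band (band (n.okD t) (n.okD u)) (!n.comB t u)) = true) :
    ¬ Commute (el n Y t) (el n Y u) := by
  obtain ⟨h1, h2⟩ := band_eq h
  obtain ⟨ht, hu⟩ := band_eq h1
  intro e
  rw [(P.comB_iff ht hu).2 e] at h2
  exact Bool.noConfusion h2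

theorem bit_inter {ts : List Desc} (h : n.okL ts = true) {y : M} (hy : y ∈ DD d)
    (hc : ∀ t ∈ ts, Commute y (el n Y t)) {x : ℕ} (hx : x.testBit (pos φ d y) = true) :
    (n.inter ts x).testBit (pos φ d y) = true := by
  induction ts generalizing x with
  | nil => exact hx
  | cons t ts ih =>
    obtain ⟨h1, h2⟩ := band_eq h
    refine ih h2 (fun u hu => hc u (List.mem_cons_of_mem _ hu)) (x := x &&& n.nbm t) ?_
    rw [Nat.testBit_and, hx, (P.bit_nbm h1 hy).2 (hc t List.mem_cons_self)]; rfl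

theorem bit_ones {y : M} (hy : y ∈ DD d) : (ones n.N).testBit (pos φ d y) = true := by
  rw [testBit_ones]; simpa using P.pos_lt hy

end PM

noncomputable def ND.nbu (n : ND) (us : List Desc) : ℕ :=
  List.rec (motive := fun _ => ℕ) 0 (fun u _ ih => Nat.lor (n.nbm u) ih) us

theorem PM.bit_nbu (P : PM n Y φ d) {us : List Desc} (o : n.okL us = true) {y : M} (hy : y ∈ DD d)
    (h : (n.nbu us).testBit (pos φ d y) = true) : ∃ t ∈ us, Commute y (el n Y t) := by
  induction us with
  | nil => exact Bool.noConfusion ((Nat.zero_testBit _).symm.trans h)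
  | cons u us ih =>
    obtain ⟨o5, o6⟩ := band_eq o
    change Nat.testBit (_ ||| _) _ = true at h
    rw [Nat.testBit_or, Bool.or_eq_true, P.bit_nbm o5 hy] at h
    rcases h with h | h
    · exact ⟨u, List.mem_cons_self, h⟩
    · obtain ⟨t, ht, h⟩ := ih o6 h
      exact ⟨t, List.mem_cons_of_mem _ ht, h⟩

/-- The common neighbours of `ts` are listed in `es`, commute with one of `us`, or lie in `x`. -/
noncomputable def subsB (n : ND) (ts es us : List Desc) (x : ℕ) : Bool :=
  band (band (band (n.okL ts) (n.okL es)) (n.okL us))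
    (subB (n.inter ts (ones n.N)) (n.union es (Nat.lor x (n.nbu us))))

theorem PM.subs (P : PM n Y φ d) {ts es us : List Desc} {x : ℕ} (h : subsB n ts es us x = true)
    {y : M} (hy : y ∈ DD d) (hc : ∀ t ∈ ts, Commute y (el n Y t)) :
    x.testBit (pos φ d y) = true ∨ (∃ t ∈ es, y = el n Y t) ∨ ∃ t ∈ us, Commute y (el n Y t) := by
  obtain ⟨h1, h4⟩ := band_eq h
  obtain ⟨h1, o3⟩ := band_eq h1
  obtain ⟨o1, o2⟩ := band_eq h1
  rcases P.bit_union o2 hy (bit_sub h4 (P.bit_inter o1 hy hc (P.bit_ones hy))) with h | h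
  · change Nat.testBit (_ ||| _) _ = true at h
    rw [Nat.testBit_or, Bool.or_eq_true] at h
    exact h.imp_right fun h => Or.inr (P.bit_nbu o3 hy h)
  · exact Or.inr (Or.inl h)

noncomputable def orbB (n : ND) (ts es us : List Desc) (ws : List (List ℕ)) (cs : List Desc)
    (seq : List (ℕ × ℕ) × List ℕ) (t : Desc) : Bool :=
  band (band (n.okD t) (n.cenB ws cs)) (subsB n ts es us (growE n.nets ws seq (n.ptm t)))

theorem PM.orb (P : PM n Y φ d) {ts es us : List Desc} {ws : List (List ℕ)} {cs : List Desc}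
    {seq : List (ℕ × ℕ) × List ℕ} {t : Desc} (h : orbB n ts es us ws cs seq t = true) {y : M} (hy : y ∈ DD d)
    (hc : ∀ t ∈ ts, Commute y (el n Y t)) :
    (∃ g, (∀ c ∈ cs, Commute g (el n Y c)) ∧ g * el n Y t * g⁻¹ = y) ∨
      (∃ t ∈ es, y = el n Y t) ∨ ∃ t ∈ us, Commute y (el n Y t) := by
  obtain ⟨h1, h2⟩ := band_eq h
  obtain ⟨o, h1⟩ := band_eq h1
  exact (P.subs h2 hy hc).imp_left fun h => P.orbit (K := cenL n Y cs) (P.cen h1) seq o hy h

end Cfsg.Agent.Lib.FisPM
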