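import Cfsg.Agent.Lib.FisLoc

/-! The recognition theorem from facts about representatives. -/

set_option autoImplicit false

namespace Cfsg.Agent.Lib.FisPrim

open Cfsg Subgroup Cfsg.Agent.Lib.FisCore Cfsg.Agent.Lib.FisLoc

universe u
variable {M : Type*} [Group M] {G : Type u} [Group G]

/-- `v` is a product of at most three commuting neighbours of `d`. -/
def Small (d v : M) : Prop := v = 1 ∨ Adj d d v ∨
  (∃ x y, Adj d d x ∧ Adj d d y ∧ Adj d x y ∧ v = x * y) ∨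
  ∃ x y w, Adj d d x ∧ Adj d d y ∧ Adj d d w ∧ Adj d x y ∧ Adj d x w ∧ Adj d y w ∧ v = x * y * w

structure Geo (d a c s : M) (E : List M) : Prop where
  sq : d * d = 1
  ha : Adj d d a
  hc1 : Adj d d c
  hc2 : Adj d a c
  hs1 : Adj d d s
  hs2 : Adj d a s
  hs3 : Adj d c s
  t1 : ∀ x, Adj d d x → ∃ h, Commute h d ∧ h * a * h⁻¹ = x
  t2 : ∀ x, Adj d d x → Adj d a x → ∃ h, Commute h d ∧ Commute h a ∧ h * c * h⁻¹ = x
  t3 : ∀ x, Adj d d x → Adj d a x → Adj d c x →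
    x ∈ E ∨ ∃ h, Commute h d ∧ Commute h a ∧ Commute h c ∧ h * s * h⁻¹ = x
  hE : ∀ e ∈ E, ∃ p q, Adj d d p ∧ Adj d d q ∧ Adj d p q ∧ d * a * c * e = p * q
  hs : ∃ x y w, Adj d x y ∧ Adj d x w ∧ Adj d y w ∧ Commute x (d * a) ∧ Commute y (d * a) ∧
    Commute w (d * a) ∧ d * a * c * s = x * y * w
  fix2 : ∀ x ∈ DD d, Commute x (d * a) → Commute x d
  fix3 : ∀ x ∈ DD d, Commute x (d * a * c) → Commute x d

structure Prim (d a c s i j : M) (E : List M) (k : ℕ) : Prop extends Geo d a c s E where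
  hi : Adj d d i
  hai : Commute a i
  hj : j ∈ DD d
  hja : Commute j a
  hji : Commute j i
  hjd : ¬ Commute j d
  braid : d * j * d = j * d * j
  r1 : ∀ x ∈ DD d, ¬ Commute x d → ∃ h, Commute h d ∧ h * j * h⁻¹ = x
  r2 : ∀ x ∈ DD d, Commute x a → ¬ Commute x d →
    ∃ h, Commute h d ∧ Commute h a ∧ h * j * h⁻¹ = x
  sq2 : ∃ g, Commute g d ∧ g * g = a * c
  sq3 : ∃ g, Commute g d ∧ g * g = d * (a * c)
  sq4 : ∃ g, Commute g d ∧ g * g = a * c * s
  sq5 : ∃ g, Commute g d ∧ g * g = d * (a * c * s)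
  sep : ∀ x ∈ DD d, Commute x d → Commute x a → ¬ Commute x c →
    ∃ t ∈ DD d, Commute t d ∧ Commute t a ∧ Commute t c ∧ t ≠ c ∧ ¬ Commute t x
  twin : Twin d a i j
  genX : ∀ K : Subgroup M, (∀ x ∈ DD d, Commute x d → Commute x a → x ∈ K) →
    ∀ g, Commute g d → Commute g a → g ∈ K
  genH : ∀ K : Subgroup M, (∀ x ∈ DD d, Commute x d → x ∈ K) → ∀ g, Commute g d → g ∈ K
  genM : ∀ K : Subgroup M, (∀ g, Commute g d → g ∈ K) → j ∈ K → K = ⊤
  genY : ∀ K : Subgroup M, (∀ b, Commute b d → Commute b j → Commute b a ∨ Commute b i → b ∈ K) →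
    ∀ g, Commute g d → Commute g j → g ∈ K
  cover : ∀ x ∈ DD d, ∃ y, Commute y d ∧ Commute y j ∧ Commute x (y * a * y⁻¹)
  cnt : {x | x ∈ DD d ∧ Commute x d ∧ Commute x a}.ncard ≤ k
  big : (3 + E.length) * k < (DD d).ncard
  nsq : ∀ g : M, g * g ≠ d
  f1 : ∀ u, Commute u d → u * u = 1 → Small d u ∨ Small d (d * u)
  q1 : ∀ u : M, u * u = 1 → ∃ x ∈ DD d, Commute u x
  sw : (∃ θ : M → M, Loc0 d θ ∧ θ d = d ∧ ∃ a g, Adj d d a ∧ Adj d d g ∧ θ a = d * g) ∨
    ∃ g, Commute g d ∧ g * g = d * a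
  rigid : Rigid d a

variable {d a c s i j : M} {E : List M} {k : ℕ}

theorem adj_back {x y : M} (g : M) (h : Adj d (g * x * g⁻¹) y) : Adj d x (g⁻¹ * y * g) := by
  have := h.conj g⁻¹
  rwa [inv_inv, show g⁻¹ * (g * x * g⁻¹) * g = x by group] at this

theorem Geo.conj2 (P : Geo d a c s E) {x y : M} (h : Adj d x y) :
    ∃ g, g * d * g⁻¹ = x ∧ g * a * g⁻¹ = y := by
  obtain ⟨m, rfl⟩ := isConj_iff.1 h.1
  obtain ⟨g, hg, e⟩ := P.t1 _ (adj_back m h)
  refine ⟨m * g, ?_, ?_⟩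
  · rw [← conj_eq_of_commute hg]; rw [conj_eq_of_commute hg]; nth_rewrite 2 [← conj_eq_of_commute hg]
    group
  · calc m * g * a * (m * g)⁻¹ = m * (g * a * g⁻¹) * m⁻¹ := by group
      _ = y := by rw [e]; group

theorem conj_mul' (m g x : M) : m * g * x * (m * g)⁻¹ = m * (g * x * g⁻¹) * m⁻¹ := by group

theorem Geo.conj3 (P : Geo d a c s E) {x y w : M} (h1 : Adj d x y) (h2 : Adj d x w)
    (h3 : Adj d y w) : ∃ g, g * d * g⁻¹ = x ∧ g * a * g⁻¹ = y ∧ g * c * g⁻¹ = w := by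
  obtain ⟨m, rfl, rfl⟩ := P.conj2 h1
  obtain ⟨g, g1, g2, e⟩ := P.t2 _ (adj_back m h2) (adj_back m h3)
  refine ⟨m * g, ?_, ?_, ?_⟩
  · rw [conj_mul', conj_eq_of_commute g1]
  · rw [conj_mul', conj_eq_of_commute g2]
  · rw [conj_mul', e]; group

theorem commute_back {x y : M} (g : M) (h : Commute x (g * y * g⁻¹)) : Commute (g⁻¹ * x * g) y := by
  simpa [mul_assoc] using commute_conj h g⁻¹

theorem commute_fwd {x y : M} (g : M) (h : Commute (g⁻¹ * x * g) y) : Commute x (g * y * g⁻¹) := by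
  simpa [mul_assoc] using commute_conj h g

theorem mem_back {x : M} (g : M) (h : x ∈ DD d) : g⁻¹ * x * g ∈ DD d := by
  simpa using conj_mem h g⁻¹

theorem Geo.q2 (P : Geo d a c s E) (x y t : M) (h : Adj d x y) (ht : t ∈ DD d)
    (hc : Commute t (x * y)) : Commute t x := by
  obtain ⟨m, rfl, rfl⟩ := P.conj2 h
  exact commute_fwd m (P.fix2 _ (mem_back m ht) (commute_back m (by rwa [conj_mul] at hc)))

theorem Geo.q3 (P : Geo d a c s E) {x y w t : M} (h1 : Adj d x y) (h2 : Adj d x w)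
    (h3 : Adj d y w) (ht : t ∈ DD d) (hc : Commute t (x * y * w)) :
    Commute t x ∧ Commute t y ∧ Commute t w := by
  have key : ∀ {x y w : M}, Adj d x y → Adj d x w → Adj d y w → Commute t (x * y * w) →
      Commute t x := fun h1 h2 h3 hc => by
    obtain ⟨m, rfl, rfl, rfl⟩ := P.conj3 h1 h2 h3
    exact commute_fwd m (P.fix3 _ (mem_back m ht)
      (commute_back m (by rwa [conj_mul, conj_mul] at hc)))
  refine ⟨key h1 h2 h3 hc, key h1.symm h3 h2 (by rwa [← h1.2.2.2.eq]),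
    key h2.symm h3.symm h1 ?_⟩
  rwa [← h2.2.2.2.eq, mul_assoc, ← h3.2.2.2.eq, ← mul_assoc]

/-- An involution commuting with `d` that is a product of at most three commuting transpositions. -/
theorem Geo.small (P : Geo d a c s E) {u : M} (hu : Commute u d)
    (h : u = 1 ∨ u ∈ DD d ∨ IsPair d u ∨ IsTrip d u) : Small d u ∨ Small d (d * u) := by
  have hd := self_mem d
  rcases h with rfl | h | ⟨x, y, h, rfl⟩ | ⟨x, y, w, h1, h2, h3, rfl⟩
  · exact Or.inl (Or.inl rfl)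
  · by_cases e : d = u
    · exact Or.inr (Or.inl (by rw [← e, P.sq]))
    · exact Or.inl (Or.inr (Or.inl ⟨hd, h, e, hu.symm⟩))
  · have c1 := P.q2 x y d h hd hu.symm
    have c2 := P.q2 y x d h.symm hd (h.2.2.2.eq ▸ hu.symm)
    by_cases e1 : d = x
    · subst e1
      exact Or.inr (Or.inr (Or.inl (by rwa [← mul_assoc, P.sq, one_mul])))
    by_cases e2 : d = y
    · subst e2
      exact Or.inr (Or.inr (Or.inl (by
        rw [h.2.2.2.eq, ← mul_assoc, P.sq, one_mul]; exact h.symm)))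
    exact Or.inl (Or.inr (Or.inr (Or.inl
      ⟨x, y, ⟨hd, h.1, e1, c1⟩, ⟨hd, h.2.1, e2, c2⟩, h, rfl⟩)))
  · obtain ⟨c1, c2, c3⟩ := P.q3 h1 h2 h3 hd hu.symm
    by_cases e1 : d = x
    · subst e1
      exact Or.inr (Or.inr (Or.inr (Or.inl ⟨y, w, h1, h2, h3, by
        rw [← mul_assoc, ← mul_assoc, P.sq, one_mul]⟩)))
    by_cases e2 : d = y
    · subst e2
      exact Or.inr (Or.inr (Or.inr (Or.inl ⟨x, w, h1.symm, h3, h2, by
        rw [h1.2.2.2.eq, ← mul_assoc, ← mul_assoc, P.sq, one_mul]⟩)))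
    by_cases e3 : d = w
    · subst e3
      exact Or.inr (Or.inr (Or.inr (Or.inl ⟨x, y, h2.symm, h3.symm, h1, by
        rw [← (c1.mul_right c2).eq, ← mul_assoc, P.sq, one_mul]⟩)))
    exact Or.inl (Or.inr (Or.inr (Or.inr ⟨x, y, w, ⟨hd, h1.1, e1, c1⟩, ⟨hd, h1.2.1, e2, c2⟩,
      ⟨hd, h2.2.1, e3, c3⟩, h1, h2, h3, rfl⟩)))

/-- `u` is a square in the centraliser of `d`. -/
def Sq (d u : M) : Prop := ∃ g, Commute g d ∧ g * g = u

theorem Sq.conj {u g : M} (h : Sq d u) (hg : g * d * g⁻¹ = d) : Sq d (g * u * g⁻¹) := by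
  obtain ⟨x, hx, rfl⟩ := h
  exact ⟨g * x * g⁻¹, hg ▸ commute_conj hx g, by group⟩

theorem Prim.sq_pair (P : Prim d a c s i j E k) {x y : M} (h1 : Adj d d x) (h2 : Adj d d y)
    (h3 : Adj d x y) : Sq d (x * y) ∧ Sq d (d * (x * y)) := by
  obtain ⟨g, e, rfl, rfl⟩ := P.conj3 h1 h2 h3
  refine ⟨by rw [conj_mul]; exact Sq.conj P.sq2 e, ?_⟩
  nth_rewrite 2 [← e]
  rw [conj_mul, conj_mul]; exact Sq.conj P.sq3 e

theorem Prim.sq_trip (P : Prim d a c s i j E k) {x y w : M} (h1 : Adj d d x) (h2 : Adj d d y)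
    (h3 : Adj d d w) (h4 : Adj d x y) (h5 : Adj d x w) (h6 : Adj d y w) :
    Sq d (x * y * w) ∧ Sq d (d * (x * y * w)) := by
  obtain ⟨g, e, rfl, rfl⟩ := P.conj3 h1 h2 h4
  obtain ⟨w, rfl⟩ : ∃ v, w = g * v * g⁻¹ := ⟨g⁻¹ * w * g, by group⟩
  suffices h : Sq d (a * c * w) ∧ Sq d (d * (a * c * w)) by
    refine ⟨by rw [conj_mul, conj_mul]; exact h.1.conj e, ?_⟩
    nth_rewrite 2 [← e]
    rw [conj_mul, conj_mul, conj_mul]; exact h.2.conj e
  nth_rewrite 2 [← e] at h3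
  rcases P.t3 w (by simpa [mul_assoc] using adj_back g h3) (by simpa [mul_assoc] using adj_back g h5)
    (by simpa [mul_assoc] using adj_back g h6) with h | ⟨h, c1, c2, c3, rfl⟩
  · obtain ⟨p, q, p1, p2, p3, e'⟩ := P.hE w h
    have := P.sq_pair p1 p2 p3
    rw [← e'] at this
    refine ⟨?_, by simpa [mul_assoc] using this.1⟩
    have h2 := this.2
    rwa [← mul_assoc, ← mul_assoc, ← mul_assoc, P.sq, one_mul] at h2
  · have e1 := conj_eq_of_commute c1
    constructor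
    · rw [← conj_eq_of_commute c2, ← conj_eq_of_commute c3, conj_mul, conj_mul]
      exact Sq.conj P.sq4 e1
    · nth_rewrite 2 [← e1]
      rw [← conj_eq_of_commute c2, ← conj_eq_of_commute c3, conj_mul, conj_mul, conj_mul]
      exact Sq.conj P.sq5 e1

theorem Prim.s2 (P : Prim d a c s i j E k) : S2 d := by
  refine ⟨P.sq, P.nsq, fun u hu hu2 => ?_, fun x y hx hy => ?_,
    ⟨a, c, P.ha, P.hc1, P.hc2, P.sq2⟩, P.sw.imp_right fun h t ht => ?_⟩
  · have e : d * (d * u) = u := by rw [← mul_assoc, P.sq, one_mul]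
    rcases P.f1 u hu hu2 with (rfl | h | ⟨x, y, h1, h2, h3, rfl⟩ | ⟨x, y, w, h1, h2, h3, h4, h5, h6, rfl⟩) |
      (h | h | ⟨x, y, h1, h2, h3, h⟩ | ⟨x, y, w, h1, h2, h3, h4, h5, h6, h⟩)
    · exact Or.inr (Or.inr ⟨1, Commute.one_left _, mul_one 1⟩)
    · exact Or.inl h.2.1
    · exact Or.inr (Or.inr (P.sq_pair h1 h2 h3).1)
    · exact Or.inr (Or.inr (P.sq_trip h1 h2 h3 h4 h5 h6).1)
    · rw [h, mul_one] at e; exact Or.inl (e ▸ self_mem d)
    · exact Or.inr (Or.inl h.2.1)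
    · rw [← e, h]; exact Or.inr (Or.inr (P.sq_pair h1 h2 h3).2)
    · rw [← e, h]; exact Or.inr (Or.inr (P.sq_trip h1 h2 h3 h4 h5 h6).2)
  · obtain ⟨g, hg, rfl⟩ := P.t1 x hx
    obtain ⟨h, hh, rfl⟩ := P.t1 y hy
    exact ⟨h * g⁻¹, hh.mul_left hg.inv_left, by group⟩
  · obtain ⟨g, hg, rfl⟩ := P.t1 t ht
    have := Sq.conj h (conj_eq_of_commute hg)
    rwa [← conj_mul, conj_eq_of_commute hg] at this

theorem Prim.nsq' (P : Prim d a c s i j E k) {x : M} (hx : x ∈ DD d) (g : M) : g * g ≠ x := by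
  obtain ⟨m, rfl⟩ := isConj_iff.1 hx
  intro e
  refine P.nsq (m⁻¹ * g * m) ?_
  calc m⁻¹ * g * m * (m⁻¹ * g * m) = m⁻¹ * (g * g) * m := by group
    _ = d := by rw [e]; group

theorem Prim.pair_sq (P : Prim d a c s i j E k) (x y : M) (h : Adj d x y) : ∃ g, g * g = x * y := by
  obtain ⟨g, rfl, rfl⟩ := P.conj2 h
  obtain ⟨m, e1, e2⟩ := P.conj2 P.hc2
  obtain ⟨t, -, e⟩ := P.sq2
  refine ⟨g * m⁻¹ * t * (g * m⁻¹)⁻¹, ?_⟩
  rw [conj_mul, e, ← e2]; nth_rewrite 1 [← e1]; group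

theorem Prim.trip_nD (P : Prim d a c s i j E k) (u : M) (h : IsTrip d u) : u ∉ DD d := by
  obtain ⟨x, y, w, h1, h2, h3, rfl⟩ := h
  obtain ⟨g, rfl, rfl, rfl⟩ := P.conj3 h1 h2 h3
  obtain ⟨t, -, e⟩ := P.sq3
  intro hD
  refine P.nsq' hD (g * t * g⁻¹) ?_
  rw [conj_mul, e]; group

theorem Prim.pair_nD (P : Prim d a c s i j E k) {u : M} (h : IsPair d u) : u ∉ DD d := by
  obtain ⟨x, y, h, rfl⟩ := h
  obtain ⟨g, e⟩ := P.pair_sq x y h
  exact fun hD => P.nsq' hD g e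

theorem Geo.four (P : Geo d a c s E) {x : M} (hx : x ∈ DD d) (hc : Commute x (d * a * c)) :
    x ∈ d :: a :: c :: E ∨ IsTrip d (d * a * c * x) := by
  obtain ⟨c1, c2, c3⟩ := P.q3 P.ha P.hc1 P.hc2 hx hc
  by_cases e1 : d = x
  · simp [e1]
  by_cases e2 : a = x
  · simp [e2]
  by_cases e3 : c = x
  · simp [e3]
  rcases P.t3 x ⟨self_mem d, hx, e1, c1.symm⟩ ⟨P.ha.2.1, hx, e2, c2.symm⟩
    ⟨P.hc1.2.1, hx, e3, c3.symm⟩ with h | ⟨h, k1, k2, k3, rfl⟩
  · simp [h]
  · right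
    obtain ⟨p, q, r, h1, h2, h3, -, -, -, e⟩ := P.hs
    have : IsTrip d (h * (d * a * c * s) * h⁻¹) := IsTrip.conj ⟨p, q, r, h1, h2, h3, e⟩ h
    rwa [← conj_mul, conj_eq_of_commute ((k1.mul_right k2).mul_right k3)] at this

theorem Prim.trip_nPair (P : Prim d a c s i j E k) {u : M} (h : IsTrip d u) : ¬ IsPair d u := by
  obtain ⟨x, y, w, h1, h2, h3, rfl⟩ := h
  obtain ⟨g, rfl, rfl, rfl⟩ := P.conj3 h1 h2 h3
  intro h
  have h := h.conj g⁻¹
  rw [conj_mul, conj_mul, show g⁻¹ * (g * (d * a * c) * g⁻¹) * g⁻¹⁻¹ = d * a * c by group] at h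
  obtain ⟨p, q, hpq, e⟩ := h
  have hq : d * a * c * p = q := by
    rw [e, hpq.2.2.2.eq, mul_assoc, mul_self P.sq hpq.1, mul_one]
  have hD : d * a * c * p ∈ DD d := hq ▸ hpq.2.1
  have cda := P.ha.2.2.2
  have cdc := P.hc1.2.2.2
  have cac := P.hc2.2.2.2
  rcases P.four hpq.1 (e ▸ (Commute.refl p).mul_right hpq.2.2.2) with h | h
  · simp only [List.mem_cons] at h
    rcases h with rfl | rfl | rfl | h
    · rw [← ((Commute.refl p).mul_right cda |>.mul_right cdc).eq, ← mul_assoc, ← mul_assoc, P.sq,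
        one_mul] at hD
      exact P.pair_nD ⟨_, _, P.hc2, rfl⟩ hD
    · rw [mul_assoc, ← cac.eq, mul_assoc, ← mul_assoc p, mul_self P.sq P.ha.2.1, one_mul] at hD
      exact P.pair_nD ⟨_, _, P.hc1, rfl⟩ hD
    · rw [mul_assoc, mul_self P.sq P.hc1.2.1, mul_one] at hD
      exact P.pair_nD ⟨_, _, P.ha, rfl⟩ hD
    · obtain ⟨p', q', -, -, h3, e'⟩ := P.hE p h
      exact P.pair_nD ⟨_, _, h3, e'⟩ hD
  · exact P.trip_nD _ h hD

theorem Prim.three (P : Prim d a c s i j E k) {x y : M} (hx : x ∈ DD d) (hy : y ∈ DD d)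
    (h : ¬ Commute x y) : (x * y) ^ 3 = 1 := by
  obtain ⟨m, rfl⟩ := isConj_iff.1 hy
  obtain ⟨g, hg, e⟩ := P.r1 _ (mem_back m hx) (fun h' => h (commute_fwd m h'))
  have e' : x = m * g * j * (m * g)⁻¹ := by rw [conj_mul', e]; group
  rw [e', ← conj_eq_of_commute hg, ← conj_mul', conj_mul, conj_pow]
  have : (j * d) ^ 3 = (j * d * j) * (d * j * d) := by simp only [pow_succ, pow_zero]; group
  rw [this, ← P.braid, show d * j * d * (d * j * d) = d * j * (d * d) * j * d by group, P.sq,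
    mul_one, mul_assoc d, mul_self P.sq P.hj, mul_one, P.sq]
  group

theorem eq_one_of_odd {Y : Subgroup M} (hY : Odd (Nat.card Y)) {g : M} (hg : g ∈ Y)
    (h : g * g = 1) : g = 1 := by
  have h3 : g ^ Nat.card Y = 1 := congrArg Subtype.val (pow_card_eq_one' (x := (⟨g, hg⟩ : Y)))
  have := pow_gcd_eq_one.2 ⟨(sq g).trans h, h3⟩
  rwa [Nat.coprime_two_left.2 hY, pow_one] at this

theorem commute_of_sq {g x : M} {n : ℕ} (hn : Odd n) (hg : g ^ n = 1) (h : Commute (g * g) x) :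
    Commute g x := by
  obtain ⟨r, rfl⟩ := hn
  have : g = (g * g) ^ (r + 1) := by
    rw [← sq, ← pow_mul, show 2 * (r + 1) = 2 * r + 1 + 1 by ring, pow_succ, hg, one_mul]
  rw [this]; exact h.pow_left _

theorem Prim.comm_j (P : Prim d a c s i j E k) {g : M} {n : ℕ} (hn : Odd n) (hg : g ^ n = 1)
    (h : ∀ x, Commute x d → Commute x a → Commute g x) : Commute g j := by
  have h1 := conj_eq_of_commute (h d (Commute.refl _) P.ha.2.2.2)
  rcases P.twin _ (conj_mem P.hj g) (fun x x1 _ x3 x4 => by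
    rw [← conj_eq_of_commute (h x x3 x1)]; exact commute_conj x4 g)
    (fun hc => P.hjd (by rwa [← h1, commute_conj_iff] at hc)) with e | e
  · exact commute_of_conj_eq e
  · refine commute_of_sq hn hg (commute_of_conj_eq ?_)
    rw [conj_mul', e, ← conj_mul, ← conj_mul, ← conj_inv, h1, e, inv_eq P.sq (self_mem d)]
    calc d * (d * j * d) * d = d * d * j * (d * d) := by group
      _ = j := by rw [P.sq]; group

theorem Prim.q4 [IsSimpleGroup M] (P : Prim d a c s i j E k) (Y : Subgroup M)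
    (hY : Odd (Nat.card Y)) (h1 : ∀ g ∈ Y, Commute g (d * a))
    (h2 : ∀ t ∈ DD d, Commute t d → Commute t a → ∀ g ∈ Y, t * g * t⁻¹ ∈ Y) : Y = ⊥ := by
  refine eq_bot_iff.2 fun g hg => ?_
  have hn : g ^ Nat.card Y = 1 := congrArg Subtype.val (pow_card_eq_one' (x := (⟨g, hg⟩ : Y)))
  have hd := self_mem d
  have ha2 := mul_self P.sq P.ha.2.1
  have hda : Commute g d ∧ Commute g a := by
    have e := conj_eq_of_commute (h1 g hg)
    rw [← conj_mul] at e
    have hA := P.ha.conj g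
    have k1 : Commute (g * d * g⁻¹) (d * a) := e ▸ (Commute.refl _).mul_right hA.2.2.2
    have e2 : g * d * g⁻¹ * (d * a) = g * a * g⁻¹ := by
      rw [← e, ← mul_assoc, mul_self P.sq hA.1, one_mul]
    have c1 := P.q2 _ _ _ P.ha hA.1 k1
    have c2 := P.q2 _ _ _ P.ha.symm hA.1 (P.ha.2.2.2.eq ▸ k1)
    by_cases e3 : g * d * g⁻¹ = d
    · exact ⟨commute_of_conj_eq e3, commute_of_conj_eq (by
        rw [← e2, e3, ← mul_assoc, P.sq, one_mul])⟩
    by_cases e4 : g * d * g⁻¹ = a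
    · have e5 : g * a * g⁻¹ = d := by rw [← e2, e4, P.ha.2.2.2.eq, ← mul_assoc, ha2, one_mul]
      exact absurd (conj_eq_of_commute (commute_of_sq hY hn (commute_of_conj_eq (by
        rw [conj_mul', e4, e5])))) e3
    exact absurd (e2 ▸ hA.2.1) (P.trip_nD _ ⟨_, _, _, ⟨hA.1, hd, e3, c1⟩, ⟨hA.1, P.ha.2.1, e4, c2⟩,
      P.ha, (mul_assoc _ _ _).symm⟩)
  have hX : ∀ t ∈ DD d, Commute t d → Commute t a → Commute g t := fun t ht t1 t2 => by
    by_cases e1 : d = t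
    · exact e1 ▸ hda.1
    by_cases e2 : a = t
    · exact e2 ▸ hda.2
    have ht2 := mul_self P.sq ht
    have hr : t * (g * t * g⁻¹) ∈ Y := by
      have := Y.mul_mem (h2 t ht t1 t2 g hg) (Y.inv_mem hg)
      rwa [inv_eq P.sq ht, mul_assoc, mul_assoc, ← mul_assoc g] at this
    have hD := conj_mem ht g
    have k1 : Commute (g * t * g⁻¹) d := (hda.1.mul_left t1).mul_left hda.1.inv_left
    have k2 : Commute (g * t * g⁻¹) a := (hda.2.mul_left t2).mul_left hda.2.inv_left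
    generalize hv : g * t * g⁻¹ = v at hr hD k1 k2
    have hv2 := mul_self P.sq hD
    by_cases hc : Commute v t
    · have := eq_one_of_odd hY hr (by
        rw [mul_assoc, ← mul_assoc v, hc.eq, mul_assoc, hv2, mul_one, ht2])
      exact commute_of_conj_eq (by rw [hv, eq_inv_of_mul_eq_one_right this, inv_eq P.sq ht])
    exfalso
    obtain ⟨m, m1, m2, rfl⟩ := P.t2 t ⟨hd, ht, e1, t1.symm⟩ ⟨P.ha.2.1, ht, e2, t2.symm⟩
    obtain ⟨w, w0, w1, w2, w3, w4, w5⟩ := P.sep (m⁻¹ * v * m) (mem_back m hD)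
      ((m1.inv_left.mul_left k1).mul_left m1) ((m2.inv_left.mul_left k2).mul_left m2)
      (fun h => hc (commute_fwd m h))
    have wD := conj_mem w0 m
    have c1 : Commute (m * w * m⁻¹) d := (m1.mul_left w1).mul_left m1.inv_left
    have c2 : Commute (m * w * m⁻¹) a := (m2.mul_left w2).mul_left m2.inv_left
    have c3 := commute_conj w3 m
    have c4 : m * w * m⁻¹ ≠ m * c * m⁻¹ := by simpa using w4
    have c5 : ¬ Commute v (m * w * m⁻¹) := fun h => w5 (commute_back m h).symm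
    generalize m * w * m⁻¹ = w' at wD c1 c2 c3 c4 c5
    generalize m * c * m⁻¹ = t at *
    have hw2 := mul_self P.sq wD
    have h3 := P.three hD wD c5
    have h4 := Y.mul_mem (Y.inv_mem hr) (h2 w' wD c1 c2 _ hr)
    have e3 : (t * v)⁻¹ * (w' * (t * v) * w'⁻¹) = (v * w')⁻¹ := by
      rw [← mul_assoc w', c3.eq, inv_eq P.sq wD, mul_inv_rev, inv_eq P.sq hD]
      rw [eq_comm, inv_eq_iff_mul_eq_one, ← h3]
      simp only [pow_succ, pow_zero]; group
    rw [e3, Y.inv_mem_iff] at h4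
    have h5 := Y.mul_mem hr h4
    rw [mul_assoc, ← mul_assoc v, hv2, one_mul] at h5
    have := eq_one_of_odd hY h5 (by
      rw [mul_assoc, ← mul_assoc w', c3.eq, mul_assoc, hw2, mul_one, ht2])
    exact c4 (by rw [eq_inv_of_mul_eq_one_right this, inv_eq P.sq ht])
  have hX' : ∀ x, Commute x d → Commute x a → Commute g x := fun x x1 x2 =>
    (mem_centralizer_singleton_iff.1 (P.genX (centralizer {g})
      (fun t ht t1 t2 => mem_centralizer_singleton_iff.2 (hX t ht t1 t2).symm) x x1 x2)).symm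
  have hj := P.comm_j hY hn hX'
  obtain ⟨m, hm⟩ := isConj_iff.1 P.ha.2.1
  have hH : ∀ x, Commute x d → Commute (m⁻¹ * g * m) x := fun x hx =>
    (mem_centralizer_singleton_iff.1 (P.genH (centralizer {m⁻¹ * g * m}) (fun t ht t1 => by
      refine mem_centralizer_singleton_iff.2 (commute_back m ?_).symm
      have t2 := commute_conj t1 m
      rw [hm] at t2
      by_cases hc : Commute (m * t * m⁻¹) d
      · exact hX' _ hc t2
      · obtain ⟨h, k1, k2, e⟩ := P.r2 _ (conj_mem ht m) t2 hc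
        rw [← e]
        exact ((hX' h k1 k2).mul_right hj).mul_right (hX' h k1 k2).inv_right) x hx)).symm
  have hn' : (m⁻¹ * g * m) ^ Nat.card Y = 1 := by
    have := conj_pow (a := m⁻¹) (b := g) (i := Nat.card Y)
    rw [inv_inv] at this
    rw [this, hn]; group
  have hM := P.genM (centralizer {m⁻¹ * g * m})
    (fun x hx => mem_centralizer_singleton_iff.2 (hH x hx).symm)
    (mem_centralizer_singleton_iff.2 (P.comm_j hY hn' fun x hx _ => hH x hx).symm)
  have hZ : m⁻¹ * g * m ∈ center M := mem_center_iff.2 fun x =>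
    mem_centralizer_singleton_iff.1 (hM ▸ mem_top x)
  rcases (inferInstance : (center M).Normal).eq_bot_or_eq_top with h | h
  · rw [h, mem_bot] at hZ
    have : g = m * (m⁻¹ * g * m) * m⁻¹ := by group
    rw [mem_bot, this, hZ]; group
  · exact absurd (mem_center_iff.1 (h ▸ mem_top d) j) P.hjd

theorem ncard_conj_le [Finite M] {S T : Set M} (g : M) (h : ∀ x ∈ S, g⁻¹ * x * g ∈ T) :
    S.ncard ≤ T.ncard :=
  Set.ncard_le_ncard_of_injOn _ h (fun _ _ _ _ e => by simpa using e) (Set.toFinite _)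

theorem Prim.s4 [Finite M] [IsSimpleGroup M] (P : Prim d a c s i j E k) :
    S4 d (3 + E.length) k := by
  classical
  refine ⟨P.sq, P.nsq, P.q1, P.pair_sq, P.trip_nD, P.q2, fun x y h Y h1 h2 h3 => ?_,
    fun x y h => ?_, fun u h => ?_, fun x y h => ?_, P.big, ⟨_, _, P.ha⟩⟩
  · obtain ⟨g, rfl, rfl⟩ := P.conj2 h
    have := P.q4 (Y.comap (MulAut.conj g).toMonoidHom) (by
      rwa [← card_map_of_injective (f := (MulAut.conj g).toMonoidHom) (MulAut.conj g).injective,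
        map_comap_eq_self_of_surjective (MulAut.conj g).surjective])
      (fun x hx => by
        have := h2 _ hx
        rw [conj_mul] at this
        exact (commute_conj_iff g).1 this)
      (fun t ht t1 t2 x hx => by
        have := h3 _ (conj_mem ht g) (commute_conj t1 g) (commute_conj t2 g) _ hx
        rw [mem_comap, map_mul, map_mul, map_inv]
        exact this)
    rw [← map_comap_eq_self_of_surjective (f := (MulAut.conj g).toMonoidHom)
      (MulAut.conj g).surjective Y, this, Subgroup.map_bot]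
  · obtain ⟨g, rfl, rfl⟩ := P.conj2 h
    obtain ⟨p, q, r, h1, h2, h3, c1, c2, c3, e⟩ := P.hs
    refine ⟨[d, a, c, s, r, q, p].map fun x => g * x * g⁻¹, by simp; decide, ?_, ?_⟩
    · have : d * a * c * s * r * q * p = 1 := by
        rw [e, mul_assoc (p * q) r r, mul_self P.sq h2.2.1, mul_one, mul_assoc p q q, mul_self P.sq h1.2.1,
          mul_one, mul_self P.sq h1.1]
      simp only [List.map_cons, List.map_nil, List.prod_cons, List.prod_nil, mul_one, conj_mul]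
      simp only [← mul_assoc] at this ⊢
      simp only [mul_assoc g, this]; group
    · intro t ht
      obtain ⟨t, ht', rfl⟩ := List.mem_map.1 ht
      rw [conj_mul, commute_conj_iff, conj_mem_iff]
      simp only [List.mem_cons, List.not_mem_nil, or_false] at ht'
      rcases ht' with rfl | rfl | rfl | rfl | rfl | rfl | rfl
      · exact ⟨self_mem _, (Commute.refl _).mul_right P.ha.2.2.2⟩
      · exact ⟨P.ha.2.1, P.ha.2.2.2.symm.mul_right (Commute.refl _)⟩
      · exact ⟨P.hc1.2.1, P.hc1.2.2.2.symm.mul_right P.hc2.2.2.2.symm⟩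
      · exact ⟨P.hs1.2.1, P.hs1.2.2.2.symm.mul_right P.hs2.2.2.2.symm⟩
      · exact ⟨h2.2.1, c3⟩
      · exact ⟨h1.2.1, c2⟩
      · exact ⟨h1.1, c1⟩
  · obtain ⟨x, y, w, h1, h2, h3, rfl⟩ := h
    obtain ⟨g, rfl, rfl, rfl⟩ := P.conj3 h1 h2 h3
    refine (ncard_conj_le (T := ((d :: a :: c :: E).toFinset : Set M)) g fun t ht => ?_).trans ?_
    · rw [conj_mul, conj_mul] at ht
      obtain ⟨t1, t2, t3⟩ := ht
      rcases P.four (mem_back g t1) (commute_back g t2) with h | h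
      · simpa using h
      · refine absurd ?_ (P.trip_nPair h)
        have := t3.conj g⁻¹
        rwa [show g⁻¹ * (g * (d * a * c) * g⁻¹ * t) * g⁻¹⁻¹ = d * a * c * (g⁻¹ * t * g) by group]
          at this
    · rw [Set.ncard_coe_finset]
      refine (List.toFinset_card_le _).trans ?_
      simp only [List.length_cons]; omega
  · obtain ⟨g, rfl, rfl⟩ := P.conj2 h
    refine le_trans (ncard_conj_le g fun t ht => ?_) P.cnt
    exact ⟨mem_back g ht.1, commute_back g ht.2.1, commute_back g ht.2.2⟩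

theorem Prim.recog [Finite M] [IsSimpleGroup M] [Finite G] (P : Prim d a c s i j E k) {z : G}
    {f : M → G} (hf : Loc0 d f) (fd : f d = z)
    (hn : ∃ g : G, Commute (g * z * g⁻¹) z ∧ g * z * g⁻¹ ≠ z) : Nonempty (G ≃* M) := by
  obtain ⟨f, hf, fd⟩ := hf.fusion fd P.s2 hn
  obtain ⟨fa, hfa, e⟩ := hf.exists_loc fd P.s2 P.ha P.rigid
  let K : Subgroup M :=
    { carrier := {y | Commute y d ∧ Commute (f y) (fa j)}
      one_mem' := ⟨Commute.one_left _, by rw [hf.one]; exact Commute.one_left _⟩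
      mul_mem' := fun {x y} hx hy => ⟨hx.1.mul_left hy.1, by
        rw [hf.mul _ _ hx.1 hy.1]; exact hx.2.mul_left hy.2⟩
      inv_mem' := fun {x} hx => ⟨hx.1.inv_left, by rw [hf.inv hx.1]; exact hx.2.inv_left⟩ }
  obtain ⟨Θ, hΘ⟩ := hf.exists_hom fd P.sq P.ha.2.2.2.symm hfa e P.hj P.hja P.hjd
    (fun y y1 y2 => (P.genY K (fun b b1 b2 b3 => ⟨b1, by
      rcases b3 with b3 | b3
      · rw [← e b b1 b3]; exact (hfa.comm b3 P.hja).2 b2
      · exact hf.comm_of_twin fd P.s2 P.ha hfa e P.hi P.hai P.hj P.hja P.hji P.hjd P.twin b3 b1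
          b2⟩) y y1 y2).2) P.r1 P.r2 P.cover P.genM
  exact ⟨(MulEquiv.ofBijective Θ ⟨hΘ.inj, hΘ.surjective P.s4⟩).symm⟩

end Cfsg.Agent.Lib.FisPrim
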