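import Cfsg.Agent.Lib.FisPM

/-! Checks on bit masks for the fields of `Prim`, and rigidity of generating tuples. -/

set_option autoImplicit false

namespace Cfsg.Agent.Lib.FisPM

open Cfsg Subgroup Cfsg.Agent.Lib.FisCore Cfsg.Agent.Lib.FisLoc Cfsg.Agent.Lib.FisPrim
  Cfsg.Agent.Lib.PermNet Cfsg.Agent.Lib.Words Cfsg.Agent.Lib.PermGroup

variable {M : Type*} [Group M] {n : ND} {Y : ℕ → M} {φ : M →* Equiv.Perm ℕ} {d : M}

theorem el_conj (t : Desc) (u : List ℕ) :
    el n Y (t.1, t.2 ++ u) = (wval Y u)⁻¹ * el n Y t * wval Y u := by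
  simp only [el, ND.W, wval_append, wval_invW]; group

theorem PM0.el_d (P : PM0 n Y φ d) {k : ℕ} (h : n.okD (k, []) = true) (h' : getW n.bl k = []) :
    el n Y (k, []) = d := by
  rw [P.el_eq h, ND.L, h', T]; simp

namespace PM
variable (P : PM n Y φ d) {td ta tc ts ti tj : Desc} (hd : el n Y td = d)
include P hd

theorem c_t1 {ws : List (List ℕ)} {seq : List (ℕ × ℕ) × List ℕ}
    (h : orbB n [td] [td] [] ws [td] seq ta = true) :
    ∀ x, Adj d d x → ∃ h, Commute h d ∧ h * el n Y ta * h⁻¹ = x := fun x hx => by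
  rcases P.orb h hx.2.1 (by simpa [hd] using hx.2.2.2.symm) with ⟨g, h1, h2⟩ | h | h
  · exact ⟨g, by simpa [hd] using h1, h2⟩
  · exact absurd (by simpa [hd] using h) hx.2.2.1.symm
  · simp at h

theorem c_t2 {ws : List (List ℕ)} {seq : List (ℕ × ℕ) × List ℕ}
   
    (h : orbB n [td, ta] [td, ta] [] ws [td, ta] seq tc = true) :
    ∀ x, Adj d d x → Adj d (el n Y ta) x →
      ∃ h, Commute h d ∧ Commute h (el n Y ta) ∧ h * el n Y tc * h⁻¹ = x := fun x h1 h2 => by
  rcases P.orb h h1.2.1 (by simp [hd, h1.2.2.2.symm, h2.2.2.2.symm]) with ⟨g, k1, k2⟩ | h | h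
  · simp only [List.forall_mem_cons, hd] at k1
    exact ⟨g, k1.1, k1.2.1, k2⟩
  · simp [hd, h1.2.2.1.symm, h2.2.2.1.symm] at h
  · simp at h

theorem c_t3 {ws : List (List ℕ)} {seq : List (ℕ × ℕ) × List ℕ}
    {es : List Desc}
    (h : orbB n [td, ta, tc] (td :: ta :: tc :: es) [] ws [td, ta, tc] seq ts = true) :
    ∀ x, Adj d d x → Adj d (el n Y ta) x → Adj d (el n Y tc) x → x ∈ es.map (el n Y) ∨
      ∃ h, Commute h d ∧ Commute h (el n Y ta) ∧ Commute h (el n Y tc) ∧
        h * el n Y ts * h⁻¹ = x := fun x h1 h2 h3 => by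
  rcases P.orb h h1.2.1 (by simp [hd, h1.2.2.2.symm, h2.2.2.2.symm, h3.2.2.2.symm]) with
    ⟨g, k1, k2⟩ | h | h
  · simp only [List.forall_mem_cons, hd] at k1
    exact Or.inr ⟨g, k1.1, k1.2.1, k1.2.2.1, k2⟩
  · left
    simp only [List.mem_cons, exists_eq_or_imp, hd, h1.2.2.1.symm, h2.2.2.1.symm, h3.2.2.1.symm,
      false_or] at h
    obtain ⟨t, ht, rfl⟩ := h
    exact List.mem_map_of_mem ht
  · simp at h

theorem c_r1 {ws : List (List ℕ)} {seq : List (ℕ × ℕ) × List ℕ}
    (h : orbB n [] [] [td] ws [td] seq tj = true) :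
    ∀ x ∈ DD d, ¬ Commute x d → ∃ h, Commute h d ∧ h * el n Y tj * h⁻¹ = x := fun x hx hc => by
  rcases P.orb h hx (by simp) with ⟨g, h1, h2⟩ | h | h
  · exact ⟨g, by simpa [hd] using h1, h2⟩
  · simp at h
  · exact absurd (by simpa [hd] using h) hc

theorem c_r2 {ws : List (List ℕ)} {seq : List (ℕ × ℕ) × List ℕ}
   
    (h : orbB n [ta] [] [td] ws [td, ta] seq tj = true) :
    ∀ x ∈ DD d, Commute x (el n Y ta) → ¬ Commute x d →
      ∃ h, Commute h d ∧ Commute h (el n Y ta) ∧ h * el n Y tj * h⁻¹ = x := fun x hx ha hc => by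
  rcases P.orb h hx (by simpa using ha) with ⟨g, k1, k2⟩ | h | h
  · simp only [List.forall_mem_cons, hd] at k1
    exact ⟨g, k1.1, k1.2.1, k2⟩
  · simp at h
  · exact absurd (by simpa [hd] using h) hc

theorem c_fix {w : List ℕ} (h : (band (n.okD td) (n.full (n.mov w (n.nbm td)))) = true) :
    ∀ x ∈ DD d, Commute x (wval Y w) → Commute x d := fun x hx hc => by
  obtain ⟨o, h⟩ := band_eq h
  rw [← hd, ← P.bit_nbm o hx]
  exact P.bit_mov hx hc.symm (P.bit_full h hx)

theorem c_sep {us : List Desc} (h : (band (band (subsB n (td :: ta :: us) [] [tc] 0)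
      (n.cenB (us.map n.W) [td, ta, tc])) (band (band (n.okL us) (n.okD tc))
        (us.all fun u => !n.eqB u tc))) = true) :
    ∀ x ∈ DD d, Commute x d → Commute x (el n Y ta) → ¬ Commute x (el n Y tc) →
      ∃ t ∈ DD d, Commute t d ∧ Commute t (el n Y ta) ∧ Commute t (el n Y tc) ∧ t ≠ el n Y tc ∧
        ¬ Commute t x := fun x hx h1 h2 h3 => by
  obtain ⟨k1, k2⟩ := band_eq h
  obtain ⟨k1, k3⟩ := band_eq k1
  obtain ⟨k2, k4⟩ := band_eq k2
  obtain ⟨o1, o2⟩ := band_eq k2
  by_contra hne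
  push Not at hne
  rcases P.subs k1 hx (by
    simp only [List.forall_mem_cons, hd, h1, h2, true_and]
    intro u hu
    have c := P.cen k3 _ (List.mem_map_of_mem hu)
    simp only [List.forall_mem_cons, hd] at c
    refine (hne _ (P.el_mem (okL_mem o1 u hu)) c.1 c.2.1 c.2.2.1 fun e => ?_).symm
    have := List.all_eq_true.1 k4 u hu
    rw [(P.eqB_iff (okL_mem o1 u hu) o2).2 e] at this
    exact Bool.noConfusion this) with h | h | h
  · simp at h
  · simp at h
  · exact h3 (by simpa using h)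

theorem c_twin {us : List Desc} {w : List ℕ}
    (h : (band (subsB n us [tj, (tj.1, tj.2 ++ invW (n.W td))] [td] (n.mov w 0))
      (n.cenB (w :: us.map n.W) [ta, ti, td, tj])) = true) :
    Twin d (el n Y ta) (el n Y ti) (el n Y tj) := fun x hx hc hn => by
  obtain ⟨k1, k2⟩ := band_eq h
  have c : ∀ v ∈ w :: us.map n.W, Commute (wval Y v) x := fun v hv => by
    have c := P.cen k2 v hv
    simp only [List.forall_mem_cons, hd] at c
    exact hc _ c.1 c.2.1 c.2.2.1 c.2.2.2.1
  rcases P.subs k1 hx (fun u hu =>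
    (c _ (List.mem_cons_of_mem _ (List.mem_map_of_mem hu))).symm) with h | h | h
  · have := P.bit_mov hx (c w List.mem_cons_self) h
    simp at this
  · simp only [List.mem_cons, List.not_mem_nil, or_false, exists_eq_or_imp, exists_eq_left] at h
    rwa [el_conj, wval_invW, inv_inv, show wval Y (n.W td) = d from hd] at h
  · exact absurd (by simpa [hd] using h) hn

theorem c_cover {ws : List (List ℕ)} {seq : List ℕ} (h : (band (band (n.okD ta)
      (n.cenB ws [td, tj])) (n.full (grow n.nets ws seq (n.nbm ta)))) = true) :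
    ∀ x ∈ DD d, ∃ y, Commute y d ∧ Commute y (el n Y tj) ∧ Commute x (y * el n Y ta * y⁻¹) :=
  fun x hx => by
  obtain ⟨k1, k2⟩ := band_eq h
  obtain ⟨o, k1⟩ := band_eq k1
  obtain ⟨g, hg, h⟩ := P.bit_grow (K := cenL n Y [td, tj]) (P.cen k1) seq hx (P.bit_full k2 hx)
  rw [P.bit_nbm o (conj_mem hx g)] at h
  have hg' : ∀ t ∈ [td, tj], Commute g (el n Y t) := hg
  simp only [List.forall_mem_cons, hd] at hg'
  exact ⟨g⁻¹, hg'.1.inv_left, hg'.2.1.inv_left, commute_fwd _ (by rwa [inv_inv])⟩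

theorem c_cnt {len k : ℕ} (h : (band (n.okL [td, ta]) (forceB (n.inter [td, ta] (ones n.N)) fun x =>
      band (subB x (ones (32 * len))) (Nat.ble (popc2 len x 0) k))) = true) :
    {x | x ∈ DD d ∧ Commute x d ∧ Commute x (el n Y ta)}.ncard ≤ k := by
  obtain ⟨o, h⟩ := band_eq h
  exact P.ncard_le (fun g hg => ⟨hg.1, P.bit_inter o hg.1 (by simp [hd, hg.2.1, hg.2.2])
    (P.bit_ones hg.1)⟩) h

theorem c_sq {w v : List ℕ} (h : (band (n.cenB [w] [td]) (n.oneB (w ++ w) v)) = true) :
    ∃ g, Commute g d ∧ g * g = wval Y v := by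
  obtain ⟨k1, k2⟩ := band_eq h
  exact ⟨wval Y w, hd ▸ P.cen k1 w List.mem_cons_self td List.mem_cons_self, by
    rw [← wval_append, P.one k2]⟩

omit hd in
/-- The subgroup generated by the listed members lies in any subgroup containing all members of the
class that commute with those of `cs`. -/
theorem gp_le_of {us cs : List Desc} (h : (band (n.okL us) (n.cenB (us.map n.W) cs)) = true)
    {K : Subgroup M} (hK : ∀ x ∈ DD d, (∀ c ∈ cs, Commute x (el n Y c)) → x ∈ K) :
    gp Y (us.map n.W) ≤ K := by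
  obtain ⟨o, h⟩ := band_eq h
  refine gp_le.2 fun w hw => ?_
  have c := P.cen h w hw
  obtain ⟨u, hu, rfl⟩ := List.mem_map.1 hw
  exact hK _ (P.el_mem (okL_mem o u hu)) c

end PM

/-! ### Rigidity of a tuple of class members -/

noncomputable def tup (n : ND) (Y : ℕ → M) (ps : List Desc) (i : ℕ) : M := wval Y ((ps.map n.W).getD i [])

theorem tup_eq {ps : List Desc} {i : ℕ} (hi : i < ps.length) : tup n Y ps i = el n Y ps[i] := by
  rw [tup, List.getD_eq_getElem _ _ (by simpa using hi), List.getElem_map]; rfl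

def small (k : ℕ) (w : List ℕ) : Bool := w.all fun l => decide (l < 2 * k)

def GoodT (n : ND) (Y : ℕ → M) (d : M) (ps : List Desc) (q : ℕ → M) : Prop :=
  (∀ i < ps.length, q i ∈ DD d) ∧
    ∀ w, small ps.length w = true → (wval q w = 1 ↔ wval (tup n Y ps) w = 1)

def Concl (n : ND) (Y : ℕ → M) (d : M) (ps : List Desc) (q : ℕ → M) : Prop :=
  ∃ α : M ≃* M, (∀ y, α y ∈ DD d ↔ y ∈ DD d) ∧ ∀ i < ps.length, α (tup n Y ps i) = q i

def Claim (n : ND) (Y : ℕ → M) (d : M) (ps rs : List Desc) : Prop :=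
  ∀ q, GoodT n Y d ps q → (∀ i < rs.length, q i = tup n Y rs i) → Concl n Y d ps q

theorem claim_done (ps : List Desc) : Claim n Y d ps ps :=
  fun _ _ h => ⟨MulEquiv.refl M, fun _ => Iff.rfl, fun i hi => (h i hi).symm⟩

theorem claim_aut {ps rs : List Desc} (α : M ≃* M) (hα : ∀ y, α y ∈ DD d ↔ y ∈ DD d)
    (hl : ps.length ≤ rs.length) (h : ∀ i < ps.length, α (tup n Y ps i) = tup n Y rs i) :
    Claim n Y d ps rs :=
  fun _ _ hq => ⟨α, hα, fun i hi => (h i hi).trans (hq i (hi.trans_le hl)).symm⟩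

theorem small_mono {k l : ℕ} (h : k ≤ l) {w : List ℕ} (hw : small k w = true) : small l w = true := by
  simp only [small, List.all_eq_true, decide_eq_true_eq] at hw ⊢
  exact fun a ha => (hw a ha).trans_le (by omega)

theorem wval_tup (ps : List Desc) (w : List ℕ) :
    wval (tup n Y ps) w = wval Y (subst (ps.map n.W) w) := (wval_subst Y _ w).symm

theorem claim_kill {ps rs : List Desc} (w : List ℕ) (hl : rs.length ≤ ps.length)
    (hw : small rs.length w = true)
    (h : ¬ (wval Y (subst (rs.map n.W) w) = 1 ↔ wval Y (subst (ps.map n.W) w) = 1)) :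
    Claim n Y d ps rs := fun q hq hr => by
  refine absurd ?_ h
  rw [← wval_tup, ← wval_tup, ← hq.2 w (small_mono hl hw),
    wval_congr hr (by simpa [small] using hw)]

theorem PM0.claim_kill1 (P : PM0 n Y φ d) {ps rs : List Desc} (w : List ℕ)
    (h1 : wval Y (subst (ps.map n.W) w) = 1) (x : ℕ)
    (h : (band (band (Nat.ble rs.length ps.length) (small rs.length w))
      (!Nat.beq (backI n.nets (subst (rs.map n.W) w) x) x)) = true) : Claim n Y d ps rs := by
  obtain ⟨k1, k2⟩ := band_eq h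
  obtain ⟨k1, k3⟩ := band_eq k1
  exact claim_kill w (Nat.le_of_ble_eq_true k1) k3 fun e =>
    P.ne_one' (by simpa using k2) (e.2 h1)

/-- Candidates for the next member of the tuple. -/
noncomputable def candGo (n : ND) (p : Desc) (ps : List Desc) : List Desc → ℕ → ℕ :=
  List.rec (motive := fun _ => List Desc → ℕ → ℕ) (fun _ x => x)
    (fun u _ ih rs => List.rec (motive := fun _ => ℕ → ℕ) (fun x => x)
      (fun r rs' _ x => force (Nat.land x (@Bool.rec (fun _ => ℕ)
        (Nat.xor (ones n.N) (n.nbm r))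
        (@Bool.rec (fun _ => ℕ) (Nat.xor (n.nbm r) (n.ptm r)) (n.nbm r) (n.eqB p u))
        (n.comB p u))) (ih rs')) rs) ps

noncomputable def growU (n : ND) (ws : List (List ℕ)) (reps : List (Desc × List (ℕ × ℕ) × List ℕ)) : ℕ :=
  List.rec (motive := fun _ => ℕ) 0
    (fun r _ ih => Nat.lor (growE n.nets ws r.2 (n.ptm r.1)) ih) reps

theorem PM.bit_cand (P : PM n Y φ d) {p : Desc} (op : n.okD p = true) {y : M} (hy : y ∈ DD d)
    {ps rs : List Desc} (o1 : n.okL ps = true) (o2 : n.okL rs = true)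
    (h : ∀ i (h1 : i < ps.length) (h2 : i < rs.length),
      (Commute y (el n Y rs[i]) ↔ Commute (el n Y p) (el n Y ps[i])) ∧
      (y = el n Y rs[i] ↔ el n Y p = el n Y ps[i])) {x : ℕ} (hx : x.testBit (pos φ d y) = true) :
    (candGo n p ps rs x).testBit (pos φ d y) = true := by
  induction ps generalizing rs x with
  | nil => exact hx
  | cons u ps ih =>
    cases rs with
    | nil => exact hx
    | cons r rs =>
      obtain ⟨ou, o1⟩ := band_eq o1
      obtain ⟨or, o2⟩ := band_eq o2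
      refine ih o1 o2 (fun i h1 h2 => h (i + 1) (by simpa using h1) (by simpa using h2))
        (x := x &&& _) ?_
      rw [Nat.testBit_and, hx, Bool.true_and]
      obtain ⟨e1, e2⟩ := h 0 (by simp) (by simp)
      simp only [List.getElem_cons_zero] at e1 e2
      rw [← P.comB_iff op ou, ← P.bit_nbm or hy] at e1
      rw [← P.eqB_iff op ou, ← P.bit_ptm' or hy] at e2
      cases h1 : n.comB p u
      · change Nat.testBit (_ ^^^ _) _ = true
        rw [h1] at e1
        rw [Nat.testBit_xor, P.bit_ones hy]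
        simpa using e1
      · rw [h1] at e1
        cases h2 : n.eqB p u
        · change Nat.testBit (_ ^^^ _) _ = true
          rw [h2] at e2
          rw [Nat.testBit_xor, e1.2 rfl]
          simpa using e2
        · exact e1.2 rfl

theorem PM0.bit_growU (P : PM0 n Y φ d) {K : Subgroup M} {ws : List (List ℕ)}
    (hws : ∀ w ∈ ws, wval Y w ∈ K) {reps : List (Desc × List (ℕ × ℕ) × List ℕ)}
    (o : n.okL (reps.map Prod.fst) = true) {y : M} (hy : y ∈ DD d)
    (h : (growU n ws reps).testBit (pos φ d y) = true) :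
    ∃ r ∈ reps, ∃ g ∈ K, g * el n Y r.1 * g⁻¹ = y := by
  induction reps with
  | nil => exact Bool.noConfusion ((Nat.zero_testBit _).symm.trans h)
  | cons r reps ih =>
    obtain ⟨o1, o2⟩ := band_eq o
    change Nat.testBit (_ ||| _) _ = true at h
    rw [Nat.testBit_or, Bool.or_eq_true] at h
    rcases h with h | h
    · exact ⟨r, List.mem_cons_self, P.orbit hws r.2 o1 hy h⟩
    · obtain ⟨r', hr, h⟩ := ih o2 h
      exact ⟨r', List.mem_cons_of_mem _ hr, h⟩

noncomputable def branchB (n : ND) (ps rs : List Desc) (ws : List (List ℕ))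
    (reps : List (Desc × List (ℕ × ℕ) × List ℕ)) : Bool :=
  band (band (band (n.okL ps) (n.okL rs)) (band (n.okL (reps.map Prod.fst))
    (Nat.ble (Nat.succ rs.length) ps.length))) (band (n.cenB ws rs)
      (subB (candGo n (ps.getD rs.length (0, [])) ps rs (ones n.N)) (growU n ws reps)))

theorem wval_comm (q : ℕ → M) (i j : ℕ) :
    wval q [2 * i, 2 * j, 2 * i + 1, 2 * j + 1] = 1 ↔ Commute (q i) (q j) := by
  have e : ∀ k, lval q (2 * k + 1) = (q k)⁻¹ := fun k => by
    rw [lval, if_neg (by omega), show (2 * k + 1) / 2 = k by omega]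
  have e' : ∀ k, lval q (2 * k) = q k := fun k => by simp [lval]
  simp only [wval_cons, wval_nil, e, e', mul_one, ← mul_assoc, mul_inv_eq_one,
    mul_inv_eq_iff_eq_mul]
  rw [commute_iff_eq, one_mul]

theorem wval_eq (q : ℕ → M) (i j : ℕ) : wval q [2 * i, 2 * j + 1] = 1 ↔ q i = q j := by
  have e : ∀ k, lval q (2 * k + 1) = (q k)⁻¹ := fun k => by
    rw [lval, if_neg (by omega), show (2 * k + 1) / 2 = k by omega]
  have e' : ∀ k, lval q (2 * k) = q k := fun k => by simp [lval]
  simp only [wval_cons, wval_nil, e, e', mul_one, mul_inv_eq_one]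

theorem PM.claim_branch (P : PM n Y φ d) {ps rs : List Desc} (ws : List (List ℕ))
    (reps : List (Desc × List (ℕ × ℕ) × List ℕ)) (h : branchB n ps rs ws reps = true)
    (hc : ∀ r ∈ reps, Claim n Y d ps (rs ++ [r.1])) : Claim n Y d ps rs := by
  intro q hq hr
  obtain ⟨h1, h2⟩ := band_eq h
  obtain ⟨h1, h3⟩ := band_eq h1
  obtain ⟨o1, o2⟩ := band_eq h1
  obtain ⟨o3, hl⟩ := band_eq h3
  obtain ⟨h2, h4⟩ := band_eq h2
  have hl : rs.length < ps.length := Nat.le_of_ble_eq_true hl
  rw [List.getD_eq_getElem _ _ hl] at h4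
  have hy := hq.1 _ hl
  obtain ⟨r, hr', g, hg, e⟩ := P.bit_growU (K := cenL n Y rs) (P.cen h2) o3 hy (bit_sub h4
    (P.bit_cand (okL_mem o1 _ (List.getElem_mem hl)) hy o1 o2 (fun i h1 h2 => by
      rw [← tup_eq h1, ← tup_eq hl, ← tup_eq h2, ← hr i h2, ← wval_comm, ← wval_comm, ← wval_eq,
        ← wval_eq]
      exact ⟨hq.2 _ (by simp [small]; omega), hq.2 _ (by simp [small]; omega)⟩) (P.bit_ones hy)))
  obtain ⟨α, hα, eα⟩ := hc r hr' (fun i => g⁻¹ * q i * g) ⟨fun i hi => mem_back g (hq.1 i hi),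
    fun w hw => by
      rw [← hq.2 w hw]
      have := map_wval (MulAut.conj g⁻¹).toMonoidHom q w
      simp only [MulEquiv.coe_toMonoidHom, MulAut.conj_apply, inv_inv] at this
      rw [← this, mul_assoc, inv_mul_eq_one, eq_comm, mul_eq_right]⟩ (fun i hi => by
    rw [tup_eq hi]
    by_cases h' : i < rs.length
    · rw [List.getElem_append_left h', hr i h', tup_eq h', mul_assoc,
        ← (hg _ (List.getElem_mem h')).eq, inv_mul_cancel_left]
    · have : i = rs.length := by simp at hi; omega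
      subst this
      rw [List.getElem_append_right le_rfl, ← e]; simp [mul_assoc])
  refine ⟨α.trans (MulAut.conj g), fun y => ?_, fun i hi => ?_⟩
  · rw [← hα y]; exact conj_mem_iff g
  · simp [eα i hi, mul_assoc]

theorem PM.rigid (P : PM n Y φ d) {td ta : Desc} (hd : el n Y td = d) {us : List Desc}
    (h : (band (n.okL (td :: ta :: us)) (n.cenB ((td :: ta :: us).map n.W) [td, ta])) = true)
    (hX : ∀ g, Commute g d → Commute g (el n Y ta) → g ∈ gp Y ((td :: ta :: us).map n.W))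
    (hc : Claim n Y d (td :: ta :: us) [td, ta]) : Rigid d (el n Y ta) := by
  intro β b1 b2 b3 b4 b5
  obtain ⟨o, h⟩ := band_eq h
  set ps := td :: ta :: us with hps
  let X := cenL n Y [td, ta]
  have hX' : ∀ g ∈ X, Commute g d ∧ Commute g (el n Y ta) := fun g hg => by
    have : ∀ t ∈ [td, ta], Commute g (el n Y t) := hg
    simpa [hd] using this
  let γ : X →* M := MonoidHom.mk' (fun g => β g) fun g k =>
    b1 _ _ (hX' _ g.2).1 (hX' _ g.2).2 (hX' _ k.2).1 (hX' _ k.2).2
  have hm : ∀ i, tup n Y ps i ∈ X := fun i => by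
    by_cases hi : i < ps.length
    · rw [tup_eq hi]; exact P.cen h _ (List.mem_map_of_mem (List.getElem_mem hi))
    · rw [tup, List.getD_eq_default _ _ (by simpa using hi)]; exact X.one_mem
  let p : ℕ → X := fun i => ⟨tup n Y ps i, hm i⟩
  obtain ⟨α, hα, eα⟩ := hc (fun i => β (tup n Y ps i)) ⟨fun i hi =>
    b3 _ (hX' _ (hm i)).1 (hX' _ (hm i)).2 (by
      rw [tup_eq hi]; exact P.el_mem (okL_mem o _ (List.getElem_mem hi))), fun w _ => by
      have e1 : wval (fun i => β (tup n Y ps i)) w = γ (wval p w) := (map_wval γ p w).symm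
      have e2 : wval (tup n Y ps) w = ((wval p w : X) : M) := (map_wval X.subtype p w).symm
      rw [e1, e2]
      exact ⟨b2 _ (hX' _ (wval p w).2).1 (hX' _ (wval p w).2).2, fun e => by
        rw [show wval p w = 1 from Subtype.ext e, map_one]⟩⟩ (fun i hi => by
    have e0 : tup n Y ps 0 = d := hd
    have e1 : tup n Y ps 1 = el n Y ta := rfl
    have : i = 0 ∨ i = 1 := by simp at hi; omega
    rcases this with rfl | rfl
    · rw [e0, b4]; exact hd.symm
    · rw [e1, b5]; rfl)
  refine ⟨α, hα, fun g g1 g2 => ?_⟩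
  have hle : gp Y (ps.map n.W) ≤ ((α.toMonoidHom.comp X.subtype).eqLocus γ).map X.subtype := by
    refine gp_le.2 fun w hw => ?_
    obtain ⟨i, hi, rfl⟩ := List.getElem_of_mem hw
    have hi' : i < ps.length := by simpa using hi
    exact ⟨p i, eα i hi', by
      change tup n Y ps i = _
      rw [tup, List.getD_eq_getElem _ _ hi]⟩
  obtain ⟨x, hx, rfl⟩ := hle (hX g g1 g2)
  exact hx

end Cfsg.Agent.Lib.FisPM
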