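import Mathlib
import Cfsg.Agent.Lib.FormDisc

/-!
The two families of maximal totally singular subspaces of a hyperbolic quadratic space.
-/

set_option autoImplicit false

namespace Cfsg.Agent.Lib.FormGen

open Module QuadraticMap Cfsg.Agent.Lib.FormWitt Cfsg.Agent.Lib.FormPerp Cfsg.Agent.Lib.FormBasis
  Cfsg.Agent.Lib.FormOrth

variable {F V : Type*} [Field F] [AddCommGroup V] [Module F V] [FiniteDimensional F V]
  {Q : QuadraticForm F V} {m : ℕ}

/-- Totally singular subspaces of dimension `m`. -/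
def Gen (Q : QuadraticForm F V) (m : ℕ) (W : Submodule F V) : Prop :=
  finrank F W = m ∧ ∀ w ∈ W, Q w = 0

theorem Gen.perp_eq (hQ : (polarBilin Q).SeparatingLeft) (hV : finrank F V = 2 * m)
    {W : Submodule F V} (hW : Gen Q m W) : perp (σ := RingHom.id F) (polarBilin Q) W = W := by
  symm
  apply Submodule.eq_of_le_of_finrank_eq (totSing_iff.mpr hW.2).le_perp
  rw [finrank_perp (isFormSpace_quad Q hQ), hW.1]
  omega

theorem eq_sup_of_succ {D W : Submodule F V} (hD : D ≤ W) (hd : finrank F D + 1 = finrank F W)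
    {a : V} (ha : a ∈ W) (haD : a ∉ D) : W = D ⊔ F ∙ a := by
  symm
  apply Submodule.eq_of_le_of_finrank_eq
    (sup_le hD ((Submodule.span_singleton_le_iff_mem _ _).mpr ha))
  rw [Submodule.finrank_sup_span_singleton haD, hd]

theorem exists_notMem_of_lt {D W : Submodule F V} (hd : finrank F D < finrank F W) :
    ∃ a ∈ W, a ∉ D := by
  by_contra hcon
  push Not at hcon
  exact absurd (Submodule.finrank_mono (show W ≤ D from hcon)) (by omega)

theorem gen_sup (hQ : (polarBilin Q).SeparatingLeft) {D : Submodule F V} (hD : ∀ w ∈ D, Q w = 0)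
    (hd : finrank F D + 1 = m) {u : V} (hu : Q u = 0)
    (hp : u ∈ perp (σ := RingHom.id F) (polarBilin Q) D) (huD : u ∉ D) : Gen Q m (D ⊔ F ∙ u) :=
  ⟨by rw [Submodule.finrank_sup_span_singleton huD, hd], totSing_iff.mp
    ((totSing_iff.mpr hD).sup_singleton (isFormSpace_quad Q hQ) (by rw [hu, map_zero]) hp)⟩

/-- A totally singular subspace of dimension `m - 1` lies in at most two generators. -/
theorem Gen.eq_or_eq (hQ : (polarBilin Q).SeparatingLeft) (hV : finrank F V = 2 * m)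
    {D W W' X : Submodule F V} (hd : finrank F D + 1 = m) (hW : Gen Q m W) (hW' : Gen Q m W')
    (hX : Gen Q m X) (hDW : D ≤ W) (hDW' : D ≤ W') (hDX : D ≤ X) (hne : W ≠ W') :
    X = W ∨ X = W' := by
  have h := isFormSpace_quad Q hQ
  obtain ⟨a, haW, haD⟩ := exists_notMem_of_lt (D := D) (W := W) (by rw [hW.1]; omega)
  obtain ⟨b, hbW', hbW⟩ : ∃ b ∈ W', b ∉ W := by
    by_contra hcon
    push Not at hcon
    exact hne (Submodule.eq_of_le_of_finrank_eq (show W' ≤ W from hcon) (hW'.1.trans hW.1.symm)).symm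
  obtain ⟨x, hxX, hxD⟩ := exists_notMem_of_lt (D := D) (W := X) (by rw [hX.1]; omega)
  have e1 := eq_sup_of_succ hDW (hd.trans hW.1.symm) haW haD
  have e3 := eq_sup_of_succ hDX (hd.trans hX.1.symm) hxX hxD
  have hp : ∀ {Y : Submodule F V}, Gen Q m Y → D ≤ Y →
      Y ≤ perp (σ := RingHom.id F) (polarBilin Q) D := fun hY hDY =>
    (hY.perp_eq hQ hV).ge.trans (perp_anti hDY)
  have hab : polar Q a b ≠ 0 := fun h0 => hbW (by
    rw [← hW.perp_eq hQ hV, e1, perp_sup]
    exact ⟨hp hW' hDW' hbW', mem_perp_singleton.mpr h0⟩)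
  have e4 := eq_sup_of_succ (hp hW hDW) (by rw [finrank_perp h, hW.1]; omega)
    (hp hW' hDW' hbW') hbW
  have hx := hp hX hDX hxX
  rw [e4] at hx
  obtain ⟨w, hw, _, hz, rfl⟩ := Submodule.mem_sup.mp hx
  obtain ⟨t, rfl⟩ := Submodule.mem_span_singleton.mp hz
  have hw' := hw
  rw [e1] at hw'
  obtain ⟨d, hdD, _, hz', rfl⟩ := Submodule.mem_sup.mp hw'
  obtain ⟨s, rfl⟩ := Submodule.mem_span_singleton.mp hz'
  have h1 := hX.2 _ hxX
  have h2 : polar Q d b = 0 := hp hW' hDW' hbW' d hdD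
  rw [map_add_smul, hW.2 _ hw, hW'.2 _ hbW', polar_add_left, h2, polar_smul_left] at h1
  simp only [smul_eq_mul, zero_add, mul_zero, add_zero, mul_eq_zero, hab, or_false] at h1
  rcases h1 with rfl | rfl
  · left
    apply Submodule.eq_of_le_of_finrank_eq _ (hX.1.trans hW.1.symm)
    rw [e3]
    exact sup_le hDW ((Submodule.span_singleton_le_iff_mem _ _).mpr (by simpa using hw))
  · right
    apply Submodule.eq_of_le_of_finrank_eq _ (hX.1.trans hW'.1.symm)
    rw [e3]
    exact sup_le hDW' ((Submodule.span_singleton_le_iff_mem _ _).mpr (by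
      simpa using W'.add_mem (hDW' hdD) (W'.smul_mem t hbW')))

/-- A second generator through a hyperplane of a generator. -/
theorem Gen.exists_ne (hQ : (polarBilin Q).SeparatingLeft) {D W : Submodule F V}
    (hd : finrank F D + 1 = m) (hW : Gen Q m W) (hDW : D ≤ W) :
    ∃ W', Gen Q m W' ∧ D ≤ W' ∧ W ≠ W' := by
  obtain ⟨a, haW, haD⟩ := exists_notMem_of_lt (D := D) (W := W) (by rw [hW.1]; omega)
  have hWp := (totSing_iff.mpr hW.2).1
  obtain ⟨b, hb1, hb2, hb3⟩ := exists_partner' hQ D a haD (hW.2 a haW)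
    fun z hz => hWp z (hDW hz) a haW
  have hbW : b ∉ W := fun hb => by
    have : polar Q a b = 0 := hWp a haW b hb
    rw [hb2] at this
    exact one_ne_zero this
  refine ⟨D ⊔ F ∙ b, gen_sup hQ (fun w hw => hW.2 w (hDW hw)) hd hb3 hb1 fun hb => hbW (hDW hb),
    le_sup_left, fun heq => hbW ?_⟩
  rw [heq]
  exact Submodule.mem_sup_right (Submodule.mem_span_singleton_self b)

theorem Gen.finrank_inf_of_ne {D W W' : Submodule F V} (hd : finrank F D + 1 = m) (hW : Gen Q m W)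
    (hW' : Gen Q m W') (hDW : D ≤ W) (hDW' : D ≤ W') (hne : W ≠ W') :
    finrank F ↥(W ⊓ W') + 1 = m := by
  have h1 := Submodule.finrank_mono (le_inf hDW hDW')
  have h2 : finrank F ↥(W ⊓ W') < finrank F W := Submodule.finrank_lt_finrank_of_lt
    (lt_of_le_of_ne inf_le_left fun heq => hne (Submodule.eq_of_le_of_finrank_eq
      (inf_eq_left.mp heq) (hW.1.trans hW'.1.symm)))
  rw [hW.1] at h2
  omega

/-- Adjacent generators meet a third one in dimensions differing by one. -/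
theorem Gen.adj (hQ : (polarBilin Q).SeparatingLeft) (hV : finrank F V = 2 * m)
    {U W W' : Submodule F V} (hU : Gen Q m U) (hW : Gen Q m W) (hW' : Gen Q m W')
    (hd : finrank F ↥(W ⊓ W') + 1 = m) :
    finrank F ↥(U ⊓ W) = finrank F ↥(U ⊓ W') + 1 ∨ finrank F ↥(U ⊓ W') = finrank F ↥(U ⊓ W) + 1 := by
  have h := isFormSpace_quad Q hQ
  set P := U ⊓ perp (σ := RingHom.id F) (polarBilin Q) (W ⊓ W') with hP
  have hPd : finrank F P = finrank F ↥(U ⊓ (W ⊓ W')) + 1 := by
    have h1 : P = perp (σ := RingHom.id F) (polarBilin Q) (U ⊔ (W ⊓ W')) := by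
      rw [perp_sup, hU.perp_eq hQ hV]
    have h2 := Submodule.finrank_sup_add_finrank_inf_eq U (W ⊓ W')
    have h3 := finrank_add_finrank_perp h (U ⊔ (W ⊓ W'))
    rw [← h1] at h3
    rw [hU.1] at h2
    omega
  have hne : W ≠ W' := by
    rintro rfl
    rw [inf_idem, hW.1] at hd
    omega
  have key : ∀ {Y Y' : Submodule F V}, Gen Q m Y → Gen Q m Y' → Y ⊓ Y' = W ⊓ W' →
      (∃ u ∈ U ⊓ Y, u ∉ U ⊓ (W ⊓ W')) → finrank F ↥(U ⊓ Y) = finrank F ↥(U ⊓ Y') + 1 := by
    rintro Y Y' hY hY' hYY ⟨u, hu, hu'⟩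
    have h1 : U ⊓ Y ≤ P := inf_le_inf_left _ ((hY.perp_eq hQ hV).ge.trans
      (perp_anti (hYY ▸ inf_le_left)))
    have h2 : U ⊓ Y' ≤ P := inf_le_inf_left _ ((hY'.perp_eq hQ hV).ge.trans
      (perp_anti (hYY ▸ inf_le_right)))
    have h3 : U ⊓ (W ⊓ W') < U ⊓ Y :=
      lt_of_le_of_ne (inf_le_inf_left _ (hYY ▸ inf_le_left)) fun heq => hu' (heq ▸ hu)
    have h4 : U ⊓ Y = P := Submodule.eq_of_le_of_finrank_le h1 (by
      have := Submodule.finrank_lt_finrank_of_lt h3
      omega)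
    have h5 : U ⊓ Y' = U ⊓ (W ⊓ W') := by
      apply le_antisymm
      · rw [← hYY]
        exact le_inf inf_le_left (le_inf ((h2.trans h4.ge).trans inf_le_right) inf_le_right)
      · exact inf_le_inf_left _ (hYY ▸ inf_le_right)
    rw [h4, h5, hPd]
  obtain ⟨u, huP, hu⟩ := exists_notMem_of_lt (D := U ⊓ (W ⊓ W')) (W := P) (by omega)
  have hX := gen_sup hQ (D := W ⊓ W') (fun w hw => hW.2 w hw.1) hd (hU.2 u huP.1) huP.2
    fun hm => hu ⟨huP.1, hm⟩
  have hum : u ∈ (W ⊓ W') ⊔ F ∙ u := Submodule.mem_sup_right (Submodule.mem_span_singleton_self u)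
  rcases Gen.eq_or_eq hQ hV hd hW hW' hX inf_le_left inf_le_right le_sup_left hne with h1 | h1
  · exact Or.inl (key hW hW' rfl ⟨u, ⟨huP.1, h1 ▸ hum⟩, hu⟩)
  · exact Or.inr (key hW' hW (inf_comm _ _) ⟨u, ⟨huP.1, h1 ▸ hum⟩, hu⟩)

/-- A neighbour of `X` closer to `W`. -/
theorem Gen.exists_closer (hQ : (polarBilin Q).SeparatingLeft) (hV : finrank F V = 2 * m)
    {W X : Submodule F V} (hW : Gen Q m W) (hX : Gen Q m X) (hne : finrank F ↥(W ⊓ X) < m) :
    ∃ X', Gen Q m X' ∧ finrank F ↥(X ⊓ X') + 1 = m ∧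
      finrank F ↥(W ⊓ X') = finrank F ↥(W ⊓ X) + 1 := by
  have h := isFormSpace_quad Q hQ
  obtain ⟨w, hwW, hw⟩ := exists_notMem_of_lt (D := W ⊓ X) (W := W) (by rw [hW.1]; omega)
  have hwX : w ∉ X := fun h0 => hw ⟨hwW, h0⟩
  let D := X ⊓ perp (σ := RingHom.id F) (polarBilin Q) (F ∙ w)
  have hd : finrank F D + 1 = m := by
    have h1 : D = perp (σ := RingHom.id F) (polarBilin Q) (X ⊔ F ∙ w) := by
      rw [perp_sup, hX.perp_eq hQ hV]
    have h2 := finrank_add_finrank_perp h (X ⊔ F ∙ w)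
    rw [← h1, Submodule.finrank_sup_span_singleton hwX, hX.1] at h2
    omega
  have hX' := gen_sup hQ (D := D) (fun y hy => hX.2 y hy.1) hd (hW.2 w hwW)
    (fun y hy => h.refl (mem_perp_singleton.mp hy.2)) fun h0 => hwX h0.1
  have hwm : w ∈ D ⊔ F ∙ w := Submodule.mem_sup_right (Submodule.mem_span_singleton_self w)
  have hadj := Gen.finrank_inf_of_ne hd hX hX' inf_le_left le_sup_left fun heq => hwX (heq ▸ hwm)
  refine ⟨_, hX', hadj, ?_⟩
  have h3 : W ⊓ X < W ⊓ (D ⊔ F ∙ w) := by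
    refine lt_of_le_of_ne (fun y hy => ⟨hy.1, Submodule.mem_sup_left ⟨hy.2, ?_⟩⟩)
      fun heq => hw (heq ▸ ⟨hwW, hwm⟩)
    exact mem_perp_singleton.mpr ((totSing_iff.mpr hW.2).1 w hwW y hy.1)
  have h4 := Submodule.finrank_lt_finrank_of_lt h3
  have h5 := Gen.adj hQ hV hW hX hX' hadj
  omega

/-- The parity relation between three generators. -/
theorem Gen.even (hQ : (polarBilin Q).SeparatingLeft) (hV : finrank F V = 2 * m)
    {U W X : Submodule F V} (hU : Gen Q m U) (hW : Gen Q m W) (hX : Gen Q m X) :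
    Even ((m - finrank F ↥(U ⊓ W)) + (m - finrank F ↥(W ⊓ X)) + (m - finrank F ↥(U ⊓ X))) := by
  have hle : ∀ {Y : Submodule F V} (Z : Submodule F V), Gen Q m Y → finrank F ↥(Y ⊓ Z) ≤ m :=
    fun Z hY => hY.1 ▸ Submodule.finrank_mono inf_le_left
  induction hk : m - finrank F ↥(W ⊓ X) generalizing X with
  | zero =>
    have h1 : W ⊓ X = W := Submodule.eq_of_le_of_finrank_le inf_le_left (by rw [hW.1]; omega)
    obtain rfl : W = X := Submodule.eq_of_le_of_finrank_eq (inf_eq_left.mp h1) (hW.1.trans hX.1.symm)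
    simp
  | succ k ih =>
    obtain ⟨X', hX', h1, h2⟩ := Gen.exists_closer hQ hV hW hX (by omega)
    have h3 := ih hX' (by omega)
    have h4 := Gen.adj hQ hV hU hX hX' h1
    have h5 := hle X hU
    have h6 := hle X' hU
    rw [Nat.even_iff] at h3 ⊢
    omega

/-- Every totally singular subspace of dimension at most `m` lies in a generator. -/
theorem Gen.exists_ge (hQ : (polarBilin Q).SeparatingLeft) {E D : Submodule F V} (hE : Gen Q m E)
    (hD : ∀ w ∈ D, Q w = 0) (hd : finrank F D ≤ m) : ∃ W, Gen Q m W ∧ D ≤ W := by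
  obtain ⟨D₀, hD₀, hD₀d⟩ : ∃ D₀ ≤ E, finrank F D₀ = finrank F D := by
    obtain ⟨e, hli, rfl⟩ := exists_family E hE.1
    refine ⟨Submodule.span F (Set.range (e ∘ Fin.castLE hd)), Submodule.span_mono
      (Set.range_comp_subset_range _ _), ?_⟩
    rw [finrank_span_eq_card (hli.comp _ (Fin.castLE_injective hd)), Fintype.card_fin]
  obtain ⟨g, hg, rfl⟩ := ((totSing_iff.mpr hE.2).mono hD₀).exists_iso_map (isFormSpace_quad Q hQ)
    (totSing_iff.mpr hD) hD₀d
  refine ⟨E.map g.toLinearMap, ⟨by rw [LinearEquiv.finrank_map_eq, hE.1], ?_⟩,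
    Submodule.map_mono hD₀⟩
  rintro _ ⟨w, hw, rfl⟩
  exact (hg.2 w).trans (hE.2 w hw)

open Cfsg.Agent.Lib.FormDisc in
theorem exists_gen_qPlus (m : ℕ) : ∃ E, Gen (qPlus m F) m E := by
  have hh := isHyp_qPlus (F := F) m
  have h := isFormSpace_quad _ (qPlus_sep (F := F) m)
  refine ⟨Submodule.span F (Set.range fun i => Pi.single (Sum.inl i) 1), ?_, totSing_iff.mp
    (totSing_span h (by rintro _ ⟨i, rfl⟩ _ ⟨j, rfl⟩; exact hh.ee i j)
      (by rintro _ ⟨i, rfl⟩; exact hh.Ne i))⟩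
  exact (finrank_span_eq_card ((hh.linearIndependent h).comp Sum.inl Sum.inl_injective)).trans
    (Fintype.card_fin m)

end Cfsg.Agent.Lib.FormGen
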