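import Cfsg.Agent.Lib.PermNetDefs
import Mathlib

/-! Matrices over the Gaussian integers given as lists, with a product that the kernel evaluates quickly. -/

set_option autoImplicit false

namespace Cfsg.Agent.Lib.GMat

open Matrix

abbrev Z := GaussianInt

abbrev Mat := List (List Z)

/-- `a * b + c` -/
def fma (a b c : Z) : Z :=
  ⟨Int.add (Int.sub (Int.mul a.re b.re) (Int.mul a.im b.im)) c.re,
    Int.add (Int.add (Int.mul a.re b.im) (Int.mul a.im b.re)) c.im⟩

theorem fma_eq (a b c : Z) : fma a b c = a * b + c := by
  ext <;> simp [fma, Int.sub]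

/-- `x • r + m` -/
noncomputable def axpy (x : Z) (r : List Z) : List Z → List Z :=
  List.rec (motive := fun _ => List Z → List Z) (fun m => m)
    (fun a _ ih m => List.rec (motive := fun _ => List Z) (fma x a 0 :: ih []) (fun b m' _ => fma x a b :: ih m') m) r

theorem getD_axpy (x : Z) (r m : List Z) (j : ℕ) : (axpy x r m).getD j 0 = x * r.getD j 0 + m.getD j 0 := by
  induction r generalizing m j with
  | nil => simp [axpy]
  | cons a r ih =>
    cases m <;> cases j
    exacts [fma_eq .., ih [] _, fma_eq .., ih _ _]

/-- The combination of the rows of `B` with the coefficients `x`. -/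
noncomputable def comb (x : List Z) : Mat → List Z :=
  List.rec (motive := fun _ => Mat → List Z) (fun _ => [])
    (fun a _ ih B => List.rec (motive := fun _ => List Z) []
      (fun r B' _ => if a = 0 then ih B' else axpy a r (ih B')) B) x

theorem getD_comb (n : ℕ) (x : List Z) (B : Mat) (h : B.length ≤ n) (j : ℕ) :
    (comb x B).getD j 0 = ∑ k : Fin n, x.getD k 0 * (B.getD k []).getD j 0 := by
  induction n generalizing x B with
  | zero => cases x <;> simp [List.length_eq_zero_iff.1 (Nat.le_zero.1 h), comb]
  | succ n ih =>
    cases x with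
    | nil => simp [comb]
    | cons a x =>
      cases B with
      | nil => simp [comb]
      | cons r B =>
        change (if a = 0 then comb x B else axpy a r (comb x B)).getD j 0 = _
        rw [Fin.sum_univ_succ]
        simp only [Fin.val_zero, Fin.val_succ, List.getD_cons_zero, List.getD_cons_succ,
          ← ih x B (Nat.le_of_succ_le_succ h)]
        split_ifs with e <;> simp only [e, getD_axpy, zero_mul, zero_add]

def mat (n : ℕ) (l : Mat) : Matrix (Fin n) (Fin n) Z := fun i j => (l.getD i []).getD j 0

noncomputable def mul (A B : Mat) : Mat := A.map (comb · B)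

theorem mat_mul {n : ℕ} (A : Mat) {B : Mat} (h : B.length ≤ n) : mat n (mul A B) = mat n A * mat n B := by
  ext1 i j
  rw [mat, mul, show ([] : List Z) = (comb · B) [] from rfl, List.getD_map, getD_comb n _ _ h, mul_apply]
  rfl

/-- The conjugate transpose. -/
def ct (n : ℕ) (A : Mat) : Mat := (List.range n).map fun j => A.map fun r => star (r.getD j 0)

theorem mat_ct (n : ℕ) (A : Mat) : mat n (ct n A) = (mat n A)ᴴ := by
  ext1 i j
  rw [mat, ct, List.getD_eq_getElem (List.map _ (List.range n)) _ (by simp), List.getElem_map, List.getElem_range]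
  exact List.getD_map A [] fun r : List Z => star (r.getD i 0)

/-- A scalar matrix. -/
def sc (n : ℕ) (x : Z) : Mat := (List.range n).map fun i => (List.range n).map fun j => if i = j then x else 0

theorem mat_sc (n : ℕ) (x : Z) : mat n (sc n x) = x • 1 := by
  ext1 i j
  simp [mat, sc, one_apply, Fin.ext_iff]

end Cfsg.Agent.Lib.GMat
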