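import Cfsg.Agent.Lib.AmalgS3
import Cfsg.Agent.Lib.PushBase

/-! Amalgams of index `(3,3)` in which `Ω₁Z(S)` is central in the second group: basic facts, arcs. -/

set_option autoImplicit false

namespace Cfsg.Agent.Lib.Gold

open Subgroup MulAction Cfsg.Agent.Lib.PCoreConj Cfsg.Agent.Lib.PCore Cfsg.Agent.Lib.PCoreResidual
  Cfsg.Agent.Lib.PReduced Cfsg.Agent.Lib.CosetGraph Cfsg.Agent.Lib.LocIdx Cfsg.Agent.Lib.AmalgS3
  Cfsg.Agent.Lib.PushBase Cfsg.Agent.Lib.PCoreMod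
open scoped commutatorElement

variable {G : Type*} [Group G]

/-- The local hypothesis on a vertex group `A` with edge group `T`. -/
structure Loc0 (A T : Subgroup G) : Prop where
  fin : Finite A
  syl : IsSylowIn 2 T A
  idx2 : (pCoreOf 2 A).relIndex T = 2
  idx3 : T.relIndex A = 3

section Local

variable {A T H K : Subgroup G}

theorem Loc0.conj (h : Loc0 A T) (g : G) : Loc0 (A ^ᶜ g) (T ^ᶜ g) where
  fin := haveI := h.fin; finite_conj A g
  syl := h.syl.conj g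
  idx2 := by rw [← conj_pCoreOf, relIndex_conj, h.idx2]
  idx3 := by rw [relIndex_conj, h.idx3]

theorem Loc0.Q_le (h : Loc0 A T) : pCoreOf 2 A ≤ T := h.syl.pCoreOf_le

theorem Loc0.T_le (h : Loc0 A T) (hQ : pCoreOf 2 A ≤ H) {x : G} (hx : x ∈ T)
    (hx' : x ∉ pCoreOf 2 A) (hxH : x ∈ H) : T ≤ H :=
  le_of_relIndex_two h.idx2 (inf_le_left.trans hQ) hx hx' hxH

theorem Loc0.A_le (h : Loc0 A T) (hT : T ≤ H) {x : G} (hx : x ∈ A) (hx' : x ∉ T) (hxH : x ∈ H) :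
    A ≤ H :=
  le_of_relIndex_prime Nat.prime_three h.syl.le h.idx3 hT hx hx' hxH

theorem Loc0.not_T_le (h : Loc0 A T) : ¬ T ≤ pCoreOf 2 A := fun h' => by
  have := h.idx2
  rw [relIndex_eq_one.2 h'] at this
  omega

theorem Loc0.not_le_normalizer (h : Loc0 A T) : ¬ A ≤ N(T) := fun h' =>
  h.not_T_le (le_pCoreOf h.syl.le h' h.syl.isPGroup)

theorem Loc0.mem_of_mem_normalizer (h : Loc0 A T) {x : G} (hx : x ∈ A) (hn : x ∈ N(T)) : x ∈ T := by
  by_contra hx'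
  exact h.not_le_normalizer (h.A_le le_normalizer hx hx' hn)

/-- A subgroup normalized by `A` and meeting `A` outside `O₂(A)` contains `O²(A)`. -/
theorem Loc0.res_le (h : Loc0 A T) (hK : A ≤ N(K)) {x : G} (hx : x ∈ A) (hx' : x ∉ pCoreOf 2 A)
    (hxK : x ∈ K) : pResidualOf 2 A ≤ K := by
  haveI := h.fin
  have hn : A ≤ N(A ⊓ K) := PCoreConj.le_normalizer_inf le_normalizer hK
  have h1 : ¬ A ⊓ K ≤ T := fun hle =>
    hx' (le_pCoreOf inf_le_left hn (h.syl.isPGroup.to_le hle) ⟨hx, hxK⟩)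
  obtain ⟨y, hy, hy'⟩ := SetLike.not_le_iff_exists.1 h1
  have h2 : A ≤ (A ⊓ K) ⊔ T := h.A_le le_sup_right hy.1 hy' (mem_sup_left hy)
  exact (pResidualOf_mono h2).trans
    ((pResidualOf_sup_le h.syl.isPGroup (h.syl.le.trans hn)).trans inf_le_right)

theorem Loc0.res_sup (h : Loc0 A T) : pResidualOf 2 A ⊔ T = A :=
  haveI := h.fin; pResidualOf_sup_of_isSylowIn h.syl

theorem Loc0.res_not_le (h : Loc0 A T) : ¬ pResidualOf 2 A ≤ T := fun h' => by
  have h1 : A ≤ T := h.res_sup.ge.trans (sup_le h' le_rfl)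
  have := h.idx3
  rw [relIndex_eq_one.2 h1] at this
  omega

theorem Loc.loc0 (h : Loc A T) : Loc0 A T := ⟨h.fin, h.syl, h.idx2, h.idx3⟩

end Local

/-- The hypothesis on the pair of subgroups. -/
structure HypB (P₁ P₂ : Subgroup G) : Prop where
  gen : P₁ ⊔ P₂ = ⊤
  core : ∀ N : Subgroup G, N ≤ P₁ ⊓ P₂ → N.Normal → N = ⊥
  l1 : Loc P₁ (P₁ ⊓ P₂)
  l2 : Loc0 P₂ (P₁ ⊓ P₂)
  c2 : CharPIn 2 P₂
  cen : P₂ ≤ C(omegaOneCenter 2 (P₁ ⊓ P₂))

variable {P₁ P₂ : Subgroup G}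

/-- Vertices of the first type. -/
def TA (α : CosetVertex P₁ P₂) : Prop := ∃ x, α = Sum.inl x

theorem TA.not_of_adj {α β : CosetVertex P₁ P₂} (h : TA α) (hab : Adj α β) : ¬ TA β := by
  obtain ⟨x, ⟨rfl, rfl⟩ | ⟨rfl, rfl⟩⟩ := adj_iff.1 hab
  · rintro ⟨y, hy⟩; cases hy
  · obtain ⟨y, hy⟩ := h; cases hy

theorem TA.of_adj {α β : CosetVertex P₁ P₂} (h : ¬ TA α) (hab : Adj α β) : TA β := by
  obtain ⟨x, ⟨rfl, rfl⟩ | ⟨rfl, rfl⟩⟩ := adj_iff.1 hab
  · exact absurd ⟨_, rfl⟩ h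
  · exact ⟨_, rfl⟩

theorem ta_iff_of_adj {α β : CosetVertex P₁ P₂} (hab : Adj α β) : TA β ↔ ¬ TA α :=
  ⟨fun h => h.not_of_adj hab.symm, fun h => TA.of_adj h hab⟩

theorem ta_smul (g : G) (α : CosetVertex P₁ P₂) : TA (g • α) ↔ TA α := by
  obtain ⟨x, rfl | rfl⟩ := vertex_cases α
  · rw [smul_inl]; exact ⟨fun _ => ⟨_, rfl⟩, fun _ => ⟨_, rfl⟩⟩
  · rw [smul_inr]; constructor <;> (rintro ⟨y, hy⟩; cases hy)

theorem exists_smul_of_ta {α β : CosetVertex P₁ P₂} (h : TA α ↔ TA β) : ∃ g : G, g • α = β := by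
  obtain ⟨x, rfl | rfl⟩ := vertex_cases α <;> obtain ⟨y, rfl | rfl⟩ := vertex_cases β
  · exact ⟨y * x⁻¹, by rw [smul_inl]; simp⟩
  · obtain ⟨z, hz⟩ := h.1 ⟨_, rfl⟩; cases hz
  · obtain ⟨z, hz⟩ := h.2 ⟨_, rfl⟩; cases hz
  · exact ⟨y * x⁻¹, by rw [smul_inr]; simp⟩

/-- The join of `F` over the neighbours. -/
def Up (F : CosetVertex P₁ P₂ → Subgroup G) (α : CosetVertex P₁ P₂) : Subgroup G :=
  ⨆ δ : {δ // Adj α δ}, F δ

theorem le_Up (F : CosetVertex P₁ P₂ → Subgroup G) {α δ : CosetVertex P₁ P₂} (h : Adj α δ) :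
    F δ ≤ Up F α := le_iSup (fun δ : {δ // Adj α δ} => F δ) ⟨δ, h⟩

theorem Up_le {F : CosetVertex P₁ P₂ → Subgroup G} {α : CosetVertex P₁ P₂} {K : Subgroup G}
    (h : ∀ δ, Adj α δ → F δ ≤ K) : Up F α ≤ K := iSup_le fun δ => h δ δ.2

theorem Up_smul {F : CosetVertex P₁ P₂ → Subgroup G} (hF : ∀ (g : G) δ, F (g • δ) = (F δ) ^ᶜ g)
    (g : G) (α : CosetVertex P₁ P₂) : Up F (g • α) = (Up F α) ^ᶜ g := by
  apply le_antisymm
  · refine Up_le fun δ hδ => ?_
    have h1 : Adj α (g⁻¹ • δ) := by simpa using adj_smul g⁻¹ hδ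
    have := conj_mono g (le_Up F h1)
    rwa [← hF, smul_inv_smul] at this
  · rw [conj_le_iff_le_conj_inv]
    refine Up_le fun δ hδ => ?_
    rw [← conj_le_iff_le_conj_inv, ← hF]
    exact le_Up F (adj_smul g hδ)

theorem St_le_N {F : CosetVertex P₁ P₂ → Subgroup G} (hF : ∀ (g : G) δ, F (g • δ) = (F δ) ^ᶜ g)
    (α : CosetVertex P₁ P₂) : St α ≤ N(F α) := fun g hg =>
  mem_normalizer_iff_conj_eq.2 (by rw [← hF, mem_stabilizer_iff.1 hg])

/-- The group `V_β`. -/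
def V (β : CosetVertex P₁ P₂) : Subgroup G := Up Z β

/-- The group `W_α`. -/
def W (α : CosetVertex P₁ P₂) : Subgroup G := Up V α

theorem V_smul (g : G) (α : CosetVertex P₁ P₂) : V (g • α) = (V α) ^ᶜ g := Up_smul Z_smul g α

theorem W_smul (g : G) (α : CosetVertex P₁ P₂) : W (g • α) = (W α) ^ᶜ g := Up_smul V_smul g α

theorem St_le_NV (α : CosetVertex P₁ P₂) : St α ≤ N(V α) := St_le_N V_smul α

theorem St_le_NW (α : CosetVertex P₁ P₂) : St α ≤ N(W α) := St_le_N W_smul α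

theorem Z_le_V {α δ : CosetVertex P₁ P₂} (h : Adj α δ) : Z δ ≤ V α := le_Up Z h

theorem V_le_W {α δ : CosetVertex P₁ P₂} (h : Adj α δ) : V δ ≤ W α := le_Up V h

theorem conj_mem_Z {α : CosetVertex P₁ P₂} {z : G} (hz : z ∈ Z α) (g : G) : g * z * g⁻¹ ∈ Z (g • α) := by
  rw [Z_smul]; exact conj_mem_conj g hz

theorem conj_mem_V {α : CosetVertex P₁ P₂} {z : G} (hz : z ∈ V α) (g : G) : g * z * g⁻¹ ∈ V (g • α) := by
  rw [V_smul]; exact conj_mem_conj g hz

theorem conj_mem_Q {α : CosetVertex P₁ P₂} {z : G} (g : G) : g * z * g⁻¹ ∈ Q (g • α) ↔ z ∈ Q α := by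
  rw [Q_smul]; exact conj_mem_conj_iff

namespace HypB

variable (h : HypB P₁ P₂) {α β γ δ α' β' : CosetVertex P₁ P₂}
include h

theorem loc (hab : Adj α β) : Loc0 (St α) (St α ⊓ St β) := by
  obtain ⟨x, ⟨rfl, rfl⟩ | ⟨rfl, rfl⟩⟩ := adj_iff.1 hab
  · rw [St, St, stabilizer_inl, stabilizer_inr, ← conj_inf]; exact (Loc.loc0 h.l1).conj x
  · rw [St, St, stabilizer_inl, stabilizer_inr, ← conj_inf, inf_comm]; exact h.l2.conj x

theorem locA (hα : TA α) (hab : Adj α β) : Loc (St α) (St α ⊓ St β) := by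
  obtain ⟨x, ⟨rfl, rfl⟩ | ⟨rfl, rfl⟩⟩ := adj_iff.1 hab
  · rw [St, St, stabilizer_inl, stabilizer_inr, ← conj_inf]; exact h.l1.conj x
  · obtain ⟨y, hy⟩ := hα; cases hy

theorem charP (α : CosetVertex P₁ P₂) : CharPIn 2 (St α) := by
  obtain ⟨x, rfl | rfl⟩ := vertex_cases α
  · rw [St, stabilizer_inl]; exact h.l1.charP.conj x
  · rw [St, stabilizer_inr]; exact h.c2.conj x

theorem cenB (hα : TA α) (hab : Adj α β) : St β ≤ C(omegaOneCenter 2 (St α ⊓ St β)) := by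
  obtain ⟨x, ⟨rfl, rfl⟩ | ⟨rfl, rfl⟩⟩ := adj_iff.1 hab
  · rw [St, St, stabilizer_inl, stabilizer_inr, ← conj_inf, ← conj_omegaOneCenter, ← conj_centralizer]
    exact conj_mono x h.cen
  · obtain ⟨y, hy⟩ := hα; cases hy

theorem amalg : IsAmalgamPair P₁ P₂ := by
  refine ⟨h.gen, fun e => ?_, fun e => ?_, h.core⟩
  · have := h.l2.idx3
    rw [e, top_inf_eq, relIndex_self] at this
    omega
  · have := h.l1.idx3
    rw [e, inf_top_eq, relIndex_self] at this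
    omega

theorem bot (hab : Adj α β) {N : Subgroup G} (hN : N ≤ St α ⊓ St β)
    (h1 : St α ≤ N(N)) (h2 : St β ≤ N(N)) : N = ⊥ :=
  eq_bot_of_le_normalizer h.amalg hab hN h1 h2

theorem one (hab : Adj α β) {r : G} (hr : r ∈ St α ⊓ St β)
    (h1 : St α ≤ centralizer ({r} : Set G)) (h2 : St β ≤ centralizer ({r} : Set G)) : r = 1 := by
  refine zpowers_eq_bot.1 (h.bot hab (zpowers_le.2 hr) (le_normalizer_of_le_centralizer ?_)
    (le_normalizer_of_le_centralizer ?_)) <;>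
    rwa [zpowers_eq_closure, centralizer_closure]

theorem fin (α : CosetVertex P₁ P₂) : Finite (St α) :=
  (h.loc (exists_adj α).choose_spec).fin

theorem Q_le (hab : Adj α β) : Q α ≤ St α ⊓ St β := (h.loc hab).Q_le

theorem Q_le' (hab : Adj α β) : Q β ≤ St α ⊓ St β := by
  rw [inf_comm]; exact h.Q_le hab.symm

theorem Q_le_St' (hab : Adj α β) : Q α ≤ St β := (h.Q_le hab).trans inf_le_right

theorem Z_le_Q (α : CosetVertex P₁ P₂) : Z α ≤ Q α := sylowCenterClosure_le_pCoreOf (h.charP α)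

theorem Z_le_St (α : CosetVertex P₁ P₂) : Z α ≤ St α := (h.Z_le_Q α).trans (Q_le_St α)

theorem Z_sq {z : G} (hz : z ∈ Z α) : z ^ 2 = 1 :=
  (isElementaryAbelian_sylowCenterClosure (h.charP α)).2 z hz

theorem Z_inv {z : G} (hz : z ∈ Z α) : z⁻¹ = z := inv_eq_self_of_sq (h.Z_sq hz)

theorem Z_mul {z : G} (hz : z ∈ Z α) : z * z = 1 := mul_self_of_sq (h.Z_sq hz)

theorem mem_Q (hα : TA α) {x : G} (hx : x ∈ St α) (hc : x ∈ C(Z α)) : x ∈ Q α :=
  (h.locA hα (exists_adj α).choose_spec).mem_Q hx hc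

theorem eq_of_le (hab : Adj α β) (hac : Adj α γ) (hle : St α ⊓ St β ≤ St γ) : β = γ := by
  obtain ⟨g, hg, rfl⟩ := exists_smul_eq_of_adj hab hac
  haveI := h.fin α
  haveI : Finite (St α ⊓ St β : Subgroup G) := PCoreConj.finite_of_le inf_le_left
  have h1 : (St α ⊓ St β) ^ᶜ g⁻¹ ≤ St α ⊓ St β := by
    refine le_inf (conj_le_of_mem inf_le_left (inv_mem hg)) ?_
    rwa [← le_conj_iff_conj_inv_le, ← St_smul]
  exact (mem_stabilizer_iff.1 (inv_mem_iff.1
    ((h.loc hab).mem_of_mem_normalizer (inv_mem hg) (mem_normalizer_of_conj_le h1)).2)).symm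

theorem not_mem (hab : Adj α β) (hac : Adj α γ) (hne : γ ≠ β) {a : G} (ha : a ∈ St α ⊓ St β)
    (ha' : a ∉ Q α) : a ∉ St γ := fun h' =>
  hne (h.eq_of_le hab hac ((h.loc hab).T_le (h.Q_le_St' hac) ha ha' h')).symm

theorem mem_Q_of_fix (hab : Adj α β) (hac : Adj α γ) (hne : γ ≠ β) {a : G} (ha : a ∈ St α)
    (hb : a ∈ St β) (hc : a ∈ St γ) : a ∈ Q α := by
  by_contra hn
  exact h.not_mem hab hac hne ⟨ha, hb⟩ hn hc

theorem T_le (hab : Adj α β) {a : G} (ha : a ∈ St α ⊓ St β) (ha' : a ∉ Q α) {H : Subgroup G}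
    (hQ : Q α ≤ H) (haH : a ∈ H) : St α ⊓ St β ≤ H := (h.loc hab).T_le hQ ha ha' haH

theorem St_le (hab : Adj α β) (hac : Adj α γ) (hne : γ ≠ β) {a : G} (ha : a ∈ St α ⊓ St β)
    (ha' : a ∉ Q α) {H : Subgroup G} (hT : St α ⊓ St γ ≤ H) (haH : a ∈ H) : St α ≤ H :=
  (h.loc hac).A_le hT ha.1 (fun h' => h.not_mem hab hac hne ha ha' h'.2) haH

theorem exists_T (hab : Adj α β) : ∃ q ∈ St α ⊓ St β, q ∉ Q α :=
  SetLike.not_le_iff_exists.1 (h.loc hab).not_T_le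

theorem St_le₂ (hab : Adj α β) (hac : Adj α γ) (hne : γ ≠ β) {H : Subgroup G}
    (h₁ : St α ⊓ St β ≤ H) (h₂ : St α ⊓ St γ ≤ H) : St α ≤ H := by
  obtain ⟨q, hq, hq'⟩ := h.exists_T hab
  exact h.St_le hab hac hne hq hq' h₂ (h₁ hq)

theorem three (hab : Adj α β) (hac : Adj α γ) (had : Adj α δ) (h1 : γ ≠ β) (h2 : δ ≠ β) {q : G}
    (hq : q ∈ St α ⊓ St β) (hq' : q ∉ Q α) : δ = γ ∨ δ = q • γ := by
  have hqγ := h.not_mem hab hac h1 hq hq'
  obtain ⟨x, hx, rfl⟩ := exists_smul_eq_of_adj hab hac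
  obtain ⟨z, hz, rfl⟩ := exists_smul_eq_of_adj hab had
  have key : ∀ u v : G, u⁻¹ * v ∈ St α ⊓ St β → v • β = u • β := fun u v huv => by
    have := mem_stabilizer_iff.1 huv.2
    rwa [mul_smul, inv_smul_eq_iff] at this
  rcases pigeon_three (h.loc hab).idx3 hx (mul_mem hq.1 hx) hz (fun h' => h1 h'.2)
    (fun h' => h1 ((mul_mem_cancel_left (mem_inf.1 hq).2).1 (mem_inf.1 h').2)) (fun h' => h2 h'.2)
    (fun h' => hqγ (by rw [mem_stabilizer_iff, ← mul_smul]; exact key _ _ h')) with h3 | h3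
  · exact Or.inl (key _ _ h3)
  · exact Or.inr (by rw [← mul_smul]; exact key _ _ h3)

theorem smul_ne (hab : Adj α β) (hac : Adj α γ) (hne : γ ≠ β) {q : G} (hq : q ∈ St α ⊓ St β)
    (hq' : q ∉ Q α) : Adj α (q • γ) ∧ q • γ ≠ γ ∧ q • γ ≠ β :=
  ⟨adj_smul_of_mem hq.1 hac, h.not_mem hab hac hne hq hq', fun e => hne (by
    rw [← inv_smul_smul q γ, e]; exact mem_stabilizer_iff.1 (inv_mem (mem_inf.1 hq).2))⟩

/-- Every neighbour is one of three given distinct neighbours. -/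
theorem cases3 (hab : Adj α β) (hac : Adj α γ) (had : Adj α δ) (h1 : γ ≠ β) (h2 : δ ≠ β) (h3 : δ ≠ γ)
    {μ : CosetVertex P₁ P₂} (hμ : Adj α μ) : μ = β ∨ μ = γ ∨ μ = δ := by
  obtain ⟨q, hq, hq'⟩ := h.exists_T hab
  by_cases e : μ = β
  · exact Or.inl e
  · have e1 := (h.three hab hac had h1 h2 hq hq').resolve_left h3
    rcases h.three hab hac hμ h1 e hq hq' with e2 | e2
    · exact Or.inr (Or.inl e2)
    · exact Or.inr (Or.inr (e2.trans e1.symm))

theorem exists_ne (hab : Adj α β) : ∃ γ, Adj α γ ∧ γ ≠ β := by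
  obtain ⟨g, hg, hg'⟩ := exists_not_mem_of_relIndex_ne_one (Q := St α ⊓ St β) (T := St α)
    (by rw [(h.loc hab).idx3]; omega)
  exact ⟨g • β, adj_smul_of_mem hg hab, fun e => hg' ⟨hg, e⟩⟩

theorem exists_third (hab : Adj α β) (hac : Adj α γ) (hne : γ ≠ β) :
    ∃ δ, Adj α δ ∧ δ ≠ γ ∧ δ ≠ β := by
  obtain ⟨q, hq, hq'⟩ := h.exists_T hab
  exact ⟨_, h.smul_ne hab hac hne hq hq'⟩

theorem mul_mem_Q (hab : Adj α β) {x y : G} (hx : x ∈ St α ⊓ St β) (hy : y ∈ St α ⊓ St β)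
    (hx' : x ∉ Q α) (hy' : y ∉ Q α) : x * y ∈ Q α :=
  mul_mem_of_relIndex_two (h.loc hab).idx2 hx hy hx' hy'

theorem sq_mem_Q (hab : Adj α β) {x : G} (hx : x ∈ St α ⊓ St β) : x * x ∈ Q α := by
  rw [← pow_two]; exact sq_mem_of_relIndex_two (h.loc hab).idx2 hx

theorem Z_ne_bot (α : CosetVertex P₁ P₂) : Z α ≠ ⊥ := by
  obtain ⟨β, hab⟩ := exists_adj α
  haveI := h.fin α
  haveI : Finite (St α ⊓ St β : Subgroup G) := PCoreConj.finite_of_le inf_le_left
  refine fun e => omegaOneCenter_ne_bot (h.loc hab).syl.isPGroup (fun e' => (h.loc hab).not_T_le ?_)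
    (le_bot_iff.1 ((omegaOneCenter_le_sylowCenterClosure (h.loc hab).syl).trans e.le))
  rw [e']; exact bot_le

theorem exists_Q (hab : Adj α β) : ∃ q ∈ Q α, q ∉ Q β := by
  refine SetLike.not_le_iff_exists.1 fun hle => ?_
  have h1 : Q α = Q β := eq_of_le_of_relIndex_eq hle (h.Q_le' hab)
    (by rw [(h.loc hab).idx2, inf_comm, (h.loc hab.symm).idx2])
    (by rw [inf_comm, (h.loc hab.symm).idx2]; omega)
  exact h.Z_ne_bot α (le_bot_iff.1 ((h.Z_le_Q α).trans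
    (h.bot hab (h.Q_le hab) (St_le_NQ α) (h1 ▸ St_le_NQ β)).le))

/-- `Z_β = Ω₁Z(S)` for a vertex of the second type. -/
theorem ZB_eq (hα : TA α) (hab : Adj α β) : Z β = omegaOneCenter 2 (St α ⊓ St β) := by
  haveI := h.fin β
  have hs := (h.loc hab.symm).syl
  rw [inf_comm] at hs
  exact (sylowCenterClosure_eq_nclIn hs).trans
    (nclIn_eq_self (le_normalizer_of_le_centralizer (h.cenB hα hab)))

theorem St_le_CZ (hβ : ¬ TA β) : St β ≤ C(Z β) := by
  obtain ⟨α, hab⟩ := exists_adj β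
  have hα := TA.of_adj hβ hab
  rw [h.ZB_eq hα hab.symm]
  exact h.cenB hα hab.symm

theorem commB (hβ : ¬ TA β) {z g : G} (hz : z ∈ Z β) (hg : g ∈ St β) : z * g = g * z :=
  mem_centralizer_iff.1 (h.St_le_CZ hβ hg) z hz

theorem ZB_le (hα : TA α) (hab : Adj α β) : Z β ≤ Z α := by
  rw [h.ZB_eq hα hab]; exact omegaOneCenter_le_sylowCenterClosure (h.loc hab).syl

theorem mem_ZB (hα : TA α) (hab : Adj α β) {z : G} (hz : z ∈ St α ⊓ St β) (h2 : z ^ 2 = 1)
    (hc : St α ⊓ St β ≤ centralizer ({z} : Set G)) : z ∈ Z β := by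
  rw [h.ZB_eq hα hab, mem_omegaOneCenter_iff]
  exact ⟨hz, mem_centralizer_iff.2 fun y hy => mem_centralizer_singleton_iff.1 (hc hy), h2⟩

/-- An involution centralizing `Q_α` and an element of the edge group outside `Q_α` lies in `Z_β`. -/
theorem mem_ZB' (hα : TA α) (hab : Adj α β) {z s : G} (hz : z ∈ Q α) (h2 : z ^ 2 = 1)
    (hc : z ∈ C(Q α)) (hs : s ∈ St α ⊓ St β) (hs' : s ∉ Q α) (hsz : s * z = z * s) : z ∈ Z β :=
  h.mem_ZB hα hab (h.Q_le hab hz) h2 (h.T_le hab hs hs'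
    (fun q hq => mem_centralizer_singleton_iff.2 (mem_centralizer_iff.1 hc q hq))
    (mem_centralizer_singleton_iff.2 hsz))

theorem mem_ZB_of_comm (hα : TA α) (hab : Adj α β) {z s : G} (hz : z ∈ Z α)
    (hs : s ∈ St α ⊓ St β) (hs' : s ∉ Q α) (hsz : s * z = z * s) : z ∈ Z β :=
  h.mem_ZB' hα hab (h.Z_le_Q α hz) (h.Z_sq hz) (le_centralizer_iff.1 (Q_le_C α) hz) hs hs' hsz

theorem ZB_inf (hα : TA α) (hab : Adj α β) (hac : Adj α γ) (hne : γ ≠ β) {z : G} (h₁ : z ∈ Z β)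
    (h₂ : z ∈ Z γ) : z = 1 := by
  have k : ∀ δ, Adj α δ → z ∈ Z δ → St δ ≤ centralizer ({z} : Set G) := fun δ hδ hz g hg =>
    mem_centralizer_singleton_iff.2 (h.commB (hα.not_of_adj hδ) hz hg).symm
  exact h.one hab (h.Q_le' hab (h.Z_le_Q β h₁))
    (h.St_le₂ hab hac hne (inf_le_right.trans (k β hab h₁)) (inf_le_right.trans (k γ hac h₂))) (k β hab h₁)

/-- `[Ω₁Z(Q_α), S] ≤ Z_β`. -/
theorem comm_mem' (hα : TA α) (hab : Adj α β) {z s : G} (hz : z ∈ omegaOneCenter 2 (Q α))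
    (hs : s ∈ St α ⊓ St β) : ⁅z, s⁆ ∈ Z β := by
  have hn : St α ≤ N(omegaOneCenter 2 (Q α)) := le_normalizer_omegaOneCenter (St_le_NQ α)
  have he := isElementaryAbelian_omegaOneCenter 2 (Q α)
  have hc := (mem_omegaOneCenter_iff.1 hz).2.1
  by_cases hq : s ∈ Q α
  · rw [commutatorElement_eq_one_iff_mul_comm.2 (mem_centralizer_iff.1 hc s hq).symm]
    exact one_mem _
  · have hzi : z⁻¹ = z := inv_eq_self_of_sq (he.2 z hz)
    have h1 : s * z * s⁻¹ ∈ omegaOneCenter 2 (Q α) := (mem_normalizer_iff.1 (hn hs.1) z).1 hz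
    have h2 : ⁅z, s⁆ = z * (s * z * s⁻¹) := by rw [commutatorElement_def, hzi]; group
    have h3 := mem_omegaOneCenter_iff.1 (mul_mem hz h1)
    rw [h2]
    refine h.mem_ZB' hα hab h3.1 h3.2.2 h3.2.1 hs hq ?_
    have e1 := mem_centralizer_iff.1 hc _ (h.sq_mem_Q hab hs)
    have e2 := mem_centralizer_iff.1 (mem_omegaOneCenter_iff.1 h1).2.1 z (mem_omegaOneCenter_iff.1 hz).1
    calc s * (z * (s * z * s⁻¹)) = s * z * s⁻¹ * (s * s * z) * s⁻¹ := by group
      _ = s * z * s⁻¹ * z * s := by rw [e1]; group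
      _ = z * (s * z * s⁻¹) * s := by rw [← e2]

theorem Z_le_omega (α : CosetVertex P₁ P₂) : Z α ≤ omegaOneCenter 2 (Q α) :=
  sylowCenterClosure_le_omegaOneCenter (h.charP α)

theorem comm_mem (hα : TA α) (hab : Adj α β) {z s : G} (hz : z ∈ Z α)
    (hs : s ∈ St α ⊓ St β) : ⁅z, s⁆ ∈ Z β := h.comm_mem' hα hab (h.Z_le_omega α hz) hs

theorem norm_of_le (hα : TA α) (hab : Adj α β) {X : Subgroup G} (h₁ : Z β ≤ X) (h₂ : X ≤ Z α) :
    St α ⊓ St β ≤ N(X) :=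
  PCoreConj.le_normalizer_of_commutator_le
    (commutator_le.2 fun _ hz _ hs => h₁ (h.comm_mem hα hab (h₂ hz) hs))

theorem ZA_eq (hα : TA α) (hab : Adj α β) (hac : Adj α γ) (hne : γ ≠ β) : Z α = Z β ⊔ Z γ := by
  have hle : Z β ⊔ Z γ ≤ Z α := sup_le (h.ZB_le hα hab) (h.ZB_le hα hac)
  refine le_antisymm ?_ hle
  haveI := h.fin α
  have h1 : St α ≤ N(Z β ⊔ Z γ) := h.St_le₂ hab hac hne (h.norm_of_le hα hab le_sup_left hle)
    (h.norm_of_le hα hac le_sup_right hle)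
  refine (sylowCenterClosure_eq_nclIn (h.loc hab).syl).le.trans (nclIn_le ?_ h1)
  rw [← h.ZB_eq hα hab]
  exact le_sup_left

theorem comm_V_Q (hβ : ¬ TA β) {v q : G} (hv : v ∈ V β) (hq : q ∈ Q β) : ⁅v, q⁆ ∈ Z β := by
  have h1 : ⁅Q β, V β⁆ ≤ Z β := by
    refine commutator_iSup_le (fun δ => ?_) (fun δ => ?_)
    · refine PCoreConj.le_normalizer_of_le_centralizer (le_centralizer_iff.1 ?_)
      exact (h.ZB_le (TA.of_adj hβ δ.2) δ.2.symm).trans ((h.Z_le_Q _).trans (Q_le_C _))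
    · rw [commutator_comm]
      exact commutator_le.2 fun z hz q hq =>
        h.comm_mem (TA.of_adj hβ δ.2) δ.2.symm hz (h.Q_le' δ.2.symm hq)
  rw [commutator_comm] at h1
  exact h1 (commutator_mem_commutator hv hq)

theorem ZB_le_V (hβ : ¬ TA β) : Z β ≤ V β := by
  obtain ⟨α, hab⟩ := exists_adj β
  exact (h.ZB_le (TA.of_adj hβ hab) hab.symm).trans (Z_le_V hab)

theorem res_cent {X : Subgroup G} (hβ : ¬ TA β) (hX : X ≤ Q β) (hn : St β ≤ N(X))
    (hc : ⁅X, pResidualOf 2 (St β)⁆ ≤ Z β) : pResidualOf 2 (St β) ≤ C(X) := by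
  haveI := h.fin β
  haveI : Finite X := PCoreConj.finite_of_le (hX.trans (Q_le_St β))
  exact pResidualOf_le_centralizer_of_le ((pCoreOf_isPGroup 2 _).to_le hX)
    ((pResidualOf_le 2 _).trans hn) hc ((pResidualOf_le 2 _).trans (h.St_le_CZ hβ))

/-- An involution in `Q_α` centralized by `Q_α` and by `O²(G_β)` lies in `Z_β`. -/
theorem mem_ZB_of_res (hα : TA α) (hab : Adj α β) {X : Subgroup G} (hX : X ≤ Z α)
    (hn : St α ⊓ St β ≤ N(X)) (hc : pResidualOf 2 (St β) ≤ C(X)) (hZ : Z β ≤ X) : X ≤ Z β := by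
  obtain ⟨γ, hac, hne⟩ := h.exists_ne hab
  obtain ⟨δ, had, h1, h2⟩ := h.exists_third hab hac hne
  have hβ := hα.not_of_adj hab
  -- the subgroup generated by `X ⊓ Z γ` and `X ⊓ Z δ`
  have key : ∀ z ∈ X, z ∈ Z γ → z = 1 := by
    intro z hzX hz
    obtain ⟨s, hs, hs'⟩ := h.exists_T hab
    obtain ⟨t, ht, ht'⟩ := h.exists_T hac
    have hzα := hX hzX
    have e1 : δ = s • γ := (h.three hab hac had hne h2 hs hs').resolve_left h1
    have e2 : δ = t • β := (h.three hac hab had hne.symm h1 ht ht').resolve_left h2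
    have e3 : β = t • δ := (h.three hac had hab h1 hne.symm ht ht').resolve_left h2.symm
    set w := s * z * s⁻¹ with hw
    have hwδ : w ∈ Z δ := e1 ▸ conj_mem_Z hz s
    have hwX : w ∈ X := (mem_normalizer_iff.1 (hn hs) z).1 hzX
    have hwα : w ∈ Z α := hX hwX
    have hzw : z * w ∈ Z β := by
      have := h.comm_mem hα hab hzα hs
      rwa [commutatorElement_def, h.Z_inv hzα, mul_assoc, mul_assoc, ← mul_assoc s] at this
    have htw : t * w * t⁻¹ ∈ Z β := e3 ▸ conj_mem_Z hwδ t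
    have hwt : w * (t * w * t⁻¹) ∈ Z γ := by
      have := h.comm_mem hα hac hwα ht
      rwa [commutatorElement_def, h.Z_inv hwα, mul_assoc, mul_assoc, ← mul_assoc t] at this
    have hcm : ∀ a ∈ Z α, ∀ b ∈ Z α, a * b = b * a := fun a ha b hb => comm_of_mem ha (h.Z_le_Q α hb)
    have e4 : z * w * (t * w * t⁻¹) = 1 :=
      h.ZB_inf hα hab hac hne (mul_mem hzw htw) (by rw [mul_assoc]; exact mul_mem hz hwt)
    have e5 : t * w * t⁻¹ = z * w := by
      rw [eq_inv_of_mul_eq_one_right e4, h.Z_inv (mul_mem hzα hwα)]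
    set Y := closure ({z, w} : Set G) with hY
    have hzY : z ∈ Y := subset_closure (by simp)
    have hwY : w ∈ Y := subset_closure (by simp)
    have hYX : Y ≤ X := (closure_le _).2 (by
      rintro x (rfl | rfl)
      · exact hzX
      · exact hwX)
    have hQ : Q α ≤ N(Y) := PCoreConj.le_normalizer_of_le_centralizer
      ((Q_le_C α).trans (centralizer_anti (hYX.trans hX)))
    haveI := h.fin α
    haveI : Finite Y := PCoreConj.finite_of_le (hYX.trans (hX.trans (h.Z_le_St α)))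
    have nrm : ∀ g : G, g * z * g⁻¹ ∈ Y → g * w * g⁻¹ ∈ Y → g ∈ N(Y) := by
      intro g g1 g2
      refine mem_normalizer_of_conj_le ?_
      rw [conj_le_iff_le_conj_inv, hY, closure_le]
      rintro x (rfl | rfl)
      · exact mem_conj_iff.2 (by simpa using g1)
      · exact mem_conj_iff.2 (by simpa using g2)
    have hS : St α ⊓ St β ≤ N(Y) := by
      refine h.T_le hab hs hs' hQ (nrm s hwY ?_)
      have : s * w * s⁻¹ = z := by
        have e := comm_of_mem hzα (h.sq_mem_Q hab hs)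
        calc s * w * s⁻¹ = (s * s * z) * (s * s)⁻¹ := by rw [hw]; group
          _ = z := by rw [← e]; group
      rw [this]; exact hzY
    have hA : St α ≤ N(Y) := by
      refine h.St_le hac hab hne.symm ht ht' hS (nrm t ?_ (e5 ▸ mul_mem hzY hwY))
      rw [← h.commB (hα.not_of_adj hac) hz ht.2, mul_inv_cancel_right]
      exact hzY
    have hB : St β ≤ N(Y) := by
      rw [← (h.loc hab.symm).res_sup, inf_comm]
      exact sup_le (PCoreConj.le_normalizer_of_le_centralizer (hc.trans (centralizer_anti hYX))) hS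
    have := h.bot hab (hYX.trans (hX.trans ((h.Z_le_Q α).trans (h.Q_le hab)))) hA hB
    exact mem_bot.1 (this ▸ hzY)
  intro x hx
  have hx' := hX hx
  rw [h.ZA_eq hα hab hac hne] at hx'
  obtain ⟨a, ha, c, hc', rfl⟩ := (PCoreConj.mem_sup_iff_of_le_normalizer
    (((h.ZB_le hα hab).trans ((h.Z_le_Q α).trans (h.Q_le_St' hac))).trans (St_le_NZ γ))).1 hx'
  rw [key c ((mul_mem_cancel_left (hZ ha)).1 hx) hc', mul_one]
  exact ha

/-- `Z_α ∩ Z_γ = Z_β` for distinct neighbours of a vertex `β` of the second type. -/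
theorem ZA_inf (hβ : ¬ TA β) (hba : Adj β α) (hbc : Adj β γ) (hne : γ ≠ α) {z : G} (h₁ : z ∈ Z α)
    (h₂ : z ∈ Z γ) : z ∈ Z β := by
  have hα := TA.of_adj hβ hba
  have hγ := TA.of_adj hβ hbc
  have hZ : Z β ≤ Z α ⊓ Z γ := le_inf (h.ZB_le hα hba.symm) (h.ZB_le hγ hbc.symm)
  have n1 := h.norm_of_le hα hba.symm hZ inf_le_left
  have n2 := h.norm_of_le hγ hbc.symm hZ inf_le_right
  have hn : St β ≤ N(Z α ⊓ Z γ) := h.St_le₂ hba hbc hne (by rwa [inf_comm]) (by rwa [inf_comm])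
  have hc : ⁅Z α ⊓ Z γ, pResidualOf 2 (St β)⁆ ≤ Z β := by
    refine (commutator_mono le_rfl ((pResidualOf_le 2 _).trans
      (h.St_le₂ hba hbc hne le_sup_left le_sup_right))).trans (commutator_sup_le
        (inf_le_left.trans (St_le_NZ β)) (inf_le_left.trans (St_le_NZ β)) ?_ ?_)
    · exact commutator_le.2 fun z hz s hs => h.comm_mem hα hba.symm hz.1 ⟨hs.2, hs.1⟩
    · exact commutator_le.2 fun z hz s hs => h.comm_mem hγ hbc.symm hz.2 ⟨hs.2, hs.1⟩
  have hQ : Z α ⊓ Z γ ≤ St β := inf_le_left.trans ((h.Z_le_Q α).trans (h.Q_le_St' hba.symm))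
  haveI := h.fin β
  haveI : Finite ↥(Z α ⊓ Z γ) := PCoreConj.finite_of_le hQ
  have h3 : pResidualOf 2 (St β) ≤ C(Z α ⊓ Z γ) := pResidualOf_le_centralizer_of_le
    ((pCoreOf_isPGroup 2 _).to_le (inf_le_left.trans (h.Z_le_Q α)))
    ((pResidualOf_le 2 _).trans hn) hc ((pResidualOf_le 2 _).trans (h.St_le_CZ hβ))
  exact h.mem_ZB_of_res hα hba.symm inf_le_left n1 h3 hZ ⟨h₁, h₂⟩

theorem dst_le (hab : Adj α β) (γ : CosetVertex P₁ P₂) : dst α γ ≤ dst β γ + 1 :=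
  dist_le_succ_of_adj h.gen hab γ

theorem dst_le' (hab : Adj α β) (γ : CosetVertex P₁ P₂) : dst γ α ≤ dst γ β + 1 := by
  rw [dst_comm γ, dst_comm γ]; exact h.dst_le hab γ

end HypB

/-- A doubly infinite non-backtracking walk. -/
def IArc (x : ℤ → CosetVertex P₁ P₂) : Prop := ∀ i, Adj (x i) (x (i + 1)) ∧ x (i + 2) ≠ x i

namespace IArc

variable {x y : ℤ → CosetVertex P₁ P₂} (hx : IArc x)
include hx

theorem adj (i j : ℤ) (e : j = i + 1 ∨ i = j + 1 := by omega) : Adj (x i) (x j) := by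
  rcases e with rfl | rfl
  · exact (hx i).1
  · exact (hx j).1.symm

theorem ne (i j : ℤ) (e : i = j + 2 ∨ j = i + 2 := by omega) : x i ≠ x j := by
  rcases e with rfl | rfl
  · exact (hx j).2
  · exact (hx i).2.symm

theorem shift (k : ℤ) : IArc fun i => x (i + k) := fun i =>
  ⟨hx.adj _ _, hx.ne _ _⟩

theorem rev (k : ℤ) : IArc fun i => x (k - i) := fun i =>
  ⟨hx.adj _ _, hx.ne _ _⟩

theorem smul (g : G) : IArc fun i => g • x i := fun i =>
  ⟨adj_smul g (hx i).1, fun e => (hx i).2 (smul_left_cancel g e)⟩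

theorem ta_nat (i : ℤ) (n : ℕ) : (TA (x (i + n)) ↔ TA (x i)) ↔ n % 2 = 0 := by
  induction n with
  | zero => simp
  | succ n ih =>
    have := ta_iff_of_adj (hx.adj (i + n) (i + (n + 1 : ℕ)) (by push_cast; omega))
    rw [this]
    by_cases e : n % 2 = 0
    · have := ih.2 e
      constructor
      · intro h'; tauto
      · omega
    · have := mt ih.1 e
      constructor
      · omega
      · intro _; tauto

theorem ta_iff (i j : ℤ) : (TA (x i) ↔ TA (x j)) ↔ (i - j) % 2 = 0 := by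
  rcases le_total i j with e | e
  · obtain ⟨n, rfl⟩ := Int.le.dest e
    have := hx.ta_nat i n
    rw [show (TA (x i) ↔ TA (x (i + n))) ↔ (TA (x (i + n)) ↔ TA (x i)) from iff_comm, this]; omega
  · obtain ⟨n, rfl⟩ := Int.le.dest e
    have := hx.ta_nat j n
    rw [this]; omega

theorem ta {j : ℤ} (h : TA (x j)) (i : ℤ) (e : (i - j) % 2 = 0 := by omega) : TA (x i) :=
  ((hx.ta_iff i j).2 e).2 h

theorem tb {j : ℤ} (h : TA (x j)) (i : ℤ) (e : (i - j) % 2 = 1 := by omega) : ¬ TA (x i) := fun h' => by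
  have := (hx.ta_iff i j).1 ⟨fun _ => h, fun _ => h'⟩
  omega

theorem dst_nat (h : HypB P₁ P₂) (i : ℤ) (n : ℕ) : dst (x i) (x (i + n)) ≤ n := by
  induction n with
  | zero => simp [dst]
  | succ n ih =>
    have := h.dst_le' (hx.adj (i + (n + 1 : ℕ)) (i + n) (by push_cast; omega)) (x i)
    omega

theorem dst_le (h : HypB P₁ P₂) (i j : ℤ) : dst (x i) (x j) ≤ (i - j).natAbs := by
  rcases le_total i j with e | e
  · obtain ⟨n, rfl⟩ := Int.le.dest e
    have := hx.dst_nat h i n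
    omega
  · obtain ⟨n, rfl⟩ := Int.le.dest e
    have := hx.dst_nat h j n
    rw [dst_comm]
    omega

end IArc

namespace HypB

variable (h : HypB P₁ P₂) {α β γ δ : CosetVertex P₁ P₂} {x y : ℤ → CosetVertex P₁ P₂}
include h

theorem exists_ray (hab : Adj α β) : ∃ f : ℕ → CosetVertex P₁ P₂, f 0 = α ∧ f 1 = β ∧
    ∀ i, Adj (f i) (f (i + 1)) ∧ f (i + 2) ≠ f i := by
  choose nx h1 h2 using fun e : {e : CosetVertex P₁ P₂ × CosetVertex P₁ P₂ // Adj e.1 e.2} =>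
    h.exists_ne e.2.symm
  let step : {e : CosetVertex P₁ P₂ × CosetVertex P₁ P₂ // Adj e.1 e.2} →
      {e : CosetVertex P₁ P₂ × CosetVertex P₁ P₂ // Adj e.1 e.2} := fun e => ⟨(e.1.2, nx e), h1 e⟩
  let F : ℕ → {e : CosetVertex P₁ P₂ × CosetVertex P₁ P₂ // Adj e.1 e.2} :=
    fun n => step^[n] ⟨(α, β), hab⟩
  have hF : ∀ n, F (n + 1) = step (F n) := fun n => Function.iterate_succ_apply' _ _ _
  refine ⟨fun n => (F n).1.1, rfl, rfl, fun i => ⟨?_, ?_⟩⟩
  · simp only [hF]; exact (F i).2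
  · simp only [hF]; exact h2 (F i)

theorem splice' (j : ℤ) (h₁ : ∀ i, i + 1 ≤ j → Adj (x i) (x (i + 1))) (h₂ : ∀ i, i + 2 ≤ j → x (i + 2) ≠ x i)
    (ha : Adj (x j) α) (hne : α ≠ x (j - 1)) : ∃ y, IArc y ∧ (∀ i ≤ j, y i = x i) ∧ y (j + 1) = α := by
  obtain ⟨f, f0, f1, hf⟩ := h.exists_ray ha
  have e1 : ∀ i, j ≤ i → (if i ≤ j then x i else f (i - j).toNat) = f (i - j).toNat := by
    intro i hi
    split_ifs with e
    · obtain rfl : i = j := by omega
      simp [f0]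
    · rfl
  refine ⟨fun i => if i ≤ j then x i else f (i - j).toNat, fun i => ⟨?_, ?_⟩, fun i hi => if_pos hi, ?_⟩
  · by_cases e : i + 1 ≤ j
    · simp only [if_pos e, if_pos (show i ≤ j by omega)]; exact h₁ i e
    · simp only [e1 i (by omega), e1 (i + 1) (by omega)]
      rw [show (i + 1 - j).toNat = (i - j).toNat + 1 by omega]
      exact (hf _).1
  · by_cases e : i + 2 ≤ j
    · simp only [if_pos e, if_pos (show i ≤ j by omega)]; exact h₂ i e
    · by_cases e' : i + 1 = j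
      · simp only [e1 (i + 2) (by omega), if_pos (show i ≤ j by omega)]
        rw [show (i + 2 - j).toNat = 1 by omega, f1, show i = j - 1 by omega]
        exact hne
      · simp only [e1 i (by omega), e1 (i + 2) (by omega)]
        rw [show (i + 2 - j).toNat = (i - j).toNat + 2 by omega]
        exact (hf _).2
  · simp only [e1 (j + 1) (by omega)]
    rw [show (j + 1 - j).toNat = 1 by omega, f1]

theorem splice (hx : IArc x) (j : ℤ) (ha : Adj (x j) α) (hne : α ≠ x (j - 1)) :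
    ∃ y, IArc y ∧ (∀ i ≤ j, y i = x i) ∧ y (j + 1) = α :=
  h.splice' j (fun i _ => (hx i).1) (fun i _ => (hx i).2) ha hne

theorem splice_back (hx : IArc x) (j : ℤ) (ha : Adj (x j) α) (hne : α ≠ x (j + 1)) :
    ∃ y, IArc y ∧ (∀ i, j ≤ i → y i = x i) ∧ y (j - 1) = α := by
  obtain ⟨y, hy, h1, h2⟩ := h.splice (hx.rev 0) (-j) (α := α) (by simpa using ha)
    (by rwa [show (0 : ℤ) - (-j - 1) = j + 1 by omega])
  refine ⟨fun i => y (0 - i), hy.rev 0, fun i hi => ?_, ?_⟩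
  · simp only [h1 (0 - i) (by omega)]; congr 1; omega
  · rw [← h2]; exact congrArg y (by omega)

theorem exists_iarc (hab : Adj α β) : ∃ y, IArc y ∧ y 0 = α ∧ y 1 = β := by
  obtain ⟨γ, hγ, hne⟩ := h.exists_ne hab
  obtain ⟨f, f0, f1, hf⟩ := h.exists_ray hγ
  obtain ⟨y, hy, h1, h2⟩ := h.splice' (x := fun i => f (-i).toNat) (α := β) 0 (fun i hi => by
      rw [show (-i).toNat = (-(i + 1)).toNat + 1 by omega]; exact (hf _).1.symm)
    (fun i hi => by rw [show (-i).toNat = (-(i + 2)).toNat + 2 by omega]; exact (hf _).2.symm)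
    (by simpa [f0] using hab) (by simpa [f1] using hne.symm)
  exact ⟨y, hy, by simpa [f0] using h1 0 le_rfl, by simpa using h2⟩

theorem exists_geodesic (n : ℕ) : ∀ β, dst α β = n → ∃ y, IArc y ∧ y 0 = α ∧ y n = β := by
  induction n with
  | zero =>
    intro β e
    obtain ⟨y, hy, h1, -⟩ := h.exists_iarc (exists_adj α).choose_spec
    exact ⟨y, hy, h1, h1.trans ((connected h.gen).dist_eq_zero_iff.1 e)⟩
  | succ n ih =>
    intro β e
    have hne : β ≠ α := by rintro rfl; simp [dst] at e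
    obtain ⟨γ, h1, h2⟩ := exists_adj_dist_lt h.gen hne
    have h3 := h.dst_le h1 α
    have h4 : dst α γ = n := by
      rw [dst_comm] at e ⊢
      change dst γ α + 1 ≤ dst β α at h2
      omega
    obtain ⟨y, hy, y0, yn⟩ := ih γ h4
    by_cases hn : n = 0
    · subst hn
      obtain ⟨y, hy, h5, h6⟩ := h.exists_iarc (α := α) (β := β) (by
        rw [← y0, show y 0 = γ from yn]; exact h1.symm)
      exact ⟨y, hy, h5, h6⟩
    · obtain ⟨z, hz, z1, z2⟩ := h.splice hy n (α := β) (yn ▸ h1.symm) (by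
        intro e'
        have := hy.dst_le h 0 (n - 1)
        rw [y0, ← e', e] at this
        omega)
      exact ⟨z, hz, (z1 0 (by omega)).trans y0, by simpa using z2⟩

/-- Transitivity on arcs. -/
theorem arc_trans {N : ℕ}
    (hA : ∀ t : Prop, ∃ x : ℤ → CosetVertex P₁ P₂, IArc x ∧ (TA (x N) ↔ t) ∧
      ∃ a, (∀ i : ℤ, 0 ≤ i → i ≤ N → a ∈ St (x i)) ∧ a ∉ Q (x N)) (n : ℕ) (hn : n ≤ N + 1) :
    ∀ x y : ℤ → CosetVertex P₁ P₂, IArc x → IArc y → (TA (x 0) ↔ TA (y 0)) →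
      ∃ g : G, ∀ i : ℤ, 0 ≤ i → i ≤ n → g • x i = y i := by
  induction n with
  | zero =>
    intro x y _ _ e
    obtain ⟨g, hg⟩ := exists_smul_of_ta e
    exact ⟨g, fun i h1 h2 => by rwa [show i = 0 by omega]⟩
  | succ n ih =>
    intro x y hx hy e
    obtain ⟨g, hg⟩ := ih (by omega) x y hx hy e
    have a1 : Adj (y n) (g • x (n + 1)) := by
      rw [← hg n (by omega) le_rfl]; exact adj_smul g (hx n).1
    suffices ∃ k : G, (∀ i : ℤ, 0 ≤ i → i ≤ n → k ∈ St (y i)) ∧ k • g • x (n + 1) = y (n + 1) by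
      obtain ⟨k, k1, k2⟩ := this
      refine ⟨k * g, fun i h1 h2 => ?_⟩
      rw [mul_smul]
      by_cases e' : i ≤ n
      · rw [hg i h1 e']; exact k1 i h1 e'
      · rwa [show i = n + 1 by push_cast at h2; omega]
    by_cases hn0 : n = 0
    · subst hn0
      obtain ⟨k, hk, hk'⟩ := exists_smul_eq_of_adj a1 (hy 0).1
      exact ⟨k, fun i h1 h2 => by rwa [show i = 0 by omega], hk'⟩
    obtain ⟨z, hz, tz, a, a2, a3⟩ := hA (TA (y n))
    obtain ⟨k, hk⟩ := ih (by omega) (fun i => z (i + (N - n))) y (hz.shift _) hy (by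
      have t1 := hz.ta_iff (0 + (N - n)) N
      have t2 := hy.ta_iff 0 n
      by_cases par : (0 - (n : ℤ)) % 2 = 0
      · have := t1.2 (by omega); have := t2.2 par; tauto
      · have := mt t1.1 (by omega); have := mt t2.1 par; tauto)
    have f1 : ∀ i : ℤ, 0 ≤ i → i ≤ n → k * a * k⁻¹ ∈ St (y i) := fun i h1 h2 => by
      rw [← hk i h1 h2, St_smul]
      exact conj_mem_conj k (a2 _ (by omega) (by omega))
    have f2 : k * a * k⁻¹ ∉ Q (y n) := by
      rw [← hk n (by omega) le_rfl, conj_mem_Q, show (n : ℤ) + (N - n) = N by omega]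
      exact a3
    have n1 : g • x (n + 1) ≠ y (n - 1) := by
      rw [← hg (n - 1) (by omega) (by omega)]
      exact (hx.smul g).ne _ _
    rcases h.three (hy.adj n (n - 1)) a1 (hy n).1 n1 (hy.ne _ _)
      ⟨f1 n (by omega) le_rfl, f1 (n - 1) (by omega) (by omega)⟩ f2 with e' | e'
    · exact ⟨1, fun _ _ _ => one_mem _, by rw [one_smul, e']⟩
    · exact ⟨_, f1, e'.symm⟩

end HypB

end Cfsg.Agent.Lib.Gold
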