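import Cfsg.Agent.Lib.GoldA
import Cfsg.Agent.Lib.PushOne

/-! Amalgams of index `(3,3)`: small centres and the order bound. -/

set_option autoImplicit false

namespace Cfsg.Agent.Lib.Gold

open Subgroup MulAction Cfsg.Agent.Lib.PCoreConj Cfsg.Agent.Lib.PCore Cfsg.Agent.Lib.PCoreResidual
  Cfsg.Agent.Lib.PReduced Cfsg.Agent.Lib.CosetGraph Cfsg.Agent.Lib.LocIdx Cfsg.Agent.Lib.AmalgS3
  Cfsg.Agent.Lib.PushBase Cfsg.Agent.Lib.PCoreMod
open scoped commutatorElement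

variable {G : Type*} [Group G]

theorem card_sup_le_two {K : Subgroup G} [Finite K] {a : G} (ha : a ∈ N(K)) (h2 : a * a ∈ K) :
    Finite ↥(zpowers a ⊔ K) ∧ Nat.card ↥(zpowers a ⊔ K) ≤ 2 * Nat.card K := by
  have h1 : K.relIndex (zpowers a ⊔ K) = 1 ∨ K.relIndex (zpowers a ⊔ K) = 2 := by
    rw [relIndex_sup_of_le_normalizer (zpowers_le.2 ha)]
    by_cases e : a ∈ K
    · exact Or.inl (relIndex_eq_one.2 (zpowers_le.2 e))
    · refine Or.inr (relIndex_eq_two_of (mem_zpowers a) e ?_)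
      rintro _ ⟨n, rfl⟩ hn
      have k : ∀ m : ℤ, a ^ (2 * m) ∈ K := fun m => by
        rw [zpow_mul, zpow_two]; exact zpow_mem h2 m
      rcases Int.even_or_odd' n with ⟨m, rfl | rfl⟩
      · exact absurd (k m) hn
      · have := k (m + 1)
        rwa [show 2 * (m + 1) = 2 * m + 1 + 1 by ring, zpow_add_one] at this
  have h3 := card_mul_relIndex (le_sup_right : K ≤ zpowers a ⊔ K)
  have h4 : 0 < Nat.card K := Nat.card_pos
  refine ⟨Nat.finite_of_card_ne_zero ?_, ?_⟩ <;> rcases h1 with e | e <;> rw [e] at h3 <;> omega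

theorem swap_comm {K : Subgroup G} {y q : G} (h₁ : ⁅y, q * q⁆ ∈ K) (h₂ : ⁅y, q * y * q⁻¹⁆ ∈ K)
    (h₃ : q * y * q⁻¹ ∈ N(K)) : ⁅y * (q * y * q⁻¹), q⁆ ∈ K := by
  have : ⁅y * (q * y * q⁻¹), q⁆ =
      ⁅y, q * y * q⁻¹⁆ * ((q * y * q⁻¹) * ⁅y, q * q⁆ * (q * y * q⁻¹)⁻¹) := by
    simp only [commutatorElement_def]; group
  rw [this]
  exact mul_mem h₂ (conj_mem_of_norm h₃ h₁)

variable {P₁ P₂ : Subgroup G}

/-- The centres of the second type have order two. -/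
def K1 (P₁ P₂ : Subgroup G) : Prop :=
  ∀ β : CosetVertex P₁ P₂, ¬ TA β → ∀ u ∈ Z β, ∀ v ∈ Z β, u ≠ 1 → v ≠ 1 → u = v

namespace HypB

variable (h : HypB P₁ P₂) {α β γ δ : CosetVertex P₁ P₂}
include h

theorem exists_Z (β : CosetVertex P₁ P₂) : ∃ u ∈ Z β, u ≠ 1 :=
  (Z β).bot_or_exists_ne_one.resolve_left (h.Z_ne_bot β)

theorem exists_Z_not (hα : TA α) (hab : Adj α β) : ∃ u ∈ Z α, u ∉ Z β := by
  obtain ⟨γ, hac, hne⟩ := h.exists_ne hab
  obtain ⟨u, hu, hu1⟩ := h.exists_Z γ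
  exact ⟨u, h.ZB_le hα hac hu, fun e => hu1 (h.ZB_inf hα hab hac hne e hu)⟩

theorem k1_of (hα : TA α) (hab : Adj α β)
    (e : ∀ u ∈ Z α, ∀ v ∈ Z α, u ∉ Z β → v ∉ Z β → u * v ∈ Z β) : K1 P₁ P₂ := by
  obtain ⟨γ, hac, hne⟩ := h.exists_ne hab
  have k : ∀ u ∈ Z γ, ∀ v ∈ Z γ, u ≠ 1 → v ≠ 1 → u = v := by
    intro u hu v hv hu1 hv1
    have := h.ZB_inf hα hab hac hne (e u (h.ZB_le hα hac hu) v (h.ZB_le hα hac hv)
      (fun e => hu1 (h.ZB_inf hα hab hac hne e hu)) (fun e => hv1 (h.ZB_inf hα hab hac hne e hv)))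
      (mul_mem hu hv)
    rw [eq_inv_of_mul_eq_one_left this, h.Z_inv hv]
  intro μ hμ u hu v hv hu1 hv1
  obtain ⟨g, rfl⟩ := exists_smul_of_ta (α := μ) (β := γ) ⟨fun e => absurd e hμ,
    fun e => absurd e (hα.not_of_adj hac)⟩
  simpa using k _ (conj_mem_Z hu g) _ (conj_mem_Z hv g) (by simpa using hu1) (by simpa using hv1)

theorem cent_res (hα : TA α) : Q α ⊓ C(pResidualOf 2 (St α)) = ⊥ := by
  by_contra hne
  obtain ⟨β, hab⟩ := exists_adj α
  haveI := h.fin α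
  haveI : Finite ↥(Q α ⊓ C(pResidualOf 2 (St α))) :=
    PCoreConj.finite_of_le (inf_le_left.trans (Q_le_St α))
  obtain ⟨z, hz, hc, h1, h2⟩ := exists_mem_centralizer_pow_eq_one (h.loc hab).syl.isPGroup
    ((pCoreOf_isPGroup 2 _).to_le inf_le_left) (inf_le_left.trans (PCoreConj.le_normalizer_inf
      (St_le_NQ α) (PCoreConj.le_normalizer_centralizer (le_normalizer_pResidualOf 2 _)))) hne
  have hS : St α ⊓ St β ≤ centralizer ({z} : Set G) := fun g hg =>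
    mem_centralizer_singleton_iff.2 (mem_centralizer_iff.1 hc g hg)
  have hzβ := h.mem_ZB hα hab (h.Q_le hab hz.1) h2 hS
  refine h1 (h.one hab (h.Q_le hab hz.1) ?_ fun g hg =>
    mem_centralizer_singleton_iff.2 (h.commB (hα.not_of_adj hab) hzβ hg).symm)
  rw [← (h.loc hab).res_sup]
  exact sup_le (fun g hg => mem_centralizer_singleton_iff.2 (mem_centralizer_iff.1 hz.2 g hg)) hS

theorem two_trans (hab : Adj α β) (hac : Adj α γ) (hne : γ ≠ β) {α' β' γ' : CosetVertex P₁ P₂}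
    (hab' : Adj α' β') (hac' : Adj α' γ') (hne' : γ' ≠ β') (e : TA α ↔ TA α') :
    ∃ g : G, g • α = α' ∧ g • β = β' ∧ g • γ = γ' := by
  obtain ⟨g, rfl⟩ := exists_smul_of_ta e
  obtain ⟨k, hk, rfl⟩ := exists_smul_eq_of_adj (adj_smul g hab) hab'
  obtain ⟨q, hq, hq'⟩ := h.exists_T hab'
  have a1 : Adj (g • α) (k • g • γ) := adj_smul_of_mem hk (adj_smul g hac)
  rcases h.three hab' a1 hac' (fun e => hne (smul_left_cancel g (smul_left_cancel k e))) hne' hq hq'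
    with rfl | rfl
  · exact ⟨k * g, by rw [mul_smul]; exact hk, mul_smul _ _ _, mul_smul _ _ _⟩
  · exact ⟨q * (k * g), by rw [mul_smul, mul_smul, mem_stabilizer_iff.1 hk]; exact hq.1,
      by rw [mul_smul, mul_smul]; exact hq.2, by rw [mul_smul, mul_smul]⟩

variable (k : K1 P₁ P₂)
include k

theorem mul_mem_ZB (hα : TA α) (hab : Adj α β) {u v : G} (hu : u ∈ Z α) (hv : v ∈ Z α) (hu' : u ∉ Z β)
    (hv' : v ∉ Z β) : u * v ∈ Z β := by
  obtain ⟨γ, hac, hne⟩ := h.exists_ne hab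
  have hn : Z β ≤ N(Z γ) :=
    ((h.ZB_le hα hab).trans ((h.Z_le_Q α).trans (h.Q_le_St' hac))).trans (St_le_NZ γ)
  rw [h.ZA_eq hα hab hac hne] at hu hv
  obtain ⟨a, ha, c, hc, rfl⟩ := (PCoreConj.mem_sup_iff_of_le_normalizer hn).1 hu
  obtain ⟨a', ha', c', hc', rfl⟩ := (PCoreConj.mem_sup_iff_of_le_normalizer hn).1 hv
  obtain rfl := k γ (hα.not_of_adj hac) c hc c' hc' (by rintro rfl; exact hu' (by simpa using ha))
    (by rintro rfl; exact hv' (by simpa using ha'))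
  have e := comm_of_mem (h.ZB_le hα hac hc) (h.Z_le_Q α (h.ZB_le hα hab ha'))
  have : a * c * (a' * c) = a * a' * (c * c) := by
    rw [mul_assoc, ← mul_assoc c, e]; group
  rw [this, h.Z_mul hc, mul_one]
  exact mul_mem ha ha'

theorem mem_third (hα : TA α) (hab : Adj α β) (hac : Adj α γ) (had : Adj α δ) (h1 : γ ≠ β) (h2 : δ ≠ β)
    (h3 : δ ≠ γ) {u : G} (hu : u ∈ Z α) (hb : u ∉ Z β) (hc : u ∉ Z γ) : u ∈ Z δ := by
  obtain ⟨c, hc1, hc2⟩ := h.exists_Z δ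
  have hcα := h.ZB_le hα had hc1
  have := h.ZB_inf hα hab hac h1
    (h.mul_mem_ZB k hα hab hu hcα hb fun e => hc2 (h.ZB_inf hα hab had h2 e hc1))
    (h.mul_mem_ZB k hα hac hu hcα hc fun e => hc2 (h.ZB_inf hα hac had h3 e hc1))
  rw [eq_inv_of_mul_eq_one_left this]
  exact inv_mem hc1

theorem omega_le (hα : TA α) {y : G} (hy : y ∈ omegaOneCenter 2 (Q α)) : y ∈ Z α := by
  obtain ⟨β, hab⟩ := exists_adj α
  obtain ⟨s, hs, hs'⟩ := h.exists_T hab
  obtain ⟨u, hu, hu'⟩ := h.exists_Z_not hα hab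
  have key : ∀ w ∈ omegaOneCenter 2 (Q α), ⁅w, s⁆ = 1 → w ∈ Z β := fun w hw e =>
    h.mem_ZB' hα hab (mem_omegaOneCenter_iff.1 hw).1 (mem_omegaOneCenter_iff.1 hw).2.2
      (mem_omegaOneCenter_iff.1 hw).2.1 hs hs' (commutatorElement_eq_one_iff_mul_comm.1 e).symm
  by_cases e : ⁅y, s⁆ = 1
  · exact h.ZB_le hα hab (key y hy e)
  · have hu0 := h.Z_le_omega α hu
    have c1 := h.comm_mem' hα hab hy hs
    have c2 := h.comm_mem' hα hab hu0 hs
    have e1 := k β (hα.not_of_adj hab) _ c1 _ c2 e fun e' => hu' (key u hu0 e')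
    have := key (y * u) (mul_mem hy hu0) (by
      rw [comm_mul_left, ← comm_of_mem (h.ZB_le hα hab c2) (mem_omegaOneCenter_iff.1 hy).1,
        mul_inv_cancel_right, e1, h.Z_mul c2])
    exact (mul_mem_cancel_right hu).1 (h.ZB_le hα hab this)

theorem card_Z (hα : TA α) : Nat.card (Z α) ≤ 4 := by
  obtain ⟨β, hab⟩ := exists_adj α
  obtain ⟨u, hu, hu'⟩ := h.exists_Z_not hα hab
  obtain ⟨c, hc, hc'⟩ := h.exists_Z β
  obtain ⟨f1, c1⟩ := card_sup_le_two (K := ⊥) (a := c) (le_normalizer_of_normal (mem_top c)) (by simpa using h.Z_mul hc)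
  obtain ⟨f2, c2⟩ := card_sup_le_two (K := zpowers c ⊔ ⊥) (a := u)
    (PCoreConj.le_normalizer_of_le_centralizer (L := Q α) ((Q_le_C α).trans (centralizer_anti
      (sup_le (zpowers_le.2 (h.ZB_le hα hab hc)) bot_le))) (h.Z_le_Q α hu))
    (by rw [h.Z_mul hu]; exact one_mem _)
  have hβ : Z β ≤ zpowers c ⊔ ⊥ := fun x hx => by
    by_cases e : x = 1
    · rw [e]; exact one_mem _
    · rw [k β (hα.not_of_adj hab) x hx c hc e hc']; exact mem_sup_left (mem_zpowers c)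
  have : Z α ≤ zpowers u ⊔ (zpowers c ⊔ ⊥) := fun x hx => by
    by_cases e : x ∈ Z β
    · exact mem_sup_right (hβ e)
    · exact (mul_mem_cancel_right (mem_sup_left (mem_zpowers u))).1
        (mem_sup_right (hβ (h.mul_mem_ZB k hα hab hx hu e hu')))
  have c3 := card_le_of_le this
  rw [card_bot] at c1
  omega

/-- The order bound. -/
theorem bound (hα : TA α) (hab : Adj α β) {v u : G} (hv : v ∈ Q α)
    (p1 : ∀ s ∈ St α ⊓ St β, ⁅v, s⁆ ∈ Z α) (p2 : v * v ∈ Z α) (hu : u ∈ St α) (hu' : u ∉ Q α)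
    (p3 : ∀ q ∈ Q α, ⁅q, u⁆ ∈ nclIn (zpowers v ⊔ Z α) (St α)) : Nat.card (Q α) ≤ 64 := by
  haveI := h.fin α
  haveI : Fact (Nat.Prime 3) := ⟨Nat.prime_three⟩
  have L := h.loc hab
  haveI : Finite (Q α) := PCoreConj.finite_of_le (Q_le_St α)
  haveI : Finite (Z α) := PCoreConj.finite_of_le (h.Z_le_St α)
  obtain ⟨d, hd, ho⟩ := exists_mem_orderOf_eq (p := 3) (H := St α) (by
    rw [← card_mul_relIndex L.syl.le, L.idx3]; exact Dvd.intro_left _ rfl)
  have d3 : d * d * d = 1 := by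
    have := pow_orderOf_eq_one d
    rwa [ho, pow_succ, pow_two] at this
  have hco : (orderOf d).Coprime 2 := by rw [ho]; norm_num
  have odd : ∀ x ∈ zpowers d, ∀ {K : Subgroup G}, IsPGroup 2 K → x ∈ K → x = 1 := by
    intro x hx K hK hxK
    obtain ⟨n, hn⟩ := isPGroup_iff_forall_mem.1 hK x hxK
    exact eq_one_of_coprime_of_pow_eq_one (Nat.Coprime.coprime_dvd_left (orderOf_dvd_of_mem_zpowers hx) hco) hn
  have d1 : d ≠ 1 := by rintro rfl; simp at ho
  have dS : d ∉ St β := fun e => d1 (odd d (mem_zpowers d) L.syl.isPGroup ⟨hd, e⟩)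
  have dS2 : d * d ∉ St β := fun e => d1 (by
    have := odd _ (mul_mem (mem_zpowers d) (mem_zpowers d)) L.syl.isPGroup ⟨mul_mem hd hd, e⟩
    rwa [this, one_mul] at d3)
  have dQ : d ∉ Q α := fun e => dS (h.Q_le_St' hab e)
  have hZn := St_le_NZ α
  have hQn := St_le_NQ α
  have cQ : ∀ g ∈ St α, ∀ q ∈ Q α, ⁅g * v * g⁻¹, q⁆ ∈ Z α := by
    intro g hg q hq
    have := conj_mem_of_norm (hZn hg) (p1 _ (h.Q_le hab (conj_mem_of_norm (hQn (inv_mem hg)) hq)))
    rw [conj_comm] at this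
    simpa [mul_assoc] using this
  set v₂ := d * v * d⁻¹ with hv₂
  set v₃ := d * d * v * (d * d)⁻¹ with hv₃
  have q₂ : v₂ ∈ Q α := conj_mem_of_norm (hQn hd) hv
  have q₃ : v₃ ∈ Q α := conj_mem_of_norm (hQn (mul_mem hd hd)) hv
  have s₂ : v₂ * v₂ ∈ Z α := by
    have := conj_mem_of_norm (hZn hd) p2
    rwa [show d * (v * v) * d⁻¹ = v₂ * v₂ by rw [hv₂]; group] at this
  have s₃ : v₃ * v₃ ∈ Z α := by
    have := conj_mem_of_norm (hZn (mul_mem hd hd)) p2
    rwa [show d * d * (v * v) * (d * d)⁻¹ = v₃ * v₃ by rw [hv₃]; group] at this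
  set W₀ := zpowers v ⊔ (zpowers v₂ ⊔ (zpowers v₃ ⊔ Z α)) with hW₀
  have ZW : Z α ≤ W₀ := le_sup_of_le_right (le_sup_of_le_right le_sup_right)
  have W1 : nclIn (zpowers v ⊔ Z α) (St α) ≤ W₀ := by
    refine nclIn_le_iff.2 fun g hg => ?_
    rw [conj_sup, conj_eq_of_mem_normalizer (hZn hg), conj_zpowers]
    refine sup_le (zpowers_le.2 ?_) ZW
    have key : ∀ e ∈ St α, g • β = e • β → e * v * e⁻¹ ∈ W₀ → g * v * g⁻¹ ∈ W₀ := by
      intro e he h1 h2
      have h3 : e⁻¹ * g ∈ St α ⊓ St β := mem_inf.2 ⟨mul_mem (inv_mem he) hg, by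
        change (e⁻¹ * g) • β = β
        rw [mul_smul, h1, inv_smul_smul]⟩
      have h4 := ZW (conj_mem_of_norm (hZn he) (p1 _ h3))
      have : g * v * g⁻¹ = (e * ⁅v, e⁻¹ * g⁆ * e⁻¹)⁻¹ * (e * v * e⁻¹) := by
        simp only [commutatorElement_def]; group
      rw [this]
      exact mul_mem (inv_mem h4) h2
    rcases h.cases3 hab (adj_smul_of_mem hd hab) (adj_smul_of_mem (mul_mem hd hd) hab) dS dS2
      (fun e => dS (by rw [mul_smul] at e; exact smul_left_cancel d e)) (adj_smul_of_mem hg hab)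
      with e | e | e
    · exact key 1 (one_mem _) (by simpa using e) (by simpa using mem_sup_left (mem_zpowers v))
    · exact key d hd e (mem_sup_right (mem_sup_left (mem_zpowers _)))
    · exact key _ (mul_mem hd hd) e (mem_sup_right (mem_sup_right (mem_sup_left (mem_zpowers _))))
  have relZ : W₀ ≤ rel (Z α) (Q α) := by
    have m : ∀ g ∈ St α, g * v * g⁻¹ ∈ rel (Z α) (Q α) := fun g hg =>
      mem_rel.2 ⟨hZn (Q_le_St α (conj_mem_of_norm (hQn hg) hv)), fun q hq => comm_mem_swap (cQ g hg q hq)⟩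
    refine sup_le (zpowers_le.2 (by simpa using m 1 (one_mem _))) (sup_le (zpowers_le.2 (m d hd))
      (sup_le (zpowers_le.2 (m _ (mul_mem hd hd))) (le_rel_iff.2 ⟨le_normalizer, ?_⟩)))
    exact PCoreConj.commutator_le_right_of_le_normalizer ((Q_le_St α).trans hZn)
  have WQ : W₀ ≤ Q α := sup_le (zpowers_le.2 hv) (sup_le (zpowers_le.2 q₂) (sup_le (zpowers_le.2 q₃)
    (h.Z_le_Q α)))
  have cW : ∀ w ∈ W₀, ∀ q ∈ Q α, ⁅q, w⁆ ∈ Z α := fun w hw => (mem_rel.1 (relZ hw)).2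
  have m₁ : v ∈ W₀ := mem_sup_left (mem_zpowers v)
  have m₂ : v₂ ∈ W₀ := mem_sup_right (mem_sup_left (mem_zpowers _))
  have m₃ : v₃ ∈ W₀ := mem_sup_right (mem_sup_right (mem_sup_left (mem_zpowers _)))
  set a := v₂ * v⁻¹ with ha
  set a' := v₃ * v₂⁻¹ with ha'
  have ea : d * a * d⁻¹ = a' := by rw [ha, ha', hv₂, hv₃]; group
  have aW : a ∈ W₀ := mul_mem m₂ (inv_mem m₁)
  have aW' : a' ∈ W₀ := mul_mem m₃ (inv_mem m₂)
  set X₀ := zpowers a' ⊔ (zpowers a ⊔ Z α) with hX₀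
  have ZX : Z α ≤ X₀ := le_sup_of_le_right le_sup_right
  have XW : X₀ ≤ W₀ := sup_le (zpowers_le.2 aW') (sup_le (zpowers_le.2 aW) ZW)
  have nQ : ∀ X, Z α ≤ X → X ≤ W₀ → Q α ≤ N(X) := fun X h1 h2 =>
    PCoreConj.le_normalizer_of_commutator_le (commutator_le.2 fun x hx q hq =>
      h1 (comm_mem_swap (cW x (h2 hx) q hq)))
  have sq : ∀ x y : G, x ∈ W₀ → y ∈ W₀ → x * x ∈ Z α → y * y ∈ Z α → x * y⁻¹ * (x * y⁻¹) ∈ Z α := by
    intro x y hx hy h1 h2
    have : x * y⁻¹ * (x * y⁻¹) = x * ⁅y⁻¹, x⁆ * x⁻¹ * (x * x) * (y * y)⁻¹ := by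
      simp only [commutatorElement_def]; group
    rw [this]
    exact mul_mem (mul_mem (conj_mem_of_norm (hZn (Q_le_St α (WQ hx))) (cW x hx _ (WQ (inv_mem hy)))) h1)
      (inv_mem h2)
  obtain ⟨f1, c1⟩ := card_sup_le_two (K := Z α) (a := a) (hZn (Q_le_St α (WQ aW))) (sq _ _ m₂ m₁ s₂ p2)
  obtain ⟨f2, c2⟩ := card_sup_le_two (K := zpowers a ⊔ Z α) (a := a')
    (nQ _ le_sup_right (le_sup_right.trans XW) (WQ aW')) (mem_sup_right (sq _ _ m₃ m₂ s₃ s₂))
  have c3 := h.card_Z k hα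
  have aX : a ∈ X₀ := mem_sup_right (mem_sup_left (mem_zpowers _))
  have aX' : a' ∈ X₀ := mem_sup_left (mem_zpowers _)
  have a3 : ⁅d, v₃⁆ = (a' * a)⁻¹ := by
    have : d * v₃ * d⁻¹ = v := by
      calc d * v₃ * d⁻¹ = d * d * d * v * (d * d * d)⁻¹ := by rw [hv₃]; group
        _ = v := by rw [d3]; group
    rw [commutatorElement_def, this, ha, ha']; group
  have dW : ∀ w ∈ W₀, ⁅d, w⁆ ∈ X₀ := by
    have : W₀ ≤ stab X₀ d := by
      have nX := nQ X₀ ZX XW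
      refine sup_le (zpowers_le.2 (mem_stab.2 ⟨nX hv, aX⟩)) (sup_le (zpowers_le.2 (mem_stab.2 ⟨nX q₂, ?_⟩))
        (sup_le (zpowers_le.2 (mem_stab.2 ⟨nX q₃, ?_⟩)) fun z hz => mem_stab.2 ⟨nX (h.Z_le_Q α hz), ?_⟩))
      · rw [show ⁅d, v₂⁆ = a' by rw [ha', hv₃, hv₂, commutatorElement_def]; group]; exact aX'
      · rw [a3]; exact inv_mem (mul_mem aX' aX)
      · exact ZX (comm_mem_swap (comm_mem_of_norm (hZn hd) hz))
    exact fun w hw => (mem_stab.1 (this hw)).2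
  have dX : d ∈ N(X₀) := by
    refine mem_normalizer_of_conj_le (conj_le_iff.2 fun x hx => ?_)
    have := mul_mem (dW x (XW hx)) hx
    rwa [commutatorElement_def, inv_mul_cancel_right] at this
  have dW₀ : d ∈ N(W₀) := by
    haveI : Finite W₀ := PCoreConj.finite_of_le WQ
    refine mem_normalizer_of_conj_le (conj_le_iff.2 fun x hx => ?_)
    have := mul_mem (XW (dW x hx)) hx
    rwa [commutatorElement_def, inv_mul_cancel_right] at this
  have res : pResidualOf 2 (St α) ≤ rel (nclIn (zpowers v ⊔ Z α) (St α)) (Q α) :=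
    L.res_le (le_norm_rel (le_normalizer_nclIn _ _) hQn) hu hu'
      (mem_rel.2 ⟨le_normalizer_nclIn _ _ hu, p3⟩)
  have dres : zpowers d ≤ pResidualOf 2 (St α) := zpowers_le.2 (mem_pResidualOf hd hco)
  have c4 : ⁅Q α, zpowers d⁆ ≤ W₀ := (comm_le_of_le_rel (dres.trans res)).trans W1
  have c5 : ⁅W₀, zpowers d⁆ ≤ X₀ :=
    comm_le_of_le_rel (zpowers_le.2 (mem_rel.2 ⟨dX, fun w hw => comm_mem_swap (dW w hw)⟩))
  have cop : (Nat.card (zpowers d)).Coprime (Nat.card (Q α)) := by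
    rw [Nat.card_zpowers]
    exact (coprime_card_of_isPGroup (pCoreOf_isPGroup 2 _) hco).symm
  have dQn : zpowers d ≤ N(Q α) := zpowers_le.2 (hQn hd)
  haveI : Finite (zpowers d) := PCoreConj.finite_of_le (zpowers_le.2 hd)
  have c6 : ⁅Q α, zpowers d⁆ ≤ X₀ := by
    rw [← CoprimeBasic.commutator_commutator_eq dQn cop]
    exact (commutator_mono c4 le_rfl).trans c5
  set Y := Q α ⊓ C(zpowers d) with hY
  have c7 : Q α ≤ Y ⊔ X₀ := by
    rw [← CoprimeBasic.commutator_sup_centralizer dQn cop (Or.inl (CoprimeBasic.solvable_zpowers d))]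
    exact sup_le (c6.trans le_sup_right) le_sup_left
  -- `O²(G_α) ≤ X₀ ⟨d⟩`
  have r1 : (Q α).relIndex (zpowers d ⊔ Q α) = 3 := by
    rw [relIndex_sup_of_le_normalizer dQn, ← ho, ← Nat.card_zpowers, ← card_inf_mul_relIndex (Q α),
      show Q α ⊓ zpowers d = ⊥ from eq_bot_iff.2 fun x hx =>
        mem_bot.2 (odd x hx.2 (pCoreOf_isPGroup 2 _) hx.1), card_bot, one_mul]
  have hH : zpowers d ⊔ Q α ≤ St α := sup_le (zpowers_le.2 hd) (Q_le_St α)
  have r2 : (zpowers d ⊔ Q α).relIndex (St α) = 2 := by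
    have e1 := relIndex_mul_relIndex (Q α) (zpowers d ⊔ Q α) (St α) le_sup_right hH
    have e2 := relIndex_mul_relIndex (Q α) (St α ⊓ St β) (St α) L.Q_le inf_le_left
    have e3 := L.idx2
    have e4 := L.idx3
    change (Q α).relIndex _ = 2 at e3
    rw [r1] at e1
    rw [e3, e4] at e2
    omega
  have r3 : pResidualOf 2 (St α) ≤ zpowers d ⊔ X₀ := by
    have e1 := L.res_le (le_normalizer_of_relIndex_two r2 hH) hd dQ (mem_sup_left (mem_zpowers d))
    have n1 : Q α ≤ N(zpowers d ⊔ X₀) := by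
      refine PCoreConj.le_normalizer_of_commutator_le ?_
      rw [commutator_comm]
      refine commutator_sup_le (PCoreConj.le_normalizer_of_le le_sup_left)
        (PCoreConj.le_normalizer_of_le le_sup_right) (c6.trans le_sup_right) ?_
      exact (commutator_le.2 fun q hq x hx => ZX (cW x (XW hx) q hq)).trans le_sup_right
    rw [← pResidualOf_eq_of_le e1 hH]
    refine le_trans (pResidualOf_mono ?_) (pResidualOf_sup_le (pCoreOf_isPGroup 2 _) n1)
    exact sup_le (le_sup_of_le_left le_sup_left) le_sup_right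
  have c8 : Nat.card Y ≤ Nat.card (Z α) := by
    refine Nat.card_le_card_of_injective
      (fun y : Y => (⟨⁅(y : G), a⁆, cW a aW y y.2.1⟩ : Z α)) fun y y' e => ?_
    have e1 : ⁅(y : G), a⁆ = ⁅(y' : G), a⁆ := congrArg Subtype.val e
    have hy : (y' : G)⁻¹ * y ∈ Y := mul_mem (inv_mem y'.2) y.2
    set t := (y' : G)⁻¹ * y with ht
    have e2 : t * a = a * t := by
      simp only [commutatorElement_def, mul_left_inj] at e1
      calc t * a = (y' : G)⁻¹ * (y * a * (y : G)⁻¹) * y := by rw [ht]; group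
        _ = a * t := by rw [e1, ht]; group
    have e3 : d * t = t * d := mem_centralizer_iff.1 hy.2 d (mem_zpowers d)
    have e4 : zpowers d ⊔ X₀ ≤ centralizer ({t} : Set G) := by
      have m1 : a ∈ centralizer ({t} : Set G) := mem_centralizer_singleton_iff.2 e2.symm
      have m2 : d ∈ centralizer ({t} : Set G) := mem_centralizer_singleton_iff.2 e3
      exact sup_le (zpowers_le.2 m2) (sup_le (zpowers_le.2 (ea ▸ mul_mem (mul_mem m2 m1) (inv_mem m2)))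
        (sup_le (zpowers_le.2 m1) fun z hz => mem_centralizer_singleton_iff.2 (comm_of_mem hz hy.1)))
    have e5 : t ∈ Q α ⊓ C(pResidualOf 2 (St α)) :=
      ⟨hy.1, mem_centralizer_iff.2 fun g hg => mem_centralizer_singleton_iff.1 (e4 (r3 hg))⟩
    rw [h.cent_res hα, mem_bot, ht, inv_mul_eq_one] at e5
    exact Subtype.ext e5.symm
  have nY : Y ≤ N(X₀) := inf_le_left.trans (nQ X₀ ZX XW)
  haveI : Finite Y := PCoreConj.finite_of_le inf_le_left
  haveI : Finite ↥(Y ⊔ X₀) := finite_sup_of_le_normalizer nY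
  have c9 := Nat.le_of_dvd (Nat.mul_pos Nat.card_pos Nat.card_pos) (card_sup_dvd nY)
  have c10 := card_le_of_le c7
  have c11 : Nat.card Y * Nat.card X₀ ≤ 4 * 16 := Nat.mul_le_mul (by omega) (by rw [hX₀]; omega)
  omega

end HypB

end Cfsg.Agent.Lib.Gold
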