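import Cfsg.Agent.Lib.GoldB

/-! Amalgams of index `(3,3)`: the critical distance is even and at most two, or three. -/

set_option autoImplicit false

namespace Cfsg.Agent.Lib.Gold

open Subgroup MulAction Cfsg.Agent.Lib.PCoreConj Cfsg.Agent.Lib.PCore Cfsg.Agent.Lib.PCoreResidual
  Cfsg.Agent.Lib.PReduced Cfsg.Agent.Lib.CosetGraph Cfsg.Agent.Lib.LocIdx Cfsg.Agent.Lib.AmalgS3
  Cfsg.Agent.Lib.PushBase Cfsg.Agent.Lib.PCoreMod
open scoped commutatorElement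

variable {G : Type*} [Group G] {P₁ P₂ : Subgroup G}

/-- The hypothesis together with a lower bound for the critical distance. -/
structure HB (P₁ P₂ : Subgroup G) (b : ℕ) : Prop extends HypB P₁ P₂ where
  hb : ∀ δ μ : CosetVertex P₁ P₂, dst δ μ < b → Z δ ≤ Q μ

/-- A critical arc. -/
structure Crit (b : ℕ) (x : ℤ → CosetVertex P₁ P₂) : Prop where
  arc : IArc x
  ta : TA (x 0)
  nz : ¬ Z (x 0) ≤ Q (x b)

/-- An arc of length `b` ending in a vertex of the first type whose stabilizer moves the extensions. -/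
def Tr (P₁ P₂ : Subgroup G) (b : ℕ) : Prop :=
  ∃ x : ℤ → CosetVertex P₁ P₂, IArc x ∧ TA (x b) ∧
    ∃ a, (∀ i : ℤ, 0 ≤ i → i ≤ b → a ∈ St (x i)) ∧ a ∉ Q (x b)

theorem not_le_of_smul {α β α' β' : CosetVertex P₁ P₂} {g : G} (h₁ : g • α = α') (h₂ : g • β = β')
    (h : ¬ Z α ≤ Q β) : ¬ Z α' ≤ Q β' := by
  rwa [← h₁, ← h₂, Z_smul, Q_smul, conj_le_conj_iff]

theorem comm_of_Q {α : CosetVertex P₁ P₂} {z q : G} (hz : z ∈ Z α) (hq : q ∈ Q α) : ⁅z, q⁆ = 1 :=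
  commutatorElement_eq_one_iff_mul_comm.2 (comm_of_mem hz hq)

theorem comm_of_Q' {α : CosetVertex P₁ P₂} {z q : G} (hz : z ∈ Z α) (hq : q ∈ Q α) : ⁅q, z⁆ = 1 :=
  commutatorElement_eq_one_iff_mul_comm.2 (comm_of_mem hz hq).symm

namespace HB

variable {b : ℕ} (h : HB P₁ P₂ b) {α β γ δ : CosetVertex P₁ P₂} {x y : ℤ → CosetVertex P₁ P₂}
include h

theorem ZQ (hx : IArc x) (i j : ℤ) (e : (i - j).natAbs < b := by omega) : Z (x i) ≤ Q (x j) :=
  h.hb _ _ ((hx.dst_le h.toHypB i j).trans_lt e)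

theorem ZQ' (hx : IArc x) (i j : ℤ) (ha : Adj (x i) δ) (e : (i - j).natAbs + 1 < b := by omega) :
    Z δ ≤ Q (x j) := by
  refine h.hb _ _ ?_
  have h1 := h.dst_le ha.symm (x j)
  have h2 := hx.dst_le h.toHypB i j
  omega

theorem QZ' (hx : IArc x) (i j : ℤ) (ha : Adj (x j) δ) (e : (i - j).natAbs + 1 < b := by omega) :
    Z (x i) ≤ Q δ := by
  refine h.hb _ _ ?_
  have h1 := h.dst_le' ha.symm (x i)
  have h2 := hx.dst_le h.toHypB i j
  omega

theorem VQ (hx : IArc x) (i j : ℤ) (e : (i - j).natAbs + 1 < b := by omega) : V (x i) ≤ Q (x j) :=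
  Up_le fun _ hδ => h.ZQ' hx i j hδ e

theorem VQ' (hx : IArc x) (i j : ℤ) (ha : Adj (x j) δ) (e : (i - j).natAbs + 2 < b := by omega) :
    V (x i) ≤ Q δ := by
  refine Up_le fun μ hμ => h.hb _ _ ?_
  have h1 := h.dst_le' ha.symm μ
  have h2 := hx.dst_le h.toHypB i j
  have h3 := h.dst_le hμ.symm (x j)
  omega

theorem WQ (hx : IArc x) (i j : ℤ) (e : (i - j).natAbs + 2 < b := by omega) : W (x i) ≤ Q (x j) := by
  refine Up_le fun μ hμ => Up_le fun ν hν => h.hb _ _ ?_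
  have h1 := h.dst_le hν.symm (x j)
  have h2 := hx.dst_le h.toHypB i j
  have h3 := h.dst_le hμ.symm (x j)
  omega

theorem V_comm (hx : IArc x) (i j : ℤ) {u v : G} (hu : u ∈ V (x i)) (hv : v ∈ V (x j))
    (e : (i - j).natAbs + 2 < b := by omega) : u * v = v * u := by
  have : V (x j) ≤ C(V (x i)) := Up_le fun δ hδ =>
    le_centralizer_iff.1 ((h.VQ' hx i j hδ e).trans (Q_le_C δ))
  exact mem_centralizer_iff.1 (this hv) u hu

theorem V_sq (hb : 3 ≤ b) (hx : IArc x) (i : ℤ) {u : G} (hu : u ∈ V (x i)) : u * u = 1 := by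
  have : V (x i) ≤ omegaOneCenter 2 (V (x i)) := Up_le fun δ hδ z hz =>
    mem_omegaOneCenter_iff.2 ⟨Z_le_V hδ hz, mem_centralizer_iff.2 fun v hv =>
      h.V_comm hx i i hv (Z_le_V hδ hz), h.Z_sq hz⟩
  exact mul_self_of_sq (mem_omegaOneCenter_iff.1 (this hu)).2.2

theorem QS (hx : IArc x) (i j : ℤ) (e : j = i + 1 ∨ i = j + 1 ∨ i = j := by omega) :
    Q (x i) ≤ St (x j) := by
  rcases e with e | e | rfl
  · exact h.Q_le_St' (hx.adj i j)
  · exact h.Q_le_St' (hx.adj i j)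
  · exact Q_le_St _

theorem ZS (hx : IArc x) (i j : ℤ) (hb : 1 ≤ b) (e : (i - j).natAbs ≤ b := by omega) :
    Z (x i) ≤ St (x j) := by
  rcases lt_trichotomy i j with e' | rfl | e'
  · exact (h.ZQ hx i (j - 1)).trans (h.QS hx _ _)
  · exact h.Z_le_St _
  · exact (h.ZQ hx i (j + 1)).trans (h.QS hx _ _)

theorem VS (hx : IArc x) (i j : ℤ) (hb : 2 ≤ b) (e : (i - j).natAbs + 1 ≤ b := by omega) :
    V (x i) ≤ St (x j) := by
  rcases lt_trichotomy i j with e' | rfl | e'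
  · exact (h.VQ hx i (j - 1)).trans (h.QS hx _ _)
  · exact (h.VQ hx i i).trans (Q_le_St _)
  · exact (h.VQ hx i (j + 1)).trans (h.QS hx _ _)

omit h in
theorem tr_up (hx : IArc x) (j k : ℤ) (ht : TA (x k)) {a : G} (ha : ∀ i, j ≤ i → i ≤ k → a ∈ St (x i))
    (ha' : a ∉ Q (x k)) (e : k = j + b := by omega) : Tr P₁ P₂ b := by
  subst e
  exact ⟨fun i => x (i + j), hx.shift j, by rwa [add_comm] at ht, a, fun i _ _ => ha _ (by omega) (by omega),
    by rwa [add_comm] at ha'⟩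

omit h in
theorem tr_down (hx : IArc x) (j k : ℤ) (ht : TA (x j)) {a : G} (ha : ∀ i, j ≤ i → i ≤ k → a ∈ St (x i))
    (ha' : a ∉ Q (x j)) (e : k = j + b := by omega) : Tr P₁ P₂ b := by
  subst e
  exact ⟨fun i => x (j + b - i), hx.rev _, by simpa using ht, a, fun i _ _ => ha _ (by omega) (by omega),
    by simpa using ha'⟩

/-- The critical distance is not one. -/
theorem not_one (hα : TA α) (hab : Adj α β) : Z α ≤ Q β := by
  by_contra hn
  obtain ⟨z, hz, hz'⟩ := SetLike.not_le_iff_exists.1 hn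
  have hβ := hα.not_of_adj hab
  have hzβ : z ∈ St β := h.Q_le_St' hab (h.Z_le_Q α hz)
  have L := h.loc hab.symm
  have h1 := L.res_le (le_norm_rel (St_le_NZ β) (St_le_NQ β)) hzβ hz'
    (mem_rel.2 ⟨St_le_NZ β hzβ, fun q hq => comm_mem_swap (h.comm_mem hα hab hz (h.Q_le' hab hq))⟩)
  exact L.res_not_le (((h.charP β).le_pCoreOf (pResidualOf_le 2 _)
    (h.res_cent hβ le_rfl (St_le_NQ β) (comm_le_of_le_rel h1))).trans L.Q_le)

section Even

variable (he : (b : ℤ) % 2 = 0) (hb2 : 2 ≤ b) (c : Crit b x)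
include he hb2 c

theorem even_a : ∃ a ∈ Z (x b), a ∉ Q (x 0) := by
  refine SetLike.not_le_iff_exists.1 fun hle => c.nz fun z hz => ?_
  exact h.mem_Q (c.arc.ta c.ta b) (h.ZS c.arc 0 b (by omega) (by omega) hz)
    (le_centralizer_iff.1 (hle.trans (Q_le_C _)) hz)

theorem even_mem {u : G} (hu : u ∈ Z (x 0)) (hq : u ∈ Q (x b)) : u ∈ Z (x 1) := by
  obtain ⟨a, ha, ha'⟩ := h.even_a he hb2 c
  exact h.mem_ZB_of_comm c.ta (c.arc.adj 0 1) hu (h.Q_le' (c.arc.adj 0 1) (h.ZQ c.arc b 1 (by omega) ha))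
    ha' (comm_of_mem ha hq)

theorem even_k1 : K1 P₁ P₂ := by
  refine h.k1_of c.ta (c.arc.adj 0 1) fun u hu v hv hu' hv' => h.even_mem he hb2 c (mul_mem hu hv) ?_
  have m : Z (x 0) ≤ St (x b) ⊓ St (x (b - 1)) := (h.ZQ c.arc 0 (b - 1)).trans (h.Q_le' (c.arc.adj _ _))
  exact h.mul_mem_Q (c.arc.adj b (b - 1)) (m hu) (m hv) (fun e => hu' (h.even_mem he hb2 c hu e))
    fun e => hv' (h.even_mem he hb2 c hv e)

theorem even_r : ∃ r, r ≠ 1 ∧ r ∈ Z (x 1) ∧ r ∈ Z (x (b - 1)) := by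
  obtain ⟨a, ha, ha'⟩ := h.even_a he hb2 c
  obtain ⟨u, hu, hu'⟩ := h.exists_Z_not c.ta (c.arc.adj 0 1)
  have m := h.Q_le' (c.arc.adj 0 1) (h.ZQ c.arc b 1 (by omega) ha)
  refine ⟨⁅u, a⁆, fun e => hu' (h.mem_ZB_of_comm c.ta (c.arc.adj 0 1) hu m ha'
    (commutatorElement_eq_one_iff_mul_comm.1 e).symm), h.comm_mem c.ta (c.arc.adj 0 1) hu m, ?_⟩
  exact comm_mem_swap (h.comm_mem (c.arc.ta c.ta b) (c.arc.adj b (b - 1)) ha
    (h.Q_le' (c.arc.adj _ _) (h.ZQ c.arc 0 (b - 1) (by omega) hu)))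

theorem even_back (hb4 : 4 ≤ b) : Z (x (-2)) ≤ Q (x (b - 2)) := by
  by_contra hn
  obtain ⟨r, r1, r2, r3⟩ := h.even_r he hb2 (x := fun i => x (i + -2))
    ⟨c.arc.shift _, c.arc.ta c.ta _, by simpa [sub_eq_add_neg] using hn⟩
  obtain ⟨a, ha, ha'⟩ := h.even_a he hb2 c
  have m := h.Q_le' (c.arc.adj 0 1) (h.ZQ c.arc b 1 (by omega) ha)
  have r4 := h.ZB_le c.ta (c.arc.adj 0 (1 + -2)) r2
  exact r1 (h.ZB_inf c.ta (c.arc.adj 0 1) (c.arc.adj 0 (1 + -2)) (c.arc.ne _ _)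
    (h.mem_ZB_of_comm c.ta (c.arc.adj 0 1) r4 m ha'
      (comm_of_mem r3 (h.ZQ c.arc b (b - 1 + -2) (by omega) ha)).symm) r2)

theorem even_false (hb4 : 4 ≤ b) : False := by
  have k := h.even_k1 he hb2 c
  have v1 : V (x (-1)) ≤ Q (x (b - 2)) := by
    refine Up_le fun δ hδ => ?_
    by_cases e : δ = x (-1 + 1)
    · rw [e]; exact h.ZQ c.arc _ _
    · obtain ⟨y, hy, y1, y2⟩ := h.splice_back c.arc (-1) hδ e
      have := h.even_back he hb2 (x := y) ⟨hy, by rw [y1 0 (by omega)]; exact c.ta, by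
        rw [y1 0 (by omega), y1 b (by omega)]; exact c.nz⟩ hb4
      rwa [y1 (b - 2) (by omega), show (-2 : ℤ) = -1 - 1 by norm_num, y2] at this
  obtain ⟨a, ha, ha'⟩ := h.even_a he hb2 c
  have m := h.Q_le' (c.arc.adj 0 1) (h.ZQ c.arc b 1 (by omega) ha)
  have v2 : ¬ V (x (-1)) ≤ Q (x (b - 1)) := by
    intro hle
    obtain ⟨r, r1, r2, r3⟩ := h.even_r he hb2 c
    have tb := c.arc.tb c.ta (b - 1)
    have z1 : Z (x 0) ≤ V (x (-1)) := Z_le_V (c.arc.adj _ _)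
    have n1 : zpowers a ≤ N(V (x (-1))) := by
      haveI := h.fin (x (b - 1))
      haveI : Finite (V (x (-1))) := PCoreConj.finite_of_le (hle.trans (Q_le_St _))
      refine zpowers_le.2 (mem_normalizer_of_conj_le (conj_le_iff.2 fun v hv => ?_))
      have e1 := h.comm_V_Q tb (Z_le_V (c.arc.adj (b - 1) b) ha) (hle hv)
      have e2 : ⁅a, v⁆ ∈ V (x (-1)) := by
        by_cases e : ⁅a, v⁆ = 1
        · rw [e]; exact one_mem _
        · rw [k _ tb _ e1 _ r3 e r1]; exact z1 (h.ZB_le c.ta (c.arc.adj 0 1) r2)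
      have := mul_mem e2 hv
      rwa [commutatorElement_def, inv_mul_cancel_right] at this
    have := h.bot (c.arc.adj 0 (-1)) ((h.VQ c.arc (-1) (-1)).trans (h.Q_le' (c.arc.adj _ _)))
      (h.St_le (c.arc.adj 0 1) (c.arc.adj 0 (-1)) (c.arc.ne _ _) m ha' (inf_le_right.trans (St_le_NV _))
        (n1 (mem_zpowers a))) (St_le_NV _)
    exact h.Z_ne_bot _ (le_bot_iff.1 (z1.trans this.le))
  obtain ⟨t, ht, ht'⟩ := SetLike.not_le_iff_exists.1 v2
  obtain ⟨z, hz, hz'⟩ := SetLike.not_le_iff_exists.1 c.nz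
  obtain ⟨g, hg⟩ := h.arc_trans (N := b) (fun p => by
    by_cases hp : p
    · exact ⟨x, c.arc, iff_of_true (c.arc.ta c.ta b) hp, z,
        fun i _ _ => h.ZS c.arc 0 i (by omega) (by omega) hz, hz'⟩
    · refine ⟨fun i => x (i + -1), c.arc.shift _, iff_of_false (c.arc.tb c.ta _) hp, t,
        fun i _ _ => ?_, by simpa [sub_eq_add_neg] using ht'⟩
      by_cases e : i = b
      · exact h.QS c.arc (b - 2) _ (by omega) (v1 ht)
      · exact h.VS c.arc (-1) _ hb2 (by omega) ht) b (by omega) x (fun i => x (i + -2)) c.arc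
      (c.arc.shift _) (iff_of_true c.ta (c.arc.ta c.ta _))
  refine not_le_of_smul (hg 0 le_rfl (by omega)) (hg b (by omega) le_rfl) c.nz ?_
  simpa [sub_eq_add_neg] using h.even_back he hb2 c hb4

end Even

omit h in
theorem two_bound (h : HB P₁ P₂ 2) (c : Crit 2 x) : Nat.card (Q (x 0)) ≤ 64 := by
  have k := h.even_k1 (by norm_num) le_rfl c
  obtain ⟨y, hy, hy'⟩ := h.even_a (by norm_num) le_rfl c
  have a01 := c.arc.adj 0 1
  have a12 := c.arc.adj 1 (2 : ℕ)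
  have tb := c.arc.tb c.ta 1
  have n20 : x (2 : ℕ) ≠ x 0 := c.arc.ne _ _
  obtain ⟨q, hq, hq'⟩ := h.exists_Q a01
  have yQ : y ∈ Q (x 1) := h.ZQ c.arc _ _ (by omega) hy
  have yV : y ∈ V (x 1) := Z_le_V a12 hy
  have qS : q ∈ St (x 1) ⊓ St (x 0) := h.Q_le' a01.symm hq
  have yQ' : q * y * q⁻¹ ∈ Q (x 1) := conj_mem_of_norm (St_le_NQ _ qS.1) yQ
  have yV' : q * y * q⁻¹ ∈ V (x 1) := conj_mem_of_norm (St_le_NV _ qS.1) yV
  have hy'' : q * y * q⁻¹ ∉ Q (x 0) := fun e => hy' ((mem_normalizer_iff.1 (St_le_NQ _ qS.2) y).2 e)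
  have vQ : y * (q * y * q⁻¹) ∈ Q (x 0) := h.mul_mem_Q a01 (h.Q_le' a01 yQ) (h.Q_le' a01 yQ') hy' hy''
  have z10 := h.ZB_le c.ta a01
  have nZ : St (x 1) ≤ N(Z (x 1)) := St_le_NZ _
  have y1 : y ∉ Z (x 1) := fun e => hy' (h.Z_le_Q _ (z10 e))
  refine h.bound k c.ta a01 vQ (fun s hs => z10 ?_) (z10 ?_) (h.Q_le_St' a01.symm yQ) hy' fun p hp => ?_
  · have : St (x 1) ⊓ St (x 0) ≤ stab (Z (x 1)) (y * (q * y * q⁻¹)) :=
      h.T_le a01.symm qS hq' (fun p hp => mem_stab.2 ⟨nZ (Q_le_St _ hp),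
        h.comm_V_Q tb (mul_mem yV yV') hp⟩) (mem_stab.2 ⟨nZ qS.1, swap_comm
          (h.comm_V_Q tb yV (h.sq_mem_Q a01.symm qS)) (h.comm_V_Q tb yV yQ') (nZ (Q_le_St _ yQ'))⟩)
    exact (mem_stab.1 (this ⟨hs.2, hs.1⟩)).2
  · have := h.comm_V_Q tb yV yQ'
    rwa [commutatorElement_def, h.Z_inv hy, h.Z_inv (conj_mem_Z hy q), mul_assoc] at this
  · refine le_nclIn _ _ ?_
    by_cases e : p ∈ Q (x 1)
    · exact mem_sup_right (z10 (comm_mem_swap (h.comm_V_Q tb yV e)))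
    · have pS : p ∈ St (x 1) ⊓ St (x 0) := h.Q_le' a01.symm hp
      obtain ⟨a1, n1, n2⟩ := h.smul_ne a01.symm a12 n20 pS e
      have e1 := (h.three a01.symm a12 a1 n20 n2 qS hq').resolve_left n1
      have m : ∀ g ∈ St (x 1), g * y * g⁻¹ ∉ Z (x 1) := fun g hg e =>
        y1 ((mem_normalizer_iff.1 (nZ hg) y).2 e)
      have e2 := h.mul_mem_ZB k (TA.of_adj tb a1) a1.symm (conj_mem_Z hy p) (e1 ▸ conj_mem_Z hy q)
        (m p pS.1) (m q qS.1)
      have : ⁅p, y⁆ = (p * y * p⁻¹ * (q * y * q⁻¹)) * (y * (q * y * q⁻¹))⁻¹ := by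
        rw [commutatorElement_def]; group
      rw [this]
      exact mul_mem (mem_sup_right (z10 e2)) (inv_mem (mem_sup_left (mem_zpowers _)))

end HB

end Cfsg.Agent.Lib.Gold
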