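import Cfsg.Agent.Lib.GoldC

/-! Amalgams of index `(3,3)`: odd critical distance. -/

set_option autoImplicit false

namespace Cfsg.Agent.Lib.Gold

open Subgroup MulAction Cfsg.Agent.Lib.PCoreConj Cfsg.Agent.Lib.PCore Cfsg.Agent.Lib.PCoreResidual
  Cfsg.Agent.Lib.PReduced Cfsg.Agent.Lib.CosetGraph Cfsg.Agent.Lib.LocIdx Cfsg.Agent.Lib.AmalgS3
  Cfsg.Agent.Lib.PushBase Cfsg.Agent.Lib.PCoreMod
open scoped commutatorElement

variable {G : Type*} [Group G] {P₁ P₂ : Subgroup G}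

theorem Crit.congr {b : ℕ} {x y : ℤ → CosetVertex P₁ P₂} (c : Crit b x) (hy : IArc y) (h₀ : y 0 = x 0)
    (h₁ : y b = x b) : Crit b y := ⟨hy, h₀ ▸ c.ta, by rw [h₀, h₁]; exact c.nz⟩

theorem IArc.crit {b : ℕ} {x : ℤ → CosetVertex P₁ P₂} (hx : IArc x) (i j : ℤ) (ht : TA (x i))
    (h : ¬ Z (x i) ≤ Q (x j)) (e : j = i + b := by omega) : Crit b fun n => x (n + i) :=
  ⟨hx.shift i, by simpa using ht, by simpa [e, add_comm i] using h⟩

theorem IArc.crit' {b : ℕ} {x : ℤ → CosetVertex P₁ P₂} (hx : IArc x) (i j : ℤ) (ht : TA (x i))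
    (h : ¬ Z (x i) ≤ Q (x j)) (e : j = i - b := by omega) : Crit b fun n => x (i - n) :=
  ⟨hx.rev i, by simpa using ht, by simpa [e] using h⟩

namespace HB

variable {b : ℕ} (h : HB P₁ P₂ b) {α β γ δ : CosetVertex P₁ P₂} {x y : ℤ → CosetVertex P₁ P₂}
  (ho : (b : ℤ) % 2 = 1) (hb3 : 3 ≤ b) (c : Crit b x)
include h ho hb3 c

theorem tr_trans (t : Tr P₁ P₂ b) (n : ℕ) (hn : n ≤ b + 1) (u w : ℤ → CosetVertex P₁ P₂) (hu : IArc u)
    (hw : IArc w) (e : TA (u 0) ↔ TA (w 0)) : ∃ g : G, ∀ i : ℤ, 0 ≤ i → i ≤ n → g • u i = w i := by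
  obtain ⟨z, hz, hz'⟩ := SetLike.not_le_iff_exists.1 c.nz
  refine h.arc_trans (N := b) (fun p => ?_) n hn u w hu hw e
  by_cases hp : p
  · obtain ⟨y, hy, ty, a, a1, a2⟩ := t
    exact ⟨y, hy, iff_of_true ty hp, a, a1, a2⟩
  · exact ⟨x, c.arc, iff_of_false (c.arc.tb c.ta b) hp, z,
      fun i _ _ => h.ZS c.arc 0 i (by omega) (by omega) hz, hz'⟩

theorem tr_crit (t : Tr P₁ P₂ b) (hy : IArc y) (ty : TA (y 0)) : ¬ Z (y 0) ≤ Q (y b) := by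
  obtain ⟨g, hg⟩ := h.tr_trans ho hb3 c t b (by omega) x y c.arc hy (iff_of_true c.ta ty)
  exact not_le_of_smul (hg 0 le_rfl (by omega)) (hg b (by omega) le_rfl) c.nz

theorem tr_inf (t : Tr P₁ P₂ b) {r : G} (h₁ : r ∈ Z (x 1)) (h₂ : r ∈ Z (x b)) : r = 1 := by
  obtain ⟨δ, a1, n1, n2⟩ := h.exists_third (c.arc.adj (b - 1) (b - 1 - 1)) (c.arc.adj (b - 1) b)
    (c.arc.ne _ _)
  obtain ⟨y, hy, y1, y2⟩ := h.splice c.arc (b - 1) a1 n2
  obtain ⟨g, hg⟩ := h.tr_trans ho hb3 c t (b - 1) (by omega) (fun i => x (i + 1)) (fun i => y (i + 1))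
    (c.arc.shift 1) (hy.shift 1) (by simp only [y1 (0 + 1) (by omega)])
  have g1 : g ∈ St (x 1) := by
    have := hg 0 le_rfl (by omega)
    rwa [y1 (0 + 1) (by omega), zero_add] at this
  have g2 := hg (b - 1) (by omega) (by omega)
  simp only [y2] at g2
  rw [sub_add_cancel] at g2
  have := conj_mem_Z h₂ g
  rw [g2, ← h.commB (c.arc.tb c.ta 1) h₁ g1, mul_inv_cancel_right] at this
  exact h.ZB_inf (c.arc.ta c.ta (b - 1)) (c.arc.adj (b - 1) b) a1 n1 h₂ this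

theorem mem_of_comm {z u : G} (hz : z ∈ Z (x 0)) (hz' : z ∉ Q (x b)) (hu : u ∈ Z (x (b + 1)))
    (e : z * u = u * z) : u ∈ Z (x b) := by
  obtain ⟨a1, n1, -⟩ := h.smul_ne (c.arc.adj b (b - 1)) (c.arc.adj b (b + 1)) (c.arc.ne _ _)
    (h.Q_le' (c.arc.adj _ _) (h.ZQ c.arc 0 (b - 1) (by omega) hz)) hz'
  have := conj_mem_Z hu z
  rw [e, mul_inv_cancel_right] at this
  exact h.ZA_inf (c.arc.tb c.ta b) (c.arc.adj b (b + 1)) a1 n1 hu this

theorem odd_rev : ¬ Z (x (b + 1)) ≤ Q (x 1) := by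
  intro hle
  obtain ⟨z, hz, hz'⟩ := SetLike.not_le_iff_exists.1 c.nz
  have ta := c.arc.ta c.ta (b + 1)
  by_cases e : Z (x (b + 1)) ≤ Q (x 0)
  · obtain ⟨u, hu, hu'⟩ := h.exists_Z_not ta (c.arc.adj _ b)
    exact hu' (h.mem_of_comm ho hb3 c hz hz' hu (comm_of_mem hz (e hu)))
  · obtain ⟨a, ha, ha'⟩ := SetLike.not_le_iff_exists.1 e
    have t : Tr P₁ P₂ b := tr_down c.arc 0 b c.ta (fun i _ _ => by
      by_cases e : i = 0
      · exact h.QS c.arc 1 i (by omega) (hle ha)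
      · exact h.ZS c.arc _ i (by omega) (by omega) ha) ha'
    have := h.tr_crit ho hb3 c t (c.arc.rev (b + 1)) (by simpa using ta)
    simp only [sub_zero, add_sub_cancel_left] at this
    exact this hle

theorem crit_rev : Crit b fun n => x (b + 1 - n) :=
  c.arc.crit' _ 1 (c.arc.ta c.ta _) (h.odd_rev ho hb3 c)

theorem odd_k1 : K1 P₁ P₂ := by
  obtain ⟨z, hz, hz'⟩ := SetLike.not_le_iff_exists.1 c.nz
  have ta := c.arc.ta c.ta (b + 1)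
  by_cases e : Z (x (b + 1)) ⊓ Q (x 1) ≤ Q (x 0)
  · have k : ∀ u ∈ Z (x (b + 1)), u ∈ Q (x 1) → u ∈ Z (x b) := fun u hu hq =>
      h.mem_of_comm ho hb3 c hz hz' hu (comm_of_mem hz (e ⟨hu, hq⟩))
    have m : Z (x (b + 1)) ≤ St (x 1) ⊓ St (x 2) := (h.ZQ c.arc _ 2).trans (h.Q_le' (c.arc.adj _ _))
    exact h.k1_of ta (c.arc.adj _ b) fun u hu v hv hu' hv' => k _ (mul_mem hu hv)
      (h.mul_mem_Q (c.arc.adj 1 2) (m hu) (m hv) (fun e => hu' (k u hu e)) fun e => hv' (k v hv e))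
  · obtain ⟨a, ha, ha'⟩ := SetLike.not_le_iff_exists.1 e
    have t : Tr P₁ P₂ b := tr_down c.arc 0 b c.ta (fun i _ _ => by
      by_cases e : i = 0
      · exact h.QS c.arc 1 i (by omega) ha.2
      · exact h.ZS c.arc _ i (by omega) (by omega) ha.1) ha'
    have aS := h.Q_le' (c.arc.adj 0 1) ha.2
    have k : ∀ u ∈ Z (x 0), u ∈ Q (x b) → u ∈ Z (x 1) := fun u hu hq =>
      h.mem_ZB_of_comm c.ta (c.arc.adj 0 1) hu aS ha' (commutatorElement_eq_one_iff_mul_comm.1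
        (h.tr_inf ho hb3 c t (h.comm_mem c.ta (c.arc.adj 0 1) hu aS) (comm_mem_swap
          (h.comm_V_Q (c.arc.tb c.ta b) (Z_le_V (c.arc.adj b (b + 1)) ha.1) hq)))).symm
    have m : Z (x 0) ≤ St (x b) ⊓ St (x (b - 1)) := (h.ZQ c.arc 0 (b - 1)).trans (h.Q_le' (c.arc.adj _ _))
    exact h.k1_of c.ta (c.arc.adj 0 1) fun u hu v hv hu' hv' => k _ (mul_mem hu hv)
      (h.mul_mem_Q (c.arc.adj b (b - 1)) (m hu) (m hv) (fun e => hu' (k u hu e)) fun e => hv' (k v hv e))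

theorem Z1_le (j : ℤ) (e : (2 - j).natAbs < b := by omega) : Z (x 1) ≤ Q (x j) :=
  (h.ZB_le (c.arc.ta c.ta 2) (c.arc.adj 2 1)).trans (h.ZQ c.arc 2 j e)

theorem not_Q {z : G} (hz : z ∈ Z (x 0)) (hz' : z ∉ Z (x 1)) : z ∉ Q (x b) := by
  obtain ⟨w, hw, hw'⟩ := SetLike.not_le_iff_exists.1 c.nz
  intro e
  exact hw' ((mul_mem_cancel_left e).1 (h.Z1_le ho hb3 c b (by omega)
    (h.mul_mem_ZB (h.odd_k1 ho hb3 c) c.ta (c.arc.adj 0 1) hz hw hz' fun e' =>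
      hw' (h.Z1_le ho hb3 c b (by omega) e'))))

theorem not_Q' {y : G} (hy : y ∈ Z (x (b + 1))) (hy' : y ∉ Z (x b)) : y ∉ Q (x 1) := by
  have := h.not_Q ho hb3 (h.crit_rev ho hb3 c) (z := y) (by simpa using hy) (by simpa using hy')
  simpa using this

section R

variable {z y : G} (hz : z ∈ Z (x 0)) (hz' : z ∉ Z (x 1)) (hy : y ∈ Z (x (b + 1))) (hy' : y ∉ Z (x b))
include hz hz' hy hy'

omit hz' hy' in
theorem r_V : ⁅z, y⁆ ∈ V (x 1) :=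
  comm_mem_of_norm (St_le_NV _ (h.ZS c.arc _ 1 (by omega) (by omega) hy)) (Z_le_V (c.arc.adj 1 0) hz)

theorem r_not : ⁅z, y⁆ ∉ Z (x 0) := by
  intro e
  have yS := h.Q_le' (c.arc.adj 1 2) (h.ZQ c.arc _ 2 (by omega) hy)
  obtain ⟨a1, n1, -⟩ := h.smul_ne (c.arc.adj 1 2) (c.arc.adj 1 0) (c.arc.ne _ _) yS
    (h.not_Q' ho hb3 c hy hy')
  rw [commutatorElement_def, mul_assoc, mul_assoc, ← mul_assoc y, mul_mem_cancel_left hz, h.Z_inv hz] at e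
  exact hz' ((mem_normalizer_iff.1 (St_le_NZ _ yS.1) z).2
    (h.ZA_inf (c.arc.tb c.ta 1) (c.arc.adj 1 0) a1 n1 e (conj_mem_Z hz y)))

omit hz' in
theorem r_comm {s : G} (hs : s ∈ St (x 1) ⊓ St (x 2)) : ⁅⁅z, y⁆, s⁆ ∈ Z (x 1) := by
  have yS := h.Q_le' (c.arc.adj 1 2) (h.ZQ c.arc _ 2 (by omega) hy)
  have nZ := St_le_NZ (x 1)
  have rV := h.r_V ho hb3 c hz hy
  have : St (x 1) ⊓ St (x 2) ≤ stab (Z (x 1)) ⁅z, y⁆ := by
    refine h.T_le (c.arc.adj 1 2) yS (h.not_Q' ho hb3 c hy hy')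
      (fun p hp => mem_stab.2 ⟨nZ (Q_le_St _ hp), h.comm_V_Q (c.arc.tb c.ta 1) rV hp⟩)
      (mem_stab.2 ⟨nZ yS.1, ?_⟩)
    have e1 := h.V_sq hb3 c.arc 1 rV
    have : ⁅⁅z, y⁆, y⁆ = ⁅z, y⁆ * ⁅z, y⁆ := by
      simp only [commutatorElement_def, mul_inv_rev, inv_inv, h.Z_inv hz, h.Z_inv hy]
      calc z * y * z * y * y * (y * (z * (y * z))) * y = z * y * z * (y * y) * (y * z * y * z * y) := by group
        _ = z * y * z * y * (z * y * z * y) := by rw [h.Z_mul hy]; group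
    rw [this, e1]
    exact one_mem _
  exact (mem_stab.1 (this hs)).2

end R

section R'

variable {z y : G} (hz : z ∈ Z (x 0)) (hz' : z ∉ Z (x 1)) (hy : y ∈ Z (x (b + 1))) (hy' : y ∉ Z (x b))
include hz hz' hy hy'

omit hz' hy' in
theorem r_V' : ⁅z, y⁆ ∈ V (x b) := by
  have := h.r_V ho hb3 (h.crit_rev ho hb3 c) (z := y) (y := z) (by simpa using hy) (by simpa using hz)
  simpa using comm_mem_swap this

theorem r_not' : ⁅z, y⁆ ∉ Z (x (b + 1)) := by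
  have := h.r_not ho hb3 (h.crit_rev ho hb3 c) (z := y) (y := z) (by simpa using hy) (by simpa using hy')
    (by simpa using hz) (by simpa using hz')
  exact fun e => this (by simpa using comm_mem_swap e)

omit hz' hy' in
theorem r_symm : ⁅y, z⁆ = ⁅z, y⁆ := by
  rw [← commutatorElement_inv]
  exact inv_eq_of_mul_eq_one_right (h.V_sq hb3 c.arc 1 (h.r_V ho hb3 c hz hy))

omit hy' in
theorem r_comm' {s : G} (hs : s ∈ St (x b) ⊓ St (x (b - 1))) : ⁅⁅z, y⁆, s⁆ ∈ Z (x b) := by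
  have := h.r_comm ho hb3 (h.crit_rev ho hb3 c) (z := y) (y := z) (by simpa using hy)
    (by simpa using hz) (by simpa using hz') (s := s)
    (by rwa [show (b : ℤ) + 1 - 1 = b by ring, show (b : ℤ) + 1 - 2 = b - 1 by ring])
  rwa [h.r_symm ho hb3 c hz hy, show (b : ℤ) + 1 - 1 = b by ring] at this

end R'

/-- Backward shifts of critical arcs are critical. -/
theorem back (hb5 : 5 ≤ b) : ¬ Z (x (-2)) ≤ Q (x (b - 2)) := by
  have ta2 := c.arc.ta c.ta (-2)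
  have v1 : ¬ V (x (-1)) ≤ Q (x (b - 2)) := by
    intro hle
    have nt : ¬ Tr P₁ P₂ b := fun t => by
      have := h.tr_crit ho hb3 c t (y := fun i => x (i + -2)) (c.arc.shift (-2)) (c.arc.ta c.ta _)
      rw [zero_add, ← sub_eq_add_neg] at this
      exact this ((Z_le_V (c.arc.adj (-1) (-2))).trans hle)
    have vS : ∀ i : ℤ, -1 ≤ i → i ≤ b - 1 → V (x (-1)) ≤ St (x i) := fun i _ _ => by
      by_cases e : i = b - 1
      · exact hle.trans (h.QS c.arc _ _)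
      · exact h.VS c.arc _ _ (by omega)
    have v2 : V (x (-1)) ≤ Q (x (b - 1)) := fun t ht => by
      by_contra hn
      exact nt (tr_up c.arc (-1) (b - 1) (c.arc.ta c.ta _) (fun i h1 h2 => vS i h1 h2 ht) hn)
    obtain ⟨z, hz, hz'⟩ := h.exists_Z_not c.ta (c.arc.adj 0 1)
    obtain ⟨y, hy, hy'⟩ := h.exists_Z_not (c.arc.ta c.ta (b + 1)) (c.arc.adj _ b)
    have v3 : ∀ t ∈ V (x (-1)), t ∈ Q (x b) → ⁅t, y⁆ = 1 := by
      intro t ht hq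
      refine comm_of_Q' hy ?_
      by_contra hn
      refine nt (tr_up c.arc 1 (b + 1) (c.arc.ta c.ta _) (fun i h1 h2 => ?_) hn)
      by_cases e : i ≤ b - 1
      · exact vS i (by omega) e ht
      · exact h.QS c.arc b i (by omega) hq
    have zV : z ∈ V (x (-1)) := Z_le_V (c.arc.adj _ _) hz
    have v4 : ∀ t ∈ V (x (-1)), ⁅t, y⁆ ∈ V (x 1) := by
      intro t ht
      by_cases e : t ∈ Q (x b)
      · rw [v3 t ht e]; exact one_mem _
      · have e1 := v3 _ (mul_mem zV ht) (h.mul_mem_Q (c.arc.adj b (b - 1))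
          (h.Q_le' (c.arc.adj _ _) (v2 zV)) (h.Q_le' (c.arc.adj _ _) (v2 ht)) (h.not_Q ho hb3 c hz hz') e)
        have e2 : t = z * (z * t) := by rw [← mul_assoc, h.Z_mul hz, one_mul]
        rw [e2, comm_mul_left, e1, mul_one, mul_inv_cancel, one_mul]
        exact h.r_V ho hb3 c hz hy
    have yS := h.Q_le' (c.arc.adj 1 2) (h.ZQ c.arc _ 2 (by omega) hy)
    have yQ := h.not_Q' ho hb3 c hy hy'
    obtain ⟨a1, n1, -⟩ := h.smul_ne (c.arc.adj 1 2) (c.arc.adj 1 0) (c.arc.ne _ _) yS yQ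
    have v5 : V (x (-1)) ≤ W (y • x 0) := fun t ht => by
      rw [W_smul, mem_conj_iff]
      have := mul_mem (inv_mem (V_le_W (c.arc.adj 0 1) (v4 t ht))) (V_le_W (c.arc.adj 0 (-1)) ht)
      rw [← conj_eq_comm] at this
      simpa [h.Z_inv hy] using this
    obtain ⟨s, hs, hs'⟩ := h.exists_Q (c.arc.adj 1 0)
    have sS := h.Q_le' (c.arc.adj 0 1) hs
    have v6 : W (x 0) ≤ W (y • x 0) := by
      refine Up_le fun δ hδ => ?_
      by_cases e : δ = x 1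
      · rw [e]; exact V_le_W a1.symm
      · rcases h.three (c.arc.adj 0 1) (c.arc.adj 0 (-1)) hδ (c.arc.ne _ _) e sS hs' with rfl | rfl
        · exact v5
        · rw [V_smul]
          exact conj_le_of_mem_normalizer v5 (St_le_NW _ (h.Q_le_St' a1 hs))
    have wQ : W (x 0) ≤ Q (x 0) := h.WQ c.arc 0 0
    haveI := h.fin (x 0)
    haveI : Finite (W (x 0)) := PCoreConj.finite_of_le (wQ.trans (Q_le_St _))
    have n2 : y ∈ N(W (x 0)) := by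
      rw [W_smul, le_conj_iff_conj_inv_le] at v6
      exact inv_mem_iff.1 (mem_normalizer_of_conj_le v6)
    have := h.bot (c.arc.adj 0 1) (wQ.trans (h.Q_le (c.arc.adj _ _))) (St_le_NW _)
      (h.St_le (c.arc.adj 1 2) (c.arc.adj 1 0) (c.arc.ne _ _) yS yQ (inf_le_right.trans (St_le_NW _)) n2)
    exact h.Z_ne_bot _ (le_bot_iff.1 (((Z_le_V (c.arc.adj 1 0)).trans (V_le_W (c.arc.adj 0 1))).trans this.le))
  intro hle
  refine v1 (Up_le fun δ hδ => ?_)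
  by_contra hn
  have e0 : δ ≠ x (-1 + 1) := by rintro rfl; exact hn (h.ZQ c.arc _ _)
  obtain ⟨w, hw, w1, w2⟩ := h.splice_back c.arc (-1) hδ e0
  have c' : Crit b fun n => w (n + (-1 - 1)) := hw.crit _ (b - 2) (by
    rw [w2]; exact TA.of_adj (c.arc.tb c.ta (-1)) hδ) (by rwa [w2, w1 _ (by omega)])
  obtain ⟨a, ha, ha'⟩ := SetLike.not_le_iff_exists.1 (h.odd_rev ho hb3 c')
  simp only [w1 (b + 1 + (-1 - 1)) (by omega), w1 (1 + (-1 - 1)) (by omega)] at ha ha'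
  have aS := h.Q_le' (c.arc.adj (-1) (-1 + 1)) (h.ZQ c.arc _ _ (by omega) ha)
  rcases h.three (c.arc.adj (-1) (-1 + 1)) (c.arc.adj (-1) (-2)) hδ (c.arc.ne _ _) e0 aS ha' with rfl | rfl
  · exact hn hle
  · exact not_le_of_smul (inv_smul_smul a _) (mem_stabilizer_iff.1 (inv_mem
      (h.ZS c.arc _ (b - 2) (by omega) (by omega) ha))) hn hle

theorem crit_back (hb5 : 5 ≤ b) : Crit b fun n => x (n + -2) :=
  c.arc.crit _ (b - 2) (c.arc.ta c.ta _) (h.back ho hb3 c hb5)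

theorem back_iter (hb5 : 5 ≤ b) (k : ℕ) : ¬ Z (x (-(2 * k))) ≤ Q (x (b - 2 * k)) := by
  induction k generalizing x with
  | zero => simpa using c.nz
  | succ k ih =>
    have := ih (h.crit_back ho hb3 c hb5)
    rwa [show -(2 * (k : ℤ)) + -2 = -(2 * (k + 1 : ℕ)) by push_cast; ring,
      show (b : ℤ) - 2 * k + -2 = b - 2 * (k + 1 : ℕ) by push_cast; ring] at this

theorem fwd (hb5 : 5 ≤ b) : Crit b fun n => x (n + 2) := by
  have c1 := h.crit_rev ho hb3 (h.crit_back ho hb3 (h.crit_rev ho hb3 c) hb5)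
  exact c1.congr (c.arc.shift 2) (congrArg x (by ring)) (congrArg x (by ring))

omit ho hb3 c in
theorem star_all (hβ : ¬ TA β) (hba : Adj β α) (hbc : Adj β γ) (hbd : Adj β δ) (n1 : γ ≠ α) (n2 : δ ≠ α)
    (n3 : δ ≠ γ) (e : Q α ⊓ Q γ ≤ Q δ) {α' β' γ' δ' : CosetVertex P₁ P₂} (hβ' : ¬ TA β') (hba' : Adj β' α')
    (hbc' : Adj β' γ') (hbd' : Adj β' δ') (n1' : γ' ≠ α') (n2' : δ' ≠ α') (n3' : δ' ≠ γ') :
    Q α' ⊓ Q γ' ≤ Q δ' := by
  obtain ⟨g, rfl, rfl, rfl⟩ := h.two_trans hba hbc n1 hba' hbc' n1' (iff_of_false hβ hβ')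
  rcases h.cases3 hba' hbc' (adj_smul g hbd) n1' (fun e => n2 (smul_left_cancel g e))
    (fun e => n3 (smul_left_cancel g e)) hbd' with e' | e' | rfl
  · exact absurd e' n2'
  · exact absurd e' n3'
  · rw [Q_smul, Q_smul, Q_smul, ← conj_inf]; exact conj_mono g e

section R5

variable {z y : G} (hz : z ∈ Z (x 0)) (hz' : z ∉ Z (x 1)) (hy : y ∈ Z (x (b + 1))) (hy' : y ∉ Z (x b))
include hz hz' hy hy'

theorem r_of_star (st : ∀ α γ δ, Adj (x b) α → Adj (x b) γ → Adj (x b) δ → γ ≠ α → δ ≠ α → δ ≠ γ →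
    Q α ⊓ Q γ ≤ Q δ) : ⁅z, y⁆ ∈ Z (x (b - 1)) := by
  have k := h.odd_k1 ho hb3 c
  have tb := c.arc.tb c.ta b
  have a3 := c.arc.adj b (b - 1)
  have a1 := c.arc.adj b (b + 1)
  have zS := h.Q_le' a3 (h.ZQ c.arc 0 (b - 1) (by omega) hz)
  have zQ := h.not_Q ho hb3 c hz hz'
  have n13 : x (b + 1) ≠ x (b - 1) := c.arc.ne _ _
  obtain ⟨a2, n21, n23⟩ := h.smul_ne a3 a1 n13 zS zQ
  have ta3 := c.arc.ta c.ta (b - 1)
  obtain ⟨u, hu, hu'⟩ := h.exists_Z_not ta3 a3.symm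
  have hy2 := conj_mem_Z hy z
  have hy2' : z * y * z⁻¹ ∉ Z (x b) := fun e => hy' ((mem_normalizer_iff.1 (St_le_NZ _ zS.1) y).2 e)
  obtain ⟨ζ, hζ, hζ1⟩ := h.exists_Z (x b)
  have f : ∀ δ, Adj (x b) δ → ∀ w ∈ Z δ, w ∉ Z (x b) → ∀ q ∈ Q (x b), q ∉ Q δ → ⁅w, q⁆ = ζ := by
    intro δ hδ w hw hw' q hq hq'
    refine k _ tb _ (h.comm_V_Q tb (Z_le_V hδ hw) hq) _ hζ (fun e => hw' ?_) hζ1
    exact h.mem_ZB_of_comm (TA.of_adj tb hδ) hδ.symm hw (h.Q_le' hδ.symm hq) hq'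
      (commutatorElement_eq_one_iff_mul_comm.1 e).symm
  have cz : ∀ g ∈ St (x b), g * ζ * g⁻¹ = ζ := fun g hg => by
    rw [← h.commB tb hζ hg, mul_inv_cancel_right]
  have yS := h.Q_le_St' a1.symm (h.Z_le_Q _ hy)
  have yS2 := h.Q_le_St' a2.symm (h.Z_le_Q _ hy2)
  have er : ⁅z, y⁆ = z * y * z⁻¹ * y := by rw [commutatorElement_def, h.Z_inv hy]
  have fin : ∀ v, v * v = 1 → v ∈ V (x b) → (∀ q ∈ Q (x b), ⁅v, q⁆ = 1) → z * v = v * z → v ∈ Z (x b) := by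
    intro v v1 v2 v3 v4
    refine h.mem_ZB ta3 a3.symm (h.Q_le' a3.symm (h.VQ c.arc b b (by omega) v2)) (by rwa [pow_two]) ?_
    rw [inf_comm]
    exact h.T_le a3 zS zQ (fun q hq => mem_centralizer_singleton_iff.2
      (commutatorElement_eq_one_iff_mul_comm.1 (v3 q hq)).symm) (mem_centralizer_singleton_iff.2 v4)
  have rV := h.r_V' ho hb3 c hz hy
  have zr := h.V_comm c.arc 1 1 (Z_le_V (c.arc.adj 1 0) hz) (h.r_V ho hb3 c hz hy)
  have s12 := st _ _ _ a1 a2 a3 n21 n13.symm n23.symm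
  have s13 := st _ _ _ a1 a3 a2 n13.symm n21 n23
  have s23 := st _ _ _ a2 a3 a1 n23.symm n21.symm n13
  by_cases e : ∀ q ∈ Q (x b), (q ∈ Q (x (b + 1)) ↔ q ∈ Q (z • x (b + 1)))
  · refine absurd (h.ZB_le (c.arc.ta c.ta _) a1.symm (fin _ (h.V_sq hb3 c.arc b rV) rV (fun q hq => ?_) zr))
      (h.r_not' ho hb3 c hz hz' hy hy')
    rw [er, comm_mul_left]
    by_cases e1 : q ∈ Q (x (b + 1))
    · rw [comm_of_Q hy e1, comm_of_Q hy2 ((e q hq).1 e1)]; group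
    · rw [f _ a1 y hy hy' q hq e1, f _ a2 _ hy2 hy2' q hq (mt (e q hq).2 e1), cz _ yS2, h.Z_mul hζ]
  · have three : ∀ q ∈ Q (x b), q ∉ Q (x (b + 1)) → q ∉ Q (z • x (b + 1)) → q ∈ Q (x (b - 1)) := by
      intro q hq q1 q2
      by_contra q3
      push Not at e
      obtain ⟨p, hp, ⟨p1, p2⟩ | ⟨p1, p2⟩⟩ := e
      · have p3 : p ∉ Q (x (b - 1)) := fun p3 => p2 (s13 ⟨p1, p3⟩)
        exact q1 ((mul_mem_cancel_left p1).1 (s23 ⟨h.mul_mem_Q a2.symm (h.Q_le' a2.symm hp)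
          (h.Q_le' a2.symm hq) p2 q2, h.mul_mem_Q a3.symm (h.Q_le' a3.symm hp) (h.Q_le' a3.symm hq) p3 q3⟩))
      · have p3 : p ∉ Q (x (b - 1)) := fun p3 => p1 (s23 ⟨p2, p3⟩)
        exact q2 ((mul_mem_cancel_left p2).1 (s13 ⟨h.mul_mem_Q a1.symm (h.Q_le' a1.symm hp)
          (h.Q_le' a1.symm hq) p1 q1, h.mul_mem_Q a3.symm (h.Q_le' a3.symm hp) (h.Q_le' a3.symm hq) p3 q3⟩))
    have vV := mul_mem rV (Z_le_V a3 hu)
    have := fin _ (h.V_sq hb3 c.arc b vV) vV (fun q hq => ?_) (by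
      rw [← mul_assoc, zr, mul_assoc, ← comm_of_mem hu (h.ZQ c.arc 0 (b - 1) (by omega) hz), mul_assoc])
    · exact (mul_mem_cancel_right hu).1 (h.ZB_le ta3 a3.symm this)
    rw [er, comm_mul_left, comm_mul_left]
    by_cases q1 : q ∈ Q (x (b + 1)) <;> by_cases q2 : q ∈ Q (z • x (b + 1))
    · rw [comm_of_Q hy q1, comm_of_Q hy2 q2, comm_of_Q hu (s12 ⟨q1, q2⟩)]; group
    · rw [comm_of_Q hy q1, f _ a2 _ hy2 hy2' q hq q2, f _ a3 u hu hu' q hq (fun q3 => q2 (s13 ⟨q1, q3⟩)),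
        cz _ (mul_mem yS2 yS), mul_one, mul_inv_cancel, one_mul, h.Z_mul hζ]
    · rw [comm_of_Q hy2 q2, f _ a1 _ hy hy' q hq q1, f _ a3 u hu hu' q hq (fun q3 => q1 (s23 ⟨q2, q3⟩)),
        cz _ (mul_mem yS2 yS), cz _ yS2, mul_one, h.Z_mul hζ]
    · rw [comm_of_Q hu (three q hq q1 q2), f _ a1 _ hy hy' q hq q1, f _ a2 _ hy2 hy2' q hq q2,
        cz _ yS2, h.Z_mul hζ]; group

theorem r_mem (hb5 : 5 ≤ b) : ⁅z, y⁆ ∈ Z (x (b - 2)) := by
  have k := h.odd_k1 ho hb3 c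
  obtain ⟨t, ht, ht'⟩ := SetLike.not_le_iff_exists.1 (h.back ho hb3 c hb5)
  have a3 := c.arc.adj (b - 2) (b - 3)
  have a1 := c.arc.adj (b - 2) (b - 1)
  have tb := c.arc.tb c.ta (b - 2)
  have ta := c.arc.ta c.ta (b - 1)
  have tS := h.Q_le' a3 (h.ZQ c.arc (-2) (b - 3) (by omega) ht)
  have n13 : x (b - 1) ≠ x (b - 3) := c.arc.ne _ _
  obtain ⟨a2, n21, n23⟩ := h.smul_ne a3 a1 n13 tS ht'
  have rV := h.r_V ho hb3 c hz hy
  have rV' := h.r_V' ho hb3 c hz hy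
  have tr : t * ⁅z, y⁆ * t⁻¹ = ⁅z, y⁆ := by
    rw [comm_of_mem ht (h.VQ c.arc 1 (-2) (by omega) rV), mul_inv_cancel_right]
  suffices ⁅z, y⁆ ∈ Z (x (b - 1)) from h.ZA_inf tb a1 a2 n21 this (tr ▸ conj_mem_Z this t)
  have ab := c.arc.adj (b - 1) b
  have c1 : ∀ q ∈ Q (x (b - 1)), ⁅⁅z, y⁆, q⁆ ∈ Z (x b) := fun q hq =>
    h.r_comm' ho hb3 c hz hz' hy (h.Q_le' ab.symm hq)
  have c2 : Q (x (b - 1)) ⊓ Q (t • x (b - 1)) ≤ centralizer ({⁅z, y⁆} : Set G) := by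
    intro q hq
    have e1 := c1 q hq.1
    have e2 := conj_mem_Z (c1 (t⁻¹ * q * t) (by
      have := (mem_inf.1 hq).2
      rwa [Q_smul, mem_conj_iff] at this)) t
    rw [conj_comm, tr, show t * (t⁻¹ * q * t) * t⁻¹ = q by group] at e2
    have e3 := h.ZA_inf tb a1 a2 n21 (h.ZB_le ta ab e1)
      (h.ZB_le ((ta_smul t _).2 ta) (adj_smul t ab) e2)
    exact mem_centralizer_singleton_iff.2 (commutatorElement_eq_one_iff_mul_comm.1
      (h.ZB_inf ta ab a1.symm (c.arc.ne _ _) e1 e3)).symm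
  by_cases st : Q (x (b - 1)) ⊓ Q (t • x (b - 1)) ≤ Q (x (b - 3))
  · exact h.r_of_star ho hb3 c hz hz' hy hy' fun α γ δ h1 h2 h3 n1 n2 n3 =>
      h.star_all tb a1 a2 a3 n21 n13.symm n23.symm st (c.arc.tb c.ta b) h1 h2 h3 n1 n2 n3
  obtain ⟨p, hp, hp'⟩ := SetLike.not_le_iff_exists.1 st
  obtain ⟨m, hm⟩ : ∃ m : ℕ, (b : ℤ) = 2 * m + 3 := ⟨(b - 3) / 2, by omega⟩
  have bi := h.back_iter ho hb3 (h.crit_rev ho hb3 c) hb5 m
  rw [show (b : ℤ) + 1 - -(2 * m) = 2 * b - 2 by omega, show (b : ℤ) + 1 - (b - 2 * m) = b - 2 by omega] at bi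
  obtain ⟨w, hw, hw'⟩ := SetLike.not_le_iff_exists.1 bi
  have wQ := h.ZQ c.arc (2 * b - 2) (b - 1) (by omega) hw
  have wc : w ∈ centralizer ({⁅z, y⁆} : Set G) :=
    mem_centralizer_singleton_iff.2 (comm_of_mem hw (h.VQ c.arc b _ (by omega) rV'))
  have wS := h.Q_le' a1 wQ
  have e3 : x (b - 3) = w • t • x (b - 1) :=
    (h.three a1 a2 a3 n21 n13.symm wS hw').resolve_left n23.symm
  have c3 : Q (x (b - 1)) ⊓ Q (x (b - 3)) ≤ centralizer ({⁅z, y⁆} : Set G) := by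
    have := conj_mono w c2
    rwa [conj_inf, ← Q_smul, ← Q_smul, mem_stabilizer_iff.1 wS.2, ← e3, conj_eq_of_mem wc] at this
  have pQ : p ∈ Q (x (b - 2)) := h.mem_Q_of_fix a1 a2 n21 (h.Q_le_St' a1.symm hp.1) (Q_le_St _ hp.1)
    (Q_le_St _ hp.2)
  have c4 : ∀ q ∈ Q (x (b - 1)), q ∈ Q (x (b - 2)) → q ∈ centralizer ({⁅z, y⁆} : Set G) := by
    intro q q1 q2
    by_cases q3 : q ∈ Q (x (b - 3))
    · exact c3 ⟨q1, q3⟩
    · exact (mul_mem_cancel_left (c2 hp)).1 (c3 ⟨mul_mem hp.1 q1,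
        h.mul_mem_Q a3.symm (h.Q_le' a3.symm pQ) (h.Q_le' a3.symm q2) hp' q3⟩)
  refine h.omega_le k ta (mem_omegaOneCenter_iff.2 ⟨h.VQ c.arc b _ (by omega) rV',
    mem_centralizer_iff.2 fun q hq => mem_centralizer_singleton_iff.1 ?_, by
      rw [pow_two]; exact h.V_sq hb3 c.arc 1 rV⟩)
  by_cases q2 : q ∈ Q (x (b - 2))
  · exact c4 q hq q2
  · exact (mul_mem_cancel_left wc).1 (c4 _ (mul_mem wQ hq) (h.mul_mem_Q a1 wS (h.Q_le' a1 hq) hw' q2))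

theorem r_mem' (hb5 : 5 ≤ b) : ⁅z, y⁆ ∈ Z (x 3) := by
  have := h.r_mem ho hb3 (h.crit_rev ho hb3 c) (z := y) (y := z) (by simpa using hy) (by simpa using hy')
    (by simpa using hz) (by simpa using hz') hb5
  rwa [h.r_symm ho hb3 c hz hy, show (b : ℤ) + 1 - (b - 2) = 3 by ring] at this

end R5

theorem exists_r (hb5 : 5 ≤ b) : ∃ r, r ≠ 1 ∧ r ∈ Z (x 3) ∧ r ∈ Z (x (b - 2)) := by
  obtain ⟨z, hz, hz'⟩ := h.exists_Z_not c.ta (c.arc.adj 0 1)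
  obtain ⟨y, hy, hy'⟩ := h.exists_Z_not (c.arc.ta c.ta (b + 1)) (c.arc.adj _ b)
  exact ⟨⁅z, y⁆, fun e => h.r_not ho hb3 c hz hz' hy hy' (e ▸ one_mem _), h.r_mem' ho hb3 c hz hz' hy hy' hb5,
    h.r_mem ho hb3 c hz hz' hy hy' hb5⟩

theorem seven_false (hb7 : 7 ≤ b) : False := by
  have hb5 : 5 ≤ b := by omega
  obtain ⟨δ, a1, n1, n2⟩ := h.exists_third (c.arc.adj (b - 3) (b - 3 - 1)) (c.arc.adj (b - 3) (b - 2))
    (c.arc.ne _ _)
  obtain ⟨w, hw, w1, w2⟩ := h.splice c.arc (b - 3) a1 n2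
  have c1 : Crit b fun n => w (n + -4) := hw.crit _ (b - 4) (by
    rw [w1 _ (by omega)]; exact c.arc.ta c.ta _) (by
    rw [w1 _ (by omega), w1 _ (by omega)]; simpa using h.back_iter ho hb3 c hb5 2)
  have c2 : Crit b w := (h.fwd ho hb3 (h.fwd ho hb3 c1 hb5) hb5).congr hw (congrArg w (by ring))
    (congrArg w (by ring))
  obtain ⟨r, r1, r2, r3⟩ := h.exists_r ho hb3 c hb5
  obtain ⟨r', s1, s2, s3⟩ := h.exists_r ho hb3 c2 hb5
  rw [w1 _ (by omega)] at s2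
  rw [show (b : ℤ) - 2 = b - 3 + 1 by ring, w2] at s3
  obtain rfl := h.odd_k1 ho hb3 c _ (c.arc.tb c.ta 3) r r2 r' s2 r1 s1
  exact r1 (h.ZB_inf (c.arc.ta c.ta (b - 3)) (c.arc.adj _ (b - 2)) a1 n1 r3 s3)

end HB

namespace HB

variable {x : ℤ → CosetVertex P₁ P₂}

theorem five_sq (h : HB P₁ P₂ 5) (hx : IArc x) (ta : TA (x 0)) (c : ¬ Z (x (-4)) ≤ Q (x 1)) {a s : G}
    (ha : a ∈ Z (x (-2))) (ha' : a ∉ Z (x (-1))) (hs : s ∈ Q (x 2)) (hs' : s ∉ Q (x 1)) :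
    ⁅a, s⁆ * ⁅a, s⁆ ≠ 1 ∧ ⁅a, s⁆ * ⁅a, s⁆ ∈ Z (x 1) := by
  have sS := h.Q_le' (hx.adj 1 2) hs
  obtain ⟨a1, n1, -⟩ := h.smul_ne (hx.adj 1 2) (hx.adj 1 0) (hx.ne _ _) sS hs'
  have e1 : s • x 1 = x 1 := sS.1
  obtain ⟨w, hw, w1, w2⟩ := h.splice' (x := fun i => if i ≤ 1 then x i else s • x (2 - i)) 3
    (α := s • x (-2)) (fun i hi => by
      by_cases e : i + 1 ≤ 1
      · simp only [if_pos e, if_pos (show i ≤ 1 by omega)]; exact hx.adj _ _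
      · by_cases e' : i = 1
        · subst e'; simpa using a1
        · simp only [if_neg e, if_neg (show ¬ i ≤ 1 by omega)]; exact (hx.smul s).adj _ _)
    (fun i hi => by
      by_cases e : i + 2 ≤ 1
      · simp only [if_pos e, if_pos (show i ≤ 1 by omega)]; exact hx.ne _ _
      · by_cases e' : i = 0
        · subst e'; simpa using n1
        · obtain rfl : i = 1 := by omega
          simp only [if_neg e, if_pos (le_refl (1 : ℤ))]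
          rw [← e1]; exact (hx.smul s).ne _ _)
    (by simpa using (hx.smul s).adj (-1) (-2)) (by simpa using (hx.smul s).ne (-2) 0)
  have w0 : ∀ i ≤ 1, w i = x i := fun i hi => by rw [w1 i (by omega), if_pos hi]
  have w3 : w 3 = s • x (-1) := by rw [w1 3 le_rfl]; simp
  have c1 : Crit 5 fun n => w (n + -4) := hw.crit _ 1 (by rw [w0 _ (by omega)]; exact hx.ta ta _)
    (by rwa [w0 _ (by omega), w0 _ (by omega)])
  have c2 := h.fwd (by norm_num) (by norm_num) c1 le_rfl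
  have m1 : a ∈ Z (w (0 + 2 + -4)) := by rwa [w0 _ (by omega)]
  have m2 : a ∉ Z (w (1 + 2 + -4)) := by rwa [w0 _ (by omega)]
  have m3 : s * a * s⁻¹ ∈ Z (w ((5 : ℕ) + 1 + 2 + -4)) := by
    rw [show ((5 : ℕ) : ℤ) + 1 + 2 + -4 = 3 + 1 by norm_num, w2]; exact conj_mem_Z ha s
  have m4 : s * a * s⁻¹ ∉ Z (w ((5 : ℕ) + 2 + -4)) := by
    rw [show ((5 : ℕ) : ℤ) + 2 + -4 = 3 by norm_num, w3, Z_smul, conj_mem_conj_iff]; exact ha'
  have r1 := h.r_not (by norm_num) (by norm_num) c2 m1 m2 m3 m4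
  have r2 := h.r_mem' (by norm_num) (by norm_num) c2 m1 m2 m3 m4 le_rfl
  have : ⁅a, s⁆ * ⁅a, s⁆ = ⁅a, s * a * s⁻¹⁆ := by
    simp only [commutatorElement_def, mul_inv_rev, inv_inv, h.Z_inv ha]; group
  rw [this]
  exact ⟨fun e => r1 (e ▸ one_mem _), by rwa [w0 _ (by omega)] at r2⟩

theorem five_false (h : HB P₁ P₂ 5) (c : Crit 5 x) : False := by
  have ho : ((5 : ℕ) : ℤ) % 2 = 1 := by norm_num
  have h3 : 3 ≤ 5 := by norm_num
  obtain ⟨a, ha, ha'⟩ := h.exists_Z_not (c.arc.ta c.ta (-2)) (c.arc.adj _ (-1))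
  obtain ⟨s, hs, hs'⟩ := h.exists_Z_not (c.arc.ta c.ta 6) (c.arc.adj _ 5)
  have aQ : a ∉ Q (x 3) := by
    have := h.not_Q ho h3 (h.crit_back ho h3 c le_rfl) (z := a) (by simpa using ha) (by simpa using ha')
    simpa using this
  have sQ : s ∉ Q (x 1) := h.not_Q' ho h3 c (by simpa using hs) (by simpa using hs')
  obtain ⟨m1, m2⟩ := h.five_sq c.arc c.ta (by simpa using h.back_iter ho h3 c le_rfl 2) ha ha'
    (h.ZQ c.arc 6 2 (by omega) hs) sQ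
  obtain ⟨-, m3⟩ := h.five_sq (x := fun i => x (4 - i)) (c.arc.rev 4) (c.arc.ta c.ta _)
    (by simpa using h.back ho h3 (h.crit_rev ho h3 c) le_rfl)
    (a := s) (s := a) (by simpa using hs) (by simpa using hs')
    (by simpa using h.ZQ c.arc (-2) 2 (by omega) ha) (by simpa using aQ)
  rw [show (4 : ℤ) - 1 = 3 by norm_num] at m3
  refine m1 (h.ZB_inf (c.arc.ta c.ta 2) (c.arc.adj 2 1) (c.arc.adj 2 3) (c.arc.ne _ _) m2 ?_)
  rw [← commutatorElement_inv, ← mul_inv_rev] at m3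
  exact inv_mem_iff.1 m3

end HB

end Cfsg.Agent.Lib.Gold
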