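import Cfsg.Agent.Lib.GoldD

/-! Goldschmidt's bound for amalgams of index `(3,3)`. -/

set_option autoImplicit false

namespace Cfsg.Agent.Lib.Gold

open Subgroup MulAction Cfsg.Agent.Lib.PCoreConj Cfsg.Agent.Lib.PCore Cfsg.Agent.Lib.PCoreResidual
  Cfsg.Agent.Lib.PReduced Cfsg.Agent.Lib.CosetGraph Cfsg.Agent.Lib.LocIdx Cfsg.Agent.Lib.AmalgS3
  Cfsg.Agent.Lib.PushBase Cfsg.Agent.Lib.PCoreMod
open scoped commutatorElement

variable {G : Type*} [Group G] {P₁ P₂ : Subgroup G}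

namespace HB

variable {x w : ℤ → CosetVertex P₁ P₂} (h : HB P₁ P₂ 3) (c : Crit 3 x)
include h c

theorem three_crit (hw : IArc w) (tw : TA (w 0)) : Crit 3 w := by
  obtain ⟨g, hg⟩ := h.arc_trans (N := 2) (fun p => by
    by_cases hp : p
    · obtain ⟨q, hq, hq'⟩ := h.exists_Q (c.arc.adj 1 2)
      exact ⟨x, c.arc, iff_of_true (c.arc.ta c.ta _) hp, q, fun i _ _ => h.QS c.arc 1 i (by omega) hq, hq'⟩
    · obtain ⟨q, hq, hq'⟩ := h.exists_Q (c.arc.adj 2 3)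
      exact ⟨fun i => x (i + 1), c.arc.shift _, iff_of_false (c.arc.tb c.ta _) hp, q,
        fun i _ _ => h.QS c.arc 2 _ (by omega) hq, by simpa using hq'⟩) 3 le_rfl x w c.arc hw
      (iff_of_true c.ta tw)
  exact ⟨hw, tw, not_le_of_smul (hg 0 le_rfl (by omega)) (hg _ (by omega) le_rfl) c.nz⟩

theorem three_r {z y : G} (hz : z ∈ Z (x 0)) (hz' : z ∉ Z (x 1)) (hy : y ∈ Z (x 4)) (hy' : y ∉ Z (x 3)) :
    ⁅z, y⁆ ∈ Z (x 2) ∧ ⁅z, y⁆ ∉ Z (x 1) ∧ ⁅z, y⁆ ∉ Z (x 3) := by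
  have ho : ((3 : ℕ) : ℤ) % 2 = 1 := by norm_num
  have hy1 : y ∈ Z (x ((3 : ℕ) + 1)) := by simpa using hy
  have hy2 : y ∉ Z (x (3 : ℕ)) := by simpa using hy'
  have ta := c.arc.ta c.ta 2
  have rV := h.r_V ho le_rfl c hz hy1
  refine ⟨h.omega_le (h.odd_k1 ho le_rfl c) ta (mem_omegaOneCenter_iff.2 ⟨h.VQ c.arc 1 2 (by omega) rV,
    mem_centralizer_iff.2 fun q hq => ?_, by rw [pow_two]; exact h.V_sq le_rfl c.arc 1 rV⟩),
    fun e => h.r_not ho le_rfl c hz hz' hy1 hy2 (h.ZB_le c.ta (c.arc.adj 0 1) e),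
    fun e => h.r_not' ho le_rfl c hz hz' hy1 hy2 (h.ZB_le (c.arc.ta c.ta _) (c.arc.adj _ 3) e)⟩
  have e1 := h.r_comm ho le_rfl c hz hy1 hy2 (h.Q_le' (c.arc.adj 1 2) hq)
  have e2 := h.r_comm' ho le_rfl c hz hz' hy1 (s := q) (by simpa using h.Q_le' (c.arc.adj 3 2) hq)
  exact (commutatorElement_eq_one_iff_mul_comm.1 (h.ZB_inf ta (c.arc.adj 2 1) (c.arc.adj 2 3)
    (c.arc.ne _ _) e1 (by simpa using e2))).symm

theorem three_comm {z s : G} (hz : z ∈ Z (x 0)) (hs : s ∈ St (x 1) ⊓ St (x 2)) : ⁅z, s⁆ ∈ Z (x 2) := by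
  have ho : ((3 : ℕ) : ℤ) % 2 = 1 := by norm_num
  have z12 := h.ZB_le (c.arc.ta c.ta 2) (c.arc.adj 2 1)
  by_cases hz' : z ∈ Z (x 1)
  · rw [commutatorElement_eq_one_iff_mul_comm.2 (h.commB (c.arc.tb c.ta 1) hz' hs.1)]
    exact one_mem _
  obtain ⟨y, hy, hy'⟩ := h.exists_Z_not (c.arc.ta c.ta 4) (c.arc.adj _ 3)
  have yQ := h.ZQ c.arc 4 2 (by omega) hy
  have nZ := St_le_NZ (x 2)
  have : St (x 1) ⊓ St (x 2) ≤ stab (Z (x 2)) z :=
    h.T_le (c.arc.adj 1 2) (h.Q_le' (c.arc.adj 1 2) yQ)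
      (h.not_Q' ho le_rfl c (by simpa using hy) (by simpa using hy'))
      (fun q hq => mem_stab.2 ⟨nZ (h.Q_le_St' (c.arc.adj 1 2) hq),
        z12 (h.comm_V_Q (c.arc.tb c.ta 1) (Z_le_V (c.arc.adj 1 0) hz) hq)⟩)
      (mem_stab.2 ⟨nZ (Q_le_St _ yQ), (h.three_r c hz hz' hy hy').1⟩)
  exact (mem_stab.1 (this hs)).2

theorem three_u : ∃ u ∈ Q (x 1), u ∉ Q (x 0) ∧ ∀ q ∈ Q (x 1), ⁅u, q⁆ ∈ Z (x 2) := by
  have ho : ((3 : ℕ) : ℤ) % 2 = 1 := by norm_num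
  have k := h.odd_k1 ho le_rfl c
  have ta := c.arc.ta c.ta 2
  have a21 := c.arc.adj 2 1
  have a23 := c.arc.adj 2 3
  obtain ⟨z, hz, hz'⟩ := h.exists_Z_not c.ta (c.arc.adj 0 1)
  obtain ⟨y, hy, hy'⟩ := h.exists_Z_not (c.arc.ta c.ta 4) (c.arc.adj _ 3)
  obtain ⟨q, hq, hq'⟩ := h.exists_Q a21.symm
  have qS := h.Q_le' a21 hq
  have yQ := h.ZQ c.arc 4 2 (by omega) hy
  have yQ1 : y ∉ Q (x 1) := h.not_Q' ho le_rfl c (by simpa using hy) (by simpa using hy')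
  have wQ : q * y * q⁻¹ ∈ Q (x 2) := conj_mem_of_norm (St_le_NQ _ qS.1) yQ
  have wQ1 : q * y * q⁻¹ ∉ Q (x 1) := fun e => yQ1 ((mem_normalizer_iff.1 (St_le_NQ _ qS.2) y).2 e)
  have nZ := St_le_NZ (x 2)
  have cy : ∀ p ∈ Q (x 2), ⁅y, p⁆ ∈ Z (x 2) := fun p hp => by
    have := h.three_comm (h.crit_rev ho le_rfl c) (z := y) (s := p) (by simpa using hy)
      (by simpa using h.Q_le' a23.symm hp)
    simpa using this
  have cw : ∀ p ∈ Q (x 2), ⁅q * y * q⁻¹, p⁆ ∈ Z (x 2) := fun p hp => by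
    have := conj_mem_of_norm (nZ qS.1) (cy _ (conj_mem_of_norm (St_le_NQ _ (inv_mem qS.1)) hp))
    rw [conj_comm] at this
    simpa [mul_assoc] using this
  refine ⟨y * (q * y * q⁻¹), h.mul_mem_Q a21.symm (h.Q_le' a21.symm yQ) (h.Q_le' a21.symm wQ) yQ1 wQ1,
    fun e => ?_, fun p hp => ?_⟩
  · obtain ⟨a1, n1, n2⟩ := h.smul_ne a21 a23 (c.arc.ne _ _) qS hq'
    obtain ⟨r1, r2, r3⟩ := h.three_r c hz hz' hy hy'
    have q0 := h.Q_le_St' (c.arc.adj 1 0) hq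
    obtain ⟨s1, s2, s3⟩ := h.three_r c (conj_mem_of_norm (St_le_NZ _ (inv_mem q0)) hz)
      (fun e => hz' ((mem_normalizer_iff.1 (St_le_NZ _ (inv_mem qS.2)) z).2 e)) hy hy'
    have e1 : q * ⁅q⁻¹ * z * q⁻¹⁻¹, y⁆ * q⁻¹ = ⁅z, q * y * q⁻¹⁆ := by rw [conj_comm]; group
    have t1 : ⁅z, q * y * q⁻¹⁆ ∈ Z (x 2) := e1 ▸ conj_mem_of_norm (nZ qS.1) s1
    have t3 : ⁅z, q * y * q⁻¹⁆ ∉ Z (q • x 3) := by rwa [← e1, Z_smul, conj_mem_conj_iff]
    have e2 := comm_of_Q hz e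
    rw [comm_mul_right, ← comm_of_mem t1 yQ, mul_inv_cancel_right] at e2
    refine t3 ?_
    rw [eq_inv_of_mul_eq_one_right e2]
    exact inv_mem (h.mem_third k ta a21 a23 a1 (c.arc.ne _ _) n2 n1 r1 r2 r3)
  · have : St (x 2) ⊓ St (x 1) ≤ stab (Z (x 2)) (y * (q * y * q⁻¹)) :=
      h.T_le a21 qS hq' (fun p hp => mem_stab.2 ⟨nZ (Q_le_St _ hp), by
        rw [comm_mul_left]
        exact mul_mem (conj_mem_of_norm (nZ (Q_le_St _ yQ)) (cw p hp)) (cy p hp)⟩)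
        (mem_stab.2 ⟨nZ qS.1, swap_comm (cy _ (h.sq_mem_Q a21 qS)) (cy _ wQ) (nZ (Q_le_St _ wQ))⟩)
    exact (mem_stab.1 (this (h.Q_le' a21 hp))).2

theorem three_bound : Nat.card (Q (x 2)) ≤ 64 := by
  have ho : ((3 : ℕ) : ℤ) % 2 = 1 := by norm_num
  have k := h.odd_k1 ho le_rfl c
  have ta := c.arc.ta c.ta 2
  have a21 := c.arc.adj 2 1
  have a23 := c.arc.adj 2 3
  obtain ⟨z, hz, hz'⟩ := h.exists_Z_not c.ta (c.arc.adj 0 1)
  obtain ⟨y, hy, hy'⟩ := h.exists_Z_not (c.arc.ta c.ta 4) (c.arc.adj _ 3)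
  obtain ⟨u, u1, u2, u3⟩ := h.three_u (h.three_crit c (c.arc.rev 2) (c.arc.ta c.ta _))
  simp only [sub_zero, sub_self, show (2 : ℤ) - 1 = 1 by norm_num] at u1 u2 u3
  have yQ := h.ZQ c.arc 4 2 (by omega) hy
  have yQ1 : y ∉ Q (x 1) := h.not_Q' ho le_rfl c (by simpa using hy) (by simpa using hy')
  have z12 := h.ZB_le ta a21
  have uS := h.Q_le_St' a21.symm u1
  refine h.bound k ta a21 (h.ZQ c.arc 0 2 (by omega) hz) (fun s hs => h.three_comm c hz ⟨hs.2, hs.1⟩)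
    (by rw [h.Z_mul hz]; exact one_mem _) uS u2 fun p hp => ?_
  set K := nclIn (zpowers z ⊔ Z (x 2)) (St (x 2)) with hK
  have nK : St (x 2) ≤ N(K) := le_normalizer_nclIn _ _
  have k0 : Z (x 0) ≤ zpowers z ⊔ Z (x 2) := fun v hv => by
    by_cases e : v ∈ Z (x 1)
    · exact mem_sup_right (z12 e)
    · exact (mul_mem_cancel_right (mem_sup_left (mem_zpowers z))).1 (mem_sup_right (z12
        (h.mul_mem_ZB k c.ta (c.arc.adj 0 1) hv hz e hz')))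
  have n0 : St (x 1) ⊓ St (x 2) ≤ N(zpowers z ⊔ Z (x 2)) := fun s hs => by
    haveI := h.fin (x 2)
    haveI : Finite ↥(zpowers z ⊔ Z (x 2)) := PCoreConj.finite_of_le
      (sup_le (zpowers_le.2 (Q_le_St _ (h.ZQ c.arc 0 2 (by omega) hz))) (h.Z_le_St _))
    refine mem_normalizer_of_conj_le ?_
    rw [conj_sup, conj_zpowers, conj_eq_of_mem_normalizer (St_le_NZ _ hs.2), conj_eq_comm]
    exact sup_le (zpowers_le.2 (mul_mem (inv_mem (mem_sup_right (h.three_comm c hz hs)))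
      (mem_sup_left (mem_zpowers z)))) le_sup_right
  have k1 : V (x 1) ≤ zpowers z ⊔ Z (x 2) := by
    refine Up_le fun δ hδ => ?_
    by_cases e : δ = x 2
    · rw [e]; exact le_sup_right
    · have yS := h.Q_le' a21.symm yQ
      rcases h.three a21.symm (c.arc.adj 1 0) hδ (c.arc.ne _ _) e yS yQ1 with rfl | rfl
      · exact k0
      · rw [Z_smul]; exact conj_le_of_mem_normalizer k0 (n0 yS)
  have yK : y ∈ K := by
    obtain ⟨g, hg, e⟩ := exists_smul_eq_of_adj a21 a23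
    have := Z_le_V (c.arc.adj 3 4) hy
    rw [← e, V_smul] at this
    exact conj_le_nclIn _ hg (conj_mono g k1 this)
  have k2 : ∀ p ∈ Q (x 1), ⁅p, u⁆ ∈ K := fun p hp => le_nclIn _ _ (k0 (comm_mem_swap (u3 p hp)))
  by_cases e : p ∈ Q (x 1)
  · exact k2 p e
  · have e1 := k2 _ (h.mul_mem_Q a21.symm (h.Q_le' a21.symm yQ) (h.Q_le' a21.symm hp) yQ1 e)
    rw [show p = y * (y * p) by rw [← mul_assoc, h.Z_mul hy, one_mul], comm_mul_left]
    exact mul_mem (mul_mem (mul_mem yK e1) (inv_mem yK)) (comm_mem_of_norm (nK uS) yK)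

end HB

theorem HypB.card_le (h : HypB P₁ P₂) : Nat.card ↥(P₁ ⊓ P₂) ≤ 128 := by
  classical
  have hex : ∃ n, ∃ δ μ : CosetVertex P₁ P₂, dst δ μ = n ∧ ¬ Z δ ≤ Q μ := by
    by_contra hn
    push Not at hn
    exact h.Z_ne_bot (Sum.inl ((1 : G) : G ⧸ P₁)) (eq_bot_of_forall_le h.core fun ν =>
      (hn _ _ ν rfl).trans (Q_le_St ν))
  obtain ⟨α, α', h1, h2⟩ := Nat.find_spec hex
  have hb : HB P₁ P₂ (Nat.find hex) := ⟨h, fun δ μ hlt => by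
    by_contra hn
    exact Nat.find_min hex hlt ⟨δ, μ, rfl, hn⟩⟩
  generalize Nat.find hex = b at h1 hb
  obtain ⟨x, hx, rfl, rfl⟩ := h.exists_geodesic b α' h1
  have b0 : b ≠ 0 := by rintro rfl; exact h2 (h.Z_le_Q _)
  have ta : TA (x 0) := by
    by_contra hn
    exact h2 ((h.ZB_le (TA.of_adj hn (hx.adj 0 1)) (hx.adj 1 0)).trans (hb.ZQ hx 1 b))
  have c : Crit b x := ⟨hx, ta, h2⟩
  have fin : ∀ α : CosetVertex P₁ P₂, TA α → Nat.card (Q α) ≤ 64 → Nat.card ↥(P₁ ⊓ P₂) ≤ 128 := by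
    intro α hα hc
    obtain ⟨g, rfl⟩ := exists_smul_of_ta (α := Sum.inl ((1 : G) : G ⧸ P₁)) (β := α)
      (iff_of_true ⟨_, rfl⟩ hα)
    rw [Q_smul, card_conj] at hc
    change Nat.card (pCoreOf 2 (stabilizer G _)) ≤ 64 at hc
    rw [stabilizer_inl, conj_one] at hc
    rw [← card_mul_relIndex h.l1.Q_le, h.l1.idx2]
    omega
  rcases Nat.even_or_odd' b with ⟨m, rfl | rfl⟩
  · by_cases e : m = 1
    · subst e
      exact fin _ ta (HB.two_bound hb c)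
    · exact (hb.even_false (by omega) (by omega) c (by omega)).elim
  · rcases Nat.lt_or_ge m 3 with e | e
    · interval_cases m
      · exact absurd (hb.not_one ta (hx.adj 0 _)) h2
      · exact fin _ (hx.ta ta 2) (hb.three_bound c)
      · exact (hb.five_false c).elim
    · exact (hb.seven_false (by omega) (by omega) c (by omega)).elim

theorem Loc0.subgroupOf {A T H : Subgroup G} (h : Loc0 A T) (hA : A ≤ H) :
    Loc0 (A.subgroupOf H) (T.subgroupOf H) where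
  fin := haveI := h.fin; Finite.of_equiv _ (subgroupOfEquivOfLe hA).symm.toEquiv
  syl := h.syl.subgroupOf hA
  idx2 := by
    rw [pCoreOf_subgroupOf_of_le hA, relIndex_subgroupOf (h.syl.le.trans hA), h.idx2]
  idx3 := by rw [relIndex_subgroupOf hA, h.idx3]

section Final

variable (core : ∀ N : Subgroup G, N ≤ P₁ ⊓ P₂ → P₁ ≤ N(N) → P₂ ≤ N(N) → N = ⊥)
include core

theorem card_le_B (l1 : Loc P₁ (P₁ ⊓ P₂)) (l2 : Loc0 P₂ (P₁ ⊓ P₂)) (c2 : CharPIn 2 P₂)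
    (cen : P₂ ≤ C(omegaOneCenter 2 (P₁ ⊓ P₂))) : Nat.card ↥(P₁ ⊓ P₂) ≤ 128 := by
  have e : P₁.subgroupOf (P₁ ⊔ P₂) ⊓ P₂.subgroupOf (P₁ ⊔ P₂) = (P₁ ⊓ P₂).subgroupOf (P₁ ⊔ P₂) := rfl
  have hT : P₁ ⊓ P₂ ≤ P₁ ⊔ P₂ := inf_le_left.trans le_sup_left
  have : HypB (P₁.subgroupOf (P₁ ⊔ P₂)) (P₂.subgroupOf (P₁ ⊔ P₂)) := by
    refine ⟨by rw [← subgroupOf_sup le_sup_left le_sup_right, subgroupOf_self], fun N hN hn => ?_,
      e ▸ l1.subgroupOf le_sup_left, e ▸ l2.subgroupOf le_sup_right, fun x hx => ?_, fun x hx => ?_⟩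
    · rw [e] at hN
      have h1 := le_normalizer_map_subtype N
      exact (map_eq_bot_iff_of_injective _ (subtype_injective _)).1 (core (N.map (P₁ ⊔ P₂).subtype)
        (map_le_iff_le_comap.2 hN) (le_sup_left.trans h1) (le_sup_right.trans h1))
    · rw [pCoreOf_subgroupOf_of_le le_sup_right] at hx ⊢
      rw [centralizer_subgroupOf ((pCoreOf_le 2 P₂).trans le_sup_right)] at hx
      exact c2 hx
    · rw [e, centralizer_eq_subgroupOf, map_omegaOneCenter_subtype, map_subgroupOf_eq_of_le hT]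
      exact cen hx
  have h := this.card_le
  rwa [e, Nat.card_congr (subgroupOfEquivOfLe hT).toEquiv] at h

theorem card_le_of_not_charP (l1 : Loc0 P₁ (P₁ ⊓ P₂)) (l2 : Loc0 P₂ (P₁ ⊓ P₂)) (c1 : ¬ CharPIn 2 P₁) :
    Nat.card ↥(P₁ ⊓ P₂) ≤ 128 := by
  obtain ⟨x, hx, hx'⟩ := SetLike.not_le_iff_exists.1 c1
  have r1 := l1.res_le (PCoreConj.le_normalizer_centralizer (le_normalizer_pCoreOf 2 P₁)) hx.1 hx' hx.2
  set K := pCoreOf 2 P₁ ⊓ pCoreOf 2 P₂ with hK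
  obtain ⟨g, hg, hg'⟩ := exists_not_mem_of_relIndex_ne_one (Q := P₁ ⊓ P₂) (T := P₂)
    (by rw [l2.idx3]; omega)
  obtain ⟨s, hs, hs'⟩ := SetLike.not_le_iff_exists.1 l2.not_T_le
  have nK : P₁ ⊓ P₂ ≤ N(K) := PCoreConj.le_normalizer_inf (inf_le_left.trans (le_normalizer_pCoreOf 2 _))
    (inf_le_right.trans (le_normalizer_pCoreOf 2 _))
  haveI := l2.fin
  have hsg : g⁻¹ * (s * g) ∉ P₁ ⊓ P₂ := by
    intro e
    have h1 : P₁ ⊓ P₂ ≤ (P₁ ⊓ P₂) ^ᶜ g := l2.T_le (by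
      have := conj_mono g l2.Q_le
      rwa [conj_eq_of_mem_normalizer (le_normalizer_pCoreOf 2 _ hg)] at this) hs hs'
      (mem_conj_iff.2 (by rwa [mul_assoc]))
    haveI : Finite ↥(P₁ ⊓ P₂) := PCoreConj.finite_of_le inf_le_right
    exact hg' (inv_mem_iff.1 (l2.mem_of_mem_normalizer (inv_mem hg)
      (mem_normalizer_of_conj_le (le_conj_iff_conj_inv_le.1 h1))))
  set K₀ := K ⊓ K ^ᶜ g ⊓ K ^ᶜ (s * g) with hK₀
  have key : ∀ y ∈ P₂, K₀ ≤ K ^ᶜ y := by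
    intro y hy
    have k : ∀ u : G, u⁻¹ * y ∈ P₁ ⊓ P₂ → K ^ᶜ y = K ^ᶜ u := fun u hu => by
      have := conj_conj K (u⁻¹ * y) u
      rwa [conj_eq_of_mem_normalizer (nK hu), mul_inv_cancel_left, eq_comm] at this
    by_cases e : y ∈ P₁ ⊓ P₂
    · rw [conj_eq_of_mem_normalizer (nK e)]; exact inf_le_left.trans inf_le_left
    · rcases pigeon_three l2.idx3 hg (mul_mem hs.2 hg) hy hg'
        (fun e => hg' ((mul_mem_cancel_left hs).1 e)) e hsg with e' | e'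
      · rw [k _ e']; exact inf_le_left.trans inf_le_right
      · rw [k _ e']; exact inf_le_right
  have n2 : P₂ ≤ N(K₀) := by
    refine le_normalizer_iff_conj_le.2 fun y hy => ?_
    rw [conj_le_iff_le_conj_inv]
    refine le_trans ?_ (show K ^ᶜ y⁻¹ ⊓ K ^ᶜ (y⁻¹ * g) ⊓ K ^ᶜ (y⁻¹ * (s * g)) ≤ K₀ ^ᶜ y⁻¹ by
      rw [← conj_conj, ← conj_conj K (s * g), ← conj_inf, ← conj_inf])
    exact le_inf (le_inf (key _ (inv_mem hy)) (key _ (mul_mem (inv_mem hy) hg)))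
      (key _ (mul_mem (inv_mem hy) (mul_mem hs.2 hg)))
  have hle : K₀ ≤ pCoreOf 2 P₁ := inf_le_left.trans (inf_le_left.trans inf_le_left)
  have e0 := core K₀ (hle.trans l1.Q_le) (by
    rw [← l1.res_sup]
    exact sup_le (PCoreConj.le_normalizer_of_le_centralizer (r1.trans (centralizer_anti hle)))
      (inf_le_right.trans n2)) n2
  have i1 : K.relIndex (pCoreOf 2 P₂) ≤ 2 := by
    rw [hK, inf_relIndex_right]
    exact (relIndex_le_of_le_right l2.Q_le (by rw [l1.idx2]; omega)).trans l1.idx2.le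
  have i2 : ∀ y ∈ P₂, (K ^ᶜ y).relIndex (pCoreOf 2 P₂) ≤ 2 := fun y hy => by
    rwa [← conj_eq_of_mem_normalizer (le_normalizer_pCoreOf 2 _ hy), relIndex_conj]
  have i3 : K₀.relIndex (pCoreOf 2 P₂) ≤ 2 * 2 * 2 :=
    relIndex_inf_le.trans (Nat.mul_le_mul (relIndex_inf_le.trans (Nat.mul_le_mul i1 (i2 g hg)))
      (i2 _ (mul_mem hs.2 hg)))
  rw [e0, relIndex_bot_left] at i3
  rw [← card_mul_relIndex l2.Q_le, l2.idx2]
  omega

theorem card_le_main (l1 : Loc0 P₁ (P₁ ⊓ P₂)) (l2 : Loc0 P₂ (P₁ ⊓ P₂)) : Nat.card ↥(P₁ ⊓ P₂) ≤ 128 := by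
  have core' : ∀ N : Subgroup G, N ≤ P₂ ⊓ P₁ → P₂ ≤ N(N) → P₁ ≤ N(N) → N = ⊥ :=
    fun N h1 h2 h3 => core N (by rwa [inf_comm]) h3 h2
  have l1' : Loc0 P₁ (P₂ ⊓ P₁) := by rwa [inf_comm]
  have l2' : Loc0 P₂ (P₂ ⊓ P₁) := by rwa [inf_comm]
  by_cases c1 : CharPIn 2 P₁
  swap
  · exact card_le_of_not_charP core l1 l2 c1
  by_cases c2 : CharPIn 2 P₂
  swap
  · rw [inf_comm]; exact card_le_of_not_charP core' l2' l1' c2
  by_cases n1 : P₁ ≤ C(omegaOneCenter 2 (P₁ ⊓ P₂)) <;> by_cases n2 : P₂ ≤ C(omegaOneCenter 2 (P₁ ⊓ P₂))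
  · haveI := l1.fin
    haveI : Finite ↥(P₁ ⊓ P₂) := PCoreConj.finite_of_le inf_le_left
    refine absurd (core _ (omegaOneCenter_le _ _) (PCoreConj.le_normalizer_of_le_centralizer n1)
      (PCoreConj.le_normalizer_of_le_centralizer n2)) (omegaOneCenter_ne_bot l1.syl.isPGroup fun e => ?_)
    exact l1.not_T_le (e.le.trans bot_le)
  · rw [inf_comm] at n1 n2 ⊢
    exact card_le_B core' ⟨l2'.fin, l2'.syl, c2, l2'.idx2, l2'.idx3, n2⟩ l1' c1 n1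
  · exact card_le_B core ⟨l1.fin, l1.syl, c1, l1.idx2, l1.idx3, n1⟩ l2 c2 n2
  · have hp : AmalgS3.Pair P₁ P₂ (P₁ ⊓ P₂) := ⟨⟨l1.fin, l1.syl, c1, l1.idx2, l1.idx3, n1⟩,
      ⟨l2.fin, l2.syl, c2, l2.idx2, l2.idx3, n2⟩, core⟩
    haveI := l1.fin
    have h1 : Nat.card ↥(P₁ ⊓ P₂) ≤ Nat.card P₁ := card_le_of_le inf_le_left
    rcases hp.equiv with ⟨⟨e⟩, -⟩ | ⟨⟨e⟩, -⟩
    · rw [Nat.card_congr e.toEquiv, Nat.card_perm, Nat.card_fin] at h1
      exact h1.trans (by decide)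
    · rw [Nat.card_congr e.toEquiv, Nat.card_prod, Nat.card_perm, Nat.card_fin] at h1
      rw [Nat.card_congr Multiplicative.toAdd, Nat.card_zmod] at h1
      exact h1.trans (by decide)

end Final

theorem loc0_of {M T : Subgroup G} [Finite M] (hT : T ≤ M) (ha : ∃ P : Sylow 2 M, (P : Subgroup M) = T.subgroupOf M)
    (hb : Nonempty (M ⧸ pCore 2 M ≃* Equiv.Perm (Fin 3))) : Loc0 M T := by
  obtain ⟨e⟩ := hb
  have hs := (isSylowIn_iff_exists_subgroupOf hT).2 ha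
  have h1 : (pCoreOf 2 M).relIndex T * T.relIndex M = 6 := by
    rw [relIndex_mul_relIndex _ _ _ hs.pCoreOf_le hT, relIndex, pCoreOf_subgroupOf, index_eq_card,
      Nat.card_congr e.toEquiv, Nat.card_perm, Nat.card_fin]
    rfl
  have h2 := hs.not_dvd_relIndex
  haveI : Finite T := PCoreConj.finite_of_le hT
  obtain ⟨k, hk⟩ := IsPGroup.iff_card.1 hs.isPGroup
  have h3 : ¬ 3 ∣ (pCoreOf 2 M).relIndex T := fun h => by
    have := h.trans (hk ▸ relIndex_dvd_card _ _)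
    have := Nat.Prime.dvd_of_dvd_pow Nat.prime_three this
    omega
  have h4 : T.relIndex M = 3 := by
    have := Nat.le_of_dvd (by norm_num) (Dvd.intro_left _ h1)
    generalize T.relIndex M = n at *
    interval_cases n <;> omega
  exact ⟨inferInstance, hs, by rw [h4] at h1; omega, h4⟩

end Cfsg.Agent.Lib.Gold
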