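import Cfsg.Agent.Lib.HJ2Perm
import Cfsg.Agent.Lib.PCubed
import Cfsg.Agent.Lib.EMod

/-! The Sylow subgroups of odd order of a group of type `J₂`. -/

set_option autoImplicit false

namespace Cfsg.Agent.Lib.HJ2Syl

open Subgroup Cfsg.Agent.Lib.HJModel Cfsg.Agent.Lib.HJFuse Cfsg.Agent.Lib.HJOrder
  Cfsg.Agent.Lib.HJ2Perm Cfsg.Agent.Lib.PCubed Cfsg.Agent.Lib.TransferAlperin

variable {G : Type*} [Group G]

theorem not_dvd_card [Finite G] (K : Subgroup G) {q : ℕ} (hq : q.Prime)
    (h : ∀ t ∈ K, t ^ q = 1 → t = 1) : ¬ q ∣ Nat.card K := fun hd => by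
  have := Fact.mk hq
  obtain ⟨t, ht⟩ := exists_prime_orderOf_dvd_card' q hd
  rw [show t = 1 from Subtype.ext (h t t.2 (by rw [← ht]; exact congrArg Subtype.val (pow_orderOf_eq_one t))),
    orderOf_one] at ht
  exact hq.one_lt.ne ht

/-- The homomorphism given by two commuting elements of order `p`. -/
def th (p : ℕ) [Fact p.Prime] {a b : G} (ha : a ^ p = 1) (hb : b ^ p = 1) (hc : Commute a b) :
    Multiplicative (ZMod p × ZMod p) →* G :=
  MonoidHom.mk' (fun v => pw a v.toAdd.1 * pw b v.toAdd.2) fun v w => by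
    rw [toAdd_mul, Prod.fst_add, Prod.snd_add, pw_add ha, pw_add hb,
      (commute_pw hc _ _).symm.mul_mul_mul_comm]

theorem card_range {A : Type*} [Group A] {θ : A →* G} (h : ∀ v, θ v = 1 → v = 1) :
    Nat.card θ.range = Nat.card A :=
  (Nat.card_congr (MonoidHom.ofInjective ((injective_iff_map_eq_one θ).mpr h)).toEquiv).symm

theorem map_pw {B : Type*} [Group B] (f : G →* B) {p : ℕ} [Fact p.Prime] (a : G) (i : ZMod p) :
    f (pw a i) = pw (f a) i := map_pow f a _

theorem sq_dvd [Finite G] {B : Type*} [Group B] (f : G →* B) (p : ℕ) [Fact p.Prime] {a b : G}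
    (ha : a ^ p = 1) (hb : b ^ p = 1) (hc : Commute a b)
    (h : ∀ v : ZMod p × ZMod p, pw (f a) v.1 * pw (f b) v.2 = 1 → v = 0) {K : Subgroup G}
    (h1 : a ∈ K) (h2 : b ∈ K) : p * p ∣ Nat.card K := by
  have h3 : Nat.card (th p ha hb hc).range = p * p := by
    rw [card_range fun v hv => h v.toAdd (by
      rw [← map_pw, ← map_pw, ← map_mul, ← f.map_one]; exact congrArg f hv)]
    simp
  rw [← h3]
  refine card_dvd_of_le ?_
  rintro _ ⟨v, rfl⟩
  exact mul_mem (pw_mem h1 _) (pw_mem h2 _)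

theorem relIndex_dvd {V : Subgroup G} [Finite V] (h : Cfsg.IsElementaryAbelian 5 V)
    (hc : Nat.card V = 25) :
    (centralizer (V : Set G)).relIndex (normalizer (V : Set G)) ∣ 480 := by
  have := Fact.mk Nat.prime_five
  have hr : Module.finrank (ZMod 5) (EMod.EM h) = 2 := by
    have := Module.natCard_eq_pow_finrank (K := ZMod 5) (V := EMod.EM h)
    rw [EMod.card_em, hc, Nat.card_zmod] at this
    exact Nat.pow_right_injective (a := 5) (by norm_num) (this.symm.trans (by norm_num))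
  let b := Module.finBasisOfFinrankEq (ZMod 5) (EMod.EM h) hr
  let ρ : normalizer (V : Set G) →* GL (Fin 2) (ZMod 5) :=
    ((LinearMap.toMatrixAlgEquiv b : _ →* _).comp
      (EMod.rep h (Subgroup.subtype _) fun x => x.2)).toHomUnits
  have h1 : ρ.ker = (centralizer (V : Set G)).subgroupOf (normalizer (V : Set G)) := by
    ext x
    rw [mem_subgroupOf, MonoidHom.mem_ker, Units.ext_iff]
    exact (map_eq_one_iff _ (LinearMap.toMatrixAlgEquiv b).injective).trans
      (EMod.rep_eq_one_iff _ _ x)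
  have h2 := card_subgroup_dvd_card ρ.range
  rwa [← index_ker, h1, Matrix.card_GL_field, Fin.prod_univ_two, ZMod.card] at h2

theorem relIndex_cent_le [Finite G] (N : Subgroup G) (y : G) (S : Set G)
    (h : ∀ n ∈ N, n * y * n⁻¹ ∈ S) : (centralizer ({y} : Set G)).relIndex N ≤ Nat.card S := by
  refine Nat.card_le_card_of_injective
    (fun q : N ⧸ (centralizer ({y} : Set G)).subgroupOf N => (⟨_, h q.out q.out.2⟩ : S))
    fun a b hab => ?_
  have h1 : a.out.1 * y * a.out.1⁻¹ = b.out.1 * y * b.out.1⁻¹ := congrArg Subtype.val hab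
  rw [← a.out_eq', ← b.out_eq', QuotientGroup.eq, mem_subgroupOf, mem_centralizer_singleton_iff]
  change a.out.1⁻¹ * b.out.1 * y = y * (a.out.1⁻¹ * b.out.1)
  calc a.out.1⁻¹ * b.out.1 * y = a.out.1⁻¹ * (b.out.1 * y * b.out.1⁻¹) * b.out.1 := by group
    _ = _ := by rw [← h1]; group

theorem sylow_index [Finite G] {p : ℕ} [hp : Fact p.Prime] (P : Sylow p G) :
    (normalizer ((P : Subgroup G) : Set G)).index % p = 1 := by
  have h1 := card_sylow_modEq_one p G
  rw [P.card_eq_index_normalizer] at h1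
  exact Eq.trans h1 (Nat.mod_eq_of_lt hp.out.one_lt)

theorem card_eq_relIndex_mul {H K : Subgroup G} (h : H ≤ K) :
    Nat.card K = H.relIndex K * Nat.card H := by
  rw [relIndex, mul_comm, ← Nat.card_congr (subgroupOfEquivOfLe h).toEquiv, card_mul_index]

/-- The number of fixed points. -/
noncomputable def fixN (π : Equiv.Perm Pt) : ℕ := Nat.card {i // π i = i}

theorem fixN_eq (π : Equiv.Perm Pt) :
    fixN π = cntN (fun v => decide (π (Num.of 99 v) = Num.of 99 v)) 100 := card_subtype _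

theorem fixN_conj {π ρ : Equiv.Perm Pt} (h : IsConj π ρ) : fixN π = fixN ρ := by
  obtain ⟨g, rfl⟩ := isConj_iff.mp h
  exact Nat.card_congr (g.subtypeEquiv fun i => by simp)

/-- The data used about the group. -/
structure PM (f : G →* Equiv.Perm Pt) : Prop where
  inj : Function.Injective f
  card : Nat.card G = 604800
  cent : ∀ t : G, t * t = 1 → t ≠ 1 → Nat.card (centralizer ({t} : Set G)) ∣ 1920
  trans : ∀ i, ∃ g, f g pt0 = i
  mem : ∀ π ∈ [g7, r7, g1, r5, q6, y1, e8, q11], π ∈ f.range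

theorem exists_pm [Finite G] {z c : G} {φ : Hm false →* G} (J : JS z φ c)
    (hu : ¬ IsConj z (φ (mu false))) : ∃ f : G →* Equiv.Perm Pt, PM f := by
  obtain ⟨f, h1, h2⟩ := exists_perm J hu
  exact ⟨f, h1, card_eq_of J hu, fun _ => card_cent_dvd J hu, (mem_range h2).1, (mem_range h2).2⟩

instance fact3 : Fact (Nat.Prime 3) := ⟨Nat.prime_three⟩

instance fact5 : Fact (Nat.Prime 5) := ⟨Nat.prime_five⟩

/-- The elements of a group of order `27`. -/
def el {B : Type*} [Group B] (a b c : B) (v : ZMod 3 × ZMod 3 × ZMod 3) : B :=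
  pw a v.1 * pw b v.2.1 * pw c v.2.2

/-- The hexagonal norm. -/
def nq (v : ZMod 5 × ZMod 5) : ZMod 5 := v.1 ^ 2 + v.1 * v.2 + v.2 ^ 2

/-- The elements that act on the image of `θ` and preserve the norm. -/
def presN [Finite G] (θ : Multiplicative (ZMod 5 × ZMod 5) →* G) : Subgroup G where
  carrier := {n | ∀ v, ∃ w, n * θ v * n⁻¹ = θ w ∧ nq w.toAdd = nq v.toAdd}
  mul_mem' := fun {a b} ha hb v => by
    obtain ⟨w, h1, h2⟩ := hb v
    obtain ⟨u, h3, h4⟩ := ha w
    exact ⟨u, by rw [← h3, ← h1]; group, h4.trans h2⟩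
  one_mem' := fun v => ⟨v, by simp, rfl⟩
  inv_mem' := fun {a} ha => by
    have h : ∀ (k : ℕ) v, ∃ w, a ^ k * θ v * (a ^ k)⁻¹ = θ w ∧ nq w.toAdd = nq v.toAdd := by
      intro k
      induction k with
      | zero => exact fun v => ⟨v, by simp, rfl⟩
      | succ k ih =>
        intro v
        obtain ⟨w, h1, h2⟩ := ih v
        obtain ⟨u, h3, h4⟩ := ha w
        exact ⟨u, by rw [← h3, ← h1, pow_succ']; group, h4.trans h2⟩
    rw [inv_eq_of_mul_eq_one_right (show a * a ^ (orderOf a - 1) = 1 by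
      rw [← pow_succ', Nat.sub_add_cancel (orderOf_pos a), pow_orderOf_eq_one])]
    exact h _

namespace PM

variable [Finite G] {f : G →* Equiv.Perm Pt} (M : PM f)
include M

omit [Finite G] in
theorem five {g : G} (hg : g ^ 5 = 1) {i : Pt} (hi : f g i = i) : g = 1 := by
  let _ : MulAction G Pt := MulAction.compHom Pt f
  have : MulAction.IsPretransitive G Pt := ⟨fun i j => by
    obtain ⟨a, rfl⟩ := M.trans i
    obtain ⟨b, rfl⟩ := M.trans j
    exact ⟨b * a⁻¹, by rw [MulAction.compHom_smul_def]; simp⟩⟩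
  have h1 := (MulAction.stabilizer G i).card_mul_index
  rw [MulAction.index_stabilizer_of_transitive, card_Num, M.card] at h1
  have h2 := (MulAction.stabilizer G i).orderOf_dvd_natCard (x := g) hi
  rcases (Nat.dvd_prime Nat.prime_five).mp (orderOf_dvd_of_pow_eq_one hg) with h | h
  · exact orderOf_eq_one_iff.mp h
  · rw [h] at h2
    omega

omit [Finite G] in
theorem five_comm {g h : G} (hc : Commute g h) (hg : g ^ 5 = 1) (hh : ¬ 5 ∣ fixN (f h)) : g = 1 := by
  classical
  have := Fact.mk Nat.prime_five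
  have := Fintype.ofFinite {i // f h i = i}
  have h1 : ∀ i, f h (f g i) = f g (f h i) := fun i => by
    rw [← Equiv.Perm.mul_apply, ← map_mul, ← hc.eq, map_mul, Equiv.Perm.mul_apply]
  obtain ⟨i, hi⟩ := Equiv.Perm.exists_fixed_point_of_prime (p := 5) (n := 1)
    (by rwa [← Nat.card_eq_fintype_card])
    (σ := (f g).subtypePerm (p := fun i => f h i = i) fun i => by rw [h1, (f g).apply_eq_iff_eq])
    (by ext i; simp [← map_pow, hg])
  exact M.five hg (congrArg Subtype.val hi)

theorem not_two {L : Subgroup G} (h : ¬ Nat.card L ∣ 1920) :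
    ¬ 2 ∣ Nat.card (centralizer (L : Set G)) :=
  not_dvd_card _ Nat.prime_two fun t ht h2 => by_contra fun h1 => h ((card_dvd_of_le fun x hx =>
    mem_centralizer_singleton_iff.mpr (ht x hx)).trans (M.cent t (by rwa [← sq]) h1))

omit [Finite G] in
theorem order {g : G} {π : Equiv.Perm Pt} (h : f g = π) (p : ℕ) [Fact p.Prime] (h1 : π ^ p = 1)
    (h2 : π ≠ 1) : orderOf g = p := by
  rw [← orderOf_injective f M.inj, h]
  exact orderOf_eq_prime h1 h2

theorem seven₀ : ∃ D : Sylow 7 G, centralizer ((D : Subgroup G) : Set G) = D ∧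
    Nat.card (normalizer ((D : Subgroup G) : Set G)) = 42 ∧
      ¬ IsMulCommutative (normalizer ((D : Subgroup G) : Set G)) := by
  have := Fact.mk (by norm_num : Nat.Prime 7)
  obtain ⟨g, hg⟩ := M.mem g7 (by simp)
  obtain ⟨r, hr⟩ := M.mem r7 (by simp)
  have h1 : Nat.card (zpowers g) = 7 := by
    rw [Nat.card_zpowers, M.order hg 7 (by decide +kernel) (by decide +kernel)]
  have h2 := (zpowers g).card_mul_index
  rw [h1, M.card] at h2
  let D := (IsPGroup.of_card (p := 7) (n := 1) h1).toSylow (by omega)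
  have h3 : (normalizer (zpowers g : Set G)).index % 7 = 1 := sylow_index D
  have hrN : r ∈ normalizer (zpowers g : Set G) := mem_normalizer_of_conjSub_le
    (conjSub_le_iff.mpr fun x hx => by
      obtain ⟨k, rfl⟩ := mem_zpowers_iff.mp hx
      rw [← conj_zpow, show r * g * r⁻¹ = g ^ 3 from M.inj (by
        rw [map_mul, map_mul, map_inv, map_pow, hg, hr]; decide +kernel)]
      exact zpow_mem (npow_mem_zpowers g 3) k)
  have h4 : ∀ i : Fin 6, r ^ i.1 ∈ centralizer (zpowers g : Set G) → i = 0 := fun i hi =>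
    (show ∀ i : Fin 6, g7 * r7 ^ i.1 = r7 ^ i.1 * g7 → i = 0 by decide +kernel) i (by
      rw [← hg, ← hr, ← map_pow, ← map_mul, ← map_mul, hi g (mem_zpowers g)])
  have h5 : (centralizer (zpowers g : Set G)).relIndex (normalizer (zpowers g : Set G)) = 6 := by
    have h6 := card_subgroup_dvd_card (zpowers g).normalizerMonoidHom.range
    have h7 := (zpowers g).normalizerMonoidHom.ker.pow_index_mem ⟨r, hrN⟩
    rw [IsCyclic.card_mulAut, h1, ← index_ker, show Nat.totient 7 = 6 by decide] at h6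
    rw [normalizerMonoidHom_ker] at h6 h7
    refine le_antisymm (Nat.le_of_dvd (by decide) h6) (not_lt.mp fun h8 => ?_)
    have h9 : _ = 0 := congrArg Fin.val (h4 ⟨_, h8⟩ h7)
    exact index_ne_zero_of_finite h9
  have h6 := card_eq_relIndex_mul (centralizer_le_normalizer (zpowers g : Set G))
  have h7 := card_eq_relIndex_mul (le_centralizer (zpowers g))
  have h8 := M.not_two (L := zpowers g) (by rw [h1]; decide)
  have h9 := not_dvd_card (centralizer (zpowers g : Set G)) Nat.prime_five fun t ht h =>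
    M.five_comm (ht g (mem_zpowers g)).symm h (by rw [hg, fixN_eq]; decide +kernel)
  have h10 := (normalizer (zpowers g : Set G)).card_mul_index
  rw [h6, h7, h5, h1, M.card] at h10
  rw [h7, h1] at h8 h9
  have h11 : (zpowers g).relIndex (centralizer (zpowers g : Set G)) = 1 := by
    generalize (zpowers g).relIndex (centralizer (zpowers g : Set G)) = k at h8 h9 h10
    have h12 : k ∣ 9 := (Nat.Coprime.mul_right (Nat.Coprime.pow_right 6
      ((Nat.prime_two.coprime_iff_not_dvd.mpr fun h => h8 (h.mul_right _)).symm))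
      (Nat.Coprime.pow_right 2 ((Nat.prime_five.coprime_iff_not_dvd.mpr fun h =>
        h9 (h.mul_right _)).symm))).dvd_of_dvd_mul_left
      ⟨(normalizer (zpowers g : Set G)).index, by linarith⟩
    have := Nat.le_of_dvd (by decide) h12
    interval_cases k <;> omega
  refine ⟨D, le_antisymm (relIndex_eq_one.mp h11) (le_centralizer (zpowers g)),
    h6.trans (by rw [h7, h5, h11, h1]), fun h => ?_⟩
  refine absurd (h4 1 fun x hx => ?_) (by decide)
  exact congrArg Subtype.val (h.is_comm.comm ⟨x, le_normalizer hx⟩ ⟨_, pow_mem hrN _⟩)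

theorem seven (D : Sylow 7 G) : centralizer ((D : Subgroup G) : Set G) = D ∧
    Nat.card (normalizer ((D : Subgroup G) : Set G)) = 42 ∧
      ¬ IsMulCommutative (normalizer ((D : Subgroup G) : Set G)) := by
  have := Fact.mk (by norm_num : Nat.Prime 7)
  obtain ⟨D₀, h1, h2, h3⟩ := M.seven₀
  obtain ⟨g, rfl⟩ := MulAction.exists_smul_eq G D₀ D
  rw [coe_smul_sylow, centralizer_conjSub, normalizer_conjSub, card_conjSub, h1]
  refine ⟨rfl, h2, fun h => h3 ⟨⟨fun a b => Subtype.ext ?_⟩⟩⟩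
  have := congrArg Subtype.val (h.is_comm.comm ⟨_, conj_mem_conjSub a.2⟩ ⟨_, conj_mem_conjSub b.2⟩)
  simpa using this

theorem seven_comm {g h : G} (hc : Commute g h) (hg : g ^ 7 = 1) {n : ℕ} (hh : h ^ n = 1)
    (hn : Nat.Coprime n 7) (h1 : h ≠ 1) : g = 1 := by
  have := Fact.mk (by norm_num : Nat.Prime 7)
  by_contra h2
  have h3 : Nat.card (zpowers g) = 7 := by rw [Nat.card_zpowers, orderOf_eq_prime hg h2]
  have h4 := (zpowers g).card_mul_index
  rw [h3, M.card] at h4
  have h5 : h ∈ zpowers g := (M.seven ((IsPGroup.of_card (p := 7) (n := 1) h3).toSylow (by omega))).1.le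
    fun x hx => by
      obtain ⟨k, rfl⟩ := mem_zpowers_iff.mp hx
      exact (hc.zpow_left k).eq
  exact h1 (orderOf_eq_one_iff.mp (Nat.eq_one_of_dvd_coprimes hn (orderOf_dvd_of_pow_eq_one hh)
    (h3 ▸ (zpowers g).orderOf_dvd_natCard h5)))

theorem three₀ : ∃ P : Sylow 3 G, ¬ IsMulCommutative P ∧ Nat.card P = 27 ∧
    Nat.card (normalizer ((P : Subgroup G) : Set G)) = 216 ∧ ∃ a b : G, f a = q11 ∧ f b = y1 ∧
      ∀ c : G, orderOf c = 3 → IsConj c a ∨ IsConj c b := by
  obtain ⟨x, hx⟩ := M.mem q11 (by simp)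
  obtain ⟨y, hy⟩ := M.mem y1 (by simp)
  obtain ⟨e, he⟩ := M.mem e8 (by simp)
  obtain ⟨w, hw⟩ : y2 ∈ f.range := ⟨e * y * e⁻¹, by
    rw [map_mul, map_mul, map_inv, he, hy]; decide +kernel⟩
  have hel : ∀ v, f (el y w x v) = el y1 y2 q11 v := fun v => by
    simp only [el, map_mul, map_pw, hx, hy, hw]
  let K := closure ({y, w, x} : Set G)
  have hy' : y ∈ K := subset_closure (by simp)
  have hw' : w ∈ K := subset_closure (by simp)
  have hx' : x ∈ K := subset_closure (by simp)
  have h1 : ∀ g ∈ K, ∃ v, el y w x v = g := by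
    have key : ∀ π ∈ [y1, y2, q11], ∀ v, (∃ u, el y1 y2 q11 u = π * el y1 y2 q11 v) ∧
      ∃ u, el y1 y2 q11 u = π⁻¹ * el y1 y2 q11 v := by decide +kernel
    have key2 : ∀ a ∈ ({y, w, x} : Set G), f a ∈ [y1, y2, q11] := by
      rintro a (rfl | rfl | rfl) <;> simp [hx, hy, hw]
    intro g hg
    induction hg using closure_induction_left with
    | one => exact ⟨0, by simp [el, pw_zero]⟩
    | mul_left a ha _ _ ih =>
      obtain ⟨v, rfl⟩ := ih
      obtain ⟨u, hu⟩ := (key _ (key2 a ha) v).1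
      exact ⟨u, M.inj (by rw [map_mul, hel, hel, hu])⟩
    | inv_mul_cancel a ha _ _ ih =>
      obtain ⟨v, rfl⟩ := ih
      obtain ⟨u, hu⟩ := (key _ (key2 a ha) v).2
      exact ⟨u, M.inj (by rw [map_mul, map_inv, hel, hel, hu])⟩
  have h2 : Nat.card K = 27 := by
    have key : ∀ u v, el y1 y2 q11 u = el y1 y2 q11 v → u = v := by decide +kernel
    rw [← Nat.card_congr (Equiv.ofBijective (fun v => (⟨el y w x v, mul_mem (mul_mem (pw_mem hy' _)
      (pw_mem hw' _)) (pw_mem hx' _)⟩ : K)) ⟨fun u v h => key u v (by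
        rw [← hel, ← hel]; exact congrArg f (congrArg Subtype.val h)), fun g =>
          (h1 g.1 g.2).imp fun _ => Subtype.ext⟩)]
    simp
  have h3 := K.card_mul_index
  rw [h2, M.card] at h3
  let P := (IsPGroup.of_card (p := 3) (n := 3) h2).toSylow (by omega)
  have h4 : ∀ g ∈ K, g = 1 ∨ g = x ∨ g = x⁻¹ ∨ IsConj y g := by
    have key : ∀ v, (fun π => π = 1 ∨ π = q11 ∨ π = q11⁻¹ ∨ ∃ (i : Fin 8) (j : Fin 3),
      π = e8 ^ i.1 * y2 ^ j.1 * y1 * (e8 ^ i.1 * y2 ^ j.1)⁻¹) (el y1 y2 q11 v) := by decide +kernel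
    intro g hg
    obtain ⟨v, rfl⟩ := h1 g hg
    rcases key v with h | h | h | ⟨i, j, h⟩
    · exact Or.inl (M.inj (by rw [hel, h, map_one]))
    · exact Or.inr (Or.inl (M.inj (by rw [hel, h, hx])))
    · exact Or.inr (Or.inr (Or.inl (M.inj (by rw [hel, h, map_inv, hx]))))
    · exact Or.inr (Or.inr (Or.inr (isConj_iff.mpr ⟨e ^ i.1 * w ^ j.1, M.inj (by
        simp only [hel, h, map_mul, map_inv, map_pow, he, hw, hy])⟩)))
  have hex : e * x * e⁻¹ = x⁻¹ := M.inj (by
    simp only [map_mul, map_inv, he, hx]; decide +kernel)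
  have heN : e ∈ normalizer (K : Set G) := mem_normalizer_of_conjSub_le (map_le_iff_le_comap.mpr
    ((closure_le _).mpr (by
      rintro a (rfl | rfl | rfl) <;> change e * a * e⁻¹ ∈ K
      · exact (M.inj (by simp only [map_mul, map_inv, he, hw, hy]; decide +kernel) :
          w = e * a * e⁻¹) ▸ hw'
      · exact (M.inj (by simp only [map_mul, map_inv, he, hw, hy]; decide +kernel) :
          y * a = e * a * e⁻¹) ▸ mul_mem hy' hw'
      · exact hex ▸ inv_mem hx')))
  have hyw : y * w ≠ w * y := fun h => absurd (congrArg f h) (by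
    rw [map_mul, map_mul, hy, hw]; decide +kernel)
  have hox := M.order hx 3 (by decide +kernel) (by decide +kernel)
  have hoy := M.order hy 3 (by decide +kernel) (by decide +kernel)
  refine ⟨P, fun h => hyw (congrArg Subtype.val (h.is_comm.comm ⟨y, hy'⟩ ⟨w, hw'⟩)), h2, ?_, x, y,
    hx, hy, fun c hc => ?_⟩
  · change Nat.card (normalizer (K : Set G)) = 216
    have h5 : (normalizer (K : Set G)).index % 3 = 1 := sylow_index P
    have h6 := relIndex_cent_le (normalizer (K : Set G)) y K fun n hn =>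
      (mem_normalizer_iff.mp hn y).mp hy'
    have h7 := relIndex_cent_le (normalizer (K : Set G)) x {x, x⁻¹} fun n hn => by
      rcases h4 _ ((mem_normalizer_iff.mp hn x).mp hx') with h | h | h | h
      · rw [conj_eq_one_iff.mp h, orderOf_one] at hox
        exact absurd hox (by decide)
      · exact Or.inl h
      · exact Or.inr h
      · have h8 := fixN_conj (f.map_isConj (h.trans (isConj_iff.mpr ⟨n, rfl⟩).symm))
        rw [hx, hy, fixN_eq, fixN_eq] at h8
        exact absurd h8 (by decide +kernel)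
    have h8 : Nat.card ({x, x⁻¹} : Set G) ≤ 2 := Set.ncard_insert_le x {x⁻¹} |>.trans (by simp)
    have h9 := relIndex_inf_le.trans (Nat.mul_le_mul h6 (h7.trans h8))
    rw [← inf_relIndex_right] at h9
    have h10 := card_eq_relIndex_mul (inf_le_right : centralizer ({y} : Set G) ⊓
      centralizer ({x} : Set G) ⊓ normalizer (K : Set G) ≤ _)
    set L := centralizer ({y} : Set G) ⊓ centralizer ({x} : Set G) ⊓ normalizer (K : Set G)
    have hL : ∀ t ∈ L, Commute t y ∧ Commute t x := fun t ht =>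
      ⟨mem_centralizer_singleton_iff.mp ht.1.1, mem_centralizer_singleton_iff.mp ht.1.2⟩
    have h11 := not_dvd_card L Nat.prime_two fun t ht h => by_contra fun h1 => absurd
      ((sq_dvd f 3 (hoy ▸ pow_orderOf_eq_one y) (hox ▸ pow_orderOf_eq_one x)
        (M.inj (by rw [map_mul, map_mul, hx, hy]; decide +kernel))
        (by rw [hx, hy]; decide +kernel) (mem_centralizer_singleton_iff.mpr (hL t ht).1.symm)
        (mem_centralizer_singleton_iff.mpr (hL t ht).2.symm)).trans (M.cent t (by rwa [← sq]) h1))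
      (by decide)
    have h12 := not_dvd_card L Nat.prime_five fun t ht h =>
      M.five_comm (hL t ht).1 h (by rw [hy, fixN_eq]; decide +kernel)
    have h13 := not_dvd_card L (by norm_num : Nat.Prime 7) fun t ht h =>
      M.seven_comm (hL t ht).1 h (hoy ▸ pow_orderOf_eq_one y) (by decide) (by
        rintro rfl; simp at hoy)
    have h14 : Nat.card L ∣ 3 ^ 3 := (Nat.Coprime.mul_right (Nat.Coprime.mul_right
      (Nat.Coprime.pow_right 7 (Nat.prime_two.coprime_iff_not_dvd.mpr h11).symm)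
      (Nat.Coprime.pow_right 2 (Nat.prime_five.coprime_iff_not_dvd.mpr h12).symm))
      ((by norm_num : Nat.Prime 7).coprime_iff_not_dvd.mpr h13).symm).dvd_of_dvd_mul_left
      (by simpa [M.card] using card_subgroup_dvd_card L)
    have h15 : L ≤ K := by
      have := (IsPGroup.of_card_dvd_pow h14).inf_normalizer_sylow P
      exact (inf_eq_left.mpr inf_le_right).symm.le.trans (this.le.trans inf_le_right)
    have h16 := card_lt_of_lt (lt_of_le_of_ne h15 fun h => hyw (hL w (h ▸ hw')).1.symm)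
    have h17 : Nat.card L ≤ 9 := by
      obtain ⟨k, hk, h⟩ := (Nat.dvd_prime_pow Nat.prime_three).mp h14
      rw [h] at h16 ⊢
      interval_cases k <;> omega
    have h18 : 216 ∣ Nat.card (normalizer (K : Set G)) := by
      refine Nat.Coprime.mul_dvd_of_dvd_of_dvd (m := 27) (n := 8) (by decide)
        (h2 ▸ card_dvd_of_le le_normalizer) ?_
      have h19 : orderOf e = 8 := by
        rw [← orderOf_injective f M.inj, he]
        exact orderOf_eq_prime_pow (p := 2) (n := 2) (by decide +kernel) (by decide +kernel)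
      exact h19 ▸ (normalizer (K : Set G)).orderOf_dvd_natCard heN
    have h19 := (normalizer (K : Set G)).card_mul_index
    have h20 := Nat.mul_le_mul h9 h17
    rw [← h10] at h20
    change _ ≤ Nat.card K * 2 * 9 at h20
    obtain ⟨j, hj⟩ := h18
    rw [hj, M.card] at h19
    rw [hj, h2] at h20
    have h21 : j ≤ 2 := by omega
    interval_cases j <;> omega
  · obtain ⟨g, hg⟩ := exists_conj_le_sylow P (IsPGroup.of_card (p := 3) (n := 1)
      (G := zpowers c) (by rw [Nat.card_zpowers, hc]; rfl))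
    have h5 : IsConj c (g * c * g⁻¹) := isConj_iff.mpr ⟨g, rfl⟩
    rcases h4 _ (hg (conj_mem_conjSub (mem_zpowers c))) with h | h | h | h
    · rw [conj_eq_one_iff.mp h, orderOf_one] at hc
      exact absurd hc (by decide)
    · exact Or.inl (h ▸ h5)
    · exact Or.inl ((h ▸ h5).trans (isConj_iff.mpr ⟨e, hex⟩).symm)
    · exact Or.inr (h5.trans h.symm)

theorem three (P : Sylow 3 G) : Cfsg.IsExtraspecial 3 (P : Subgroup G) ∧ Nat.card P = 27 ∧
    Nat.card (normalizer ((P : Subgroup G) : Set G)) = 216 ∧ ∃ a b : G, orderOf a = 3 ∧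
      orderOf b = 3 ∧ ¬ IsConj a b ∧ ∀ c : G, orderOf c = 3 → IsConj c a ∨ IsConj c b := by
  obtain ⟨P₀, h1, h2, h3, a, b, ha, hb, h4⟩ := M.three₀
  obtain ⟨g, rfl⟩ := MulAction.exists_smul_eq G P₀ P
  have h5 : Nat.card (g • P₀ : Sylow 3 G) = 27 := (card_conjSub g _).trans h2
  refine ⟨isExtraspecial_of_card h5 fun h => h1 ⟨⟨fun a b => Subtype.ext ?_⟩⟩, h5, ?_, a, b,
    M.order ha 3 (by decide +kernel) (by decide +kernel),
    M.order hb 3 (by decide +kernel) (by decide +kernel), fun h => ?_, h4⟩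
  · have := congrArg Subtype.val (h.is_comm.comm ⟨_, conj_mem_conjSub a.2⟩ ⟨_, conj_mem_conjSub b.2⟩)
    simpa using this
  · rw [coe_smul_sylow, normalizer_conjSub, card_conjSub, h3]
  · have h6 := fixN_conj (f.map_isConj h)
    rw [ha, hb, fixN_eq, fixN_eq] at h6
    exact absurd h6 (by decide +kernel)

theorem five₀ : ∃ P : Sylow 5 G, centralizer ((P : Subgroup G) : Set G) = P ∧ Nat.card P = 25 ∧
    Nat.card (normalizer ((P : Subgroup G) : Set G)) = 300 ∧ ∃ X Y : Subgroup G, Nat.card X = 5 ∧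
      Nat.card Y = 5 ∧ (∀ g : G, conjSub g X ≠ Y) ∧
        ∀ W : Subgroup G, Nat.card W = 5 → ∃ g : G, conjSub g W = X ∨ conjSub g W = Y := by
  obtain ⟨a, ha⟩ := M.mem g1 (by simp)
  obtain ⟨r, hr⟩ := M.mem r5 (by simp)
  obtain ⟨t, ht⟩ := M.mem q6 (by simp)
  obtain ⟨b, hb⟩ : g2 ∈ f.range := ⟨r * a * r⁻¹, by
    rw [map_mul, map_mul, map_inv, hr, ha]; decide +kernel⟩
  have hoa := M.order ha 5 (by decide +kernel) (by decide +kernel)
  have hob := M.order hb 5 (by decide +kernel) (by decide +kernel)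
  let θ := th 5 (hoa ▸ pow_orderOf_eq_one a) (hob ▸ pow_orderOf_eq_one b)
    (M.inj (by rw [map_mul, map_mul, ha, hb]; decide +kernel))
  have hθ : ∀ v, f (θ v) = pw g1 v.toAdd.1 * pw g2 v.toAdd.2 := fun v => by
    rw [← ha, ← hb, ← map_pw, ← map_pw, ← map_mul]; rfl
  have hθ1 : ∀ v, θ v = 1 → v = 1 := fun v hv =>
    (show ∀ v : ZMod 5 × ZMod 5, pw g1 v.1 * pw g2 v.2 = 1 → v = 0 by decide +kernel) v.toAdd
      (by rw [← hθ, hv, map_one])
  have hθ5 : ∀ v, θ v ^ 5 = 1 := fun v => by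
    rw [← map_pow, (show ∀ v : Multiplicative (ZMod 5 × ZMod 5), v ^ 5 = 1 by decide +kernel) v,
      map_one]
  have hθc : IsMulCommutative θ.range := ⟨⟨by
    rintro ⟨_, v, rfl⟩ ⟨_, w, rfl⟩
    exact Subtype.ext (by change θ v * θ w = θ w * θ v; rw [← map_mul, mul_comm, map_mul])⟩⟩
  have ha' : θ (Multiplicative.ofAdd (1, 0)) = a := M.inj (by rw [hθ, ha]; decide +kernel)
  have h1 : Nat.card θ.range = 25 := by rw [card_range hθ1]; simp
  have h2 := θ.range.card_mul_index
  rw [h1, M.card] at h2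
  let P := (IsPGroup.of_card (p := 5) (n := 2) h1).toSylow (by omega)
  have h3 : centralizer (θ.range : Set G) = θ.range := by
    have h4 := card_eq_relIndex_mul (le_centralizer θ.range)
    have h5 := M.not_two (L := θ.range) (by rw [h1]; decide)
    have h6 := not_dvd_card (centralizer (θ.range : Set G)) (by norm_num : Nat.Prime 7)
      fun s hs h => M.seven_comm (hs a ⟨_, ha'⟩).symm h (hoa ▸ pow_orderOf_eq_one a) (by decide)
        (by rintro rfl; simp at hoa)
    have h7 := not_dvd_card (centralizer (θ.range : Set G)) Nat.prime_three fun s hs h => by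
      by_contra h8
      obtain ⟨-, -, -, -, x, y, hx, hy, h9⟩ := M.three₀
      have h10 : fixN (f s) = 10 ∨ fixN (f s) = 4 :=
        (h9 s (orderOf_eq_prime h h8)).imp
          (fun h => by rw [fixN_conj (f.map_isConj h), hx, fixN_eq]; decide +kernel)
          (fun h => by rw [fixN_conj (f.map_isConj h), hy, fixN_eq]; decide +kernel)
      obtain ⟨i, hi⟩ := (Nat.card_pos_iff.mp (show 0 < fixN (f s) by omega)).1
      have h11 := Nat.card_le_card_of_injective (fun v => (⟨f (θ v) i, by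
        rw [← Equiv.Perm.mul_apply, ← map_mul, ← hs _ ⟨v, rfl⟩, map_mul, Equiv.Perm.mul_apply,
          hi]⟩ : {i // f s i = i})) fun v w h => inv_mul_eq_one.mp (hθ1 _ (M.five (i := i) (hθ5 _) (by
            rw [map_mul, map_mul, map_inv, map_inv, Equiv.Perm.mul_apply,
              ← show f (θ v) i = f (θ w) i from congrArg Subtype.val h]; simp)))
      change _ ≤ fixN (f s) at h11
      rw [show Nat.card (Multiplicative (ZMod 5 × ZMod 5)) = 25 by simp] at h11
      omega
    have h8 := card_subgroup_dvd_card (centralizer (θ.range : Set G))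
    rw [h4, h1] at h5 h6 h7 h8
    rw [M.card] at h8
    refine le_antisymm (relIndex_eq_one.mp ?_) (le_centralizer _)
    generalize θ.range.relIndex (centralizer (θ.range : Set G)) = k at h5 h6 h7 h8
    exact Nat.eq_one_of_dvd_coprimes (Nat.Coprime.mul_right (Nat.Coprime.mul_right
      (Nat.Coprime.pow_right 7 (Nat.prime_two.coprime_iff_not_dvd.mpr fun h =>
        h5 (h.mul_right _)).symm)
      (Nat.Coprime.pow_right 3 (Nat.prime_three.coprime_iff_not_dvd.mpr fun h =>
        h7 (h.mul_right _)).symm))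
      ((by norm_num : Nat.Prime 7).coprime_iff_not_dvd.mpr fun h => h6 (h.mul_right _)).symm)
      dvd_rfl (Nat.dvd_of_mul_dvd_mul_right (by decide : 0 < 25) h8)
  have h4 : presN θ ≤ normalizer (θ.range : Set G) := fun n hn => mem_normalizer_of_conjSub_le
    (conjSub_le_iff.mpr (by
      rintro _ ⟨v, rfl⟩
      exact (hn v).imp fun w hw => hw.1.symm))
  have h5 : 300 ∣ Nat.card (presN θ) := by
    have hr' : r ∈ presN θ := fun v => ⟨Multiplicative.ofAdd (-v.toAdd.2, v.toAdd.1 + v.toAdd.2),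
      M.inj (by
        rw [map_mul, map_mul, map_inv, hθ, hθ, hr]
        exact (show ∀ v : ZMod 5 × ZMod 5, r5 * (pw g1 v.1 * pw g2 v.2) * r5⁻¹ =
          pw g1 (-v.2) * pw g2 (v.1 + v.2) by decide +kernel) v.toAdd), by simp only [nq]; simp; ring⟩
    have ht' : t ∈ presN θ := fun v => ⟨Multiplicative.ofAdd (v.toAdd.1 + v.toAdd.2, -v.toAdd.2),
      M.inj (by
        rw [map_mul, map_mul, map_inv, hθ, hθ, ht]
        exact (show ∀ v : ZMod 5 × ZMod 5, q6 * (pw g1 v.1 * pw g2 v.2) * q6⁻¹ =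
          pw g1 (v.1 + v.2) * pw g2 (-v.2) by decide +kernel) v.toAdd), by simp only [nq]; simp; ring⟩
    refine Nat.Coprime.mul_dvd_of_dvd_of_dvd (m := 25) (n := 12) (by decide)
      (h1 ▸ card_dvd_of_le ?_) (Nat.Coprime.mul_dvd_of_dvd_of_dvd (m := 3) (n := 2 * 2) (by decide)
        ?_ ?_)
    · rintro _ ⟨u, rfl⟩ v
      exact ⟨v, by rw [← map_mul, mul_comm u, map_mul, mul_inv_cancel_right], rfl⟩
    · exact M.order (g := r ^ 2) (by rw [map_pow, hr]) 3 (by decide +kernel) (by decide +kernel) ▸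
        (presN θ).orderOf_dvd_natCard (pow_mem hr' 2)
    · exact sq_dvd f 2 (a := r ^ 3) (b := t)
        (M.inj (by rw [map_pow, map_pow, hr, map_one]; decide +kernel))
        (M.inj (by rw [map_pow, ht, map_one]; decide +kernel))
        (M.inj (by simp only [map_mul, map_pow, hr, ht]; decide +kernel))
        (by rw [map_pow, hr, ht]; decide +kernel) (pow_mem hr' 3) ht'
  have h6 : Nat.card (normalizer (θ.range : Set G)) = 300 := by
    have h7 : (normalizer (θ.range : Set G)).index % 5 = 1 := sylow_index P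
    have h8 := relIndex_dvd ⟨hθc, by rintro _ ⟨v, rfl⟩; exact hθ5 v⟩ h1
    have h9 := card_eq_relIndex_mul (centralizer_le_normalizer (θ.range : Set G))
    have h10 := (normalizer (θ.range : Set G)).card_mul_index
    obtain ⟨j, hj⟩ := h5.trans (card_dvd_of_le h4)
    rw [h3] at h8 h9
    rw [h1, hj] at h9
    rw [hj, M.card] at h10
    rw [show θ.range.relIndex (normalizer (θ.range : Set G)) = 12 * j by omega] at h8
    have h11 := Nat.le_of_dvd (by decide) h8
    have h12 : j ≤ 40 := by omega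
    interval_cases j <;> omega
  have hab := M.order (g := a * b) (by rw [map_mul, ha, hb]) 5 (by decide +kernel)
    (by decide +kernel)
  have hX : Nat.card (zpowers (a * b)) = 5 := by rw [Nat.card_zpowers, hab]
  have hY : Nat.card (zpowers a) = 5 := by rw [Nat.card_zpowers, hoa]
  refine ⟨P, h3, h1, h6, zpowers (a * b), zpowers a, hX, hY, fun g hg => ?_, fun W hW => ?_⟩
  · have hab' : θ (Multiplicative.ofAdd (1, 1)) = a * b := M.inj (by
      rw [hθ, map_mul, ha, hb]; decide +kernel)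
    obtain ⟨k, hk⟩ := exists_pw (p := 5) (hoa ▸ pow_orderOf_eq_one a)
      (hg ▸ conj_mem_conjSub (mem_zpowers (a * b)))
    have h7 : θ (Multiplicative.ofAdd (k, 0)) = g⁻¹⁻¹ * (a * b) * g⁻¹ := by
      rw [inv_inv, ← hk]
      exact (congrArg (pw a k * ·) (pw_zero b)).trans (mul_one _)
    have : IsMulCommutative P := hθc
    obtain ⟨n, hn, h8⟩ := P.conj_eq_normalizer_conj_of_mem (a * b) g⁻¹ ⟨_, hab'⟩ ⟨_, h7⟩
    obtain ⟨w, h9, h10⟩ := (eq_of_le_of_card_ge h4 (h6 ▸ Nat.le_of_dvd Nat.card_pos h5)).ge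
      (inv_mem hn) (Multiplicative.ofAdd (1, 1))
    rw [hab', inv_inv, ← h8, ← h7] at h9
    rw [← (injective_iff_map_eq_one θ).mpr hθ1 h9] at h10
    exact (show ∀ k : ZMod 5, nq (k, 0) ≠ nq (1, 1) by decide) k h10
  · obtain ⟨g, hg⟩ := exists_conj_le_sylow P (IsPGroup.of_card (p := 5) (n := 1) hW)
    obtain ⟨s, hs⟩ := exists_prime_orderOf_dvd_card' (G := W) 5 hW.symm.dvd
    have h7 : zpowers s.1 = W := eq_of_le_of_card_ge (zpowers_le.mpr s.2) (by
      rw [Nat.card_zpowers, orderOf_coe, hs, hW])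
    obtain ⟨v, hv⟩ := hg (conj_mem_conjSub s.2)
    obtain ⟨i, k, hk⟩ := (show ∀ v : ZMod 5 × ZMod 5, ∃ (i : Fin 3) (k : Fin 5),
      (fun π => π = (g1 * g2) ^ k.1 ∨ π = g1 ^ k.1)
        (r5 ^ i.1 * (pw g1 v.1 * pw g2 v.2) * (r5 ^ i.1)⁻¹) by decide +kernel) v.toAdd
    have h8 : ∀ c : G, Nat.card (zpowers c) = 5 → r5 ^ i.1 * (pw g1 v.toAdd.1 * pw g2 v.toAdd.2) *
        (r5 ^ i.1)⁻¹ = f c ^ k.1 → conjSub (r ^ i.1 * g) W = zpowers c := fun c h9 h10 => by
      refine eq_of_le_of_card_ge ?_ (by rw [h9, card_conjSub, hW])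
      rw [← h7, conjSub, MonoidHom.map_zpowers, zpowers_le]
      rw [← hθ, hv, ← hr, ← map_pow, ← map_pow, ← map_inv, ← map_mul, ← map_mul] at h10
      change r ^ i.1 * g * s.1 * (r ^ i.1 * g)⁻¹ ∈ _
      rw [show r ^ i.1 * g * s.1 * (r ^ i.1 * g)⁻¹ = c ^ k.1 by rw [← M.inj h10]; group]
      exact npow_mem_zpowers c _
    exact ⟨r ^ i.1 * g, hk.imp (fun h => h8 _ hX (by rwa [map_mul, ha, hb]))
      fun h => h8 _ hY (by rwa [ha])⟩

theorem five' (P : Sylow 5 G) : centralizer ((P : Subgroup G) : Set G) = P ∧ Nat.card P = 25 ∧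
    Nat.card (normalizer ((P : Subgroup G) : Set G)) = 300 ∧ ∃ X Y : Subgroup G, Nat.card X = 5 ∧
      Nat.card Y = 5 ∧ (∀ g : G, conjSub g X ≠ Y) ∧
        ∀ W : Subgroup G, Nat.card W = 5 → ∃ g : G, conjSub g W = X ∨ conjSub g W = Y := by
  obtain ⟨P₀, h1, h2, h3, h4⟩ := M.five₀
  obtain ⟨g, rfl⟩ := MulAction.exists_smul_eq G P₀ P
  refine ⟨?_, (card_conjSub g _).trans h2, ?_, h4⟩
  · rw [coe_smul_sylow, centralizer_conjSub, h1]
  · rw [coe_smul_sylow, normalizer_conjSub, card_conjSub, h3]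

end PM

end Cfsg.Agent.Lib.HJ2Syl
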