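import Cfsg.Agent.Lib.D8Amalg

/-! Element orders and classes of elements of order `3` in `A₆`. -/

set_option autoImplicit false

namespace Cfsg.Agent.Lib.HJ3A6

open Cfsg.Agent.Lib.D8Amalg

theorem s6_pow : ∀ g : Equiv.Perm (Fin 6), g ^ 4 = 1 ∨ g ^ 5 = 1 ∨ g ^ 6 = 1 := by decide +kernel

/-- Conjugating words. -/
def wL : List (List ℕ) :=
    [[], [1], [3], [4], [2], [2,4], [1,3], [3,4], [1,2], [1,4], [3,2], [2,1], [2,3], [4,1], [4,3], [3,2,1],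
    [2,3,4], [2,1,2], [2,1,3], [2,3,2], [3,4,1], [1,2,4], [1,3,4], [1,4,3], [2,1,4], [1,4,1], [3,4,3],
    [4,3,4], [4,3,2], [4,1,2], [1,3,2], [1,2,3], [1,2,1], [2,3,4,3], [1,4,3,2], [1,2,4,3], [2,1,2,3],
    [2,3,2,1], [1,2,4,1], [2,1,3,4], [4,3,4,3], [1,2,3,4], [1,4,1,3], [3,4,3,4], [1,3,4,3], [2,1,4,3],
    [2,3,2,4], [1,2,1,3], [1,4,1,2], [1,2,1,4], [1,3,2,4], [2,1,3,2], [2,3,4,1], [1,4,3,4], [2,3,2,4,1],
    [3,4,3,4,1], [1,4,3,4,3], [1,2,1,3,4], [2,3,2,1,4], [1,2,4,1,3], [1,2,4,3,2], [1,4,1,3,2], [1,4,1,2,3],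
    [1,2,4,3,4], [4,3,4,3,2], [2,1,3,2,4], [2,1,3,4,1], [2,3,4,3,4], [1,2,4,1,3,4], [2,1,3,2,4,1],
    [1,2,4,1,3,2], [2,1,3,2,4,3]]

theorem a6_three : ∀ g : Equiv.Perm (Fin 6), g ^ 3 = 1 → g = 1 ∨ ∃ w ∈ wL,
    (ev pA pB pC pD w).1 * g = (pB * pC).1 * (ev pA pB pC pD w).1 ∨
    (ev pA pB pC pD w).1 * g = (pA * pD).1 * (ev pA pB pC pD w).1 := by decide +kernel

theorem not_conj : ¬ IsConj (pB * pC) (pA * pD) := by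
  intro h
  obtain ⟨g, hg⟩ := isConj_iff.mp h
  have h1 := congrArg (fun t : alternatingGroup (Fin 6) => t.1 0) (mul_inv_eq_iff_eq_mul.mp hg)
  simp only [Subgroup.coe_mul, Equiv.Perm.mul_apply] at h1
  rw [show pB.1 (pC.1 0) = 0 by decide] at h1
  exact (show ∀ j, j ≠ pA.1 (pD.1 j) by decide) _ h1

end Cfsg.Agent.Lib.HJ3A6
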