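import Mathlib
import Cfsg.Agent.Lib.FormOrth

/-!
The heart of the permutation module of a symmetric group.
-/

set_option autoImplicit false

namespace Cfsg.Agent.Lib.Heart

open Matrix Equiv Cfsg.Agent.Lib.FormMatrix Cfsg.Agent.Lib.FormOrth

section Ring

variable {R n V : Type*} [CommRing R] [Fintype n] [AddCommGroup V] [Module R V]

/-- `V` is identified with the sum-zero vectors modulo the constant vectors among them. -/
structure IsHeart (a : (n → R) →ₗ[R] V) (b : V →ₗ[R] (n → R)) : Prop where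
  sum_b : ∀ v, ∑ i, b v i = 0
  b_a : ∀ w, ∑ i, w i = 0 → ∃ c : R, b (a w) = w + c • fun _ => 1
  a_one : a (fun _ => 1) = 0
  a_b : ∀ v, a (b v) = v

theorem isHeart_of_matrix {ι : Type*} [Fintype ι] [DecidableEq ι] [DecidableEq n]
    (A : Matrix ι n R) (B : Matrix n ι R) (c d : n → R) (h1 : ∀ k, ∑ i, B i k = 0)
    (h2 : ∀ i j, (B * A) i j = (if i = j then 1 else 0) + c j + d i) (h3 : ∀ k, ∑ i, A k i = 0)
    (h4 : A * B = 1) : IsHeart A.mulVecLin B.mulVecLin where
  sum_b v := by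
    simp only [mulVecLin_apply, mulVec, dotProduct]
    rw [Finset.sum_comm]
    simp [← Finset.sum_mul, h1]
  b_a w hw := ⟨c ⬝ᵥ w, by
    ext i
    rw [mulVecLin_apply, mulVecLin_apply, mulVec_mulVec]
    simp [mulVec, dotProduct, h2, add_mul, Finset.sum_add_distrib, ← Finset.mul_sum, hw]⟩
  a_one := by ext k; simp [mulVec, dotProduct, h3]
  a_b v := by rw [mulVecLin_apply, mulVecLin_apply, mulVec_mulVec, h4, one_mulVec]

variable {a : (n → R) →ₗ[R] V} {b : V →ₗ[R] (n → R)}

theorem IsHeart.a_b_a (h : IsHeart a b) (σ : Perm n) {w : n → R} (hw : ∑ i, w i = 0) :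
    a (b (a w) ∘ σ) = a (w ∘ σ) := by
  obtain ⟨c, hc⟩ := h.b_a w hw
  rw [hc, show (w + c • fun _ => (1 : R)) ∘ σ = w ∘ σ + c • fun _ => (1 : R) from rfl, map_add,
    map_smul, h.a_one, smul_zero, add_zero]

/-- The action of the symmetric group on the heart, as endomorphisms. -/
def IsHeart.repEnd (h : IsHeart a b) : Perm n →* Module.End R V where
  toFun σ := a ∘ₗ LinearMap.funLeft R R σ.symm ∘ₗ b
  map_one' := LinearMap.ext h.a_b
  map_mul' σ τ := LinearMap.ext fun v =>
    (h.a_b_a σ.symm (w := b v ∘ τ.symm) ((Equiv.sum_comp τ.symm (b v)).trans (h.sum_b v))).symm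

/-- The action of the symmetric group on the heart. -/
def IsHeart.rep (h : IsHeart a b) : Perm n →* (V ≃ₗ[R] V) :=
  (LinearMap.GeneralLinearGroup.generalLinearEquiv R V).toMonoidHom.comp h.repEnd.toHomUnits

theorem IsHeart.rep_apply (h : IsHeart a b) (σ : Perm n) (v : V) :
    h.rep σ v = a (b v ∘ σ.symm) := rfl

theorem IsHeart.b_rep (h : IsHeart a b) (σ : Perm n) (v : V) :
    ∃ c : R, b (h.rep σ v) = b v ∘ σ.symm + c • fun _ => 1 :=
  h.b_a _ ((Equiv.sum_comp σ.symm (b v)).trans (h.sum_b v))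

variable [DecidableEq n]

theorem IsHeart.rep_swap (h : IsHeart a b) (i j : n) (v : V) :
    h.rep (swap i j) v = v - (b v i - b v j) • a (Pi.single i 1 - Pi.single j 1) := by
  have : b v ∘ (swap i j).symm = b v - (b v i - b v j) • (Pi.single i 1 - Pi.single j 1) := by
    ext k
    by_cases hij : i = j
    · simp [hij]
    by_cases hi : k = i
    · simp [hi, hij]
    by_cases hj : k = j
    · simp [hj, Ne.symm hij]
    simp [swap_apply_of_ne_of_ne hi hj, hi, hj]
  rw [h.rep_apply, this, map_sub, map_smul, h.a_b]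

theorem IsHeart.rep_injective [Nontrivial R] (h : IsHeart a b) (h5 : 5 ≤ Fintype.card n) :
    Function.Injective h.rep := by
  rw [injective_iff_map_eq_one]
  intro σ hσ
  ext i
  by_contra hi
  have hi : σ i ≠ i := hi
  have hex : ∀ s : Finset n, s.card ≤ 4 → ∃ k, k ∉ s := fun s hs => by
    by_contra! hc
    rw [Finset.eq_univ_of_forall hc, Finset.card_univ] at hs
    omega
  obtain ⟨j, hj⟩ := hex {i, σ i} (Finset.card_le_two.trans (by norm_num))
  obtain ⟨k, hk⟩ := hex {i, j, σ.symm i, σ.symm j} Finset.card_le_four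
  simp only [Finset.mem_insert, Finset.mem_singleton, not_or] at hj hk
  set w : n → R := Pi.single i 1 - Pi.single j 1 with hw
  have h1 : ∑ l, w l = 0 := by simp [hw]
  have h2 : h.rep σ (a w) = a w := by rw [hσ]; rfl
  rw [h.rep_apply, h.a_b_a _ h1, ← sub_eq_zero, ← map_sub] at h2
  obtain ⟨c, hc⟩ := h.b_a (w ∘ σ.symm - w) (by
    simp only [Pi.sub_apply, Finset.sum_sub_distrib, h1, sub_zero]
    exact (Equiv.sum_comp σ.symm w).trans h1)
  rw [h2, map_zero] at hc
  have h3 := congrFun hc (σ i)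
  have h4 := congrFun hc (σ k)
  have h6 : σ k ≠ i := fun e => hk.2.2.1 (by rw [← e, symm_apply_apply])
  have h7 : σ k ≠ j := fun e => hk.2.2.2 (by rw [← e, symm_apply_apply])
  simp [hw, hi, Ne.symm hj.1, Ne.symm hj.2, hk.1, hk.2.1, h6, h7] at h3 h4
  simp [← h4] at h3

end Ring

section Quad

variable {F n V : Type*} [Field F] [Fintype n] [DecidableEq n] [AddCommGroup V] [Module F V]
  {a : (n → F) →ₗ[F] V} {b : V →ₗ[F] (n → F)} {Q : QuadraticForm F V}

theorem IsHeart.exists_orth (h : IsHeart a b)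
    (hQ : ∀ i j, i ≠ j → ∀ v, (Q (a (Pi.single i 1 - Pi.single j 1)))⁻¹ *
      QuadraticMap.polar Q (a (Pi.single i 1 - Pi.single j 1)) v = b v i - b v j) :
    ∃ φ : Perm n →* orth Q, (∀ σ, (φ σ).1 = h.rep σ) ∧
      ∀ i j, i ≠ j → φ (swap i j) = refl Q (a (Pi.single i 1 - Pi.single j 1)) := by
  have h1 : ∀ i j, i ≠ j → h.rep (swap i j) = (refl Q (a (Pi.single i 1 - Pi.single j 1))).1 :=
    fun i j hij => LinearEquiv.ext fun v => by rw [h.rep_swap, FormOrth.refl_apply, hQ i j hij]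
  have h2 : ∀ σ, h.rep σ ∈ orth Q := by
    intro σ
    induction σ using Perm.swap_induction_on with
    | one => rw [map_one]; exact one_mem _
    | swap_mul f i j hij ih => rw [map_mul, h1 i j hij]; exact mul_mem (Subtype.property _) ih
  exact ⟨h.rep.codRestrict _ h2, fun _ => rfl, fun i j hij => Subtype.ext (h1 i j hij)⟩

theorem IsHeart.nonempty_equiv (h : IsHeart a b) (h5 : 5 ≤ Fintype.card n)
    (hQ : ∀ i j, i ≠ j → ∀ v, (Q (a (Pi.single i 1 - Pi.single j 1)))⁻¹ *
      QuadraticMap.polar Q (a (Pi.single i 1 - Pi.single j 1)) v = b v i - b v j)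
    (hgen : Subgroup.closure (reflSet Q) = ⊤)
    (hns : ∀ v, Q v ≠ 0 → ∃ i j, i ≠ j ∧ v = a (Pi.single i 1 - Pi.single j 1)) :
    Nonempty (orth Q ≃* Perm n) := by
  obtain ⟨φ, h1, h2⟩ := h.exists_orth hQ
  refine ⟨(MulEquiv.ofBijective φ ⟨fun σ τ e => h.rep_injective h5 ?_, ?_⟩).symm⟩
  · rw [← h1, ← h1, e]
  · rw [← MonoidHom.range_eq_top, eq_top_iff, ← hgen, Subgroup.closure_le]
    rintro _ ⟨v, hv, rfl⟩
    obtain ⟨i, j, hij, rfl⟩ := hns v hv
    exact ⟨_, h2 i j hij⟩

end Quad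

end Cfsg.Agent.Lib.Heart
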