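import Cfsg.Prelude.Def_Classical
import Cfsg.Agent.S0824
import Cfsg.Agent.Lib.FStar
import Cfsg.Agent.Lib.ZStar
import Cfsg.Agent.Lib.HJOrder

/-! From the hypotheses on the centralizer `2^{1+4}_-.A₅` to the standard situation. -/

set_option autoImplicit false

namespace Cfsg.Agent.Lib.HJHyp

open Subgroup Cfsg.Agent.Lib.HJModel Cfsg.Agent.Lib.HJCent Cfsg.Agent.Lib.HJFuse
  Cfsg.Agent.Lib.InvolCount Cfsg.Agent.Lib.HJOrder

variable {G : Type*} [Group G] [Finite G]

theorem card_omega :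
    Nat.card (Cfsg.Omega (ZMod 2) (Cfsg.quadFormMinus 1 (ZMod 2) 1 1)) = 60 := by
  obtain ⟨f⟩ := S0824.result (F := ZMod 2) rfl
  have h1 : (Cfsg.Omega (ZMod 2) (Cfsg.quadFormMinus 1 (ZMod 2) 1 1)).map f.toMonoidHom =
      alternatingGroup (Fin 5) := by
    rw [← alternatingGroup.commutator_perm_eq (by simp), Cfsg.Omega, commutator_def, map_commutator,
      map_top_of_surjective _ f.surjective]
    rfl
  rw [← card_map_of_injective (f := f.toMonoidHom) f.injective, h1, nat_card_alternatingGroup,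
    Nat.card_fin]
  rfl

theorem not_conj_of_two {z c : G} {φ : Hm false →* G} (J : JS z φ c)
    (hcl : ∃ x y : G, orderOf x = 2 ∧ orderOf y = 2 ∧ ¬ IsConj x y) :
    ¬ IsConj z (φ (mu false)) := by
  intro hu
  obtain ⟨x, y, hx, hy, hxy⟩ := hcl
  have h : ∀ x : G, orderOf x = 2 → IsConj z x := fun x hx =>
    (invol_class J (by rw [← sq, ← hx, pow_orderOf_eq_one]) (by rintro rfl; simp at hx)).elim id
      hu.trans
  exact hxy ((h x hx).symm.trans (h y hy))

theorem exists_JS {z : G} (hz : orderOf z = 2) (Q : Subgroup (centralizer ({z} : Set G))) [Q.Normal]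
    (hF : Cfsg.generalizedFittingSubgroup (centralizer ({z} : Set G)) = Q)
    (hQ : Cfsg.IsExtraspecial 2 Q) (hcard : Nat.card Q = 2 ^ 5)
    (e : centralizer ({z} : Set G) ⧸ Q ≃* Cfsg.Omega (ZMod 2) (Cfsg.quadFormMinus 1 (ZMod 2) 1 1))
    (hnwc : ∃ g : G, (∃ hq : g * z * g⁻¹ ∈ centralizer ({z} : Set G),
      (⟨g * z * g⁻¹, hq⟩ : centralizer ({z} : Set G)) ∈ Q) ∧ g * z * g⁻¹ ≠ z)
    (hcl : ∃ x y : G, orderOf x = 2 ∧ orderOf y = 2 ∧ ¬ IsConj x y) :
    ∃ (φ : Hm false →* G) (c : G), JS z φ c ∧ ¬ IsConj z (φ (mu false)) := by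
  obtain ⟨b, φ, S, hφ⟩ := exists_setup hz Q hQ hcard (hF ▸ FStar.centralizer_fstar_le)
    ((Nat.card_congr e.toEquiv).trans card_omega)
  obtain ⟨g, ⟨h1, h2⟩, h3⟩ := hnwc
  obtain ⟨h, hh⟩ := (S.cent _).mp (mem_centralizer_singleton_iff.mp h1)
  have h4 : IsConj z (φ h) := isConj_iff.mpr ⟨g, hh.symm⟩
  have h5 : IsConj z (φ (ma b)) := by
    rcases invol_Q b h ((hφ h (hh ▸ h1)).mp (by simpa only [hh] using h2))
      (sq_of_conj S (zz S) h4) with rfl | rfl | ⟨k, hk⟩
    · exact absurd rfl (ne_of_conj (z_ne S) h4)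
    · exact absurd (hh.symm.trans S.z_eq) h3
    · exact h4.trans (isConj_map hk).symm
  obtain rfl := eq_false S h5
  obtain ⟨c, J⟩ := exists_c S h5
  exact ⟨φ, c, J, not_conj_of_two J hcl⟩

theorem isConj_a_of_simple [IsSimpleGroup G] {z : G} {e : Bool} {φ : Hm e →* G} (S : Setup z φ) :
    IsConj z (φ (ma e)) := by
  by_contra ha
  have h1 : ¬ Cfsg.IsIsolated z := by
    intro h
    have h2 := ZStar.zstar G z (by rw [sq, zz S]) h
    rcases IsSimpleGroup.eq_bot_or_eq_top_of_normal (Cfsg.pPrimeCore 2 G) inferInstance with h3 | h3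
    · have h4 : (zpowers z).Normal := ⟨fun n hn g => by
        obtain ⟨k, rfl⟩ := mem_zpowers_iff.mp hn
        have h5 := h2 g
        rw [h3, mem_bot, mul_inv_eq_one] at h5
        rw [← conj_zpow, h5]; exact hn⟩
      rcases IsSimpleGroup.eq_bot_or_eq_top_of_normal _ h4 with h5 | h5
      · exact z_ne S (zpowers_eq_bot.mp h5)
      · have h6 := Nat.card_le_card_of_injective _ S.inj
        rw [card_Hm, ← card_top, ← h5, Nat.card_zpowers,
          orderOf_eq_prime (p := 2) (by rw [sq, zz S]) (z_ne S)] at h6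
        omega
    · have h4 := PCoreResidual.coprime_card_pPrimeCore 2 G
      have h5 := orderOf_dvd_natCard z
      rw [orderOf_eq_prime (p := 2) (by rw [sq, zz S]) (z_ne S)] at h5
      rw [h3, card_top] at h4
      exact absurd (Nat.eq_one_of_dvd_coprimes h4 h5 dvd_rfl) (by decide)
  simp only [Cfsg.IsIsolated, not_forall] at h1
  obtain ⟨g, h2, h3⟩ := h1
  obtain ⟨h, hh⟩ := (S.cent _).mp h2.symm
  have h4 : IsConj z (φ h) := isConj_iff.mpr ⟨g, hh.symm⟩
  have h5 := sq_of_conj S (zz S) h4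
  have hQ : ∀ h : Hm e, IsConj z (φ h) → h.v < 32 → h = zh e := fun h h4 h6 => by
    rcases invol_Q e h h6 (sq_of_conj S (zz S) h4) with rfl | rfl | ⟨k, hk⟩
    · exact absurd rfl (ne_of_conj (z_ne S) h4)
    · rfl
    · exact absurd (h4.trans (isConj_map hk).symm) ha
  have h6 : ¬ h.v < 32 := fun h6 => h3 (by rw [← hh, hQ h h4 h6, S.z_eq])
  cases e
  · obtain ⟨k, hk⟩ := isConj_iff.mp ((isConj_of_ge h6 h5).trans h4.symm)
    have h7 : ∀ m : Hm false, m * mu false = mu false * m → m * m = 1 → ¬ IsConj z (φ m) →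
        ∃ l, l.v < 32 ∧ l * l = 1 ∧ l ≠ zh false ∧ φ l = k * φ m * k⁻¹ := by
      intro m m1 m2 m3
      obtain ⟨l, hl⟩ := (S.cent (k * φ m * k⁻¹)).mp (by
        rw [← hk]; exact conj_comm (by rw [← map_mul, m1, map_mul]))
      have h8 : IsConj (φ m) (φ l) := isConj_iff.mpr ⟨k, hl.symm⟩
      have h9 := sq_of_conj S (by rw [← map_mul, m2, map_one]) h8
      refine ⟨l, by_contra fun h10 => m3 ?_, h9, ?_, hl⟩
      · exact ((isConj_iff.mpr ⟨k, hk⟩).symm.trans (isConj_of_ge h10 h9)).trans h8.symm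
      · rintro rfl
        exact m3 (S.z_eq ▸ h8.symm)
    obtain ⟨l1, a1, a2, a3, a4⟩ := h7 (ma false) (by decide +kernel) (by decide +kernel) ha
    obtain ⟨l2, b1, b2, b3, b4⟩ := h7 (zh false * ma false) (by decide +kernel) (by decide +kernel)
      fun h => ha (h.trans (isConj_map (k := mb false) (by decide +kernel)))
    have key : ∀ l1 : Hm false, l1.v < 32 → l1 * l1 = 1 → l1 ≠ zh false → ∀ l2 : Hm false,
      l2.v < 32 → l2 * l2 = 1 → l2 ≠ zh false → l1 * l2 * (l1 * l2) = 1 →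
        l1 = 1 ∨ l2 = 1 ∨ l1 = l2 ∨ l1 * l2 = zh false := by decide +kernel
    have h8 : φ (l1 * l2) = k * z * k⁻¹ := by
      rw [map_mul, a4, b4, conj_mul, ← map_mul, ← S.z_eq]
      exact congrArg (fun t => k * φ t * k⁻¹) (by decide +kernel)
    rcases key l1 a1 a2 a3 l2 b1 b2 b3 (S.inj (by rw [map_mul, h8, conj_mul, zz S]; simp)) with
      rfl | rfl | rfl | h9
    · exact absurd (S.inj (by simpa using a4.symm) : ma false = 1) (by decide +kernel)
    · exact absurd (S.inj (by simpa using b4.symm) : zh false * ma false = 1) (by decide +kernel)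
    · exact absurd (S.inj (by simpa using a4.symm.trans b4) : ma false = zh false * ma false)
        (by decide +kernel)
    · rw [h9, S.z_eq] at h8
      exact absurd (S.inj (by simpa [S.z_eq] using hk.trans h8) : mu false = zh false)
        (by decide +kernel)
  · exact h6 (invol_true h h5)

theorem exists_JS_of_simple [IsSimpleGroup G] {z : G} (hz : orderOf z = 2)
    (Q : Subgroup (centralizer ({z} : Set G))) [Q.Normal]
    (hQ : Cfsg.IsExtraspecial 2 Q) (hcard : Nat.card Q = 32)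
    (h2c : centralizer (Q : Set (centralizer ({z} : Set G))) ≤ Q)
    (e : centralizer ({z} : Set G) ⧸ Q ≃* alternatingGroup (Fin 5)) :
    ∃ (φ : Hm false →* G) (c : G), JS z φ c := by
  obtain ⟨b, φ, S, -⟩ := exists_setup hz Q hQ hcard h2c ((Nat.card_congr e.toEquiv).trans (by
    rw [nat_card_alternatingGroup, Nat.card_fin]; rfl))
  have h5 := isConj_a_of_simple S
  obtain rfl := eq_false S h5
  obtain ⟨c, J⟩ := exists_c S h5
  exact ⟨φ, c, J⟩

end Cfsg.Agent.Lib.HJHyp
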