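import Cfsg.Agent.Lib.HNBT

/-! Certificates. -/

set_option autoImplicit false
set_option maxRecDepth 100000

namespace Cfsg.Agent.Lib.HNB

open Cfsg.Agent.Lib.PermNet Cfsg.Agent.Lib.Words Cfsg.Agent.Lib.PermGroup Cfsg.Agent.Lib.DCE Cfsg.Agent.Lib.PermModel Cfsg.Agent.Lib.BT

def psB : List (List ℕ) := [[2, 0, 3, 0], [0, 4, 1, 4, 6, 4, 7, 0, 5, 1, 7], [0, 0, 0, 0, 0]]

def usB : List (List ℕ) := [[0], [10], [8], [14], [16]]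

def vsB (e : List ℕ) : List (List ℕ) := [[0], 10 :: 0 :: e, [8], [14, 16], [16]]

def L8 : List (List ℕ × List ℕ × Bool) := [([0, 22, 24, 5, 22], [6, 4, 0, 0, 4, 6], true), ([0, 18, 4, 4, 23], [6, 4, 1, 1, 4, 6], true), ([0, 4, 4, 23, 0], [4, 6, 0, 0, 6, 4], true), ([0, 4, 4, 23], [4, 6, 1, 1, 6, 4], true), ([0, 26, 23, 4, 23], [4, 6, 4, 1, 4, 0, 7, 1, 5, 0, 7], false), ([0, 18, 5, 5, 22], [4, 6, 4, 1, 4, 0, 7, 1, 5, 0, 7], false), ([0, 5, 5, 22, 0], [4, 6, 4, 1, 4, 0, 7, 1, 5, 0, 7], false), ([0, 5, 5, 22], [4, 6, 4, 1, 4, 0, 7, 1, 5, 0, 7], false)]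

noncomputable def tsb : List Tst := [⟨[], [], []⟩,
  ⟨[], [], []⟩,
  ⟨[], [], []⟩,
  ⟨[], [], []⟩,
  ⟨[], [], []⟩,
  ⟨[], [], []⟩]

noncomputable def ctb : CT := (.node 0 [] [] (nat_lit 0x0) (nd [(18, (nd [(3, (nd [(23, (nd [(8, (nd [(35, (lf [(7, [0, 22, 24, 5, 22])]))]))])),
  (26, (nd [(9, (nd [(35, (lf [(7, [0, 26, 23, 4, 23])]))]))]))]))])),
  (23, (nd [(16, (nd [(9, (nd [(10, (nd [(25, (lf [(3, [0, 18, 4, 4, 23])]))]))]))])),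
  (14, (nd [(9, (nd [(10, (nd [(25, (lf [(4, [0, 18, 5, 5, 22])]))]))]))]))])),
  (12, (nd [(3, (nd [(23, (nd [(8, (nd [(37, (lf [(1, [0, 5, 5, 22, 0])]))]))])),
  (26, (nd [(9, (nd [(37, (lf [(1, [0, 4, 4, 23, 0])]))]))]))]))])),
  (26, (nd [(16, (nd [(9, (nd [(0, (nd [(25, (lf [(3, [0, 5, 5, 22])]))]))]))])),
  (14, (nd [(9, (nd [(0, (nd [(25, (lf [(4, [0, 4, 4, 23])]))]))]))]))]))]) .nil)

theorem sb0 : solveB (nat_lit 6) (nat_lit 63) stt (nat_lit 40) 100 sB (fun _ => true) sch 0 []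
    [] [] (prEq 100 [] [] ++ psB.map (subst ([2 * 100] :: vsB []))) [] [] (memLL (L8.map Prod.fst)) (mkC [[4]]) tsb ctb = true := by
  decide +kernel

theorem sb1 : solveB (nat_lit 6) (nat_lit 63) stt (nat_lit 40) 100 sB (fun _ => true) sch 0 []
    [] [] (prEq 100 [] [] ++ psB.map (subst ([2 * 100] :: vsB [16]))) [] [] (memLL (L8.map Prod.fst)) (mkC [[4]]) tsb ctb = true := by
  decide +kernel

end Cfsg.Agent.Lib.HNB
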