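import Cfsg.Agent.Lib.HNB2
import Cfsg.Agent.Lib.HNBS1
import Cfsg.Agent.Lib.BTStep

/-! Fusion of involutions in a group with an involution whose centraliser is `2.HS.2`. -/

set_option autoImplicit false
set_option maxRecDepth 100000

namespace Cfsg.Agent.Lib.HNB

open Subgroup Cfsg.Agent.Lib.PermNet Cfsg.Agent.Lib.Words Cfsg.Agent.Lib.PermGroup Cfsg.Agent.Lib.DCE
  Cfsg.Agent.Lib.PermModel Cfsg.Agent.Lib.BT Cfsg.Agent.Lib.HNB1

def uw : List ℕ := [0, 0, 2, 2, 2, 4, 2, 2, 2, 5, 2, 2, 2]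

def r1 : List ℕ := [4, 0, 3, 0, 3, 0, 2, 0, 2, 0]

def r2 : List ℕ := [3, 3, 4, 3, 0, 2, 0, 2, 2, 2]

/-- The centraliser of the eight-group. -/
def Y64 : List (List ℕ) := Y16.flatMap fun a => zl.map (a ++ ·)

def PT : List (List ℕ) := [[0], [], [], [], [], [], [], [4], [2], [6, 8, 7, 9]]

noncomputable def finB (a b : List ℕ) : Bool :=
  band (eB true (subst [[0], [16], [14], a, b] (6 :: subst PT a.tail)) [10])
  (band (eB true (subst [[0], [16], [14], a, b] (8 :: subst PT b.tail)) [8])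
  (band (eB true (subst [[0], [16], [14, 16], a ++ [0, 16], b] (8 :: subst PT b.tail)) [8])
  (bif' (eB true (subst [[0], [16], [14, 16], a ++ [0, 16], b] (6 :: subst PT a.tail)) [10, 0]) true
    (eB true (subst [[0], [16], [14, 16], a ++ [0, 16], b] (6 :: subst PT a.tail)) [10, 0, 16]))))

theorem c_Y : allL (fun b => bif' (memLL (Tcol.map Prod.fst) b) true (bif' (eB true (b ++ b) [])
    (allL (fun a => bif' (eB true (a ++ a) []) (bif' (bnot (eB true (a ++ b) (b ++ a))) (finB a b) true)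
      true) Y64) true)) Y64 = true := by decide +kernel

theorem c_L : allL (fun e => allL (fun x => band (eB true (rep 5 (mkC [[4]] x.1)) [])
    (band (eB true (subst ([4] :: usB) x.2.1) (cond x.2.2 (mkC [[4]] x.1) []))
    (bnot (eB true (subst (mkC [[4]] x.1 :: vsB e) x.2.1) (cond x.2.2 [4] []))))) L8)
    [[], [16]] = true := by decide +kernel

variable {G : Type*} [Group G] {f : ℕ → G}

local notation "s⟦" w "⟧" => wval (SS f) w
local notation "z₀" => wval (SS f) [14]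
local notation "u₀" => wval (SS f) [16]
local notation "v₀" => wval (SS f) [0]

theorem bif_t {a b : Bool} (h : bif' a b true = true) (ha : a = true) : b = true := by
  rw [ha] at h; exact h

theorem bif_o {a b : Bool} (h : bif' a true b = true) : a = true ∨ b = true := by
  cases a
  exacts [.inr h, .inl rfl]

namespace Cx
variable (C : Cx f true)
include C

theorem eB_of {u v : List ℕ} (h : s⟦u⟧ = s⟦v⟧) : eB true u v = true := by
  cases e : eB true u v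
  · exact absurd h (C.ne u v (by rw [e]; rfl))
  · rfl

theorem neB_of {u v : List ℕ} (h : s⟦u⟧ ≠ s⟦v⟧) : bnot (eB true u v) = true := by
  cases e : eB true u v
  · rfl
  · exact absurd (C.eq u v e) h

theorem cjI (t h w : List ℕ) (e : fixW (nat_lit 11) (nat_lit 2047) (tt true) bB
    ((h ++ sh 8 t ++ invW h) ++ invW (sh 8 w)) = true := by decide +kernel) : IsConj s⟦t⟧ s⟦w⟧ :=
  isConj_iff.2 ⟨_, by rw [← wS, ← wS]; exact C.M.cj _ _ _ e⟩

theorem outer {c : G} (h : Out f c) :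
    ∃ h ∈ HH f, ∃ t ∈ [[6], [0]], c = h * s⟦t⟧ * h⁻¹ := by
  obtain ⟨k, hk, w, hw, rfl⟩ := h
  obtain ⟨h, hh, t, ht, e, he, e1⟩ := C.cjT Tout [[6], [0]] [[]] (by decide +kernel) hw
  rw [List.mem_singleton.1 he, wval_nil, mul_one] at e1
  exact ⟨_, mul_mem hk hh, t, ht, by rw [← e1]; group⟩

theorem out_z {c : G} (ho : Out f c) : IsConj c (c * z₀) := by
  obtain ⟨h, hh, t, ht, rfl⟩ := C.outer ho
  rw [C.cjz hh, ← wval_append]
  refine (isConj_iff.2 ⟨h, rfl⟩).symm.trans (IsConj.trans ?_ (isConj_iff.2 ⟨h, rfl⟩))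
  simp only [List.mem_cons, List.not_mem_nil, or_false] at ht
  rcases ht with rfl | rfl
  exacts [C.cjI _ [0] _, C.cjI _ [4] _]

theorem pair0 (nu : ¬ IsConj z₀ u₀) {c : G} (h1 : IsConj z₀ c) (h2 : IsConj z₀ (c * u₀))
    (h3 : c * u₀ = u₀ * c) : ∃ g, g * u₀ * g⁻¹ = u₀ ∧ g * c * g⁻¹ = z₀ := by
  obtain ⟨g, hg⟩ := isConj_iff.1 h1.symm
  have a1 : IsConj u₀ (g * u₀ * g⁻¹) := isConj_iff.2 ⟨g, rfl⟩
  have a2 : IsConj z₀ (g * u₀ * g⁻¹ * z₀) := h2.trans (isConj_iff.2 ⟨g, by rw [← hg, conj_mul, h3]⟩)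
  rcases C.cls0 (c := g * u₀ * g⁻¹) (C.hH.2 (by rw [← hg, conj_mul, conj_mul, h3]))
    (by rw [conj_mul, C.u2]; simp) with h | h | ⟨h, hh, e | e⟩ | h
  · exact absurd (conj_eq_one_iff.1 h) (C.ne [16] [])
  · exact absurd (h ▸ a1).symm nu
  · refine ⟨h⁻¹ * g, ?_, ?_⟩ <;> rw [mul_assoc h⁻¹, mul_inv_rev, ← mul_assoc, mul_assoc h⁻¹]
    · rw [e]; group
    · rw [hg, C.hH.1 (inv_mem hh)]; simp
  · rw [e, C.cjz hh, C.uzz] at a2
    exact absurd (a2.trans (isConj_iff.2 ⟨h, rfl⟩).symm) nu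
  · exact absurd (a2.trans (a1.trans (C.out_z h)).symm) nu

theorem memY {c : G} (hc : c ∈ RR f) (h : c * v₀ = v₀ * c) : ∃ w ∈ Y64, c = s⟦w⟧ := by
  obtain ⟨⟨M, ch⟩, -⟩ := C.small
  obtain ⟨w, hw, z, hz, rfl⟩ := M.find ch sv (by decide) hc (by simp)
    (comm_pairs _ (List.forall_mem_singleton.2 h)) (by simp) (by simp)
  rcases List.mem_append.1 (memLL_mem hw) with hw | hw
  · obtain ⟨e, he, rfl⟩ := C.memZ hz
    exact ⟨_, List.mem_flatMap.2 ⟨w, hw, List.mem_map_of_mem he⟩, (wval_append _ _ _).symm⟩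
  · rw [id, mul_assoc, ← C.cen hz (memR f _), ← mul_assoc, ← mul_assoc, mul_left_inj,
      ← wval_append, ← wval_append] at h
    exact absurd h (C.ne _ _ (allL_all (p := fun w => bnot (eB true (w ++ [0]) ([0] ++ w)))
      (by decide +kernel) w hw))

theorem swap (nu : ¬ IsConj z₀ u₀) (hv : IsConj z₀ v₀) :
    ∃ h, h * v₀ * h⁻¹ = z₀ ∧ h * z₀ * h⁻¹ = v₀ ∧ h * u₀ * h⁻¹ = u₀ := by
  obtain ⟨vz, vu⟩ := C.hR.1 (memR f [0])
  obtain ⟨g, g1, g2⟩ := C.pair0 nu hv (hv.trans (by rw [← wval_append]; exact C.cjI _ [28] _)) vu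
  have adj : ∀ g w, g * u₀ * g⁻¹ = u₀ → g * v₀ * g⁻¹ = z₀ → ∀ r ∈ RR f,
      g * z₀ * g⁻¹ = r * w * r⁻¹ → ∃ g, g * u₀ * g⁻¹ = u₀ ∧ g * v₀ * g⁻¹ = z₀ ∧ g * z₀ * g⁻¹ = w :=
    fun g w g1 g2 r hr e => by
      obtain ⟨a1, a2⟩ := C.hR.1 (inv_mem hr)
      refine ⟨r⁻¹ * g, ?_, ?_, ?_⟩ <;> rw [mul_assoc r⁻¹, mul_inv_rev, ← mul_assoc, mul_assoc r⁻¹]
      · rw [g1, a2]; simp
      · rw [g2, a1]; simp
      · rw [e]; group
  obtain ⟨r, hr, w, hw, e⟩ := C.invR (c := g * z₀ * g⁻¹) (C.hR.2 ⟨by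
    rw [← g2, conj_mul, conj_mul, g2, vz], by rw [← g1, conj_mul, conj_mul, C.uz]⟩)
    (by rw [conj_mul, C.z2]; simp)
  obtain ⟨g, g1, g2, g3⟩ := adj g _ g1 g2 r hr e
  have a1 : IsConj z₀ s⟦w⟧ := isConj_iff.2 ⟨g, g3⟩
  simp only [I28, List.mem_cons, List.mem_append] at hw
  rcases hw with rfl | rfl | hw | hw
  · exact absurd (conj_eq_one_iff.1 g3) (C.ne [14] [])
  · exact absurd (by simpa using g3.trans g2.symm) (C.ne [14] [0])
  · obtain ⟨h, hh, e | e⟩ := C.inner hw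
    · exact absurd (a1.trans (isConj_iff.2 ⟨h, e.symm⟩).symm) nu
    · have a2 : IsConj z₀ (s⟦w⟧ * z₀) := (hv.trans (C.cjI _ [4] [14, 0])).trans (isConj_iff.2
        ⟨g, by rw [← g3]; nth_rw 2 [← g2]; rw [conj_mul, ← wval_append]; rfl⟩)
      rw [e, C.cjz hh, C.uzz] at a2
      exact absurd (a2.trans (isConj_iff.2 ⟨h, rfl⟩).symm) nu
  rcases bif_o (allL_all (p := fun w => bif' (memLL (Tv.map Prod.fst) w) true (bif'
    (eB true ([22, 18] ++ w) (w ++ [22, 18])) true (eB true ([24, 23, 18] ++ w) (w ++ [24, 23, 18]))))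
    (by decide +kernel) w hw) with h | h
  · obtain ⟨r, hr, t, ht, e⟩ := C.cjR Tv [[0]] (by decide +kernel) (memLL_mem h)
    obtain ⟨g, g1, g2, g3⟩ := adj g _ g1 g2 r hr (g3.trans e.symm)
    exact ⟨g, g2, List.mem_singleton.1 ht ▸ g3, g1⟩
  have key : ∀ e, s⟦e⟧ * s⟦w⟧ = s⟦w⟧ * s⟦e⟧ → s⟦e⟧ ^ 3 = 1 → s⟦e⟧ = 1 := fun e e1 e2 => by
    obtain ⟨b1, b2⟩ := C.hR.1 (memR f e)
    have cm : ∀ x y, g * x * g⁻¹ = y → s⟦e⟧ * y = y * s⟦e⟧ →
        g⁻¹ * s⟦e⟧ * g * x = x * (g⁻¹ * s⟦e⟧ * g) := fun x y h1 h2 => by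
      rw [← h1] at h2
      rw [← mul_left_cancel_iff (a := g), ← mul_right_cancel_iff (a := g⁻¹)]
      simpa only [mul_assoc, mul_inv_cancel_left, mul_inv_cancel, mul_one] using h2
    obtain ⟨y, hy, e3⟩ := C.memY (C.hR.2 ⟨cm _ _ g3 e1, cm _ _ g1 b2⟩) (cm _ _ g2 b1)
    have e4 : s⟦y⟧ ^ 4 = 1 := by
      rw [← wval_rep]
      exact C.eq _ [] (allL_all (p := fun y => eB true (rep 4 y) []) (by decide +kernel) y hy)
    rw [← e3, ← inv_inv g, inv_inv g⁻¹, conj_pow, conj_eq_one_iff, pow_succ, e2, one_mul] at e4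
    exact e4
  rcases bif_o h with h | h
  · exact absurd (key _ (C.comm _ _ h) (by rw [← wval_rep]; exact C.eq _ [])) (C.ne [22, 18] [])
  · exact absurd (key _ (C.comm _ _ h) (by rw [← wval_rep]; exact C.eq _ [])) (C.ne [24, 23, 18] [])

theorem root (nu : ¬ IsConj z₀ u₀) (hv : IsConj z₀ v₀) :
    ∃ c, c * c = u₀ ∧ ∃ e ∈ [[], [16]], Cj c (SS f) usB (vsB e) := by
  obtain ⟨h, h1, h2, h3⟩ := C.swap nu hv
  have za : IsConj z₀ s⟦[16, 14]⟧ := (hv.trans (C.cjI _ [28] [16, 0])).trans (isConj_iff.2 ⟨h, by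
    rw [show s⟦[16, 14]⟧ = u₀ * z₀ from wval_append _ [16] [14], ← conj_mul, h3, h2, ← wval_append]
    rfl⟩).symm
  have hY : ∀ w, s⟦w⟧ * v₀ = v₀ * s⟦w⟧ → ∃ y ∈ Y64, h * s⟦w⟧ * h⁻¹ = s⟦y⟧ := fun w e => by
    obtain ⟨b1, b2⟩ := C.hR.1 (memR f w)
    exact C.memY (C.hR.2 ⟨by rw [← h1, conj_mul, conj_mul, e], by rw [← h3, conj_mul, conj_mul, b2]⟩)
      (by rw [← h2, conj_mul, conj_mul, b1])
  obtain ⟨a, ha, ea⟩ := hY [10] (C.comm _ _)
  obtain ⟨b, hb, eb⟩ := hY [8] (C.comm _ _)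
  rcases bif_o (allL_all c_Y b hb) with k | k
  · obtain ⟨g, -, t, ht, e, he, e1⟩ := C.cjT Tcol [[16, 14], [0]] [[], [16]] (by decide +kernel)
      (memLL_mem k)
    refine absurd (IsConj.trans (b := s⟦b⟧ * s⟦e⟧) (IsConj.trans ?_ (isConj_iff.2 ⟨g, e1⟩)) ?_) nu
    · simp only [List.mem_cons, List.not_mem_nil, or_false] at ht
      rcases ht with rfl | rfl <;> assumption
    · simp only [List.mem_cons, List.not_mem_nil, or_false] at he
      rcases he with rfl | rfl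
      · rw [wval_nil, mul_one]
        exact ((C.cjI _ [8, 7, 21, 2] [8]).trans (isConj_iff.2 ⟨h, eb⟩)).symm
      · exact ((C.cjI _ [2, 4, 3] ([8] ++ [16])).trans (isConj_iff.2
          ⟨h, by rw [wval_append, ← conj_mul, eb, h3]⟩)).symm
  have k := bif_t (bif_t (allL_all (bif_t k (C.eB_of (by
      rw [wval_append, ← eb, conj_mul, C.mul [8] [8] []]; simp))) a ha) (C.eB_of (by
      rw [wval_append, ← ea, conj_mul, C.mul [10] [10] []]; simp))) (C.neB_of (by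
      rw [wval_append, wval_append, ← ea, ← eb, conj_mul, conj_mul, ← wval_append, ← wval_append]
      simpa using C.ne _ _))
  have hc : ∀ x y z : List ℕ, eB true ([12] ++ x) (y ++ [12]) = true → h * s⟦x⟧ * h⁻¹ = s⟦z⟧ →
      h * s⟦[12]⟧ * h⁻¹ * s⟦z⟧ = h * s⟦y⟧ * h⁻¹ * (h * s⟦[12]⟧ * h⁻¹) := fun x y z e e1 => by
    rw [← e1, conj_mul, conj_mul, C.mul _ _ _ e, wval_append]
  have c1 := hc [14] [14] _ (by decide +kernel) h2
  have c2 := hc [16] [16] _ (by decide +kernel) h3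
  have c3 := hc [0] ([0] ++ [16]) _ (by decide +kernel) h1
  have c4 := hc [10] ([10] ++ ([14] ++ [16])) _ (by decide +kernel) ea
  have c5 := hc [8] [8] _ (by decide +kernel) eb
  rw [h2] at c1
  rw [h3] at c2
  have cm : ∀ x y : G, h * (x * y) * h⁻¹ = h * x * h⁻¹ * (h * y * h⁻¹) := fun x y => conj_mul.symm
  rw [wval_append, cm v₀, h1, h3, ← wval_append] at c3
  rw [wval_append, wval_append, cm s⟦[10]⟧, cm z₀, ea, h2, h3, ← wval_append, ← wval_append] at c4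
  rw [eb] at c5
  have J : Cj (h * s⟦[12]⟧ * h⁻¹) (SS f) [[0], [16], [14], a, b]
      [[0], [16], [14, 16], a ++ [0, 16], b] :=
    .cons c1 (.cons c2 (.cons c3 (.cons c4 (.cons c5 .nil))))
  obtain ⟨k1, k⟩ := band_eq k
  obtain ⟨k2, k⟩ := band_eq k
  obtain ⟨k3, k4⟩ := band_eq k
  have d1 := conj_subst J (6 :: subst PT a.tail)
  have d2 := conj_subst J (8 :: subst PT b.tail)
  rw [C.eq _ _ k1] at d1
  rw [C.eq _ _ k2, C.eq _ _ k3] at d2
  refine ⟨h * s⟦[12]⟧ * h⁻¹, by rw [conj_mul, C.mul [12] [12] [16], h3], ?_⟩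
  rcases bif_o k4 with k | k <;> rw [C.eq _ _ k] at d1
  exacts [⟨[], by simp, .cons c1 (.cons d1 (.cons d2 (.cons c3 (.cons c2 .nil))))⟩,
    ⟨[16], by simp, .cons c1 (.cons d1 (.cons d2 (.cons c3 (.cons c2 .nil))))⟩]

theorem not_v0 (nu : ¬ IsConj z₀ u₀) : ¬ IsConj z₀ v₀ := fun hv => by
  obtain ⟨c, c2, e, he, J⟩ := C.root nu hv
  have j1 : c * z₀ * c⁻¹ = z₀ * u₀ :=
    (mul_inv_eq_iff_eq_mul.2 (J 3)).trans (wval_append _ [14] [16])
  have j2 : c * u₀ * c⁻¹ = u₀ := mul_inv_eq_iff_eq_mul.2 (J 4)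
  obtain ⟨b1, b2⟩ := C.hR.1 (memR f [4])
  have a2 : c * s⟦[4]⟧ * c⁻¹ * u₀ = u₀ * (c * s⟦[4]⟧ * c⁻¹) := by rw [← j2, conj_mul, conj_mul, b2]
  have a1 : c * s⟦[4]⟧ * c⁻¹ * (z₀ * u₀) = z₀ * u₀ * (c * s⟦[4]⟧ * c⁻¹) := by
    rw [← j1, conj_mul, conj_mul, b1]
  rw [mul_assoc z₀, ← a2, ← mul_assoc, ← mul_assoc z₀, mul_left_inj] at a1
  obtain ⟨⟨M, ch⟩, -⟩ := C.small
  have T := J.transport [4] 100 psB (fun w hw => C.eq _ []
    (allL_all (p := fun w => eB true w []) (by decide +kernel) w hw))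
  have : ∃ u, memLL (L8.map Prod.fst) u = true ∧ ∃ z ∈ ZZ f,
      c * s⟦[4]⟧ * c⁻¹ = s⟦mkC [[4]] u⟧ * z := by
    simp only [List.mem_cons, List.not_mem_nil, or_false] at he
    rcases he with rfl | rfl
    · exact M.find ch sb0 (by decide) (C.hR.2 ⟨a1, a2⟩) (by simp) .nil
        (fun w hw => bot_le (a := ZZ f) (T (by decide) w hw)) (by simp)
    · exact M.find ch sb1 (by decide) (C.hR.2 ⟨a1, a2⟩) (by simp) .nil
        (fun w hw => bot_le (a := ZZ f) (T (by decide) w hw)) (by simp)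
  obtain ⟨u, hu, z, hz, e1⟩ := this
  obtain ⟨x, hx, rfl⟩ := List.mem_map.1 (memLL_mem hu)
  obtain ⟨k1, k⟩ := band_eq (allL_all (allL_all c_L e he) x hx)
  obtain ⟨k2, k3⟩ := band_eq k
  have z1 : z = 1 := by
    have := congrArg (· ^ 5) e1
    simp only [conj_pow, Commute.mul_pow (C.cen hz (memR f _))] at this
    rw [← wval_rep, ← wval_rep, C.eq (rep 5 [4]) [], C.eq _ _ k1, wval_nil, pow_succ, pow_mul z 2 2,
      sq z, C.zsq hz] at this
    simpa using this.symm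
  rw [z1, mul_one] at e1
  have d := BTStep.cj_conj (J.cons (mul_inv_eq_iff_eq_mul.1 e1)) x.2.1
  rw [C.eq _ _ k2] at d
  refine C.ne _ _ k3 (d.symm.trans ?_)
  cases x.2.2
  · simp
  · change c * s⟦mkC [[4]] x.1⟧ * c⁻¹ = s⟦[4]⟧
    rw [← e1, ← mul_assoc, ← mul_assoc, c2, mul_assoc, ← mul_inv_rev, c2, ← b2, mul_inv_cancel_right]

theorem clsR0 (nu : ¬ IsConj z₀ u₀) {c : G} (hc : c ∈ RR f) (h2 : c * c = 1) (h3 : IsConj z₀ c)
    (h4 : IsConj z₀ (c * u₀)) : ∃ r ∈ RR f, ∃ t ∈ [[14], [14, 16], [8, 14], [8, 14, 16], [6]],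
      c = r * s⟦t⟧ * r⁻¹ := by
  obtain ⟨r, hr, w, hw, rfl⟩ := C.invR hc h2
  rcases (by decide +kernel : ∀ w ∈ I28, w = [] ∨ w ∈ Tbad.map Prod.fst ∨ w ∈ Tgood.map Prod.fst)
    w hw with rfl | h | h
  · exact absurd (by simpa using h3) (C.ne [14] [])
  · obtain ⟨g, -, t, ht, e, he, e1⟩ := C.cjT Tbad [[16], [0]] [[], [16]] (by decide +kernel) h
    have : IsConj z₀ s⟦t⟧ := by
      refine IsConj.trans ?_ ((isConj_iff.2 ⟨g, e1⟩).trans (isConj_iff.2 ⟨r, rfl⟩)).symm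
      simp only [List.mem_cons, List.not_mem_nil, or_false] at he
      rcases he with rfl | rfl
      · rwa [wval_nil, mul_one]
      · rwa [mul_assoc, (C.hR.1 (inv_mem hr)).2, ← mul_assoc, mul_assoc r] at h4
    simp only [List.mem_cons, List.not_mem_nil, or_false] at ht
    rcases ht with rfl | rfl
    exacts [absurd this nu, absurd this (C.not_v0 nu)]
  · obtain ⟨k, hk, t, ht, e⟩ := C.cjR Tgood [[14], [14, 16], [8, 14], [8, 14, 16], [6]]
      (by decide +kernel) h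
    exact ⟨_, mul_mem hr hk, t, ht, by rw [← e]; group⟩

end Cx

theorem SS_rels (f : ℕ → G) : ∀ w ∈ defRels 2 sdefs, wval (SS f) w = 1 :=
  SS_ext f ▸ ext_rels (SS f) 2 sdefs (by decide)

section
variable (rel : ∀ w ∈ HNTC.K1, wval f w = 1) (top : gp f (sing 3) = centralizer {f 0 ^ 2})
  (card : Nat.card (centralizer ({f 0 ^ 2} : Set G)) = 177408000)
include rel top card

theorem S0 : s⟦[0]⟧ = wval f r1 := (cxp rel top card).base 0 r1

theorem S1 : s⟦[2]⟧ = wval f r2 := (cxp rel top card).base 1 r2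

theorem S3 : s⟦[6]⟧ = f 2 := (cxp rel top card).zz

theorem S7 : s⟦[14]⟧ = f 0 ^ 2 := (cxp rel top card).z0

theorem S8 : s⟦[16]⟧ = wval f uw := (cxp rel top card).base 8 uw

theorem RR_eq : RR f = gp f [r1, r2] := by
  have e : sing 2 = [[0], [2]] := rfl
  refine le_antisymm (gp_le.2 ?_) (gp_le.2 ?_)
  · simp only [e, List.forall_mem_cons, S0 rel top card, S1 rel top card]
    exact ⟨mem_gp (by simp), mem_gp (by simp), by simp⟩
  · simp only [List.forall_mem_cons, ← S0 rel top card, ← S1 rel top card]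
    exact ⟨memR f _, memR f _, by simp⟩

theorem nu : ¬ IsConj z₀ u₀ := by
  have C := cxp rel top card
  refine C.not_u0 fun s hs _ h => ?_
  obtain ⟨h, hh, t, ht, e⟩ := C.outer h
  simp only [List.mem_cons, List.not_mem_nil, or_false] at ht
  rcases ht with rfl | rfl
  · exact not_sq rel (top ▸ card.ge) [4] (by decide +kernel) (top.ge hs) (top.ge hh)
      (by rw [e, C.zz, wval_single f 2])
  · exact not_sq rel (top ▸ card.ge) r1 (by decide +kernel) (top.ge hs) (top.ge hh)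
      (by rw [e, S0 rel top card])

theorem centR : centralizer {f 0 ^ 2} ⊓ centralizer {wval f uw} = gp f [r1, r2] := by
  rw [← RR_eq rel top card, (cxp rel top card).small.2.2, S8 rel top card]

theorem cardR : Nat.card (gp f [r1, r2]) = 30720 :=
  RR_eq rel top card ▸ (cxp rel top card).small.2.1

theorem not_u : ¬ IsConj (f 0 ^ 2) (wval f uw) := S7 rel top card ▸ S8 rel top card ▸ nu rel top card

theorem not_v : ¬ IsConj (f 0 ^ 2) (wval f r1) :=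
  S7 rel top card ▸ S0 rel top card ▸ (cxp rel top card).not_v0 (nu rel top card)

theorem cls {c : G} (hc : c ∈ centralizer {f 0 ^ 2}) (h2 : c * c = 1) : c = 1 ∨ c = f 0 ^ 2 ∨
    ∃ h ∈ centralizer {f 0 ^ 2}, ∃ w ∈ [wval f uw, wval f uw * f 0 ^ 2, f 2, wval f r1],
      c = h * w * h⁻¹ := by
  have C := cxp rel top card
  rw [← S8 rel top card, ← S0 rel top card, ← C.zz]
  rcases C.cls0 hc h2 with h | h | ⟨h, hh, e | e⟩ | h
  · exact .inl h
  · exact .inr (.inl (h.trans C.z0))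
  · exact .inr (.inr ⟨h, hh, _, by simp, e⟩)
  · exact .inr (.inr ⟨h, hh, _, by simp [C.z0], e⟩)
  · obtain ⟨h, hh, t, ht, e⟩ := C.outer h
    simp only [List.mem_cons, List.not_mem_nil, or_false] at ht
    rcases ht with rfl | rfl <;> exact .inr (.inr ⟨h, hh, _, by simp, e⟩)

/-- The letters: `14 = f 0 ^ 2`, `16 = u`, `6 = f 2`, `8 = ι`. -/
theorem clsR {c : G} (hc : c ∈ gp f [r1, r2]) (h2 : c * c = 1) (h3 : IsConj (f 0 ^ 2) c)
    (h4 : IsConj (f 0 ^ 2) (c * wval f uw)) : ∃ r ∈ gp f [r1, r2],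
      ∃ t ∈ [[14], [14, 16], [8, 14], [8, 14, 16], [6]], c = r * s⟦t⟧ * r⁻¹ := by
  rw [← RR_eq rel top card] at hc ⊢
  rw [← S7 rel top card] at h3 h4
  exact (cxp rel top card).clsR0 (nu rel top card) hc h2 h3 (S8 rel top card ▸ h4)

theorem pair {c : G} (h1 : IsConj (f 0 ^ 2) c) (h2 : IsConj (f 0 ^ 2) (c * wval f uw))
    (h3 : c * wval f uw = wval f uw * c) : ∃ g, g * wval f uw = wval f uw * g ∧ g * c * g⁻¹ = f 0 ^ 2 := by
  rw [← S8 rel top card] at h2 h3 ⊢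
  rw [← S7 rel top card] at h1 h2 ⊢
  obtain ⟨g, g1, g2⟩ := (cxp rel top card).pair0 (nu rel top card) h1 h2 h3
  exact ⟨g, mul_inv_eq_iff_eq_mul.1 g1, g2⟩

/-- Elements of `O₂(R)`: `q z` in the class of `r1`, and `ι`, `ι u` in the class of `u`. -/
theorem vP : (∃ h ∈ centralizer {f 0 ^ 2}, h * wval f r1 * h⁻¹ = s⟦[12, 6]⟧) ∧
    (∃ h ∈ centralizer {f 0 ^ 2}, h * wval f uw * h⁻¹ = s⟦[8]⟧) ∧
    ∃ h ∈ centralizer {f 0 ^ 2}, h * wval f uw * h⁻¹ = s⟦[8, 16]⟧ := by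
  have C := cxp rel top card
  rw [← S8 rel top card, ← S0 rel top card, ← wS, ← wS, ← wS, ← wS, ← wS]
  exact ⟨⟨_, C.M.mem _, C.M.cj [14, 28, 15, 0] _ _ (by decide +kernel)⟩,
    ⟨_, C.M.mem _, C.M.cj [8, 7, 21, 2] _ _ (by decide +kernel)⟩,
    ⟨_, C.M.mem _, C.M.cj [2, 4, 3] _ _ (by decide +kernel)⟩⟩

theorem fus [Finite G] [IsSimpleGroup G] : IsConj (f 0 ^ 2) (f 2) := by
  have C := cxp rel top card
  obtain ⟨c, h1, h2⟩ := C.fus0 (nu rel top card)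
  obtain ⟨h, -, t, ht, rfl⟩ := C.outer h2
  have := h1.trans (isConj_iff.2 ⟨h, rfl⟩).symm
  simp only [List.mem_cons, List.not_mem_nil, or_false] at ht
  rcases ht with rfl | rfl
  · rwa [C.z0, C.zz] at this
  · exact absurd this (C.not_v0 (nu rel top card))

end

end Cfsg.Agent.Lib.HNB
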