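import Cfsg.Agent.Lib.HNG

/-! General tools: centralisers in a permutation model, conjugation models with the kernel found by
counting, four-groups, the two types of the extension `2.HS.2`. -/

set_option autoImplicit false

namespace Cfsg.Agent.Lib.HNB1

open Subgroup Cfsg.Agent.Lib.PermNet Cfsg.Agent.Lib.Words Cfsg.Agent.Lib.PermGroup Cfsg.Agent.Lib.DCE
  Cfsg.Agent.Lib.PermModel Cfsg.Agent.Lib.BT

/-- The points of a level that behave like the base point. -/
noncomputable def cnt (wb mask : ℕ) (tt : TT) (a : List ℕ) (l : Lv) : ℕ :=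
  l.T.countP fun e => Nat.beq (ap1 wb mask tt a e.1) e.1 == Nat.beq (ap1 wb mask tt a l.b) l.b

theorem chain_cent {W : Type*} [Group W] {π : W →* Equiv.Perm ℕ} {N wb mask : ℕ} {tt : TT}
    {f : ℕ → W} (good : Good π N wb mask tt f) (hlt : ∀ g, ∀ p < N, π g p < N) (a : List ℕ)
    {A C : Subgroup W} (hCA : C ≤ A) (hC : ∀ g ∈ C, g * wval f a = wval f a * g)
    {ch : List Lv} {bs : List ℕ} (h : ChainP π f N A ch bs) :
    Nat.card (fixer (C.map π) bs) ≤ (ch.map (cnt wb mask tt a)).prod := by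
  induction ch generalizing bs with
  | nil =>
    have : fixer (C.map π) bs = ⊥ := eq_bot_iff.2 (by
      rintro _ ⟨⟨g, hg, rfl⟩, hb⟩
      exact h g (hCA hg) hb)
    rw [this]; simp
  | cons l ch ih =>
    rw [List.map_cons, List.prod_cons, card_fixer bs l.b]
    refine Nat.mul_le_mul ?_ (ih h.2.2.2)
    rw [cnt, List.countP_eq_length_filter, ← List.length_map Prod.fst]
    refine le_trans (Set.ncard_le_ncard ?_ (Finset.finite_toSet _)) ((Set.ncard_coe_finset _).le.trans
      (List.toFinset_card_le _))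
    rintro _ ⟨⟨_, ⟨g, hg, rfl⟩, hb⟩, rfl⟩
    obtain ⟨e, he, e1⟩ := h.2.1 g (hCA hg) hb
    refine List.mem_toFinset.2 (List.mem_map.2 ⟨e, List.mem_filter.2 ⟨he, ?_⟩, e1.symm⟩)
    have e2 : (π (wval f a))⁻¹ (π g l.b) = π g ((π (wval f a))⁻¹ l.b) := by
      rw [← Equiv.Perm.mul_apply, ← Equiv.Perm.mul_apply, ← map_inv, ← map_mul, ← map_mul,
        (Commute.inv_right (hC g hg)).eq]
    rw [← e1, ap1_eq good _ (hlt _ _ h.1), ap1_eq good _ h.1, e2, beq_iff_eq, Bool.eq_iff_iff,
      Nat.beq_eq, Nat.beq_eq, EmbeddingLike.apply_eq_iff_eq]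

theorem card_cent {G : Type*} [Group G] {F : ℕ → G} {H : Subgroup G} {N wb mask : ℕ} {tt : TT}
    {B : List ℕ} {T : ℕ} (M : Model F H ⊥ N wb mask tt B T) {ch : List Lv} (h : M.Ch H ch)
    (a : List ℕ) : Nat.card ↥(H ⊓ centralizer {wval F a}) ≤ (ch.map (cnt wb mask tt a)).prod := by
  have := chain_cent M.good M.lt a (C := (centralizer {wval F a}).subgroupOf H) (fun g _ => g.2)
    (fun g hg => Subtype.ext (by simpa [M.val] using mem_centralizer_singleton_iff.1 hg)) h
  rwa [fixer_nil, card_map_of_injective ((injective_iff_map_eq_one _).2 fun g hg =>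
    Subtype.ext ((M.ker g).1 hg)), ← inf_subgroupOf_left,
    Nat.card_congr (subgroupOfEquivOfLe inf_le_left).toEquiv] at this

/-- The conjugation model; the kernel is found by counting. -/
theorem cmodel2 {G : Type*} [Group G] {f : ℕ → G} {Z : Subgroup G} {n0 N wb mask m idT T : ℕ}
    {th : TT} {defs : List (List ℕ)} {ch : List Lv} (D : TM n0 N wb mask m idT T th defs ch)
    [Finite (gp f (sing n0))] {s : ℕ → G} (inj : ∀ p < N, ∀ q < N, s p = s q → p = q)
    (hZ : Z ≤ gp f (sing n0)) (hZc : ∀ z ∈ Z, ∀ p < N, z * s p = s p * z)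
    (hc : ∀ i < n0, ∀ p < N, f i * s p * (f i)⁻¹ = s (lk wb mask ((tabs m th idT).get (2 * i + 1)) p))
    (hT : Nat.card (gp f (sing n0)) ≤ T * Nat.card Z) :
    Nonempty (Model (ext f n0 defs) (gp f (sing n0)) Z N wb mask (tabs m th idT) (ch.map Lv.b) T) ∧
      T * Nat.card Z ≤ Nat.card (gp f (sing n0)) := by
  set H := gp f (sing n0) with hH
  have e0 := Nat.card_congr (subgroupOfEquivOfLe hZ).toEquiv
  have hle : Z.subgroupOf H ≤ (centralizer (s '' Set.Iio N)).subgroupOf H := fun z hz =>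
    mem_centralizer_iff.2 (by rintro _ ⟨p, hp, rfl⟩; exact (hZc _ hz p hp).symm)
  have e1 := card_le_of_le hle
  obtain ⟨M, -⟩ := D.cmodel (f := f) (H := H) (Z := centralizer (s '' Set.Iio N))
    (fun i hi => mem_sing f hi) inj (fun g hg => by
      obtain ⟨w, hw, rfl⟩ := exists_word (n := n0) (ws := sing n0) (by simp [sing]) hg
      clear hg
      induction w with
      | nil => exact fun p hp => ⟨p, hp, by simp⟩
      | cons l w ih =>
        intro p hp
        rw [List.all_cons, Bool.and_eq_true, decide_eq_true_eq] at hw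
        obtain ⟨q, hq, e⟩ := ih hw.2 p hp
        rw [wval_cons, mul_inv_rev, mul_assoc, mul_assoc, ← mul_assoc (s p), ← mul_assoc (wval f w),
          ← mul_assoc (wval f w), e, ← mul_assoc]
        have t := D.ok.tok (l / 2)
        unfold lval
        split_ifs
        · exact ⟨_, (t.symm q hq).1, hc _ (by omega) q hq⟩
        · refine ⟨_, (t q hq).1, ?_⟩
          have := hc (l / 2) (by omega) _ (t q hq).1
          rw [(t q hq).2] at this
          rw [← this]; group)
    (fun g _ => by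
      rw [mem_centralizer_iff]
      exact ⟨by rintro h _ ⟨p, hp, rfl⟩; exact (mul_inv_eq_iff_eq_mul.1 (h p hp)).symm,
        fun h p hp => mul_inv_eq_iff_eq_mul.2 (h _ ⟨p, hp, rfl⟩).symm⟩) hc
    (hT.trans (Nat.mul_le_mul_left _ (e0 ▸ e1)))
  have h0 := D.h0
  simp only [Bool.and_eq_true, decide_eq_true_eq] at h0
  have := M.finite_map ⊤
  have c1 := (chB_sound M.good (A := ⊤) (fun _ _ => trivial) ch [] (by simp) D.hc).1
  rw [fixer_nil, ← MonoidHom.range_eq_map] at c1
  have h1 := M.π.ker.index_mul_card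
  rw [index_ker, show M.π.ker = (centralizer (s '' Set.Iio N)).subgroupOf H from
    Subgroup.ext M.ker] at h1
  have h2 := (Nat.mul_le_mul_right _ (h0.2.trans c1)).trans h1.le
  have e2 := eq_of_le_of_card_ge hle (e0 ▸ Nat.le_of_mul_le_mul_left (h2.trans hT)
    ((Nat.pos_of_ne_zero M.card.1).trans_le M.card.2))
  exact ⟨⟨{ M with ker := fun g => (M.ker g).trans (SetLike.ext_iff.1 e2 g).symm }⟩,
    (Nat.mul_le_mul_left _ (e0 ▸ e1)).trans h2⟩

section four
variable {G : Type*} [Group G] {a b : G}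

theorem mem_four (ha : a * a = 1) (hb : b * b = 1) (hab : b * a = a * b) {g : G}
    (hg : g ∈ closure {a, b}) : g = 1 ∨ g = a ∨ g = b ∨ g = a * b := by
  have h1 : ∀ x, a * (a * x) = x := fun x => by rw [← mul_assoc, ha, one_mul]
  have h2 : ∀ x, b * (a * x) = a * (b * x) := fun x => by rw [← mul_assoc, hab, mul_assoc]
  induction hg using closure_induction with
  | mem x hx => rcases hx with rfl | rfl <;> simp
  | one => simp
  | mul x y _ _ hx hy =>
    rcases hx with rfl | rfl | rfl | rfl <;> rcases hy with rfl | rfl | rfl | rfl <;>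
      simp [*, mul_assoc]
  | inv x _ hx =>
    rcases hx with rfl | rfl | rfl | rfl <;>
      simp [inv_eq_of_mul_eq_one_right ha, inv_eq_of_mul_eq_one_right hb, hab]

theorem card_four (ha : a * a = 1) (hb : b * b = 1) (hab : b * a = a * b) (a1 : a ≠ 1) (b1 : b ≠ 1)
    (h : a ≠ b) : Nat.card (closure {a, b} : Subgroup G) = 4 := by
  have : (closure {a, b} : Subgroup G) = ({1, a, b, a * b} : Set G) := by
    have m1 : a ∈ closure {a, b} := subset_closure (by simp)
    have m2 : b ∈ closure {a, b} := subset_closure (by simp)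
    refine Set.Subset.antisymm (fun g hg => mem_four ha hb hab hg) ?_
    rintro _ (rfl | rfl | rfl | rfl)
    exacts [one_mem _, m1, m2, mul_mem m1 m2]
  have h3 : 1 ≠ a * b := fun e => h (mul_left_cancel (ha.trans e))
  rw [← SetLike.coe_sort_coe, this, Nat.card_coe_set_eq,
    Set.ncard_insert_of_notMem (by simp [a1.symm, b1.symm, h3]),
    Set.ncard_insert_of_notMem (by simp [h, b1]), Set.ncard_pair (by simp [a1])]

end four

/-- The relators of the other type of the extension (the same list as `HNP.K1m`). -/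
def K1m : List (List ℕ) := HNTC.K1.take 6 ++ [[4, 4, 1, 1], [4, 0, 4, 0, 1, 1]] ++ HNTC.K1.drop 8

/-- Conjugacy into a Sylow subgroup of prime order. -/
theorem sylow_conj {G : Type*} [Group G] {H : Subgroup G} [Finite H] {p : ℕ} (hp : p.Prime)
    (h : ¬ p ^ 2 ∣ Nat.card H) {a c : G} (ha : a ∈ H) (hc : c ∈ H) (a1 : a ^ p = 1) (a2 : a ≠ 1)
    (c1 : c ^ p = 1) (c2 : c ≠ 1) : ∃ g ∈ H, zpowers (g * c * g⁻¹) = zpowers a := by
  have := Fact.mk hp
  have key : ∀ x : H, x.1 ^ p = 1 → x.1 ≠ 1 → ∃ P : Sylow p H, zpowers x = P := fun x x1 x2 => by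
    have ho : Nat.card (zpowers x) = p := by
      rw [Nat.card_zpowers, orderOf_eq_prime (Subtype.ext x1) (mt (congrArg Subtype.val) x2)]
    obtain ⟨P, hP⟩ := (IsPGroup.of_card (n := 1) (ho.trans (pow_one p).symm)).exists_le_sylow
    obtain ⟨n, hn⟩ := IsPGroup.iff_card.1 P.2
    refine ⟨P, eq_of_le_of_card_ge hP ?_⟩
    rw [ho, hn]
    exact (Nat.pow_le_pow_right hp.pos (Nat.le_of_not_lt fun h2 => h
      ((pow_dvd_pow p h2).trans (hn ▸ card_subgroup_dvd_card _)))).trans (pow_one p).le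
  obtain ⟨P, hP⟩ := key ⟨a, ha⟩ a1 a2
  obtain ⟨R, hR⟩ := key ⟨c, hc⟩ c1 c2
  obtain ⟨g, rfl⟩ := MulAction.exists_smul_eq H R P
  refine ⟨g, g.2, ?_⟩
  have := congrArg (map H.subtype) hP
  rw [Sylow.coe_subgroup_smul, ← hR] at this
  simpa [pointwise_smul_def, MonoidHom.map_zpowers] using this.symm

/-- The other type of the extension has the same order. -/
theorem hubm {X : Type*} [Group X] (z : ℕ → X) (hz : ∀ w ∈ K1m, wval z w = 1) :
    Nat.card (gp z (sing 3)) ≠ 0 ∧ Nat.card (gp z (sing 3)) ≤ 177408000 := by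
  set P := gp z (sing 3) with hP
  let Z : ℕ → P := fun i => if h : i < 3 then ⟨z i, mem_sing z h⟩ else 1
  have hZ : ∀ w : List ℕ, lt2 3 w = true → ((wval Z w : P) : X) = wval z w :=
    fun w hw => (map_wval P.subtype Z w).trans
      (wval_congr (n := 3) (fun i hi => by simp [Z, hi]) (by simpa using hw))
  have hK : ∀ w ∈ K1m, wval Z w = 1 := fun w hw =>
    Subtype.ext ((hZ w (List.all_eq_true.1 (by decide : K1m.all (lt2 3) = true) w hw)).trans
      (hz w hw))
  have hw : ∀ g : P, ∃ w, wval Z w = g := fun g => by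
    obtain ⟨w, hw, e⟩ := exists_word (n := 3) (ws := sing 3) (by decide) g.2
    exact ⟨w, Subtype.ext ((hZ w hw).trans e)⟩
  let ι : Multiplicative (ZMod 4) := Multiplicative.ofAdd 1
  let e : ℕ → Multiplicative (ZMod 4) := fun i => if i = 2 then ι else 1
  let y : ℕ → P × Multiplicative (ZMod 4) := fun i => (Z i, e i)
  have hy : ∀ w, wval y w = (wval Z w, wval e w) := fun w =>
    Prod.ext (map_wval (MonoidHom.fst _ _) y w) (map_wval (MonoidHom.snd _ _) y w)
  have h4 := HNTC.four Z (derive [] hK _ (by decide +kernel)) _ List.mem_cons_self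
  have hD := derive [] hK [[0, 0, 2, 0, 0, 3], [4, 4, 1, 1], [4, 0, 4, 0, 1, 1]] (by decide +kernel)
  simp only [List.forall_mem_cons] at hD
  obtain ⟨d1, d2, d3, -⟩ := hD
  set t := wval Z [0, 0] with ht
  have tt : t * t = 1 := (wval_append Z [0, 0] [0, 0]).symm.trans h4
  have i2 : wval Z [1, 1] = t⁻¹ := wval_invW Z [0, 0]
  have d2 : wval Z [4, 4] = t := mul_inv_eq_one.1 (by rw [← i2, ← wval_append]; exact d2)
  have d3 : wval Z [4, 0, 4, 0] = t := mul_inv_eq_one.1 (by rw [← i2, ← wval_append]; exact d3)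
  have tc : ∀ g : P, g * t = t * g := fun g => by
    obtain ⟨w, rfl⟩ := hw g
    refine mem_centralizer_singleton_iff.1 (wval_mem fun l _ => mem_centralizer_singleton_iff.2 ?_)
    rcases (by omega : l / 2 = 0 ∨ l / 2 = 1 ∨ l / 2 = 2 ∨ 3 ≤ l / 2) with h | h | h | h
    · rw [h, ht]; simp [wval, lval, mul_assoc]
    · have : t * Z 1 * t * (Z 1)⁻¹ = 1 := by simpa [ht, wval, lval, mul_assoc] using d1
      rw [h, ← mul_left_cancel_iff (a := t), ← mul_assoc, ← mul_assoc, tt, one_mul,
        mul_inv_eq_one.1 this]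
    · rw [h, ← d2]; simp [wval, lval, mul_assoc]
    · simp [Z, Nat.not_lt.2 h]
  let n : P × Multiplicative (ZMod 4) := (t, ι * ι)
  have nn : n * n = 1 := Prod.ext tt (by decide : ι * ι * (ι * ι) = 1)
  have : (zpowers n).Normal := ⟨fun x hx g => by
    rcases (mem_zpowers_two nn).1 hx with rfl | rfl
    · simp
    · rw [show g * n = n * g from Prod.ext (tc _) (mul_comm _ _)]; simp⟩
  let q := QuotientGroup.mk' (zpowers n)
  have qn : q n = 1 := (QuotientGroup.eq_one_iff _).2 (mem_zpowers n)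
  have hb := HNG.hub (fun i => q (y i)) fun w hw => by
    rw [← map_wval, hy]
    by_cases h : w = [4, 4] ∨ w = [4, 0, 4, 0]
    · rw [← qn]
      rcases h with rfl | rfl
      · rw [d2]; rfl
      · rw [d3]; rfl
    · have : w ∈ K1m ∧ wval e w = 1 := by revert w; decide +kernel
      rw [hK w this.1, this.2]; rfl
  have := Nat.finite_of_card_ne_zero hb.1
  have hm : ∀ w, lt2 3 w = true → q (wval Z w, wval e w) ∈ gp (fun i => q (y i)) (sing 3) :=
    fun w h => by
      rw [← hy, map_wval]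
      exact wval_mem fun l hl => mem_sing _ (by have := List.all_eq_true.1 h l hl; simp at this; omega)
  have key : ∀ g : P, ∃ c, (c = 1 ∨ c = ι) ∧ q (g, c) ∈ gp (fun i => q (y i)) (sing 3) := fun g => by
    obtain ⟨w, hw, e1⟩ := exists_word (n := 3) (ws := sing 3) (by decide) g.2
    have h1 := hm w hw
    rw [show wval Z w = g from Subtype.ext ((hZ w hw).trans e1)] at h1
    have h2 := mul_mem h1 (hm [0, 0] (by decide))
    rw [← mul_one (_ * _), ← qn, ← map_mul, ← map_mul, Prod.mk_mul_mk, Prod.mk_mul_mk, mul_assoc g,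
      tt, mul_one] at h2
    have : ∀ c : Multiplicative (ZMod 4), (c = 1 ∨ c = ι) ∨
      (c * wval e [0, 0] * (ι * ι) = 1 ∨ c * wval e [0, 0] * (ι * ι) = ι) := by decide +kernel
    exact (this _).elim (fun h => ⟨_, h, h1⟩) fun h => ⟨_, h, h2⟩
  choose c c1 c2 using key
  have inj : Function.Injective fun g => (⟨_, c2 g⟩ : gp (fun i => q (y i)) (sing 3)) := fun a b h => by
    rcases (mem_zpowers_two nn).1 (QuotientGroup.eq.1 (congrArg Subtype.val h)) with h | h
    · exact inv_mul_eq_one.1 (congrArg Prod.fst h)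
    · have h := congrArg Prod.snd h
      change (c a)⁻¹ * c b = ι * ι at h
      rcases c1 a with h1 | h1 <;> rcases c1 b with h2 | h2 <;> rw [h1, h2] at h <;>
        exact absurd h (by decide)
  have := Finite.of_injective _ inj
  exact ⟨Nat.card_pos.ne', (Nat.card_le_card_of_injective _ inj).trans hb.2⟩

/-- Outer elements are not squares. -/
theorem not_sq {G : Type*} [Group G] {f : ℕ → G} (rel : ∀ w ∈ HNTC.K1, wval f w = 1)
    (card : 177408000 ≤ Nat.card (gp f (sing 3))) (w : List ℕ) (hw : (lt2 3 w && decide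
      (wval (fun i => if i = 2 then (-1 : ℤˣ) else 1) w = -1)) = true) {s h : G}
    (hs : s ∈ gp f (sing 3)) (hh : h ∈ gp f (sing 3)) : s * s ≠ h * wval f w * h⁻¹ := fun e => by
  set ε : ℕ → ℤˣ := fun i => if i = 2 then (-1 : ℤˣ) else 1 with hε
  simp only [Bool.and_eq_true, decide_eq_true_eq] at hw
  have hb := HNG.hub _ (rels_pair rel (p := ε) (by decide +kernel))
  set W := gp (fun i => (f i, ε i)) (sing 3) with hW
  have : Finite W := Nat.finite_of_card_ne_zero hb.1
  have e1 : W.map (MonoidHom.fst _ _) = gp f (sing 3) := map_gp _ _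
  have b1 := (((MonoidHom.fst _ _).subgroupMap_surjective W).bijective_of_nat_card_le
    (by rw [e1]; omega)).1
  rw [← e1] at hs hh
  obtain ⟨s, hs, rfl⟩ := hs
  obtain ⟨h, hh, rfl⟩ := hh
  have hm : wval (fun i => (f i, ε i)) w ∈ W := wval_mem fun l hl =>
    mem_sing _ (by have := List.all_eq_true.1 hw.1 l hl; simp at this; omega)
  have := congrArg (fun x : W => x.1.2) (@b1 (⟨s, hs⟩ * ⟨s, hs⟩) (⟨h, hh⟩ * ⟨_, hm⟩ * ⟨h, hh⟩⁻¹)
    (Subtype.ext (e.trans (by
      rw [show wval f w = _ from (map_wval (MonoidHom.fst G ℤˣ) (fun i => (f i, ε i)) w).symm]; rfl))))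
  change s.2 * s.2 = h.2 * MonoidHom.snd G ℤˣ (wval _ w) * h.2⁻¹ at this
  rw [map_wval, Int.units_mul_self, mul_comm h.2, mul_inv_cancel_right] at this
  exact absurd (this.trans hw.2) (by decide)

end Cfsg.Agent.Lib.HNB1
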