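import Cfsg.Agent.Lib.HNB1
import Cfsg.Agent.Lib.HNBC0
import Cfsg.Agent.Lib.HNBC1
import Cfsg.Agent.Lib.HNBS0
import Cfsg.Agent.Lib.ZStar

/-! A group with an involution whose centraliser is `2.HS.2` (of either type): the centraliser of a
four-group and the classes of involutions. -/

set_option autoImplicit false
set_option maxRecDepth 100000

namespace Cfsg.Agent.Lib.HNB

open Subgroup Cfsg.Agent.Lib.PermNet Cfsg.Agent.Lib.Words Cfsg.Agent.Lib.PermGroup Cfsg.Agent.Lib.DCE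
  Cfsg.Agent.Lib.PermModel Cfsg.Agent.Lib.BT Cfsg.Agent.Lib.HNB1

/-- A word, a factor, a conjugating word, a representative. -/
abbrev CE := List ℕ × List ℕ × List ℕ × List ℕ

def Tin : List CE := [([16], [], [], [16]),
  ([14, 16], [], [], [16, 14]),
  ([8], [], [8, 7, 21, 2], [16]),
  ([8, 14], [], [8, 7, 21, 2], [16, 14]),
  ([8, 16], [], [2, 4, 3], [16]),
  ([8, 14, 16], [], [2, 4, 3], [16, 14]),
  ([10], [], [7, 26, 0], [16]),
  ([10, 14], [], [7, 26, 0], [16, 14]),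
  ([10, 16], [], [38, 0], [16, 14]),
  ([10, 14, 16], [], [38, 0], [16])]

def Tout : List CE := [([0], [], [], [0]),
  ([0, 14], [], [4], [0]),
  ([0, 16], [], [28], [0]),
  ([0, 14, 16], [], [44], [0]),
  ([6], [], [], [6]),
  ([6, 14], [], [0], [6]),
  ([6, 16], [], [24], [6]),
  ([6, 14, 16], [], [24, 0], [6]),
  ([12, 6], [], [14, 28, 15, 0], [0]),
  ([12, 6, 14], [], [7, 15, 10, 0], [0]),
  ([12, 6, 16], [], [18, 7, 14, 0], [0]),
  ([12, 6, 14, 16], [], [20, 7, 14, 0], [0]),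
  ([10, 0], [], [14, 20, 9], [6]),
  ([10, 0, 14], [], [19, 0, 24], [6]),
  ([10, 0, 16], [], [9, 12, 8], [0]),
  ([10, 0, 14, 16], [], [9, 12, 8, 4], [0])]

def Tbad : List CE := [([16], [], [], [16]),
  ([8], [], [8, 7, 21, 2], [16]),
  ([8, 16], [], [2, 4, 3], [16]),
  ([10], [], [7, 26, 0], [16]),
  ([10, 14], [16], [38, 0], [16]),
  ([10, 16], [16], [7, 26, 0], [16]),
  ([10, 14, 16], [], [38, 0], [16]),
  ([0], [], [], [0]),
  ([0, 14], [], [4], [0]),
  ([0, 16], [], [28], [0]),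
  ([0, 14, 16], [], [44], [0]),
  ([12, 6], [], [14, 28, 15, 0], [0]),
  ([12, 6, 14], [], [7, 15, 10, 0], [0]),
  ([12, 6, 16], [], [18, 7, 14, 0], [0]),
  ([12, 6, 14, 16], [], [20, 7, 14, 0], [0]),
  ([10, 0], [16], [9, 12, 8], [0]),
  ([10, 0, 14], [16], [9, 12, 8, 4], [0]),
  ([10, 0, 16], [], [9, 12, 8], [0]),
  ([10, 0, 14, 16], [], [9, 12, 8, 4], [0])]

def Tcol : List CE := [([10], [16], [38, 0], [16, 14]),
  ([10, 14], [], [7, 26, 0], [16, 14]),
  ([10, 16], [], [38, 0], [16, 14]),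
  ([10, 14, 16], [16], [7, 26, 0], [16, 14]),
  ([10, 0], [16], [9, 12, 8], [0]),
  ([10, 0, 14], [16], [9, 12, 8, 4], [0]),
  ([10, 0, 16], [], [9, 12, 8], [0]),
  ([10, 0, 14, 16], [], [9, 12, 8, 4], [0]),
  ([10, 18], [16], [19, 21, 0], [16, 14]),
  ([10, 18, 14], [], [39, 16, 0], [16, 14]),
  ([10, 18, 16], [], [19, 21, 0], [16, 14]),
  ([10, 18, 14, 16], [16], [39, 16, 0], [16, 14]),
  ([10, 0, 18], [16], [0, 16, 38, 4], [0]),
  ([10, 0, 18, 14], [16], [0, 16, 38], [0]),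
  ([10, 0, 18, 16], [], [0, 16, 38, 4], [0]),
  ([10, 0, 18, 14, 16], [], [0, 16, 38], [0]),
  ([8, 14], [], [8, 7, 21, 2], [16, 14]),
  ([8, 14, 16], [], [2, 4, 3], [16, 14]),
  ([8, 0], [], [21, 4, 6], [0]),
  ([8, 0, 14], [], [46, 21, 6], [0]),
  ([8, 0, 16], [], [18, 16, 6, 4], [0]),
  ([8, 0, 14, 16], [], [18, 16, 6], [0]),
  ([8, 18, 14], [], [2, 4, 0, 2], [16, 14]),
  ([8, 18, 14, 16], [], [9, 14, 2, 0], [16, 14]),
  ([8, 0, 18], [], [21, 6], [0]),
  ([8, 0, 18, 14], [], [21, 6, 4], [0]),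
  ([8, 0, 18, 16], [], [28, 21, 6], [0]),
  ([8, 0, 18, 14, 16], [], [4, 21, 6], [0])]

def Tgood : List CE := [([14], [], [], [14]),
  ([14, 16], [], [], [14, 16]),
  ([8, 14], [], [], [8, 14]),
  ([8, 14, 16], [], [], [8, 14, 16]),
  ([6], [], [], [6]),
  ([6, 14], [], [0], [6]),
  ([6, 16], [], [8], [6]),
  ([6, 14, 16], [], [8, 0], [6])]

def Tv : List CE := [([0], [], [], [0]),
  ([0, 14], [], [6], [0]),
  ([0, 16], [], [12], [0]),
  ([0, 14, 16], [], [28], [0])]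

/-- The four-group. -/
def zl : List (List ℕ) := [[], [14], [16], [14, 16]]

noncomputable def th (σ : Bool) : TT := cond σ pth mth

noncomputable abbrev tt (σ : Bool) : TT := tabs (nat_lit 24) (th σ) pid

/-- Equality of words in the letters of the centraliser of the four-group. -/
noncomputable def eB (σ : Bool) (u v : List ℕ) : Bool :=
  fixW (nat_lit 11) (nat_lit 2047) (tt σ) bB (sh 8 u ++ invW (sh 8 v))

noncomputable def cjB (σ : Bool) (ts es : List (List ℕ)) (x : CE) : Bool :=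
  band (fixW (nat_lit 11) (nat_lit 2047) (tt σ) bB ((x.2.2.1 ++ sh 8 x.2.2.2 ++ invW x.2.2.1) ++
    invW (sh 8 (x.1 ++ x.2.1)))) (band (memLL ts x.2.2.2) (memLL es x.2.1))

noncomputable def cjS (σ : Bool) (ts : List (List ℕ)) (x : CE) : Bool :=
  band (eB σ (x.2.2.1 ++ x.2.2.2 ++ invW x.2.2.1) x.1) (memLL ts x.2.2.2)

theorem c_inj : ∀ σ, allR (fun p => allR (fun q => bif' (Nat.beq p q) true
    (bnot (eB σ (getW pw p) (getW pw q)))) 0 40) 0 40 = true := by decide +kernel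

theorem c_act : ∀ σ, allR (fun i => allR (fun p => eB σ ([2 * i] ++ getW pw p ++ invW [2 * i])
    (getW pw (lk (nat_lit 6) (nat_lit 63) (stt.get (2 * i + 1)) p))) 0 40) 0 2 = true := by
  decide +kernel

/-- The involutions of the centraliser of the four-group up to conjugacy. -/
def I28 : List (List ℕ) := [] :: [14] :: (Tin.map Prod.fst ++ Tout.map Prod.fst)

theorem c_inv : ∀ σ, allR (fun k => allL (fun e => bif' (memLL I28 (getW reps k ++ e)) true
    (bnot (eB σ ((getW reps k ++ e) ++ (getW reps k ++ e)) []))) zl) 0 14 = true := by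
  decide +kernel

variable {G : Type*} [Group G]

/-- The generators followed by the auxiliary elements. -/
abbrev FF (f : ℕ → G) : ℕ → G := ext f 3 pdefs

/-- The letters of the centraliser of the four-group. -/
def SS (f : ℕ → G) : ℕ → G := fun i => FF f (i + 8)

abbrev HH (f : ℕ → G) : Subgroup G := centralizer {f 0 ^ 2}

abbrev RR (f : ℕ → G) : Subgroup G := gp (SS f) (sing 2)

abbrev ZZ (f : ℕ → G) : Subgroup G := closure {wval (SS f) [14], wval (SS f) [16]}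

/-- The model of the centraliser of the involution. -/
structure Cx (f : ℕ → G) (σ : Bool) : Prop where
  nM : Nonempty
    (Model (FF f) (HH f) ⊥ (nat_lit 1408) (nat_lit 11) (nat_lit 2047) (tt σ) bB 177408000)
  card : Nat.card (HH f) = 177408000
  cc : Nat.card ↥(HH f ⊓ centralizer {wval (FF f) [30, 32]}) ≤ 30720

variable {f : ℕ → G} {σ : Bool}

theorem cxp (rel : ∀ w ∈ HNTC.K1, wval f w = 1) (top : gp f (sing 3) = centralizer {f 0 ^ 2})
    (card : Nat.card (centralizer ({f 0 ^ 2} : Set G)) = 177408000) : Cx f true := by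
  obtain ⟨M⟩ := pTM.fmodel top rel pK (fun z => HNG.hub z) card.ge
  exact ⟨⟨M.rebase bB (by decide +kernel)⟩, card, (card_cent M (M.ch_top pch
    (by rw [pcc]; decide +kernel)) _).trans (by decide +kernel)⟩

theorem cxm (rel : ∀ w ∈ K1m, wval f w = 1) (top : gp f (sing 3) = centralizer {f 0 ^ 2})
    (card : Nat.card (centralizer ({f 0 ^ 2} : Set G)) = 177408000) : Cx f false := by
  obtain ⟨M⟩ := mTM.fmodel top rel mK (fun z => hubm z) card.ge
  exact ⟨⟨M.rebase bB (by decide +kernel)⟩, card, (card_cent M (M.ch_top mch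
    (by rw [mcc]; decide +kernel)) _).trans (by decide +kernel)⟩

theorem wS (f : ℕ → G) (w : List ℕ) : wval (FF f) (sh 8 w) = wval (SS f) w := wval_sh _ _ _

theorem SS_ext (f : ℕ → G) : ext (SS f) 2 sdefs = SS f := funext fun i =>
  map_ext' (n0 := 2) (defs := sdefs) (MonoidHom.id G) (SS f) (SS f) (fun _ _ => rfl) (fun w hw => by
    rw [← wS]
    exact ext_rels f 3 pdefs (by decide) _ (by revert w; decide +kernel)) (by decide)
    (fun i hi => ext_out _ (by change 2 + 14 ≤ i at hi; change 3 + 21 ≤ _; omega)) i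

theorem memR (f : ℕ → G) (w : List ℕ) : wval (SS f) w ∈ RR f :=
  wval_mem fun l _ => SS_ext f ▸ ext_mem (SS f) 2 (by decide) _

local notation "s⟦" w "⟧" => wval (SS f) w
local notation "z₀" => wval (SS f) [14]
local notation "u₀" => wval (SS f) [16]

/-- Conjugate in the centraliser to an outer element. -/
def Out (f : ℕ → G) (c : G) : Prop :=
  ∃ h ∈ HH f, ∃ w ∈ Tout.map Prod.fst, c = h * wval (SS f) w * h⁻¹

namespace Cx
variable (C : Cx f σ)
include C

noncomputable def M :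
    Model (FF f) (HH f) ⊥ (nat_lit 1408) (nat_lit 11) (nat_lit 2047) (tt σ) bB 177408000 := C.nM.some

theorem eq (u v : List ℕ) (h : eB σ u v = true := by decide +kernel) : s⟦u⟧ = s⟦v⟧ := by
  rw [← wS, ← wS]; exact C.M.eq _ _ h

theorem ne (u v : List ℕ) (h : bnot (eB σ u v) = true := by decide +kernel) : s⟦u⟧ ≠ s⟦v⟧ := by
  rw [← wS, ← wS]; exact C.M.ne _ _ h

theorem eqA (u v : List ℕ) (h : ∀ σ, eB σ u v = true := by decide +kernel) : s⟦u⟧ = s⟦v⟧ :=
  C.eq u v (h σ)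

theorem neA (u v : List ℕ) (h : ∀ σ, bnot (eB σ u v) = true := by decide +kernel) : s⟦u⟧ ≠ s⟦v⟧ :=
  C.ne u v (h σ)

theorem mul (u v w : List ℕ) (h : eB σ (u ++ v) w = true := by decide +kernel) :
    s⟦u⟧ * s⟦v⟧ = s⟦w⟧ := (wval_append _ _ _).symm.trans (C.eq _ _ h)

theorem mulA (u v w : List ℕ) (h : ∀ σ, eB σ (u ++ v) w = true := by decide +kernel) :
    s⟦u⟧ * s⟦v⟧ = s⟦w⟧ := C.mul u v w (h σ)

theorem comm (u v : List ℕ) (h : eB σ (u ++ v) (v ++ u) = true := by decide +kernel) :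
    s⟦u⟧ * s⟦v⟧ = s⟦v⟧ * s⟦u⟧ := (C.mul _ _ _ h).trans (wval_append _ _ _)

theorem memH (w : List ℕ) : s⟦w⟧ ∈ HH f := wS f w ▸ C.M.mem _

theorem fin : Finite (HH f) := Nat.finite_of_card_ne_zero (by rw [C.card]; decide)

/-- A letter as a word in the three generators. -/
theorem base (i : ℕ) (w : List ℕ) (h : ∀ σ, band (lt2 3 w) (fixW (nat_lit 11) (nat_lit 2047) (tt σ) bB
    ([2 * (i + 8)] ++ invW w)) = true := by decide +kernel) : s⟦[2 * i]⟧ = wval f w := by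
  rw [wval_single, ← wval_ext f 3 pdefs w (band_eq (h σ)).1, ← C.M.eq _ _ (band_eq (h σ)).2,
    wval_single]; rfl

theorem z0 : z₀ = f 0 ^ 2 := (C.base 7 [0, 0]).trans (by simp [wval, lval, sq])

theorem zz : s⟦[6]⟧ = f 2 := (C.base 3 [4]).trans (wval_single f 2)

theorem hH {g : G} : g ∈ HH f ↔ g * z₀ = z₀ * g := C.z0 ▸ mem_centralizer_singleton_iff

theorem z2 : z₀ * z₀ = 1 := C.mulA _ _ []

theorem u2 : u₀ * u₀ = 1 := C.mulA _ _ []

theorem uz : u₀ * z₀ = z₀ * u₀ := C.hH.1 (C.memH _)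

theorem le1 : RR f ≤ HH f ⊓ centralizer {u₀} := gp_le.2 fun w hw => ⟨C.memH w,
  mem_centralizer_singleton_iff.2 (C.comm _ _ (by clear C; revert w σ; decide +kernel))⟩

theorem memZ {z : G} (hz : z ∈ ZZ f) : ∃ e ∈ zl, z = s⟦e⟧ := by
  rcases mem_four C.z2 C.u2 C.uz hz with rfl | rfl | rfl | rfl
  exacts [⟨[], by decide, rfl⟩, ⟨[14], by decide, rfl⟩, ⟨[16], by decide, rfl⟩,
    ⟨[14, 16], by decide, (wval_append _ [14] [16]).symm⟩]

theorem cen {z g : G} (hz : z ∈ ZZ f) (hg : g ∈ RR f) : g * z = z * g :=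
  mem_centralizer_singleton_iff.1 ((closure_le (centralizer {g})).2 (by
    rintro _ (rfl | rfl)
    exacts [mem_centralizer_singleton_iff.2 (C.hH.1 (C.le1 hg).1).symm,
      mem_centralizer_singleton_iff.2 (mem_centralizer_singleton_iff.1 (C.le1 hg).2).symm]) hz) |>.symm

theorem zsq {z : G} (hz : z ∈ ZZ f) : z * z = 1 := by
  obtain ⟨e, he, rfl⟩ := C.memZ hz
  exact C.mul _ _ [] (by clear C hz; revert e σ; decide +kernel)

theorem small : (∃ M : Model (SS f) (RR f) (ZZ f) (nat_lit 40) (nat_lit 6) (nat_lit 63) stt sB 7680,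
    M.Ch (RR f) sch) ∧ Nat.card (RR f) = 30720 ∧ RR f = HH f ⊓ centralizer {u₀} := by
  have := C.fin
  have le2 : HH f ⊓ centralizer {u₀} ≤ HH f ⊓ centralizer {wval (FF f) [30, 32]} := fun g hg =>
    ⟨hg.1, mem_centralizer_singleton_iff.2 (by
      rw [show wval (FF f) [30, 32] = z₀ * u₀ from (wS f [14, 16]).trans (wval_append _ [14] [16]),
        ← mul_assoc, C.hH.1 hg.1, mul_assoc, mem_centralizer_singleton_iff.1 hg.2, mul_assoc])⟩
  have : Finite ↥(HH f ⊓ centralizer {wval (FF f) [30, 32]}) :=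
    Finite.of_injective _ (inclusion_injective inf_le_left)
  have : Finite ↥(HH f ⊓ centralizer {u₀}) := Finite.of_injective _ (inclusion_injective le2)
  have : Finite (RR f) := Finite.of_injective _ (inclusion_injective C.le1)
  have c1 := (card_le_of_le le2).trans C.cc
  have c2 := card_le_of_le C.le1
  have c4 := card_four C.z2 C.u2 C.uz (C.neA _ []) (C.neA _ []) (C.neA _ _)
  obtain ⟨M, c3⟩ := cmodel2 sTM (f := SS f) (Z := ZZ f) (s := fun p => s⟦getW pw p⟧)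
    (fun p hp q hq e => by
      have := allR_all (allR_all (c_inj σ) p (Nat.zero_le _) (by simpa using hp)) q (Nat.zero_le _)
        (by simpa using hq)
      cases hb : Nat.beq p q
      · rw [hb] at this
        exact absurd e (C.ne _ _ this)
      · exact beq_eq hb)
    ((closure_le _).2 (by rintro _ (rfl | rfl) <;> exact memR f _))
    (fun z hz p _ => (C.cen hz (memR f _)).symm)
    (fun i hi p hp => by
      rw [← C.eq _ _ (allR_all (allR_all (c_act σ) i (Nat.zero_le _) (by simpa using hi)) p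
        (Nat.zero_le _) (by simpa using hp)), wval_append, wval_append, wval_invW, wval_single])
    (by rw [c4]; exact c2.trans c1)
  rw [SS_ext] at M
  obtain ⟨M⟩ := M
  rw [c4] at c3
  change _ ≤ Nat.card (RR f) at c3
  exact ⟨⟨M.rebase sB (by decide +kernel), Model.ch_top _ _ (by rw [scc]; decide +kernel)⟩,
    by omega, eq_of_le_of_card_ge C.le1 (by omega)⟩

theorem hR {g : G} : g ∈ RR f ↔ g * z₀ = z₀ * g ∧ g * u₀ = u₀ * g := by
  rw [C.small.2.2, mem_inf, C.hH, mem_centralizer_singleton_iff]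

theorem invR {c : G} (hc : c ∈ RR f) (h2 : c * c = 1) :
    ∃ r ∈ RR f, ∃ w ∈ I28, c = r * s⟦w⟧ * r⁻¹ := by
  obtain ⟨⟨M, ch⟩, -⟩ := C.small
  obtain ⟨u, hu, z, hz, e⟩ := M.find ch si (by decide) hc (by simp) .nil
    (List.forall_mem_singleton.2 (by
      rw [show wval (Function.update (SS f) 100 c) [200, 200] = c * c by simp [wval, lval], h2]
      exact one_mem _)) (by simp)
  rw [wval_mkC, mul_assoc, C.cen hz (inv_mem (memR f _)), ← mul_assoc, mul_assoc (wval _ _),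
    ← getW_eq] at e
  obtain ⟨a, ha, rfl⟩ := C.memZ hz
  rw [← wval_append] at e
  have := allL_all (allR_all (c_inv σ) (u.headD 0) (Nat.zero_le _) (blt_lt hu)) a ha
  cases h : memLL I28 (getW reps (u.headD 0) ++ a)
  · rw [h] at this
    rw [e, conj_mul, conj_eq_one_iff, ← wval_append] at h2
    exact absurd h2 (C.ne _ _ this)
  · exact ⟨_, memR f _, _, memLL_mem h, e⟩

theorem cjT (L : List CE) (ts es : List (List ℕ)) (h : allL (cjB σ ts es) L = true) {w : List ℕ}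
    (hw : w ∈ L.map Prod.fst) : ∃ h ∈ HH f, ∃ t ∈ ts, ∃ e ∈ es, h * s⟦t⟧ * h⁻¹ = s⟦w⟧ * s⟦e⟧ := by
  obtain ⟨x, hx, rfl⟩ := List.mem_map.1 hw
  obtain ⟨h1, h2⟩ := band_eq (allL_all h x hx)
  exact ⟨_, C.M.mem _, _, memLL_mem (band_eq h2).1, _, memLL_mem (band_eq h2).2, by
    rw [← wval_append, ← wS, ← wS]; exact C.M.cj _ _ _ h1⟩

theorem cjR (L : List CE) (ts : List (List ℕ)) (h : allL (cjS σ ts) L = true) {w : List ℕ}
    (hw : w ∈ L.map Prod.fst) : ∃ r ∈ RR f, ∃ t ∈ ts, r * s⟦t⟧ * r⁻¹ = s⟦w⟧ := by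
  obtain ⟨x, hx, rfl⟩ := List.mem_map.1 hw
  obtain ⟨h1, h2⟩ := band_eq (allL_all h x hx)
  exact ⟨_, memR f _, _, memLL_mem h2, by
    rw [← wval_invW, ← wval_append, ← wval_append, C.eq _ _ h1]⟩

theorem inner {w : List ℕ} (hw : w ∈ Tin.map Prod.fst) :
    ∃ h ∈ HH f, s⟦w⟧ = h * u₀ * h⁻¹ ∨ s⟦w⟧ = h * (u₀ * z₀) * h⁻¹ := by
  obtain ⟨h, hh, t, ht, e, he, e1⟩ := C.cjT Tin [[16], [16, 14]] [[]]
    (by clear C; revert σ; decide +kernel) hw
  rw [List.mem_singleton.1 he, wval_nil, mul_one] at e1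
  simp only [List.mem_cons, List.not_mem_nil, or_false] at ht
  rcases ht with rfl | rfl
  exacts [⟨h, hh, .inl e1.symm⟩, ⟨h, hh, .inr (by rw [← wval_append]; exact e1.symm)⟩]

theorem cls0 {c : G} (hc : c ∈ HH f) (h2 : c * c = 1) : c = 1 ∨ c = z₀ ∨
    (∃ h ∈ HH f, c = h * u₀ * h⁻¹ ∨ c = h * (u₀ * z₀) * h⁻¹) ∨ Out f c := by
  have := C.fin
  have hi : (RR f).relIndex (HH f) * Nat.card (RR f) = Nat.card (HH f) := by
    rw [relIndex, ← index_mul_card ((RR f).subgroupOf (HH f)),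
      Nat.card_congr (subgroupOfEquivOfLe (C.le1.trans inf_le_left)).toEquiv]
  obtain ⟨m, hm, h⟩ := conj_into (M := HH f) (H := RR f) (k := 1) Nat.prime_two (by
    rw [C.small.2.1, C.card] at hi; omega) (zpowers_le.2 hc) fun v hv => by
      rcases (mem_zpowers_two h2).1 hv with rfl | rfl <;> simp [sq, h2]
  obtain ⟨r, hr, w, hw, e⟩ := C.invR (h c (mem_zpowers c)) (by rw [conj_mul, h2]; simp)
  have hk := mul_mem (inv_mem hm) (C.le1 hr).1
  have e : c = m⁻¹ * r * s⟦w⟧ * (m⁻¹ * r)⁻¹ := by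
    rw [mul_assoc m⁻¹, mul_inv_rev, ← mul_assoc, mul_assoc m⁻¹, ← e]; group
  generalize m⁻¹ * r = k at hk e
  simp only [I28, List.mem_cons, List.mem_append] at hw
  rcases hw with rfl | rfl | hw | hw
  · exact .inl (by simpa using e)
  · exact .inr (.inl (by rw [e, C.hH.1 hk]; simp))
  · obtain ⟨h, hh, e1⟩ := C.inner hw
    refine .inr (.inr (.inl ⟨_, mul_mem hk hh, ?_⟩))
    rcases e1 with e1 | e1 <;> [left; right] <;> rw [e, e1] <;> group
  · exact .inr (.inr (.inr ⟨k, hk, w, hw, e⟩))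

theorem not_u0 (hsq : ∀ s ∈ HH f, s * s * (s * s) = 1 → ¬ Out f (s * s)) : ¬ IsConj z₀ u₀ := by
  have := C.fin
  have : Finite (RR f) := Finite.of_injective _ (inclusion_injective (C.le1.trans inf_le_left))
  have key : ∀ g, g * u₀ * g⁻¹ = z₀ → g * z₀ * g⁻¹ = u₀ ∨ g * z₀ * g⁻¹ = u₀ * z₀ → False := by
    intro g h1 h2
    have hR : ∀ x ∈ RR f, g * x * g⁻¹ ∈ RR f := fun x hx => by
      obtain ⟨a1, a2⟩ := C.hR.1 hx
      have b1 : g * x * g⁻¹ * z₀ = z₀ * (g * x * g⁻¹) := by rw [← h1, conj_mul, conj_mul, a2]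
      have b2 := congrArg (fun y => g * y * g⁻¹) a1
      simp only [← conj_mul] at b2
      refine C.hR.2 ⟨b1, ?_⟩
      rcases h2 with h2 | h2 <;> rw [h2] at b2
      · exact b2
      · rwa [mul_assoc u₀, ← b1, ← mul_assoc, ← mul_assoc u₀, mul_left_inj] at b2
    have b5 : s⟦[4]⟧ ^ 5 = 1 := by rw [← wval_rep]; exact C.eqA _ []
    have b1 : s⟦[4]⟧ ≠ 1 := C.neA _ []
    obtain ⟨r, hr, e⟩ := sylow_conj (p := 5) (by decide) (by rw [C.small.2.1]; decide) (memR f [4])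
      (hR _ (memR f [4])) b5 b1 (by rw [conj_pow, b5]; simp) (by simpa using b1)
    have qb : s⟦[12]⟧ * s⟦[4]⟧ = s⟦[4]⟧ * s⟦[12]⟧ := C.comm _ _ (by clear * -; revert σ; decide +kernel)
    have hq := mul_mem (mul_mem hr (hR _ (memR f [12]))) (inv_mem hr)
    have cq : zpowers (r * (g * s⟦[4]⟧ * g⁻¹) * r⁻¹) ≤ centralizer {r * (g * s⟦[12]⟧ * g⁻¹) * r⁻¹} :=
      zpowers_le.2 (mem_centralizer_singleton_iff.2 (by simp only [conj_mul, qb]))
    have cq := mem_centralizer_singleton_iff.1 (cq (e.ge (mem_zpowers _)))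
    have q2 : r * (g * s⟦[12]⟧ * g⁻¹) * r⁻¹ * (r * (g * s⟦[12]⟧ * g⁻¹) * r⁻¹) = z₀ := by
      rw [conj_mul, conj_mul, C.mulA [12] [12] [16], h1, (C.hR.1 hr).1, mul_inv_cancel_right]
    obtain ⟨⟨M, ch⟩, -⟩ := C.small
    obtain ⟨w, hw, z, hz, e⟩ := M.find ch s5 (by decide) hq (by simp)
      (comm_pairs _ (List.forall_mem_singleton.2 cq.symm)) (by simp) (by simp)
    rw [e, id, mul_assoc, ← mul_assoc z, ← C.cen hz (memR f w), mul_assoc, C.zsq hz, mul_one,
      ← wval_append] at q2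
    exact C.ne _ _ (allL_all (p := fun w => bnot (eB σ (w ++ w) [14]))
      (by clear * -; revert σ; decide +kernel) w (memLL_mem hw)) q2
  intro h
  obtain ⟨g, hg⟩ := isConj_iff.1 h.symm
  have hs : g * s⟦[7, 0]⟧ * g⁻¹ ∈ HH f := C.hH.2 (by
    rw [← hg, conj_mul, conj_mul, (C.hR.1 (memR f _)).2])
  have e : g * s⟦[7, 0]⟧ * g⁻¹ * (g * s⟦[7, 0]⟧ * g⁻¹) = g * z₀ * g⁻¹ := by
    rw [conj_mul, C.mulA [7, 0] [7, 0] [14]]
  have e2 : g * z₀ * g⁻¹ * (g * z₀ * g⁻¹) = 1 := by rw [conj_mul, C.z2]; simp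
  rcases C.cls0 (e ▸ mul_mem hs hs) e2 with h | h | ⟨h, hh, h1⟩ | h
  · exact absurd (conj_eq_one_iff.1 h) (C.neA [14] [])
  · exact absurd (by simpa using h.trans hg.symm) (C.neA [14] [16])
  · refine key (h⁻¹ * g) ?_ (h1.imp (fun e => ?_) fun e => ?_)
    · rw [mul_assoc h⁻¹, mul_inv_rev, ← mul_assoc, mul_assoc h⁻¹, hg, C.hH.1 (inv_mem hh)]; simp
    all_goals rw [mul_assoc h⁻¹, mul_inv_rev, ← mul_assoc, mul_assoc h⁻¹, e]; group
  · exact hsq _ hs (e ▸ e2) (e ▸ h)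

theorem cjz {h : G} (hh : h ∈ HH f) (t : G) : h * t * h⁻¹ * z₀ = h * (t * z₀) * h⁻¹ := by
  rw [mul_assoc, C.hH.1 (inv_mem hh)]; group

theorem uzz : u₀ * z₀ * z₀ = u₀ := by rw [mul_assoc, C.z2, mul_one]

theorem fus0 [Finite G] [IsSimpleGroup G] (nu : ¬ IsConj z₀ u₀) : ∃ c, IsConj z₀ c ∧ Out f c := by
  have z1 : z₀ ≠ 1 := C.neA _ []
  have step : ∀ g, g * z₀ * g⁻¹ ∈ HH f → g * z₀ * g⁻¹ ≠ z₀ → Out f (g * z₀ * g⁻¹) ∨
      IsConj (u₀ * z₀) (g * z₀ * g⁻¹) ∧ IsConj u₀ (g * z₀ * g⁻¹ * z₀) := fun g h1 h2 => by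
    rcases C.cls0 h1 (by rw [conj_mul, C.z2]; simp) with h | h | ⟨h, hh, e | e⟩ | h
    · exact absurd (conj_eq_one_iff.1 h) z1
    · exact absurd h h2
    · exact absurd ((isConj_iff.2 ⟨g, rfl⟩).trans (isConj_iff.2 ⟨h, e.symm⟩).symm) nu
    · exact .inr ⟨isConj_iff.2 ⟨h, e.symm⟩, isConj_iff.2 ⟨h, by rw [e, C.cjz hh, C.uzz]⟩⟩
    · exact .inl h
  have h1 : ¬ Cfsg.IsIsolated z₀ := fun h => by
    have h2 := ZStar.zstar G _ (by rw [sq, C.z2]) h
    rcases IsSimpleGroup.eq_bot_or_eq_top_of_normal (Cfsg.pPrimeCore 2 G) inferInstance with k | k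
    · rcases IsSimpleGroup.eq_bot_or_eq_top_of_normal (center G) inferInstance with k2 | k2
      · exact z1 (mem_bot.1 (k2 ▸ mem_center_iff.2 fun g =>
          mul_inv_eq_iff_eq_mul.1 (mul_inv_eq_one.1 (mem_bot.1 (k ▸ h2 g)))))
      · exact absurd ((wval_append _ [0] [2]).trans ((mem_center_iff.1 (k2.ge (mem_top _)) _).trans
          (wval_append _ [2] [0]).symm)) (C.neA [0, 2] [2, 0])
    · have h4 := PCoreResidual.coprime_card_pPrimeCore 2 G
      have h5 := orderOf_dvd_natCard z₀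
      rw [orderOf_eq_prime (p := 2) (by rw [sq, C.z2]) z1] at h5
      rw [k, card_top] at h4
      exact absurd (Nat.eq_one_of_dvd_coprimes h4 h5 dvd_rfl) (by decide)
  simp only [Cfsg.IsIsolated, not_forall] at h1
  obtain ⟨g, h1, h2⟩ := h1
  rcases step g (C.hH.2 h1.symm) h2 with h | ⟨h, -⟩
  · exact ⟨_, isConj_iff.2 ⟨g, rfl⟩, h⟩
  have za : IsConj z₀ (u₀ * z₀) := (isConj_iff.2 ⟨g, rfl⟩).trans h.symm
  have cl : ∀ w h, (fixW (nat_lit 11) (nat_lit 2047) (tt σ) bB ((h ++ sh 8 [16, 14] ++ invW h) ++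
      invW (sh 8 w)) = true) → IsConj z₀ s⟦w⟧ := fun w h e => za.trans (isConj_iff.2
    ⟨_, by rw [← wval_append, ← wS, ← wS]; exact C.M.cj _ _ _ e⟩)
  obtain ⟨k, hk⟩ := isConj_iff.1 za.symm
  obtain ⟨a, ha⟩ := isConj_iff.1 (cl [10, 14] [7, 26, 0] (by clear * -; revert σ; decide +kernel))
  have d2 := cl [10, 14, 16, 14] [38, 0] (by clear * -; revert σ; decide +kernel)
  have e : k * a * z₀ * (k * a)⁻¹ = k * s⟦[10, 14]⟧ * k⁻¹ := by rw [← ha]; group
  obtain ⟨a1, a2⟩ := C.hR.1 (memR f [10, 14])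
  rcases step (k * a) (C.hH.2 (by
      rw [e, ← hk, conj_mul, conj_mul, ← mul_assoc _ u₀, a2, mul_assoc u₀, a1, ← mul_assoc u₀])) (by
      rw [e, ← hk, ← wval_append]
      simpa using C.neA _ _) with h | ⟨-, h⟩
  · exact ⟨_, isConj_iff.2 ⟨_, rfl⟩, h⟩
  · rw [e] at h
    nth_rw 1 [← hk] at h
    rw [conj_mul, ← wval_append, ← wval_append] at h
    exact absurd ((d2.trans (isConj_iff.2 ⟨k, rfl⟩)).trans h.symm) nu

end Cx

/-- The other type of the extension does not occur. -/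
theorem minus [Finite G] [IsSimpleGroup G] (rel : ∀ w ∈ K1m, wval f w = 1)
    (top : gp f (sing 3) = centralizer {f 0 ^ 2})
    (card : Nat.card (centralizer ({f 0 ^ 2} : Set G)) = 177408000) : False := by
  have C := cxm rel top card
  have no : ∀ c, c * c = 1 → ¬ Out f c := by
    rintro c h ⟨k, -, w, hw, rfl⟩
    rw [conj_mul, conj_eq_one_iff, ← wval_append] at h
    exact C.ne _ [] (allL_all (p := fun w => bnot (eB false (w ++ w) [])) (by decide +kernel) w hw) h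
  obtain ⟨c, h1, h2⟩ := C.fus0 (C.not_u0 fun s _ => no _)
  obtain ⟨g, rfl⟩ := isConj_iff.1 h1
  exact no _ (by rw [conj_mul, C.z2]; simp) h2

end Cfsg.Agent.Lib.HNB
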