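import Cfsg.Agent.Lib.HNG
import Cfsg.Agent.Lib.HNBase
import Cfsg.Agent.Lib.AltPres

/-! The element of order five of the presentation of the Harada–Norton group, and the alternating
group of degree twelve, in a group with the centraliser `2.HS.2`. -/

set_option autoImplicit false
set_option maxRecDepth 100000

namespace Cfsg.Agent.Lib.HNC

open Subgroup Cfsg.Agent.Lib.PermNet Cfsg.Agent.Lib.Words Cfsg.Agent.Lib.PermGroup Cfsg.Agent.Lib.DCE
  Cfsg.Agent.Lib.BT Cfsg.Agent.Lib.BTStep Cfsg.Agent.Lib.HNG Cfsg.Agent.Lib.AltPres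

variable {G : Type*} [Group G] {f : ℕ → G} {H : Subgroup G}

theorem exists_alt (Y : Fin 10 → G) (h3 : ∀ i, Y i ^ 3 = 1)
    (h2 : ∀ i j, i ≠ j → (Y i * Y j) ^ 2 = 1) (h1 : Y 0 ≠ 1) :
    ∃ H : Subgroup G, Nonempty (H ≃* alternatingGroup (Fin 12)) := by
  let y : Fin 10 → G × Equiv.Perm (Fin 12) := fun i => (Y i, cyc 10 11 (i.castAdd 2))
  have k : ∀ i : Fin 10, (10 : Fin 12) ≠ i.castAdd 2 ∧ (11 : Fin 12) ≠ i.castAdd 2 := by decide
  obtain ⟨hf, hc⟩ := card_closure_le Finset.univ y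
    (fun i _ => Prod.ext (h3 i) (cyc_pow_three (by decide) (k i).1 (k i).2))
    (fun i _ j _ h => Prod.ext (h2 i j h) (cyc_mul_cyc_sq (by decide) (k i).1 (k i).2 (k j).1 (k j).2
      fun e => h (Fin.castAdd_injective _ _ e)))
  set W := closure (y '' (Finset.univ : Finset (Fin 10))) with hW
  have e : W.map (MonoidHom.snd _ _) = alternatingGroup (Fin 12) := by
    rw [hW, MonoidHom.map_closure, ← closure_cyc (a := (10 : Fin 12)) (b := 11) (by decide),
      show {c : Fin 12 | c ≠ 10 ∧ c ≠ 11} = Fin.castAdd 2 '' ((Finset.univ : Finset (Fin 10)) : Set _) by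
        ext c; simp only [Finset.coe_univ, Set.image_univ, Set.mem_range, Set.mem_setOf_eq]
        revert c; decide, Set.image_image, Set.image_image]
    rfl
  have hb := ((MonoidHom.snd _ _).subgroupMap_surjective W).bijective_of_nat_card_le (by
    have := two_mul_nat_card_alternatingGroup (α := Fin 12)
    rw [Nat.card_perm, Nat.card_fin] at this
    rw [e]
    change 2 * _ ≤ Nat.factorial 12 at hc
    omega)
  let σ := (MulEquiv.ofBijective _ hb).trans (MulEquiv.subgroupCongr e)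
  have := alternatingGroup.isSimpleGroup (α := Fin 12) (by simp)
  have := σ.isSimpleGroup
  let φ : W →* G := (MonoidHom.fst _ _).comp W.subtype
  have hi : Function.Injective φ := φ.ker_eq_bot_iff.1 ((φ.normal_ker.eq_bot_or_eq_top).resolve_right
    fun h => h1 (h.ge (mem_top (⟨y 0, subset_closure ⟨0, by simp, rfl⟩⟩ : W))))
  exact ⟨φ.range, ⟨(MonoidHom.ofInjective hi).symm.trans σ⟩⟩

theorem conj_iter {g a : G} {k : ℕ} (h : g * a * g⁻¹ = a ^ k) (n : ℕ) :
    g ^ n * a * (g ^ n)⁻¹ = a ^ k ^ n := by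
  induction n with
  | zero => simp
  | succ n ih => rw [pow_succ' k, pow_mul, ← h, conj_pow, ← ih, pow_succ']; group

section
variable (M : MG f H) (ch : M.Ch H gch)
  (hH : ∀ g, g ∈ H ↔ g * wval (FF f) [0, 0] = wval (FF f) [0, 0] * g)
include M ch hH

/-- An element that centralises `A₈` and permutes the three involutions of the four-group. -/
theorem rho [Finite G] (card : Nat.card H = 177408000)
    (fus : IsConj (wval (FF f) [0, 0]) (wval (FF f) [4])) :
    ∃ ρ, Cj ρ (FF f) [[10], [12], [4], [0, 0, 4], [8]] [[10], [12], [0, 0], [4], [8]] := by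
  have tz : wval (FF f) [0, 0, 4] = wval (FF f) [0, 0] * wval (FF f) [4] := wval_append _ [0, 0] [4]
  have a7 := M.pow [8] 7 (by decide +kernel)
  have a1 := M.ne_one [8] (by decide +kernel)
  have az := M.comm [8] [4] (by decide +kernel)
  have tt := M.pow [0, 0] 2 (by decide +kernel)
  have t1 := M.ne_one [0, 0] (by decide +kernel)
  have ne := M.ne [0, 0] [4] (by decide +kernel)
  have zt := M.cj [0, 0] [4] [4] (by decide +kernel)
  have r1 := M.cj [0, 22, 17, 14, 12] [4] [0, 0, 4] (by decide +kernel)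
  have r2 := M.cj [0, 22, 17, 14, 12] [8] (rep 6 [8]) (by decide +kernel)
  have b1 := M.cj [12] [8] (rep 2 [8]) (by decide +kernel)
  have b2 := M.cj [12] [4] [4] (by decide +kernel)
  have s1 := fun c (hc : c ∈ H) h1 h2 => find0 M ch s_1 (by decide) hc
    (comm_pairs _ (List.forall_mem_singleton.2 h1)) (List.forall_mem_singleton.2 h2)
  have hr := (hH _).1 (M.mem [0, 22, 17, 14, 12])
  have hb := (hH _).1 (M.mem [12])
  have ha := M.mem [8]
  have hz := (hH _).1 (M.mem [4])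
  suffices h : ∃ g, Cj g (FF f) [[4], [0, 0, 4], [8]] [[0, 0], [4], [8]] by
    obtain ⟨g, C⟩ := h
    obtain ⟨g, C⟩ := step M ch C (r := [12]) (p0 := [0]) (fun g => (hH g).2) s_2 (by decide +kernel)
    exact step M ch C (r := [10]) (p0 := [2]) (fun g => (hH g).2) s_3 (by decide +kernel)
  suffices h : ∃ g, g * wval (FF f) [4] * g⁻¹ = wval (FF f) [0, 0] ∧
      g * wval (FF f) [0, 0] * g⁻¹ = wval (FF f) [0, 0] * wval (FF f) [4] ∧
      g * wval (FF f) [8] * g⁻¹ = wval (FF f) [8] by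
    obtain ⟨g, e1, e2, e3⟩ := h
    refine ⟨g, .cons (mul_inv_eq_iff_eq_mul.1 e1) (.cons (mul_inv_eq_iff_eq_mul.1 ?_)
      (.cons (mul_inv_eq_iff_eq_mul.1 e3) .nil))⟩
    rw [tz, ← conj_mul, e1, e2, mul_assoc, hz, ← mul_assoc, ← sq, tt, one_mul]
  rw [wval_rep] at r2 b1
  rw [tz] at r1
  simp only [id] at s1
  have v2 : ∀ c, wval (Function.update (FF f) 500 c) [1000, 1000] = c * c := fun c => by
    simp [wval, lval]
  generalize wval (FF f) [0, 22, 17, 14, 12] = r at *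
  generalize wval (FF f) [12] = b at *
  generalize hA : wval (FF f) [8] = a at *
  generalize hT : wval (FF f) [0, 0] = τ at *
  generalize hZ : wval (FF f) [4] = z at *
  have := Fact.mk (show Nat.Prime 7 by norm_num)
  have oa := orderOf_eq_prime a7 a1
  have oc : ∀ g, orderOf (g * a * g⁻¹) = 7 := fun g =>
    orderOf_eq_prime (by rw [conj_pow, a7]; simp) (by simpa using a1)
  obtain ⟨g0, e0⟩ := isConj_iff.1 fus.symm
  obtain ⟨m, hm, e1⟩ := conj_into (M := H) (H := zpowers a) (p := 7) (k := 1) (by norm_num) (by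
      have := index_mul_card ((zpowers a).subgroupOf H)
      rw [Nat.card_congr (subgroupOfEquivOfLe (zpowers_le.2 ha)).toEquiv, Nat.card_zpowers, oa,
        card] at this
      rw [relIndex]; omega)
    (P := zpowers (g0 * a * g0⁻¹)) (zpowers_le.2 ((hH _).2 (by rw [← e0, conj_mul, conj_mul, az])))
    (by rintro _ ⟨j, rfl⟩
        rw [pow_one, ← zpow_natCast, ← zpow_mul, mul_comm, zpow_mul, zpow_natCast, ← oc g0,
          pow_orderOf_eq_one, one_zpow])
  replace e1 := e1 _ (mem_zpowers _)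
  rw [show m * (g0 * a * g0⁻¹) * m⁻¹ = m * g0 * a * (m * g0)⁻¹ by group] at e1
  replace e0 : m * g0 * z * (m * g0)⁻¹ = τ := by
    rw [← mul_inv_eq_iff_eq_mul.2 ((hH m).1 hm), ← e0]; group
  generalize m * g0 = g at e0 e1
  obtain ⟨j, hj⟩ := (eq_of_le_of_card_ge (zpowers_le.2 e1)
    (by rw [Nat.card_zpowers, Nat.card_zpowers, oa, oc])).ge (mem_zpowers a)
  obtain ⟨k, hk⟩ := mem_powers_iff_mem_zpowers.2 e1
  obtain ⟨u, hu, e⟩ := s1 (g * τ * g⁻¹) ((hH _).2 (by nth_rw 2 3 [← e0]; rw [conj_mul, conj_mul, hz]))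
    (by have : Commute (g * τ * g⁻¹) (g * a * g⁻¹) := by
          rw [Commute, SemiconjBy, conj_mul, conj_mul, (hH a).1 ha]
        exact hj ▸ (this.zpow_right j).eq)
    (by rw [v2, conj_mul, ← sq, tt]; simp)
  obtain ⟨g, k, e0, e, hk⟩ : ∃ (g : G) (k : ℕ), g * z * g⁻¹ = τ ∧ g * τ * g⁻¹ = τ * z ∧
      g * a * g⁻¹ = a ^ k := by
    have := memLL_mem hu
    simp only [List.mem_cons, List.not_mem_nil, or_false] at this
    rcases this with rfl | rfl | rfl | rfl
    · exact absurd (by simpa using e) t1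
    · exact absurd (by simpa using e.trans (hT.trans e0.symm)) ne
    · refine ⟨r * g, 6 * k, ?_, ?_, ?_⟩
      · rw [← mul_inv_eq_iff_eq_mul.2 hr, ← e0]; group
      · rw [← r1, ← hZ, ← e]; group
      · rw [pow_mul, ← r2, conj_pow, show a ^ k = _ from hk]; group
    · exact ⟨g, k, e0, e.trans tz, hk.symm⟩
  have e2 : g * (τ * z) * g⁻¹ = z := by
    rw [← conj_mul, e0, e, mul_assoc, hz, ← mul_assoc, ← sq, tt, one_mul]
  have e3 : ∀ x, g ^ 4 * x * (g ^ 4)⁻¹ = g * (g * (g * (g * x * g⁻¹) * g⁻¹) * g⁻¹) * g⁻¹ :=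
    fun x => by simp only [pow_succ, pow_zero, one_mul, mul_inv_rev, mul_assoc]
  have f1 : g ^ 4 * z * (g ^ 4)⁻¹ = τ := by rw [e3, e0, e, e2, e0]
  have f2 : g ^ 4 * τ * (g ^ 4)⁻¹ = τ * z := by rw [e3, e, e2, e0, e]
  have f3 := conj_iter hk 4
  rw [← pow_mod_orderOf a, oa, Nat.pow_mod] at f3
  generalize g ^ 4 = g' at f1 f2 f3
  have key : ∀ c, c * z * c⁻¹ = z → c * τ = τ * c → c * (g' * a * g'⁻¹) * c⁻¹ = a →
      ∃ g, g * z * g⁻¹ = τ ∧ g * τ * g⁻¹ = τ * z ∧ g * a * g⁻¹ = a := fun c c1 c2 c3 =>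
    ⟨c * g', by rw [← mul_inv_eq_iff_eq_mul.2 c2, ← f1]; group, by
      rw [← c1, ← mul_inv_eq_iff_eq_mul.2 c2, conj_mul, ← f2, mul_inv_eq_iff_eq_mul.2 c2]; group,
      by nth_rw 2 [← c3]; group⟩
  rcases (by decide : ∀ i < 7, i ^ 4 % 7 = 0 ∨ i ^ 4 % 7 = 1 ∨ i ^ 4 % 7 = 2 ∨ i ^ 4 % 7 = 4) _
    (Nat.mod_lt k (by norm_num)) with h | h | h | h <;> rw [h] at f3
  · exact absurd (by simpa using f3) a1
  · exact key 1 (by simp) (by simp) (by simpa using f3)
  · exact key b⁻¹ (by nth_rw 1 [← b2]; group) (Commute.inv_left hb) (by rw [f3, ← b1]; group)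
  · exact key b b2 hb (by rw [f3, ← conj_pow, b1, ← pow_mul, pow_succ, a7, one_mul])

def U1 : List (List ℕ) := [[0], [4], [0, 0], [18], [20], [14], [2, 7], [10, 20, 16, 10]]

def V1 : List (List ℕ) := [[20, 4, 0], [20], [18], [0, 0], [4], [14], [9, 2, 4, 0, 18, 3, 8, 4],
  [10, 20, 16, 10]]

/-- An element that interchanges two commuting involutions. -/
theorem swap {ρ : G}
    (C : Cj ρ (FF f) [[10], [12], [4], [0, 0, 4], [8]] [[10], [12], [0, 0], [4], [8]]) :
    ∃ n, Cj n (FF f) U1 V1 := by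
  obtain ⟨n, C⟩ := step M ch (cj_chain M C _ _ _ hLc) (r := [2, 7]) (p0 := [2]) (fun g => (hH g).2) s_4
    (by decide +kernel)
  exact ⟨n, cj_new M C [([24, 0, 25, 22, 1, 24, 18, 0], [0], [20, 4, 0]),
    ([24, 0, 25, 22, 1, 24, 18, 8, 0], [4], [20]), ([2], [0, 0], [18]), ([4], [18], [0, 0]),
    ([24, 0, 25, 1, 24, 18, 16, 6, 0], [20], [4]), ([24], [14], [14]),
    ([0], [2, 7], [9, 2, 4, 0, 18, 3, 8, 4]), ([25, 16], [10, 20, 16, 10], [10, 20, 16, 10])]
    (by decide +kernel)⟩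

theorem five {n : G} (C : Cj n (FF f) U1 V1) : ∃ t, t ^ 5 = 1 ∧
    (FF f 0)⁻¹ * t * FF f 0 * (t * t) = 1 ∧ (FF f 2 * t) ^ 3 = 1 ∧
    Cj t (FF f) [[2, 7], [14], [16]] [[2, 7], [14], [16]] ∧
    ∀ m < 4, (wval (FF f) [10, 20, 16, 10] *
      (t ^ (m + 1) * wval (FF f) [10, 20, 16, 10] * (t ^ (m + 1))⁻¹)) ^ 2 = 1 := by
  have R := fun p h => cj_rel (cj_symm C) [10, 24, 10, 20] p (M.one _ h)
  have cm := fun p h => (cj_symm C).comm p (M.comm [10, 24, 10, 20] _ h)
  have ht : n * (n⁻¹ * wval (FF f) [10, 24, 10, 20] * n⁻¹⁻¹) * n⁻¹ = wval (FF f) [10, 24, 10, 20] := by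
    group
  generalize n⁻¹ * wval (FF f) [10, 24, 10, 20] * n⁻¹⁻¹ = t at R cm ht
  have t5 : t ^ 5 = 1 := by
    simpa [wval, lval, pow_succ, mul_assoc] using R [0, 0, 0, 0, 0] (by decide +kernel)
  have c1 : t * wval (FF f) [18] = wval (FF f) [18] * t := cm [6] (by decide +kernel)
  have c2 : t * wval (FF f) [20] = wval (FF f) [20] * t := cm [8] (by decide +kernel)
  have c3 : t * wval (FF f) [14] = wval (FF f) [14] * t := cm [10] (by decide +kernel)
  have c4 : t * wval (FF f) [2, 7] = wval (FF f) [2, 7] * t := cm [12] (by decide +kernel)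
  have c5 : wval (FF f) [0, 0] * t * (wval (FF f) [0, 0] * t) = 1 := by
    simpa [wval, lval, U1, mul_assoc] using R [6, 0, 6, 0] (by decide +kernel)
  have k1 : n * wval (FF f) [0, 0] * n⁻¹ = wval (FF f) [18] := cj_conj C [4]
  have k2 : n * wval (FF f) [4] * n⁻¹ = wval (FF f) [20] := cj_conj C [2]
  have cw : ∀ u v, fixW (nat_lit 11) (nat_lit 2047) gtt gB (([16] ++ u ++ invW [16]) ++ invW v) = true →
      t * wval (FF f) u = wval (FF f) u * t → wval (FF f) [16] * t * (wval (FF f) [16])⁻¹ * wval (FF f) v =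
      wval (FF f) v * (wval (FF f) [16] * t * (wval (FF f) [16])⁻¹) := fun u v h1 h2 => by
    rw [← M.cj _ _ _ h1, conj_mul, conj_mul, h2]
  have wt := (hH _).1 (M.mem [16])
  obtain ⟨u, hu, e⟩ := find0 M ch s_5 (by decide)
    (c := n * (wval (FF f) [16] * t * (wval (FF f) [16])⁻¹) * n⁻¹)
    ((hH _).2 (C.comm [6] (cw [20, 18] [18] (by decide +kernel) (by
      rw [show [20, 18] = [20] ++ [18] from rfl, wval_append]
      exact (Commute.mul_right c2 c1).eq))))
    (comm_pairs _ (List.forall_mem_cons.2 ⟨C.comm [8] (cw [18] [20] (by decide +kernel) c1),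
      List.forall_mem_singleton.2 (C.comm [10] (cw [14] [14] (by decide +kernel) c3))⟩))
    (List.forall_mem_cons.2 ⟨by
      have : ∀ c, wval (Function.update (FF f) 500 c) [18, 1000, 18, 1000] =
          wval (FF f) [18] * c * (wval (FF f) [18] * c) := fun c => by simp [wval, lval, mul_assoc]
      rw [this, ← k1, ← mul_inv_eq_iff_eq_mul.2 wt, conj_mul, conj_mul, conj_mul, conj_mul, c5]
      simp, List.forall_mem_singleton.2 (by
      have : ∀ c, wval (Function.update (FF f) 500 c) [1000, 1000, 1000, 1000, 1000] = c ^ 5 :=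
        fun c => by simp [wval, lval, pow_succ, mul_assoc]
      rw [this, conj_pow, conj_pow, t5]
      simp)⟩)
  rw [mk5, wval_append, wval_append, wval_rep, wval_rep, ← k2, ← ht, conj_pow, conj_pow, conj_mul,
    conj_mul, mul_left_inj, mul_right_inj] at e
  obtain ⟨h1, h2⟩ := (band_eq hu).imp blt_lt blt_lt
  generalize u.headD 0 = j at e h1
  generalize u.getD 1 0 = k at e h2
  have zz := M.pow [4] 2 (by decide +kernel)
  have zw : Commute (wval (FF f) [4]) (wval (FF f) [16]) := M.comm [4] [16] (by decide +kernel)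
  have e3 := conj_iter (g := wval (FF f) [4] ^ j * wval (FF f) [16]) (a := t) (k := k) (by
    have : wval (FF f) [4] ^ j * wval (FF f) [4] ^ j = 1 := by rw [← sq, ← pow_mul, mul_comm, pow_mul, zz, one_pow]
    rw [mul_inv_rev, mul_assoc, mul_assoc, ← mul_assoc t, ← mul_assoc (wval (FF f) [16]),
      ← mul_assoc (wval (FF f) [16]), e, ← mul_assoc, ← mul_assoc, ← mul_assoc, this]
    group) 3
  rw [(zw.pow_left j).mul_pow, M.pow [16] 3 (by decide +kernel), mul_one, ← pow_mul] at e3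
  replace e3 := congrArg (n * · * n⁻¹) e3
  rw [← conj_mul, ← conj_mul, ← conj_inv, ← conj_pow, ← conj_pow, k2, ht, ← wval_rep, ← wval_rep,
    ← wval_invW, ← wval_append, ← wval_append] at e3
  obtain ⟨rfl, rfl⟩ : j = 0 ∧ k = 1 := by
    by_contra hn
    exact M.ne _ _ ((by decide +kernel : ∀ j < 2, ∀ k < 5, ¬(j = 0 ∧ k = 1) →
      bnot (fixW (nat_lit 11) (nat_lit 2047) gtt gB ((rep (j * 3) [20] ++ [10, 24, 10, 20] ++
        invW (rep (j * 3) [20])) ++ invW (rep (k ^ 3) [10, 24, 10, 20]))) = true) j h1 k h2 hn) e3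
  refine ⟨t, t5, ?_, ?_, .cons c4 (.cons c3 (.cons ?_ .nil)), fun m hm => ?_⟩
  · simpa [wval, lval, U1, mul_assoc] using R [3, 0, 2, 0, 0] (by decide +kernel)
  · simpa [wval, lval, U1, pow_succ, mul_assoc] using R [4, 0, 4, 0, 4, 0] (by decide +kernel)
  · exact (mul_inv_eq_iff_eq_mul.1 (by simpa using e)).symm
  · have := R (rep 2 ([16] ++ (rep (m + 1) [0] ++ [16] ++ invW (rep (m + 1) [0]))))
      ((by decide +kernel : ∀ m < 4, fixW (nat_lit 11) (nat_lit 2047) gtt gB (subst ([10, 24, 10, 20] :: V1)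
        (rep 2 ([16] ++ (rep (m + 1) [0] ++ [16] ++ invW (rep (m + 1) [0]))))) = true) m hm)
    rwa [wval_rep, wval_append, wval_append, wval_append, wval_invW, wval_rep, wval_single _ 8,
      wval_single _ 0] at this

def YW : List (List ℕ) := [[24], [24, 23], [20, 24, 20], [9, 15, 24, 8], [14]]

def YP : List (List ℕ) := [[4, 3, 0, 4, 2, 1, 4, 0, 4, 2, 1], [5, 0, 5, 0, 5, 1, 5, 1, 5, 2],
  [0, 5, 0, 5, 1, 5, 1, 4, 2], [1, 4, 1, 4, 0, 4, 0, 5, 2], [2]]

omit ch hH in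
theorem alt {t : G} (t5 : t ^ 5 = 1) (C : Cj t (FF f) [[2, 7], [14], [16]] [[2, 7], [14], [16]])
    (h : ∀ m < 4, (wval (FF f) [10, 20, 16, 10] *
      (t ^ (m + 1) * wval (FF f) [10, 20, 16, 10] * (t ^ (m + 1))⁻¹)) ^ 2 = 1) :
    ∃ H : Subgroup G, Nonempty (H ≃* alternatingGroup (Fin 12)) := by
  have c : ∀ j < 5, Commute t (wval (FF f) (getW YW j)) := fun j hj => by
    rw [M.eq _ _ ((by decide +kernel : ∀ j < 5, fixW (nat_lit 11) (nat_lit 2047) gtt gB
      (getW YW j ++ invW (subst [[2, 7], [14], [16]] (getW YP j))) = true) j hj)]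
    exact conj_subst C _
  have mx : ∀ i : ℕ, ∀ j < 5, (t ^ i * wval (FF f) [10, 20, 16, 10] * (t ^ i)⁻¹ *
      wval (FF f) (getW YW j)) ^ 2 = 1 := fun i j hj => by
    rw [← mul_inv_eq_iff_eq_mul.2 ((c j hj).pow_left i).eq, conj_mul, conj_pow, ← wval_append,
      M.pow _ 2 ((by decide +kernel : ∀ j < 5, fixW (nat_lit 11) (nat_lit 2047) gtt gB
        (rep 2 ([10, 20, 16, 10] ++ getW YW j)) = true) j hj)]
    simp
  refine exists_alt (fun i => if i.1 < 5 then t ^ i.1 * wval (FF f) [10, 20, 16, 10] * (t ^ i.1)⁻¹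
    else wval (FF f) (getW YW (i.1 - 5))) (fun i => ?_) (fun i j hij => ?_)
    (by simpa using M.ne_one [10, 20, 16, 10] (by decide +kernel))
  · split_ifs with h1
    · rw [conj_pow, M.pow _ 3 (by decide +kernel)]; simp
    · exact M.pow _ 3 ((by decide +kernel : ∀ j < 5, fixW (nat_lit 11) (nat_lit 2047) gtt gB
        (rep 3 (getW YW j)) = true) _ (by omega))
  · have hij : i.1 ≠ j.1 := fun e => hij (Fin.ext e)
    split_ifs with h1 h2 h2
    · have e : t ^ j.1 = t ^ i.1 * t ^ ((j.1 + 4 - i.1) % 5 + 1) := by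
        rw [← pow_add, pow_eq_pow_mod (_ + _) t5]
        congr 1; omega
      have := congrArg (t ^ i.1 * · * (t ^ i.1)⁻¹) (h ((j.1 + 4 - i.1) % 5) (by omega))
      rw [mul_one, mul_inv_cancel, ← conj_pow, ← conj_mul] at this
      rw [e, ← this]
      congr 2; group
    · exact mx _ _ (by omega)
    · exact pow_swap (mx _ _ (by omega))
    · rw [← wval_append]
      exact M.pow _ 2 ((by decide +kernel : ∀ i < 5, ∀ j < 5, i ≠ j → fixW (nat_lit 11) (nat_lit 2047)
        gtt gB (rep 2 (getW YW i ++ getW YW j)) = true) _ (by omega) _ (by omega) (by omega))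

end

/-- The fourth generator and the alternating group. -/
theorem exists_t [Finite G] (rel : ∀ w ∈ HNTC.K1, wval f w = 1)
    (top : gp f (sing 3) = centralizer {f 0 ^ 2})
    (card : Nat.card (centralizer ({f 0 ^ 2} : Set G)) = 177408000) (fus : IsConj (f 0 ^ 2) (f 2)) :
    (∃ t, ∀ w ∈ HNBase.K, wval (Function.update f 3 t) w = 1) ∧
      ∃ H : Subgroup G, Nonempty (H ≃* alternatingGroup (Fin 12)) := by
  obtain ⟨M, ch⟩ := model top rel card.ge
  have e : ∀ i < 3, FF f i = f i := fun i hi => ext_of_lt _ _ hi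
  have e0 : wval (FF f) [0, 0] = f 0 ^ 2 := by simp [wval, lval, e 0, sq]
  have hH : ∀ g, g ∈ centralizer {f 0 ^ 2} ↔ g * wval (FF f) [0, 0] = wval (FF f) [0, 0] * g :=
    fun g => e0 ▸ mem_centralizer_singleton_iff
  obtain ⟨ρ, C⟩ := rho M ch hH card (by rwa [e0, wval_single _ 2, e 2 (by decide)])
  obtain ⟨n, C⟩ := swap M ch hH C
  obtain ⟨t, t5, h1, h2, C, h3⟩ := five M ch hH C
  refine ⟨⟨t, derive [] (all_append (K := HNTC.K1)
    (L := [[6, 6, 6, 6, 6], [1, 6, 0, 6, 6], [7, 3, 6, 2], [4, 6, 4, 6, 4, 6]]) (fun w hw =>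
      (wval_upd t (List.all_eq_true.1 (by decide +kernel : HNTC.K1.all (lt2 3) = true) w hw)).trans
        (rel w hw)) ?_) _ (by decide +kernel)⟩, alt M t5 C h3⟩
  have h4 := conj_subst C [2, 0, 4, 0, 3, 0, 3]
  rw [← M.eq [2] _ (by decide +kernel), wval_single _ 1, e 1 (by decide)] at h4
  rw [e 0 (by decide)] at h1
  rw [e 2 (by decide)] at h2
  simp only [List.forall_mem_cons, List.not_mem_nil, IsEmpty.forall_iff, implies_true, and_true]
  refine ⟨?_, ?_, ?_, ?_⟩
  · simpa [wval, lval, pow_succ, mul_assoc] using t5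
  · simpa [wval, lval, mul_assoc] using h1
  · simp [wval, lval, h4]
  · simpa [wval, lval, pow_succ, mul_assoc] using h2

end Cfsg.Agent.Lib.HNC
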