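import Cfsg.Agent.Lib.HNX
import Cfsg.Agent.Lib.HNEM
import Cfsg.Agent.Lib.InvolCount

/-! A simple group that contains the Harada–Norton group and has the same centraliser of a
non-central involution is the Harada–Norton group. -/

set_option autoImplicit false
set_option maxRecDepth 100000

namespace Cfsg.Agent.Lib.HNE

open Subgroup Cfsg.Agent.Lib.PermNet Cfsg.Agent.Lib.Words Cfsg.Agent.Lib.PermGroup Cfsg.Agent.Lib.DCE
  Cfsg.Agent.Lib.BT Cfsg.Agent.Lib.HNX Cfsg.Agent.Lib.HNEM

variable {G : Type*} [Group G] {F : ℕ → G}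

/-- Triples `x, g, w` with `x = g w g⁻¹`. -/
def CJ : List (List ℕ × List ℕ × List ℕ) := [([16, 8], [24], [16]), ([20, 30], [4, 3, 4, 0, 3], [8]),
  ([20, 30, 8], [3, 4, 0, 3], [8]), ([10, 12, 10, 12, 10, 12], [3, 4, 0, 2, 4, 3, 3], [8]),
  ([10, 12, 10, 12, 10, 12, 8], [3, 3, 4, 2, 4, 0, 3, 24], [16]),
  ([10], [2, 1, 2, 13, 15, 12, 14, 10, 4, 3, 4, 0, 3], [8]),
  ([10, 8], [28, 30, 2, 1, 2, 13, 15, 12, 14, 10, 4, 3, 4, 0, 3], [8]), ([8], [], [8]), ([16], [], [16])]

theorem cj (hR : ∀ w ∈ RR, wval F w = 1) :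
    ∀ t ∈ CJ, wval F t.1 = wval F t.2.1 * wval F t.2.2 * (wval F t.2.1)⁻¹ := fun t ht => by
  have := derive [] hR (CJ.map fun t => t.2.1 ++ t.2.2 ++ invW t.2.1 ++ invW t.1) (by decide +kernel) _
    (List.mem_map_of_mem ht)
  rw [wval_append, wval_append, wval_append, wval_invW, wval_invW, mul_inv_eq_one] at this
  exact this.symm

theorem cent [Finite G] (hR : ∀ w ∈ RR, wval F w = 1) (u1 : F 4 ≠ 1) (z1 : F 8 ≠ 1)
    (nu : ¬ IsConj (F 8) (F 4))
    (cR : ∀ g, g * F 8 = F 8 * g → g * F 4 = F 4 * g → g ∈ gp F [[10], [12]])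
    {S : Subgroup G} (hS : ∀ i, F i ∈ S) : centralizer {F 4} ≤ S ∧
      Nat.card (centralizer ({F 4} : Set G)) = 3686400 ∧ ∀ c ∈ centralizer {F 4}, c * c = 1 → c ≠ 1 →
        ∃ g ∈ S, c = g * F 8 * g⁻¹ ∨ c = g * F 4 * g⁻¹ := by
  have hA := derive [] hR (KA.map (sh 5)) (by decide +kernel)
  have hB := derive [] hR (KB.map fun w => sh 5 w ++ invW [8]) (by decide +kernel)
  have hM := derive [] hR ((List.range 11).map fun i => [2 * (i + 5), 8] ++ invW [8, 2 * (i + 5)])
    (by decide +kernel)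
  have e4 : wval F [8] = F 4 := wval_single F 4
  have e8 : wval F [16] = F 8 := wval_single F 8
  have uu : F 4 * F 4 = 1 := by rw [← e4, ← wval_append]; exact hR _ (by decide +kernel)
  have zz : F 8 * F 8 = 1 := by rw [← e8, ← wval_append]; exact hR _ (by decide +kernel)
  replace hB : ∀ w ∈ KB, wval F (sh 5 w) = F 4 := fun w hw => by
    have := hB _ (List.mem_map_of_mem hw)
    rwa [wval_append, wval_invW, mul_inv_eq_one, e4] at this
  replace hM : ∀ i < 11, F (i + 5) ∈ centralizer {F 4} := fun i hi => by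
    have := hM _ (List.mem_map_of_mem (List.mem_range.2 hi))
    rw [wval_append, wval_invW, mul_inv_eq_one] at this
    simpa [wval, lval, mem_centralizer_singleton_iff] using this
  have hq : F 12 * F 8 * (F 12)⁻¹ = F 8 * F 4 := by
    simpa [wval, lval] using (cj hR ([16, 8], [24], [16]) (by decide)).symm
  have wS : ∀ w, wval F w ∈ S := fun w => by
    induction w with
    | nil => exact one_mem _
    | cons l w ih =>
      rw [wval_cons, lval]; exact mul_mem (by split_ifs; exacts [hS _, inv_mem (hS _)]) ih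
  set C := centralizer ({F 4} : Set G)
  have cu : ∀ g : C, g * F 4 = F 4 * g := fun g => mem_centralizer_singleton_iff.1 g.2
  let u : C := ⟨F 4, mem_centralizer_singleton_iff.2 rfl⟩
  have u2 : u * u = 1 := Subtype.ext uu
  have : (zpowers u).Normal := ⟨fun n hn g => by
    rcases (mem_zpowers_two u2).1 hn with rfl | rfl
    · simp
    · rw [show g * u = u * g from Subtype.ext (cu g)]; simp⟩
  let cl : ℕ → C := fun i => if h : i < 11 then ⟨F (i + 5), hM i h⟩ else 1
  have ecl : ∀ i < 11, (cl i : G) = F (i + 5) := fun i hi => by simp [cl, hi]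
  have val : ∀ w, lt2 11 w = true → ((wval cl w : C) : G) = wval F (sh 5 w) := fun w hw => by
    rw [wval_sh]
    exact (map_wval C.subtype cl w).trans (wval_congr ecl (by simpa using hw))
  let π := QuotientGroup.mk' (zpowers u)
  have sj : Function.Surjective π := QuotientGroup.mk'_surjective _
  have mk : ∀ a b : C, π a = π b ↔ (a : G) = b ∨ (a : G) = b * F 4 := fun a b => by
    rw [eq_comm, show π b = π a ↔ _ from QuotientGroup.eq, mem_zpowers_two u2, inv_mul_eq_one,
      inv_mul_eq_iff_eq_mul, eq_comm, Subtype.ext_iff, Subtype.ext_iff]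
    rfl
  have er : ∀ i < 7, ((wval cl (reps2.getD i []) : C) : G) = wval F (sh 5 (reps2.getD i [])) :=
    fun i hi => val _ ((by decide : ∀ i < 7, lt2 11 (reps2.getD i []) = true) i hi)
  have sq : ∀ i, i = 2 ∨ i = 3 → wval F (sh 5 (reps2.getD i [])) * wval F (sh 5 (reps2.getD i [])) = F 4 := by
    rintro i (rfl | rfl) <;> rw [← wval_append]
    exacts [hB [8, 10, 8, 10] (by decide +kernel), hB (reps2.getD 3 [] ++ reps2.getD 3 []) (by decide +kernel)]
  have hL : ∀ g : C, g * F 8 = F 8 * g → g ∈ gp cl (sing 11) := fun g h => by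
    obtain ⟨x, hx, e⟩ := (gp_le (K := (gp cl (sing 11)).map C.subtype)).2 (by
      simp only [List.forall_mem_cons, List.not_mem_nil, IsEmpty.forall_iff, implies_true, and_true]
      exact ⟨⟨_, mem_sing cl (show 0 < 11 by decide), (ecl 0 (by decide)).trans (wval_single F 5).symm⟩,
        ⟨_, mem_sing cl (show 1 < 11 by decide), (ecl 1 (by decide)).trans (wval_single F 6).symm⟩⟩)
      (cR g h (cu g))
    exact Subtype.ext e ▸ hx
  have e3 := ecl 3 (by decide)
  have e7 := ecl 7 (by decide)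
  obtain ⟨top, cX, cls⟩ := eq_top (y := fun i => π (cl i)) (fun w hw => by
      rw [← map_wval, ← map_one π, mk, val w (List.all_eq_true.1 (by decide +kernel :
        KX.all (lt2 11) = true) w hw)]
      rcases List.mem_append.1 hw with h | h
      · exact .inl (hA _ (List.mem_map_of_mem h))
      · exact .inr (by simpa using hB w h))
    (by
      rw [Ne, ← map_one π, mk, e3]
      rintro (h | h)
      · exact z1 h
      · exact nu (by rw [h, OneMemClass.coe_one, one_mul]))
    (fun g h => by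
      obtain ⟨g, rfl⟩ := sj g
      rw [NN, ← map_gp]
      refine mem_map_of_mem π ?_
      rw [← mul_inv_eq_iff_eq_mul, ← map_inv, ← map_mul, ← map_mul, mk] at h
      simp only [coe_mul, coe_inv, e3] at h
      rcases h with h | h
      · exact hL g (mul_inv_eq_iff_eq_mul.1 h)
      · have := hL ((cl 7)⁻¹ * g) (by
          rw [← mul_inv_eq_iff_eq_mul, coe_mul, coe_inv, e7]
          calc _ = (F 12)⁻¹ * (g * F 8 * (g : G)⁻¹) * F 12 := by group
            _ = _ := by rw [h, ← hq]; group)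
        simpa using mul_mem (mem_sing cl (show 7 < 11 by decide)) this)
    (fun i hi h1 g h => by
      obtain ⟨g, rfl⟩ := sj g
      rw [← map_wval, ← map_inv, ← map_mul, ← map_mul, mk, er i hi] at h
      simp only [coe_mul, coe_inv, e3] at h
      obtain ⟨k, hk⟩ : ∃ k : G, k * F 8 * k⁻¹ = wval F (sh 5 (reps2.getD i [])) := by
        rcases h with h | h
        · exact ⟨_, h⟩
        · refine ⟨g * F 12, ?_⟩
          calc _ = g * (F 12 * F 8 * (F 12)⁻¹) * (g : G)⁻¹ := by group
            _ = g * F 8 * (g : G)⁻¹ * (g * F 4 * (g : G)⁻¹) := by rw [hq]; group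
            _ = _ := by rw [h, cu g, mul_inv_cancel_right, mul_assoc, uu, mul_one]
      have h2 : ¬ (i = 2 ∨ i = 3) := fun e => u1 (by rw [← sq i e, ← hk, conj_mul, zz]; simp)
      have h3 : ∀ t ∈ CJ, t.2.2 = [8] → sh 5 (reps2.getD i []) ≠ t.1 := fun t ht e1 e2 => nu
        ((isConj_iff.2 ⟨k, hk⟩).trans (isConj_iff.2 ⟨_, by rw [e2, cj hR t ht, e1, e4]⟩).symm)
      interval_cases i
      · exact z1 (by simpa [reps2, sh] using hk)
      · exact h1 rfl
      · exact h2 (.inl rfl)
      · exact h2 (.inr rfl)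
      · exact h3 (CJ.getD 1 default) (by decide) rfl (by decide)
      · exact h3 (CJ.getD 3 default) (by decide) rfl (by decide)
      · exact h3 (CJ.getD 5 default) (by decide) rfl (by decide))
  have hCS : C ≤ S := fun c hc => by
    have := top ▸ mem_top (π ⟨c, hc⟩)
    rw [NN, ← map_gp] at this
    obtain ⟨l, hl, e⟩ := this
    have h1 : (l : G) ∈ S := (gp_le (K := S.comap C.subtype)).2 (fun w hw =>
      (val w (List.all_eq_true.1 (by decide : (sing 11).all (lt2 11) = true) w hw) ▸ wS _ :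
        ((wval cl w : C) : G) ∈ S)) hl
    rcases (mk _ _).1 e.symm with h | h
    · exact (show c = l from h) ▸ h1
    · exact (show c = l * F 4 from h) ▸ mul_mem h1 (hS 4)
  refine ⟨hCS, ?_, fun c hc h h1 => ?_⟩
  · rw [card_eq_card_quotient_mul_card_subgroup (zpowers u), cX, Nat.card_zpowers,
      orderOf_eq_prime (p := 2) (by rw [pow_two, u2]) fun e => u1 (congrArg Subtype.val e)]
  obtain ⟨m, i, hi, e⟩ := cls (π ⟨c, hc⟩) (by
    rw [← map_mul, show (⟨c, hc⟩ * ⟨c, hc⟩ : C) = 1 from Subtype.ext h, map_one])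
  obtain ⟨m, rfl⟩ := sj m
  rw [← map_wval, ← map_inv, ← map_mul, ← map_mul, mk] at e
  simp only [coe_mul, coe_inv, er i hi] at e
  obtain ⟨x, hx, e⟩ : ∃ x, (x = sh 5 (reps2.getD i []) ∨ x = sh 5 (reps2.getD i []) ++ [8]) ∧
      c = m * wval F x * (m : G)⁻¹ := by
    rcases e with e | e
    · exact ⟨_, .inl rfl, e⟩
    · refine ⟨_, .inr rfl, ?_⟩
      rw [e, wval_append, e4, mul_assoc, mul_assoc, mul_assoc, mul_assoc]
      exact congrArg _ (congrArg _ (cu m⁻¹))
  have h2 : ¬ (i = 2 ∨ i = 3) := fun e1 => u1 (by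
    rw [e, conj_mul, conj_eq_one_iff] at h
    rw [← sq i e1, ← h]
    rcases hx with rfl | rfl
    · rfl
    · rw [wval_append, e4, ← er i hi, mul_assoc, ← mul_assoc (F 4), ← cu, mul_assoc, uu, mul_one])
  have h3 : x = [] ∨ ∃ t ∈ CJ, x = t.1 := by
    interval_cases i
    all_goals first
      | exact absurd (by decide) h2
      | rcases hx with rfl | rfl <;> decide
  rcases h3 with rfl | ⟨t, ht, rfl⟩
  · exact absurd (by simpa using e) h1
  refine ⟨m * wval F t.2.1, mul_mem (hCS m.2) (wS _), ?_⟩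
  rw [e, cj hR t ht]
  rcases (by decide : ∀ t ∈ CJ, t.2.2 = [16] ∨ t.2.2 = [8]) t ht with h | h <;> rw [h]
  · exact .inl (by rw [e8]; group)
  · exact .inr (by rw [e4]; group)

theorem main [Finite G] [IsSimpleGroup G] (φ : Spor.HN →* G) (inj : Function.Injective φ)
    (hC : centralizer {φ (E 8)} ≤ φ.range) (nu : ¬ IsConj (φ (E 8)) (φ (E 4)))
    (cR : ∀ g, g * φ (E 8) = φ (E 8) * g → g * φ (E 4) = φ (E 4) * g →
      g ∈ gp (fun i => φ (E i)) [[10], [12]]) : Function.Surjective φ ∧ ∀ v : G, v * v = 1 → v ≠ 1 →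
        IsConj v (φ (E 8)) ∨ IsConj v (φ (E 4)) := by
  have hR : ∀ w ∈ RR, wval (fun i => φ (E i)) w = 1 := fun w hw => by
    rw [← map_wval, rels w hw, map_one]
  have z1 : φ (E 8) ≠ 1 := (map_ne_one_iff φ inj).2 z_ne
  obtain ⟨hU, cU, cls⟩ := cent hR ((map_ne_one_iff φ inj).2 u_ne) z1 nu cR (S := φ.range)
    fun i => ⟨_, rfl⟩
  have uu : φ (E 4) * φ (E 4) = 1 := by
    simpa [wval, lval] using hR [8, 8] (by decide +kernel)
  have zz : φ (E 8) * φ (E 8) = 1 := by
    simpa [wval, lval] using hR [16, 16] (by decide +kernel)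
  have hi : (centralizer {φ (E 4)}).relIndex φ.range = 74064375 := by
    have := ((centralizer {φ (E 4)}).subgroupOf φ.range).index_mul_card
    rw [Nat.card_congr (subgroupOfEquivOfLe hU).toEquiv, cU,
      (Nat.card_congr (MonoidHom.ofInjective inj).toEquiv).symm.trans HNA.card_eq] at this
    rw [relIndex]; omega
  have key : ∀ v ∈ φ.range, v * v = 1 → v ≠ 1 →
      ∃ g ∈ φ.range, v = g * φ (E 8) * g⁻¹ ∨ v = g * φ (E 4) * g⁻¹ := fun v hv h h1 => by
    obtain ⟨m, hm, h2⟩ := conj_into (H := centralizer {φ (E 4)}) (k := 1) Nat.prime_two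
      (by rw [hi]; decide) (zpowers_le.2 hv) (by
        rintro _ ⟨n, rfl⟩
        rw [← zpow_natCast, ← zpow_mul, mul_comm, zpow_mul, zpow_natCast, pow_one, sq, h, one_zpow])
    obtain ⟨g, hg, e⟩ := cls _ (h2 v (mem_zpowers v)) (by rw [conj_mul, h]; simp)
      (by simpa using h1)
    exact ⟨m⁻¹ * g, mul_mem (inv_mem hm) hg, e.imp conj_back conj_back⟩
  have top : φ.range = ⊤ := by
    refine top_le_iff.1 (((normalClosure_normal (s := {φ (E 8)})).eq_bot_or_eq_top.resolve_left
      fun h => z1 (mem_bot.1 (h ▸ subset_normalClosure rfl))) ▸ (closure_le _).2 fun t ht => ?_)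
    obtain ⟨_, rfl, ht⟩ := Group.mem_conjugatesOfSet_iff.1 ht
    have tt := InvolCount.sq_of_isConj zz ht
    by_cases ho : Odd (orderOf (φ (E 4) * t))
    · obtain ⟨k, hk⟩ := InvolCount.exists_conj_of_odd uu tt ho
      exact absurd (ht.trans (isConj_iff.2 ⟨_, hk⟩).symm) nu
    obtain ⟨v, hv, v1, v2⟩ := InvolCount.exists_invol ho
    obtain ⟨c1, c2⟩ := InvolCount.comm_of_mem uu tt v1 hv
    obtain ⟨g, hg, e⟩ := key v (hU (mem_centralizer_singleton_iff.2 c1.symm)) v1 v2
    have aux : ∀ w : G, v = g * w * g⁻¹ → g⁻¹ * t * g ∈ centralizer {w} := fun w e =>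
      mem_centralizer_singleton_iff.2 (by
        calc _ = g⁻¹ * (t * (g * w * g⁻¹)) * g := by group
          _ = _ := by rw [← e, c2, e]; group)
    simpa [mul_assoc] using mul_mem (mul_mem hg (e.elim (fun e => hC (aux _ e)) fun e => hU (aux _ e)))
      (inv_mem hg)
  refine ⟨MonoidHom.range_eq_top.1 top, fun v h h1 => ?_⟩
  obtain ⟨g, -, e⟩ := key v (top ▸ mem_top v) h h1
  exact e.imp (fun e => (isConj_iff.2 ⟨g, e.symm⟩).symm) fun e => (isConj_iff.2 ⟨g, e.symm⟩).symm

end Cfsg.Agent.Lib.HNE
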