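import Mathlib

/-! A group in which an elementary abelian subgroup of order `2⁸` has a strongly embedded orbit of `60`
involutions. -/

set_option autoImplicit false

namespace Cfsg.Agent.Lib.HNE1

open Subgroup MulAction

variable {X : Type*} [Group X]

theorem dvd_of_stab {B Ω : Type*} [Group B] [MulAction B Ω] [Finite Ω] {k : ℕ}
    (h : ∀ x : Ω, (stabilizer B x).index = k) : k ∣ Nat.card Ω := by
  classical
  haveI := Fintype.ofFinite (orbitRel.Quotient B Ω)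
  rw [Nat.card_congr (selfEquivSigmaOrbits B Ω), Nat.card_sigma]
  exact Finset.dvd_sum fun ω _ => by rw [← h ω.out, index_stabilizer, Nat.card_coe_set_eq]

/-- The conjugate `g A g⁻¹`. -/
def Ac (A : Subgroup X) (g : X) : Subgroup X where
  carrier := {x | g⁻¹ * x * g ∈ A}
  one_mem' := by simp [one_mem]
  mul_mem' := fun ha hb => by simpa [mul_assoc] using A.mul_mem ha hb
  inv_mem' := fun ha => by simpa [mul_assoc] using A.inv_mem ha

theorem mem_Ac {A : Subgroup X} {g x : X} : x ∈ Ac A g ↔ g⁻¹ * x * g ∈ A := Iff.rfl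

theorem shift {A : Subgroup X} {g x : X} (c : X) (h : x ∈ Ac A g) : c * x * c⁻¹ ∈ Ac A (c * g) := by
  simpa [mem_Ac, mul_assoc] using h

theorem shift' {A : Subgroup X} {g x c : X} (e : c * x = x * c) (h : x ∈ Ac A g) : x ∈ Ac A (c * g) := by
  simpa [e] using shift c h

theorem card_Ac (A : Subgroup X) (y y' : X) :
    Nat.card ↥(Ac A y ⊓ Ac A y') = Nat.card ↥(A ⊓ Ac A (y⁻¹ * y')) :=
  Nat.card_congr ((MulAut.conj y⁻¹).toEquiv.subtypeEquiv fun x => by simp [mem_Ac, mul_assoc])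

structure Hyp (A N : Subgroup X) (D : Set X) (m : ℕ) : Prop where
  hAN : A ≤ N
  hnor : N ≤ normalizer (A : Set X)
  hD : D ⊆ A
  hDN : ∀ n ∈ N, ∀ d ∈ D, n * d * n⁻¹ ∈ D
  h2 : ∀ a ∈ A, a * a = 1
  cA : Nat.card A = 256
  cD : D.ncard = 60
  P1 : ∀ d ∈ D, ∀ g, g * d * g⁻¹ ∈ N → g ∈ N
  F2 : ∀ a ∈ N, a ∉ A → a * a = 1 → Nat.card ↥(A ⊓ centralizer {a}) ≤ 16
  hm : ∀ g ∉ N, Nat.card ↥(A ⊓ Ac A g) ≤ m

namespace Hyp
variable [Finite X] {A N : Subgroup X} {D : Set X} {m : ℕ} (h : Hyp A N D m)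
include h

omit [Finite X] in
theorem sq {g x : X} (hx : x ∈ Ac A g) : x * x = 1 := by
  have := h.h2 _ hx
  calc x * x = g * (g⁻¹ * x * g * (g⁻¹ * x * g)) * g⁻¹ := by group
    _ = 1 := by rw [this]; group

omit [Finite X] in
theorem inv {g x : X} (hx : x ∈ Ac A g) : x⁻¹ = x := inv_eq_of_mul_eq_one_right (h.sq hx)

omit [Finite X] in
theorem cm {g x y : X} (hx : x ∈ Ac A g) (hy : y ∈ Ac A g) : x * y = y * x := by
  rw [← h.inv (mul_mem hx hy), mul_inv_rev, h.inv hx, h.inv hy]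

omit h [Finite X] in
theorem one {x : X} : x ∈ Ac A 1 ↔ x ∈ A := by simp [mem_Ac]

omit [Finite X] in
theorem cmA {x y : X} (hx : x ∈ A) (hy : y ∈ A) : x * y = y * x := h.cm (one.2 hx) (one.2 hy)

omit [Finite X] in
theorem invA {x : X} (hx : x ∈ A) : x⁻¹ = x := h.inv (one.2 hx)

omit [Finite X] in
theorem cj {n x : X} (hn : n ∈ N) : n * x * n⁻¹ ∈ A ↔ x ∈ A := (mem_normalizer_iff.1 (h.hnor hn) x).symm

theorem mx {W : Subgroup X} (hW : m ≤ Nat.card W) {y y' x : X} (h1 : W ≤ Ac A y) (h2 : W ≤ Ac A y')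
    (h3 : x ∈ Ac A y) (h4 : x ∈ Ac A y') (h5 : x ∉ W) : y⁻¹ * y' ∈ N := by
  by_contra e
  have := h.hm _ e
  rw [← card_Ac] at this
  exact h5 (eq_of_le_of_card_ge (le_inf h1 h2) (this.trans hW) ▸ ⟨h3, h4⟩)

/-- An element centralising a maximal intersection and one more element of `A`. -/
theorem mx' {W : Subgroup X} (hW : m ≤ Nat.card W) (h1 : W ≤ A) {y x : X} (h2 : ∀ w ∈ W, y * w = w * y)
    (h3 : x ∈ A) (h4 : y * x * y⁻¹ ∈ A) (h5 : x ∉ W) : y ∈ N := by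
  have := h.mx hW (y := y⁻¹) (y' := 1) (x := x) (fun w hw => by simpa [mem_Ac, h2 w hw] using h1 hw)
    (fun w hw => one.2 (h1 hw)) (by simpa [mem_Ac] using h4) (one.2 h3) h5
  simpa using this

theorem two (B : Subgroup X) (hB : B ≤ A) : ∃ k ≤ 8, Nat.card B = 2 ^ k :=
  (Nat.dvd_prime_pow Nat.prime_two).1 (by simpa [h.cA] using card_dvd_of_le hB)

theorem L3 {g : X} (hg : g ∉ N) (hW : m ≤ Nat.card ↥(A ⊓ Ac A g)) {a : X} (ha : a ∈ Ac A g) (haN : a ∈ N) :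
    a ∈ A := by
  by_contra haA
  set W := A ⊓ Ac A g with hWd
  let B := A ⊓ Ac N g
  have WB : W ≤ B := inf_le_inf_left _ fun x hx => h.hAN hx
  letI : MulAction B D :=
    { smul := fun b d => ⟨g⁻¹ * b * g * d * (g⁻¹ * b * g)⁻¹, h.hDN _ b.2.2 _ d.2⟩
      one_smul := fun d => Subtype.ext (by change g⁻¹ * 1 * g * d * (g⁻¹ * 1 * g)⁻¹ = (d : X); group)
      mul_smul := fun b c d => Subtype.ext (by
        change g⁻¹ * (b * c) * g * d * (g⁻¹ * (b * c) * g)⁻¹ =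
          g⁻¹ * b * g * (g⁻¹ * c * g * d * (g⁻¹ * c * g)⁻¹) * (g⁻¹ * b * g)⁻¹
        group) }
  have st : ∀ d : D, stabilizer B d = W.subgroupOf B := fun d => by
    ext b
    rw [mem_stabilizer_iff, Subtype.ext_iff, mem_subgroupOf]
    change g⁻¹ * b * g * d * (g⁻¹ * b * g)⁻¹ = (d : X) ↔ _
    rw [mul_inv_eq_iff_eq_mul]
    refine ⟨fun e => by_contra fun hb => hg (h.P1 d d.2 g (h.mx' hW inf_le_left
      (fun w hw => h.cm (g := g) (by simpa [mem_Ac, mul_assoc] using h.hD d.2) hw.2) b.2.1 ?_ hb)),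
      fun hb => h.cmA hb.2 (h.hD d.2)⟩
    have : g * d * g⁻¹ * b * (g * d * g⁻¹)⁻¹ = b :=
      calc g * d * g⁻¹ * b * (g * d * g⁻¹)⁻¹ = g * (d * (g⁻¹ * b * g)) * (d : X)⁻¹ * g⁻¹ := by group
        _ = b := by rw [← e]; group
    rw [this]
    exact b.2.1
  have h1 := dvd_of_stab (B := B) (Ω := D) (k := (W.subgroupOf B).index) fun d => by rw [st]
  rw [Nat.card_coe_set_eq, h.cD] at h1
  have h2 := (W.subgroupOf B).index_mul_card
  rw [Nat.card_congr (subgroupOfEquivOfLe WB).toEquiv] at h2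
  obtain ⟨k, -, hk⟩ := h.two B inf_le_left
  have h3 : (W.subgroupOf B).index ∣ 4 :=
    (Nat.Coprime.coprime_dvd_left (hk ▸ Dvd.intro _ h2) (Nat.Coprime.pow_left k
      (by norm_num : Nat.Coprime 2 15))).dvd_of_dvd_mul_right (show _ ∣ 4 * 15 from h1)
  have a2 := h.sq ha
  have ai := h.inv ha
  let φ : A →* A := MonoidHom.mk' (fun q => q * ⟨a * q * a⁻¹, (h.cj haN).2 q.2⟩) fun p q => Subtype.ext (by
    have := h.cmA q.2 ((h.cj haN).2 p.2)
    change p * q * (a * (p * q) * a⁻¹) = p * (a * p * a⁻¹) * (q * (a * q * a⁻¹))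
    calc (p : X) * q * (a * (p * q) * a⁻¹) = p * (q * (a * p * a⁻¹)) * (a * q * a⁻¹) := by group
      _ = _ := by rw [this]; group)
  let C := (A ⊓ centralizer {a}).subgroupOf A
  have cC : Nat.card C ≤ 16 := by
    rw [Nat.card_congr (subgroupOfEquivOfLe inf_le_left).toEquiv]; exact h.F2 a haN haA a2
  have k1 : φ.ker ≤ C := fun q (e : φ q = 1) => ⟨q.2, mem_centralizer_singleton_iff.2 (by
    have e : (q : X) * (a * q * a⁻¹) = 1 := congrArg Subtype.val e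
    rw [mul_eq_one_iff_inv_eq, h.invA q.2, eq_mul_inv_iff_mul_eq] at e
    exact e)⟩
  have k2 : φ.range ≤ C := by
    rintro _ ⟨q, rfl⟩
    refine ⟨(φ q).2, mem_centralizer_singleton_iff.2 ?_⟩
    change q * (a * q * a⁻¹) * a = a * (q * (a * q * a⁻¹))
    rw [h.cmA q.2 ((h.cj haN).2 q.2), ai]
    calc a * q * a * q * a = a * (q * (a * q * a⁻¹)) := by rw [ai]; group
      _ = _ := by rw [h.cmA q.2 ((h.cj haN).2 q.2), ai]
  have k3 := φ.ker.index_mul_card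
  rw [index_ker, h.cA] at k3
  have k4 := card_le_of_le k1
  have k5 := card_le_of_le k2
  have k7 : φ.range = C := eq_of_le_of_card_ge k2 (by nlinarith)
  have k8 : W.subgroupOf A ≤ φ.range := k7 ▸ fun w hw =>
    ⟨w.2, mem_centralizer_singleton_iff.2 (h.cm hw.2 ha)⟩
  have k9 : (W.subgroupOf A).comap φ ≤ B.subgroupOf A := fun q (hq : (q : X) * (a * q * a⁻¹) ∈ W) => by
    refine ⟨q.2, ?_⟩
    have e : ∀ w ∈ W, (q : X)⁻¹ * w * q = w := fun w hw => by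
      rw [mul_assoc, h.cmA hw.1 q.2, inv_mul_cancel_left]
    have := h.mx hW (y := g) (y' := q * g) (x := q * a * (q : X)⁻¹) inf_le_right
      (fun w hw => shift' (h.cmA q.2 hw.1) hw.2)
      (by convert (Ac A g).mul_mem hq.2 ha using 1; rw [h.invA q.2]; group)
      (shift _ ha) fun hw => haA (by
        have := e _ hw
        rw [show (q : X)⁻¹ * (q * a * (q : X)⁻¹) * q = a by group] at this
        exact this ▸ hw.1)
    simpa [mem_Ac, mul_assoc] using this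
  have l1 := card_le_of_le k9
  rw [Nat.card_congr (subgroupOfEquivOfLe (inf_le_left : B ≤ A)).toEquiv] at l1
  have l2 := ((W.subgroupOf A).comap φ).index_mul_card
  rw [index_comap, h.cA] at l2
  have l5 := ((W.subgroupOf A).subgroupOf φ.range).index_mul_card
  rw [Nat.card_congr (subgroupOfEquivOfLe k8).toEquiv,
    Nat.card_congr (subgroupOfEquivOfLe (inf_le_left : W ≤ A)).toEquiv, ← relIndex] at l5
  have l6 : 256 * Nat.card W ≤ Nat.card ((W.subgroupOf A).comap φ) * 16 := by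
    rw [← l2, mul_comm ((W.subgroupOf A).relIndex _), mul_assoc, l5]
    exact Nat.mul_le_mul_left _ (k5.trans cC)
  have l3 := Nat.card_pos (α := W)
  have l4 := Nat.le_of_dvd (by norm_num) h3
  nlinarith

theorem L4 {g : X} (hg : g ∉ N) (hW : m ≤ Nat.card ↥(A ⊓ Ac A g)) {q r : X} (hq : q ∈ A)
    (hq' : q ∉ A ⊓ Ac A g) (hr : r ∈ Ac A g) (hr' : r ∉ A ⊓ Ac A g) :
    ∃ c, (∀ w ∈ A ⊓ Ac A g, c * w = w * c) ∧ c * q * c⁻¹ * r ∈ A ⊓ Ac A g := by
  classical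
  set W := A ⊓ Ac A g with hWd
  have cq : ∀ w ∈ W, Commute q w := fun w hw => h.cmA hq hw.1
  have cr : ∀ w ∈ W, Commute r w := fun w hw => h.cm hr hw.2
  have cp : ∀ k : ℕ, ∀ w ∈ W, (q * r) ^ k * w = w * (q * r) ^ k := fun k w hw =>
    ((cq w hw).mul_left (cr w hw)).pow_left k
  have qi := h.invA hq
  have ri := h.inv hr
  have q2 := h.h2 q hq
  have r2 := h.sq hr
  have iq : ∀ k : ℕ, q * ((q * r) ^ k)⁻¹ = (q * r) ^ k * q := fun k => by
    have : SemiconjBy q (q * r)⁻¹ (q * r) := by rw [SemiconjBy, mul_inv_rev, qi, ri, mul_assoc]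
    simpa only [inv_pow] using (this.pow_right k).eq
  have ir : ∀ k : ℕ, r * ((q * r) ^ k)⁻¹ = (q * r) ^ k * r := fun k => by
    have : SemiconjBy r (q * r)⁻¹ (q * r) := by
      rw [SemiconjBy, mul_inv_rev, qi, ri, ← mul_assoc, r2, mul_assoc, r2, one_mul, mul_one]
    simpa only [inv_pow] using (this.pow_right k).eq
  have ex : ∃ n, 0 < n ∧ (q * r) ^ n ∈ W := ⟨_, orderOf_pos _, by rw [pow_orderOf_eq_one]; exact one_mem _⟩
  obtain ⟨n0, hn⟩ := Nat.find_spec ex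
  obtain ⟨k, e | e⟩ := Nat.even_or_odd' (Nat.find ex)
  swap
  · refine ⟨(q * r) ^ k, cp k, ?_⟩
    rw [e] at hn
    convert hn using 1
    rw [mul_assoc ((q * r) ^ k), iq, pow_succ, two_mul, pow_add]; group
  exfalso
  have hk : (q * r) ^ k ∉ W := fun e' => Nat.find_min ex (m := k) (by omega) ⟨by omega, e'⟩
  rw [e, two_mul, pow_add] at hn
  obtain ⟨c, x, y, hc, hx, ht, h1, h2⟩ : ∃ c x y, (∀ w ∈ W, c * w = w * c) ∧ x ∉ W ∧
      (q * r) ^ k * q = c * x * c⁻¹ ∧ c * x * c⁻¹ ∈ Ac A y ∧ W ≤ Ac A y := by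
    obtain ⟨j, rfl | rfl⟩ := Nat.even_or_odd' k
    · refine ⟨(q * r) ^ j, q, (q * r) ^ j * 1, cp j, hq', ?_, shift _ (one.2 hq),
        fun w hw => shift' (cp j w hw) (one.2 hw.1)⟩
      rw [mul_assoc, iq, two_mul, pow_add, mul_assoc]
    · refine ⟨(q * r) ^ (j + 1), r, (q * r) ^ (j + 1) * g, cp _, hr', ?_, shift _ hr,
        fun w hw => shift' (cp _ w hw) hw.2⟩
      rw [mul_assoc, ir, ← mul_assoc, ← pow_add, show j + 1 + (j + 1) = 2 * j + 1 + 1 by ring,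
        pow_succ _ (2 * j + 1), mul_assoc, mul_assoc, r2, mul_one]
  have iq' := iq k
  have ir' := ir k
  have cw := cp k
  generalize (q * r) ^ k = w at *
  have tW : w * q ∉ W := fun e' => hx (by
    have := hc _ e'
    nth_rewrite 2 [ht] at this
    rw [inv_mul_cancel_right, mul_right_inj] at this
    exact this ▸ e')
  rw [← ht] at h1
  have e1 : q * (w * q) * q⁻¹ = (w * w)⁻¹ * (w * q) := by
    calc q * (w * q) * q⁻¹ = w⁻¹ * (w * q) * w := by group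
      _ = w⁻¹ * (q * w⁻¹) * w := by rw [iq']
      _ = _ := by group
  have h3 : y⁻¹ * (q * y) ∈ N := h.mx hW (x := q * (w * q) * q⁻¹) h2
    (fun v hv => shift' (cq v hv).eq (h2 hv)) (e1 ▸ mul_mem (inv_mem (h2 hn)) h1) (shift _ h1)
    fun e' => tW (by rw [e1] at e'; simpa only [mul_inv_cancel_left] using mul_mem hn e')
  have hy : y ∈ N := by
    by_contra hy
    have l : m ≤ Nat.card ↥(A ⊓ Ac A y⁻¹) := by
      have := card_Ac A y 1
      rw [mul_one] at this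
      rw [← this]
      exact hW.trans (card_le_of_le (le_inf h2 fun v hv => one.2 hv.1))
    have := h.L3 (fun e' => hy (by simpa using inv_mem e')) l (a := y⁻¹ * (q * y))
      (by simpa [mem_Ac, mul_assoc] using hq) h3
    have := h.mx hW (y := 1) (y' := y) (x := q) (fun v hv => one.2 hv.1) h2 (one.2 hq)
      (by rwa [mem_Ac, mul_assoc]) hq'
    exact hy (by simpa using this)
  have wA : w ∈ A := by
    have := (h.cj (inv_mem hy)).1 (by simpa [mem_Ac] using h1 : y⁻¹ * (w * q) * y⁻¹⁻¹ ∈ A)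
    simpa using mul_mem this (inv_mem hq)
  rw [h.invA wA] at ir'
  have := h.mx' hW inf_le_left (fun v hv => (cr v hv).eq) wA (by rwa [ir', mul_inv_cancel_right]) hk
  exact hr' ⟨h.L3 hg hW hr this, hr⟩

end Hyp

theorem core [Finite X] (A N : Subgroup X) (D : Set X) (hAN : A ≤ N) (hnor : N ≤ Subgroup.normalizer A)
    (hD : D ⊆ A) (hDN : ∀ n ∈ N, ∀ d ∈ D, n * d * n⁻¹ ∈ D) (h2 : ∀ a ∈ A, a * a = 1)
    (cA : Nat.card A = 256) (cD : D.ncard = 60) (cN : Nat.card N = 1843200)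
    (P1 : ∀ d ∈ D, ∀ g, g * d * g⁻¹ ∈ N → g ∈ N)
    (F2 : ∀ a ∈ N, a ∉ A → a * a = 1 → Nat.card ↥(A ⊓ centralizer {a}) ≤ 16)
    (F3 : ∀ g ∈ N, g ≠ 1 → g ^ 3 = 1 → Nat.card ↥(A ⊓ centralizer {g}) ≤ 16 ∧
      (16 ≤ Nat.card ↥(A ⊓ centralizer {g}) → ∃ d ∈ D, g * d = d * g))
    (h5 : ∃ d1 ∈ D, ∃ d2 ∈ D, d1 * d2 ∈ D) : N = ⊤ := by
  by_contra hN
  obtain ⟨g, hg, hm⟩ := Set.exists_max_image {g | g ∉ N} (fun g => Nat.card ↥(A ⊓ Ac A g)) (Set.toFinite _)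
    (by obtain ⟨x, -, hx⟩ := SetLike.exists_of_lt (lt_top_iff_ne_top.2 hN); exact ⟨x, hx⟩)
  have h : Hyp A N D _ := ⟨hAN, hnor, hD, hDN, h2, cA, cD, P1, F2, hm⟩
  set W := A ⊓ Ac A g with hWd
  have WD : ∀ d ∈ D, d ∉ W := fun d hd e => hg (by simpa using inv_mem (P1 d hd g⁻¹ (by
    simpa using hAN e.2)))
  obtain ⟨d1, m1, d2, m2, m3⟩ := h5
  have hr : g * d1 * g⁻¹ ∈ Ac A g := by simpa [mem_Ac, mul_assoc] using hD m1
  have hr' : g * d1 * g⁻¹ ∉ W := fun e => hg (P1 d1 m1 g (hAN e.1))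
  generalize g * d1 * g⁻¹ = r at hr hr'
  let Y := N ⊓ centralizer (W : Set X)
  letI : MulAction (Y × W) X :=
    { smul := fun p x => p.1 * x * (p.1 : X)⁻¹ * p.2
      one_smul := fun x => by change 1 * x * 1⁻¹ * 1 = x; group
      mul_smul := fun p p' x => by
        change p.1 * p'.1 * x * ((p.1 : X) * p'.1)⁻¹ * (p.2 * p'.2) =
          p.1 * (p'.1 * x * (p'.1 : X)⁻¹ * p'.2) * (p.1 : X)⁻¹ * p.2
        have e : (p'.2 : X) * (p.1 : X)⁻¹ = (p.1 : X)⁻¹ * p'.2 := (inv_mem p.1.2).2 _ p'.2.2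
        rw [h.cmA p.2.2.1 p'.2.2.1, mul_assoc _ _ (p.1 : X)⁻¹, mul_assoc _ (p'.2 : X), e]
        group }
  have orb : orbit (Y × W) d1 = (A : Set X) \ W := by
    ext x
    constructor
    · rintro ⟨⟨y, w⟩, rfl⟩
      change (y : X) * d1 * (y : X)⁻¹ * w ∈ _
      exact ⟨mul_mem ((h.cj y.2.1).2 (hD m1)) w.2.1, fun e => WD _ (hDN _ y.2.1 _ m1)
        ((mul_mem_cancel_right w.2).1 e)⟩
    · rintro ⟨hx, hx'⟩
      obtain ⟨c, c1, c2⟩ := h.L4 hg le_rfl (hD m1) (WD _ m1) hr hr'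
      obtain ⟨c', c1', c2'⟩ := h.L4 hg le_rfl hx hx' hr hr'
      have hv := mul_mem c2 (inv_mem c2')
      have e : c'⁻¹ * c * d1 * (c'⁻¹ * c)⁻¹ = c * d1 * c⁻¹ * r * (c' * x * c'⁻¹ * r)⁻¹ * x := by
        calc c'⁻¹ * c * d1 * (c'⁻¹ * c)⁻¹ =
            c'⁻¹ * (c * d1 * c⁻¹ * r * (c' * x * c'⁻¹ * r)⁻¹ * c') * x := by group
          _ = _ := by rw [← c1' _ hv]; group
      generalize c * d1 * c⁻¹ * r * (c' * x * c'⁻¹ * r)⁻¹ = v at hv e
      have hc : ∀ w ∈ W, c'⁻¹ * c * w = w * (c'⁻¹ * c) := fun w hw =>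
        (Commute.inv_left (c1' w hw)).mul_left (c1 w hw)
      refine ⟨(⟨c'⁻¹ * c, h.mx' le_rfl inf_le_left hc (hD m1) (e ▸ mul_mem hv.1 hx) (WD _ m1),
        fun w hw => (hc w hw).symm⟩, ⟨v, hv⟩), ?_⟩
      change c'⁻¹ * c * d1 * (c'⁻¹ * c)⁻¹ * v = x
      rw [e, h.cmA hv.1 hx, mul_assoc, h2 v hv.1, mul_one]
  have i1 := (stabilizer (Y × W) d1).index_dvd_card
  rw [index_stabilizer, orb, Set.ncard_diff (inf_le_left : W ≤ A), Nat.card_prod,
    ← Nat.card_coe_set_eq, ← Nat.card_coe_set_eq] at i1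
  change Nat.card A - Nat.card W ∣ _ at i1
  have i2 : Nat.card Y ∣ 1843200 := cN ▸ card_dvd_of_le inf_le_left
  obtain ⟨k, hk8, hk⟩ := h.two W inf_le_left
  have i3 : 2 ^ (8 - k) - 1 ∣ Nat.card Y := by
    refine Nat.dvd_of_mul_dvd_mul_right (Nat.two_pow_pos k) ?_
    rwa [Nat.sub_mul, ← pow_add, Nat.sub_add_cancel hk8, one_mul, ← hk, show 2 ^ 8 = 256 from rfl, ← cA]
  have i4 := i3.trans i2
  have three : 3 ∣ Nat.card Y → 16 ≤ Nat.card W → False := fun e l => by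
    haveI : Fact (Nat.Prime 3) := ⟨Nat.prime_three⟩
    obtain ⟨⟨y, hy⟩, ho⟩ := exists_prime_orderOf_dvd_card' 3 e
    rw [Subgroup.orderOf_mk] at ho
    obtain ⟨l1, l2⟩ := F3 y hy.1 (by rintro rfl; simp at ho) (ho ▸ pow_orderOf_eq_one y)
    have l3 : W ≤ A ⊓ centralizer {y} := fun w hw => ⟨hw.1, mem_centralizer_singleton_iff.2 (hy.2 w hw)⟩
    obtain ⟨d, hd, e⟩ := l2 (l.trans (card_le_of_le l3))
    exact WD d hd (eq_of_le_of_card_ge l3 (l1.trans l) ▸ ⟨hD hd, mem_centralizer_singleton_iff.2 e.symm⟩)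
  interval_cases k
  iterate 4 norm_num at i4
  · exact three (Dvd.dvd.trans (by norm_num) i3) (by omega)
  · norm_num at i4
  · exact three (Dvd.dvd.trans (by norm_num) i3) (by omega)
  · have := (W.subgroupOf A).index_mul_card
    rw [Nat.card_congr (subgroupOfEquivOfLe (inf_le_left : W ≤ A)).toEquiv, hk, cA] at this
    exact WD _ m3 ((mul_mem_iff_of_index_two (H := W.subgroupOf A) (by omega) (a := ⟨d1, hD m1⟩)
      (b := ⟨d2, hD m2⟩)).2 (iff_of_false (WD _ m1) (WD _ m2)))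
  · exact WD d1 m1 ((eq_of_le_of_card_ge (inf_le_left : W ≤ A) (by omega)).ge (hD m1))

end Cfsg.Agent.Lib.HNE1
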