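import Cfsg.Agent.Lib.HNEMD

set_option autoImplicit false
set_option maxRecDepth 100000
set_option Elab.async false

namespace Cfsg.Agent.Lib.HNEM
open Cfsg.Agent.Lib.PermNet Cfsg.Agent.Lib.MatRep Cfsg.Agent.Lib.RepHN

def r0 : List (List Nat) := [[0, 1], [2, 3], [4, 5], [6, 7], [8, 9], [10, 11], [12, 13], [14, 15], [16, 17], [18, 19], [20, 21], [22, 23], [24, 25], [26, 27], [28, 29], [30, 31]]

theorem h0 : RelOn c ns r0 0 133 := relOn ok _ 0 133 133 (by decide +kernel)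

def r1 : List (List Nat) := [[9, 0, 0, 2, 2, 2, 4, 2, 2, 2, 4, 2, 2, 2], [11, 4, 0, 3, 0, 3, 0, 2, 0, 2, 0], [13, 3, 3, 4, 3, 0, 2, 0, 2, 2, 2]]

theorem h1 : RelOn c ns r1 0 133 := relOn ok _ 0 133 133 (by decide +kernel)

def r2 : List (List Nat) := [[15, 6, 4, 7, 7], [17, 0, 0], [19, 14, 16, 15], [21, 12, 18, 13], [23, 10, 20, 11], [25, 14, 20, 15], [27, 15, 20, 14], [29, 12, 22, 13], [31, 10, 28, 11], [16, 16], [18, 18]]

theorem h2 : RelOn c ns r2 0 133 := relOn ok _ 0 133 133 (by decide +kernel)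

def r3 : List (List Nat) := [[20, 20], [22, 22], [24, 24], [26, 26], [28, 28], [30, 30], [16, 18, 16, 18], [16, 20, 16, 20], [16, 22, 16, 22], [20, 22, 20, 22], [18, 24, 18, 24], [20, 24, 20, 24], [20, 26, 20, 26]]

theorem h3 : RelOn c ns r3 0 133 := relOn ok _ 0 133 133 (by decide +kernel)

def r4 : List (List Nat) := [[24, 26, 24, 26], [16, 28, 16, 28], [18, 28, 18, 28], [22, 28, 22, 28], [26, 28, 26, 28], [16, 30, 16, 30], [18, 30, 18, 30], [20, 30, 20, 30], [26, 30, 26, 30], [10, 16, 11, 16]]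

theorem h4 : RelOn c ns r4 0 133 := relOn ok _ 0 133 133 (by decide +kernel)

def r5 : List (List Nat) := [[10, 18, 11, 16, 18], [10, 20, 11, 22], [10, 22, 11, 20], [10, 28, 11, 30], [10, 30, 11, 28], [12, 16, 13, 16], [12, 18, 13, 20], [12, 22, 13, 28]]

theorem h5 : RelOn c ns r5 0 133 := relOn ok _ 0 133 133 (by decide +kernel)

def r6 : List (List Nat) := [[12, 24, 13, 16, 18, 22, 24, 28], [12, 30, 13, 18, 20, 24, 26, 28, 30], [14, 16, 15, 18], [14, 18, 15, 16, 18], [14, 20, 15, 24], [14, 22, 15, 16, 18, 20, 22, 24]]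

theorem h6 : RelOn c ns r6 0 133 := relOn ok _ 0 133 133 (by decide +kernel)


end Cfsg.Agent.Lib.HNEM
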