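import Cfsg.Agent.Lib.HNEMD

set_option autoImplicit false
set_option maxRecDepth 100000
set_option Elab.async false

namespace Cfsg.Agent.Lib.HNEM
open Cfsg.Agent.Lib.PermNet Cfsg.Agent.Lib.MatRep Cfsg.Agent.Lib.RepHN

def r7 : List (List Nat) := [[14, 24, 15, 26], [14, 26, 15, 20], [14, 28, 15, 18, 28], [14, 30, 15, 16, 30], [10, 10], [10, 12, 12, 10, 12, 12, 10, 12, 12, 16, 24, 26]]

theorem h7 : RelOn c ns r7 0 133 := relOn ok _ 0 133 133 (by decide +kernel)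

def r8 : List (List Nat) := [[10, 12, 10, 12, 10, 12, 10, 12, 10, 12, 10, 12], [14, 14, 14], [10, 14, 10, 14, 18], [12, 12, 14, 12, 12, 14, 16, 24]]

theorem h8 : RelOn c ns r8 0 133 := relOn ok _ 0 133 133 (by decide +kernel)

def r9 : List (List Nat) := [[10, 12, 10, 14, 12, 10, 14, 12, 15, 10, 12, 15, 16, 18, 22], [10, 12, 10, 15, 12, 10, 15, 12, 14, 10, 12, 14, 18, 26], [18, 20, 18, 20, 9], [18, 22, 18, 22, 9]]

theorem h9 : RelOn c ns r9 0 133 := relOn ok _ 0 133 133 (by decide +kernel)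

def r10 : List (List Nat) := [[16, 24, 16, 24, 9], [22, 24, 22, 24, 9], [16, 26, 16, 26, 9], [18, 26, 18, 26, 9], [22, 26, 22, 26, 9], [20, 28, 20, 28, 9], [24, 28, 24, 28, 9], [22, 30, 22, 30, 9]]

theorem h10 : RelOn c ns r10 0 133 := relOn ok _ 0 133 133 (by decide +kernel)

def r11 : List (List Nat) := [[24, 30, 24, 30, 9], [28, 30, 28, 30, 9], [10, 24, 11, 18, 20, 22, 26, 9], [10, 26, 11, 16, 18, 20, 22, 24, 9], [12, 20, 13, 16, 18, 9]]

theorem h11 : RelOn c ns r11 0 133 := relOn ok _ 0 133 133 (by decide +kernel)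

def r12 : List (List Nat) := [[12, 26, 13, 20, 22, 26, 28, 9], [12, 28, 13, 16, 20, 22, 24, 26, 9], [12, 12, 12, 12, 16, 20, 24, 26, 9]]

theorem h12 : RelOn c ns r12 0 133 := relOn ok _ 0 133 133 (by decide +kernel)

def r13 : List (List Nat) := [[10, 12, 14, 13, 10, 12, 14, 13, 10, 12, 14, 13, 18, 24, 26, 28, 30, 9], [10, 12, 10, 14, 12, 10, 13, 10, 14, 13, 10, 12, 10, 14, 12, 10, 13, 10, 14, 13, 9]]

theorem h13 : RelOn c ns r13 0 133 := relOn ok _ 0 133 133 (by decide +kernel)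


end Cfsg.Agent.Lib.HNEM
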