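import Cfsg.Agent.Lib.HNEMD

set_option autoImplicit false
set_option maxRecDepth 100000
set_option Elab.async false

namespace Cfsg.Agent.Lib.HNEM
open Cfsg.Agent.Lib.PermNet Cfsg.Agent.Lib.MatRep Cfsg.Agent.Lib.RepHN

def r14 : List (List Nat) := [[8, 8], [10, 8, 11, 9], [12, 8, 13, 9], [14, 8, 15, 9], [16, 8, 17, 9], [18, 8, 19, 9], [20, 8, 21, 9], [22, 8, 23, 9], [24, 8, 25, 9], [26, 8, 27, 9]]

theorem h14 : RelOn c ns r14 0 133 := relOn ok _ 0 133 133 (by decide +kernel)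

def r15 : List (List Nat) := [[28, 8, 29, 9], [30, 8, 31, 9], [24, 16, 25, 9, 17], [4, 3, 4, 0, 3, 8, 2, 1, 5, 2, 5, 31, 21], [3, 4, 0, 3, 8, 2, 1, 5, 2, 9, 31, 21]]

theorem h15 : RelOn c ns r15 0 133 := relOn ok _ 0 133 133 (by decide +kernel)

def r16 : List (List Nat) := [[3, 4, 0, 2, 4, 3, 3, 8, 2, 2, 5, 3, 1, 5, 2, 13, 11, 13, 11, 13, 11]]

theorem h16 : RelOn c ns r16 0 133 := relOn ok _ 0 133 133 (by decide +kernel)

def r17 : List (List Nat) := [[3, 3, 4, 2, 4, 0, 3, 24, 16, 25, 2, 1, 5, 3, 5, 2, 2, 9, 13, 11, 13, 11, 13, 11]]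

theorem h17 : RelOn c ns r17 0 133 := relOn ok _ 0 133 133 (by decide +kernel)

def r18 : List (List Nat) := [[2, 1, 2, 13, 15, 12, 14, 10, 4, 3, 4, 0, 3, 8, 2, 1, 5, 2, 5, 11, 15, 13, 14, 12, 3, 0, 3, 11]]

theorem h18 : RelOn c ns r18 0 133 := relOn ok _ 0 133 133 (by decide +kernel)

def r19 : List (List Nat) := [[28, 30, 2, 1, 2, 13, 15, 12, 14, 10, 4, 3, 4, 0, 3, 8, 2, 1, 5, 2, 5, 11, 15, 13, 14, 12, 3, 0, 3, 31, 29, 9, 11]]

theorem h19 : RelOn c ns r19 0 133 := relOn ok _ 0 133 133 (by decide +kernel)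


end Cfsg.Agent.Lib.HNEM
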