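import Cfsg.Agent.Lib.HNC
import Cfsg.Agent.Lib.HNA

/-! The presented Harada–Norton group embeds into a group with the right involution centraliser. -/

set_option autoImplicit false

namespace Cfsg.Agent.Lib.HNFin

open Subgroup Cfsg.Agent.Lib.PermNet Cfsg.Agent.Lib.Words Cfsg.Agent.Lib.PermGroup Cfsg.Agent.Lib.DCE

variable {G : Type*} [Group G] {f : ℕ → G}

theorem hf (i : ℕ) (hi : i < 4) : HNA.f i = HNBase.y i := by
  have h : HNA.hw.getD i [] = [2 * i] := by interval_cases i <;> rfl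
  rw [HNA.f, h, wval_single]

theorem exists_hom [Finite G] (rel : ∀ w ∈ HNTC.K1, wval f w = 1)
    (top : gp f (sing 3) = centralizer {f 0 ^ 2})
    (card : Nat.card (centralizer ({f 0 ^ 2} : Set G)) = 177408000) (fus : IsConj (f 0 ^ 2) (f 2))
    (ne : f 0 ^ 2 ≠ 1) : ∃ φ : Spor.HN →* G, Function.Injective φ ∧ (∀ i < 3, φ (HNBase.y i) = f i) ∧
      centralizer {φ (HNBase.y 0 ^ 2)} = (gp HNA.f (sing 3)).map φ := by
  obtain ⟨t, ht⟩ := (HNC.exists_t rel top card fus).1
  obtain ⟨φ, hφ⟩ := HNBase.exists_hom _ ht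
  have e : ∀ i < 3, φ (HNBase.y i) = f i := fun i hi => by
    rw [hφ i (by omega), Function.update_of_ne (by omega)]
  have e0 : φ (HNBase.y 0 ^ 2) = f 0 ^ 2 := by rw [map_pow, e 0 (by decide)]
  refine ⟨φ, ?_, e, ?_⟩
  · have := HNA.simple
    rcases (MonoidHom.normal_ker φ).eq_bot_or_eq_top with h | h
    · exact (MonoidHom.ker_eq_bot_iff φ).1 h
    · exact absurd (e0 ▸ (MonoidHom.mem_ker.1 (h ▸ mem_top _))) ne
  · rw [e0, ← top, map_gp]
    exact gp_congr (n := 3) (fun i hi => by rw [hf i (by omega), e i hi]) (by decide)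

end Cfsg.Agent.Lib.HNFin
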