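import Cfsg.Agent.Lib.HNGT

/-! Certificates. -/

set_option autoImplicit false
set_option maxRecDepth 100000

namespace Cfsg.Agent.Lib.HNG

open Cfsg.Agent.Lib.PermNet Cfsg.Agent.Lib.Words Cfsg.Agent.Lib.PermGroup Cfsg.Agent.Lib.DCE Cfsg.Agent.Lib.PermModel Cfsg.Agent.Lib.BT

def gkL0 : List (List ℕ) := [[2, 2, 2, 2, 2, 2], [0, 0, 2, 0, 0, 3], [1, 3, 0, 2, 1, 3, 0, 2, 1, 3, 0, 2], [1, 2, 2, 0, 2, 2, 2, 1, 2, 2, 0, 2, 2, 2, 1, 2, 2, 0, 2, 2, 2], [0, 2, 0, 2, 0, 2, 0, 2, 0, 2, 0, 2, 0, 2, 0, 2], [0, 2, 0, 2, 2, 2, 0, 2, 0, 2, 2, 2, 0, 2, 0, 2, 2, 2, 0, 2, 0, 2, 2, 2], [4, 4], [4, 0, 4, 0]]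

theorem gk0 : allL (fixA (nat_lit 11) (nat_lit 2047) gtt (nat_lit 1408)) gkL0 = true := by decide +kernel

def gkL1 : List (List ℕ) := [[5, 2, 1, 3, 3, 1, 3, 1, 3, 4, 2, 0, 2, 0, 2, 2, 0, 3, 1, 1], [4, 3, 1, 3, 1, 3, 3, 3, 4, 2, 2, 2, 0, 2, 0, 2, 0, 3, 1, 3, 1, 3, 3, 3, 4, 2, 2, 2, 0, 2, 0, 2, 0, 3, 1, 3, 1, 3, 3, 3, 4, 2, 2, 2, 0, 2, 0, 2, 0]]

theorem gk1 : allL (fixA (nat_lit 11) (nat_lit 2047) gtt (nat_lit 1408)) gkL1 = true := by decide +kernel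

def gwL0 : List (List ℕ) := [[0, 2, 0, 2, 0, 3, 0, 3, 0, 2, 0, 2, 0, 3, 0, 3, 0, 2, 0, 2, 0, 3, 0, 3, 0, 2, 0, 2, 0, 3, 0, 3]]

theorem gw0 : allL (fixA (nat_lit 11) (nat_lit 2047) gtt (nat_lit 1408)) gwL0 = true := by decide +kernel

end Cfsg.Agent.Lib.HNG
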