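import Cfsg.Agent.Lib.HNGC0
import Cfsg.Agent.Lib.HNGC1
import Cfsg.Agent.Lib.HNGS
import Cfsg.Agent.Lib.HNTC

/-! A faithful model of the centraliser of an involution in the Harada–Norton group. -/

set_option autoImplicit false
set_option maxRecDepth 100000

namespace Cfsg.Agent.Lib.HNG

open Cfsg.Agent.Lib.PermNet Cfsg.Agent.Lib.Words Cfsg.Agent.Lib.PermGroup Cfsg.Agent.Lib.DCE Cfsg.Agent.Lib.PermModel Cfsg.Agent.Lib.BT

theorem gok : TabsOK (nat_lit 1408) (nat_lit 11) (nat_lit 2047) (nat_lit 13) gth gid := ⟨gok_id, (allR_of 0 13 13 (by decide) gok_0)⟩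

theorem gTM : TM 3 (nat_lit 1408) (nat_lit 11) (nat_lit 2047) (nat_lit 13) gid 177408000 gth gdefs gch :=
  ⟨gok, (gok.relsA _ gd0), gc, by decide +kernel⟩

theorem gK : ∀ w ∈ HNTC.K1, wval (tp (nat_lit 1408) (nat_lit 11) (nat_lit 2047) gtt) w = 1 :=
  (all_append (gok.relsA _ gk0) (gok.relsA _ gk1))

theorem gW : ∀ w ∈ [HNTC.cw], wval (tp (nat_lit 1408) (nat_lit 11) (nat_lit 2047) gtt) w = 1 :=
  (gok.relsA _ gw0)

theorem hub {X : Type*} [Group X] (z : ℕ → X) (hz : ∀ w ∈ HNTC.K1, wval z w = 1) :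
    Nat.card (gp z (sing 3)) ≠ 0 ∧ Nat.card (gp z (sing 3)) ≤ 177408000 := by
  set P := tp (nat_lit 1408) (nat_lit 11) (nat_lit 2047) gtt with hP
  have h := HNTC.card_le (fun i => (z i, P i)) (rels_pair hz gK) (MonoidHom.snd _ _)
    ((map_wval _ _ _).trans (gW _ List.mem_cons_self)) fun _ => by
      have := Finite.of_surjective _ ((MonoidHom.snd X (Equiv.Perm ℕ)).subgroupMap_surjective
        (gp (fun i => (z i, P i)) (sing 3)))
      rw [map_gp] at this ⊢
      exact gTM.le_card (MonoidHom.id _) fun _ _ => rfl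
  have := Nat.finite_of_card_ne_zero h.1
  have hs := (MonoidHom.fst X (Equiv.Perm ℕ)).subgroupMap_surjective (gp (fun i => (z i, P i)) (sing 3))
  have h2 := Nat.card_le_card_of_surjective _ hs
  have := Finite.of_surjective _ hs
  rw [map_gp] at this h2
  exact ⟨(@Nat.card_pos _ _ this).ne', h2.trans h.2⟩

/-- The generators followed by the auxiliary elements. -/
abbrev FF {G : Type*} [Group G] (f : ℕ → G) : ℕ → G := ext f 3 gdefs

/-- The faithful model on 1408 points. -/
abbrev MG {G : Type*} [Group G] (f : ℕ → G) (H : Subgroup G) :=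
  Model (FF f) H ⊥ (nat_lit 1408) (nat_lit 11) (nat_lit 2047) gtt gB 177408000

theorem model {G : Type*} [Group G] {f : ℕ → G} {H : Subgroup G} (top : gp f (sing 3) = H)
    (rel : ∀ w ∈ HNTC.K1, wval f w = 1) (card : 177408000 ≤ Nat.card H) :
    ∃ M : MG f H, M.Ch H gch := by
  obtain ⟨M⟩ := gTM.fmodel top rel gK (fun z => hub z) card
  exact ⟨M.rebase gB (by decide +kernel), Model.ch_top _ _ (by rw [gc]; decide +kernel)⟩


end Cfsg.Agent.Lib.HNG
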