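import Cfsg.Agent.Lib.HNGT

/-! Certificates. -/

set_option autoImplicit false
set_option maxRecDepth 100000

namespace Cfsg.Agent.Lib.HNG

open Cfsg.Agent.Lib.PermNet Cfsg.Agent.Lib.Words Cfsg.Agent.Lib.PermGroup Cfsg.Agent.Lib.DCE Cfsg.Agent.Lib.PermModel Cfsg.Agent.Lib.BT

theorem gok_id : idB (nat_lit 1408) (nat_lit 11) (nat_lit 2047) gid = true := by decide +kernel

theorem gok_0 : allR (fun i => okT (nat_lit 1408) (nat_lit 11) (nat_lit 2047) (gtt.get (2 * i)) (gtt.get (2 * i + 1))) (nat_lit 0) (nat_lit 13) = true := by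
  decide +kernel

def gdL0 : List (List ℕ) := [[7, 1, 2, 0], [9, 3, 0, 3, 3, 0, 2, 0, 3, 0, 3, 0, 2, 2, 2, 0, 3, 0, 2, 0], [11, 2, 0, 2, 4, 1, 2, 2, 2, 4, 0, 2, 2, 0, 3], [13, 10, 8, 10, 9, 9, 9, 10, 8, 8, 10, 8, 10, 9, 9, 9, 10, 8, 8, 10, 8], [15, 9, 10, 8, 10, 9, 10, 9, 9, 10, 8], [17, 10, 15, 10], [19, 17, 9, 17, 8], [21, 16, 18, 17], [23, 15, 8, 17], [25, 9, 22, 8]]

theorem gd0 : allL (fixA (nat_lit 11) (nat_lit 2047) gtt (nat_lit 1408)) gdL0 = true := by decide +kernel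

theorem gc : chB (nat_lit 11) (nat_lit 2047) gtt (nat_lit 1408) (fun _ => true) gch [] = true := by decide +kernel

end Cfsg.Agent.Lib.HNG
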