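import Cfsg.Agent.Lib.HNPT

/-! Certificates. -/

set_option autoImplicit false
set_option maxRecDepth 100000

namespace Cfsg.Agent.Lib.HNP

open Cfsg.Agent.Lib.PermNet Cfsg.Agent.Lib.Words Cfsg.Agent.Lib.PermGroup Cfsg.Agent.Lib.DCE Cfsg.Agent.Lib.PermModel Cfsg.Agent.Lib.BT

noncomputable def ts1 : List Tst := [⟨[], [], [⟨0, [0], [0], [0, 0]⟩, ⟨0, [1], [1], [1, 1]⟩, ⟨0, [0, 0], [0, 0], [0, 0, 0, 0]⟩]⟩,
  ⟨[⟨0, [1, 1], [1, 1], [1, 1, 1, 1]⟩], [], []⟩,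
  ⟨[⟨1, [0], [0], [0, 0]⟩], [], []⟩,
  ⟨[⟨1, [0], [0], [0, 0]⟩], [], []⟩]

noncomputable def ct1 : CT := (.node 0 [] [] (nat_lit 0x0) (nd [(57, (nd [(430, (nd [(697, (lf [(419, [0, 0])]))]))])),
  (564, (nd [(635, (nd [(430, (lf [(333, [0, 0, 0])]))]))])),
  (333, (nd [(697, (nd [(564, (lf [(635, [0])]))]))])),
  (419, (nd [(564, (nd [(57, (lf [(430, [])]))]))])),
  (697, (nd [(419, (nd [(635, (lf [(57, [0, 0, 0, 0])]))]))])),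
  (635, (nd [(57, (nd [(333, (lf [(697, [0, 0, 0, 0, 0, 0])]))]))])),
  (430, (nd [(333, (nd [(419, (lf [(564, [0, 0, 0, 0, 0])]))]))]))]) .nil)

theorem s1 : solveB (nat_lit 10) (nat_lit 1023) vtt (nat_lit 704) 500 (vch.map Lv.b) (fun _ => true) vch 0 []
    [[0]] [[0, 0]] (prEq 500 [[0]] [[0, 0]] ++ [[0, 0, 0]].map (subst [[2 * 500], [0]])) [] [] (allL (okL [0]))
    (fun u => u ++ [2] ++ invW u) ts1 ct1 = true := by decide +kernel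

noncomputable def ts2 : List Tst := [⟨[], [], [⟨0, [0], [2], [2]⟩, ⟨0, [1], [3], [3]⟩]⟩,
  ⟨[⟨0, [1], [3], [3]⟩], [], []⟩,
  ⟨[⟨1, [0], [2], [2]⟩], [], []⟩,
  ⟨[], [], [⟨0, [0], [2], [2]⟩, ⟨0, [1], [3], [3]⟩]⟩]

noncomputable def ct2 : CT := (.node 0 [] [] (nat_lit 0x0) (nd [(319, (nd [(588, (nd [(392, (lf [(175, [4])]))]))])),
  (135, (nd [(158, (nd [(308, (lf [(386, [6, 5, 6, 5])]))]))]))]) .nil)

theorem s2 : solveB (nat_lit 10) (nat_lit 1023) vtt (nat_lit 704) 500 (vch.map Lv.b) (fun _ => true) vch 0 []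
    [[2]] [[2]] (prEq 500 [[2]] [[2]] ++ [rep 5 [0], rep 7 [2, 5, 1]].map (subst [[2 * 500], [0], [2]])) [] []
    (memLL [[4], [6, 5, 6, 5]]) id ts2 ct2 = true := by decide +kernel

end Cfsg.Agent.Lib.HNP
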