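import Cfsg.Agent.Lib.HNPL
import Cfsg.Agent.Lib.HNPC
import Cfsg.Agent.Lib.HNPS
import Cfsg.Agent.Lib.HNTC
import Cfsg.Agent.Lib.SuzG1

/-! Generators and relations for the two groups `2.HS.2`. -/

set_option autoImplicit false
set_option maxRecDepth 100000

namespace Cfsg.Agent.Lib.HNP

open Subgroup Cfsg.Agent.Lib.PermNet Cfsg.Agent.Lib.Words Cfsg.Agent.Lib.PermGroup Cfsg.Agent.Lib.DCE
  Cfsg.Agent.Lib.BT

/-- The relators of the isoclinic group. -/
def K1m : List (List ℕ) := HNTC.K1.take 6 ++ [[4, 4, 1, 1], [4, 0, 4, 0, 1, 1]] ++ HNTC.K1.drop 8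

/-- The action of the outer element on the generators. -/
def W : List (List ℕ) := [[0], [2], [6, 5, 6, 5], [5, 6, 5, 5, 6]]

def wx : List ℕ := [4, 7, 1, 3, 7, 1, 7, 1, 4, 0, 4, 4]

def wm : List ℕ := [5, 5, 3, 0, 5, 6, 5, 5, 1, 4, 7, 2]

def wn : List ℕ := [7, 1, 7, 3, 1, 5, 0, 7, 0, 4, 0, 4]

def we : List ℕ := [0, 4, 4, 0, 4, 4, 1, 4, 0, 4, 1, 4, 1, 1, 5, 1, 5]

/-- The new generators. -/
def V : List (List ℕ) := [wx, [0, 4, 1, 7, 1, 6, 5, 0, 7, 1, 5, 1, 7], wm ++ [1000]]

/-- The old generators in terms of the new ones. -/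
def BW : List (List ℕ) := [[3, 3, 4, 2, 2, 0, 3, 0, 3, 3, 4, 3, 4, 2, 2, 2, 4, 2, 0, 2, 2],
  [0, 2, 4, 0, 2, 2, 1, 2, 2, 4, 2, 4, 2, 4, 2, 0, 3, 0, 3],
  [0, 3, 4, 2, 2, 0, 2, 0, 3, 5, 3, 0, 2, 0, 3, 0, 3],
  [3, 0, 3, 0, 3, 0, 2, 0, 2, 0, 2, 4, 3, 4, 3, 1, 3, 0, 2, 4, 2, 4, 2]]

/-- The check of a word. -/
noncomputable def chk (s w : List ℕ) : Bool :=
  band (lt2 500 (zl W s w false))
    (fixW (nat_lit 10) (nat_lit 1023) vtt (vch.map Lv.b) (zl W s w false))

/-- All checks for one value of the square of the outer element. -/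
noncomputable def chkA (s : List ℕ) (K : List (List ℕ)) : Bool :=
  band (lt2 500 s) (band (allL (fun w => chk s (subst V w)) K)
    (allR (fun j => chk s (subst V (BW.getD j []) ++ [2 * j + 1])) 0 4))

section
variable {H : Type*} [Group H] {F : ℕ → H} {M : Subgroup H}
  (D : Model F M ⊥ (nat_lit 704) (nat_lit 10) (nat_lit 1023) vtt (vch.map Lv.b) 88704000)
include D

theorem stepA [Finite H] [M.Normal] (hc : Nat.card M = 88704000) {c : H} (h : c ∉ M) :
    ∃ c ∉ M, c * wval F [0] = wval F [0] * c := by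
  have h7 := D.pow [0] 7 (by decide +kernel)
  have h1 := D.ne_one [0] (by decide +kernel)
  obtain ⟨g, hg, e⟩ := SuzG1.sylow_conj (p := 7) (by norm_num) (by rw [hc]; decide) (D.mem [0])
    ((inferInstance : M.Normal).conj_mem _ (D.mem [0]) c) h7 h1 (by rw [conj_pow, h7]; simp)
    (by rwa [Ne, conj_eq_one_iff])
  obtain ⟨k, hk, e1⟩ : ∃ k < 7, wval F [0] ^ k = g * (c * wval F [0] * c⁻¹) * g⁻¹ := by
    classical
    have := Fact.mk (show Nat.Prime 7 by norm_num)
    simpa [orderOf_eq_prime h7 h1] using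
      (mem_zpowers_iff_mem_range_orderOf (x := wval F [0])).1 (e.le (mem_zpowers _))
  cases k with
  | zero => exact absurd (conj_eq_one_iff.1 (conj_eq_one_iff.1 (e1.symm.trans (pow_zero _)))) h1
  | succ k =>
    have e2 := D.cj _ _ _ ((by decide +kernel : ∀ k < 6, fixW (nat_lit 10) (nat_lit 1023) vtt
      (vch.map Lv.b) ((rep ([0, 4, 5, 2, 1, 3].getD k 0) wn ++ rep (k + 1) [0] ++
        invW (rep ([0, 4, 5, 2, 1, 3].getD k 0) wn)) ++ invW [0]) = true) k (by omega))
    rw [wval_rep F (k + 1), e1] at e2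
    generalize rep ([0, 4, 5, 2, 1, 3].getD k 0) wn = v at e2
    refine ⟨wval F v * g * c, fun h' => h ((M.mul_mem_cancel_left (M.mul_mem (D.mem _) hg)).1 h'), ?_⟩
    nth_rw 2 [← e2]
    group

theorem hch : D.Ch M vch := D.ch_top vch (by rw [vc]; decide +kernel)

theorem stepB [M.Normal] {c : H} (h : c ∉ M) (h0 : c * wval F [0] = wval F [0] * c) :
    ∃ c ∉ M, Cj c F [[0], [2]] [[0], [2]] := by
  have hj : Cj c F [[0]] [[0]] := .cons h0 .nil
  have e0 := D.cj [2] [0] [0, 0] (by decide +kernel)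
  obtain ⟨u, hu, e⟩ := D.find1 (hch D) s1 (by decide)
    ((inferInstance : M.Normal).conj_mem _ (D.mem [2]) c) (by simp)
    (.cons (by
      have e2 : c * wval F [0, 0] * c⁻¹ = wval F [0, 0] :=
        mul_inv_eq_iff_eq_mul.2 (conj_subst hj [0, 0])
      rw [← e2, ← mul_inv_eq_iff_eq_mul.2 h0, ← e0, mem_bot]; group) .nil)
    (hj.transport [2] 500 _ (D.rels _ (by decide +kernel)) (by decide)) (by simp)
  have e1 := comm_word (F := F) (c := wval F [0]) [0] (by simp [wval, lval]) hu
  rw [wval_append, wval_append, wval_invW] at e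
  refine ⟨(wval F u)⁻¹ * c, fun h' => h ((M.mul_mem_cancel_left (M.inv_mem (D.mem _))).1 h'),
    .cons ?_ (.cons ?_ .nil)⟩
  · rw [mul_assoc, h0, ← mul_assoc, ← mul_assoc, (Commute.inv_left e1).eq]
  · rw [mul_assoc, mul_inv_eq_iff_eq_mul.1 e]; group

theorem stepC [M.Normal] (top : gp F (sing 4) = M) (hout : centralizer (M : Set H) ≤ M) {c : H}
    (h : c ∉ M) (hj : Cj c F [[0], [2]] [[0], [2]]) :
    ∀ j < 4, c * F j * c⁻¹ = wval F (W.getD j []) := by
  have e0 := D.comm [4] [2] (by decide +kernel)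
  obtain ⟨u, hu, e⟩ := D.find1 (hch D) s2 (by decide)
    ((inferInstance : M.Normal).conj_mem _ (D.mem [4]) c) (by simp)
    (comm_pairs _ (List.forall_mem_singleton.2 (hj.comm [2] e0)))
    (hj.transport [4] 500 _ (D.rels _ (by decide +kernel)) (by decide)) (by simp)
  have h3 : ∀ j < 3, c * F j * c⁻¹ = wval F ([[0], [2], u].getD j []) := fun j hj' => by
    rw [← wval_single F j]
    interval_cases j
    exacts [mul_inv_eq_iff_eq_mul.2 (hj 0), mul_inv_eq_iff_eq_mul.2 (hj 1), e]
  have h4 := conj_word h3 (u := we) (by decide)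
  rw [← D.eq [2 * 3] we (by decide +kernel), wval_single] at h4
  rcases List.mem_pair.1 (memLL_mem hu) with rfl | rfl
  · refine absurd (hout (mem_centralizer_iff.2 fun g hg => ?_)) h
    obtain ⟨w, hw, rfl⟩ := PermModel.exists_word (n := 4) (ws := sing 4) (by decide) (top.ge hg)
    refine mem_centralizer_singleton_iff.1 (wval_mem fun l hl => mem_centralizer_singleton_iff.2 ?_)
    have hl : l / 2 < 4 := by have := List.all_eq_true.1 hw l hl; simp at this; omega
    refine (mul_inv_eq_iff_eq_mul.1 ?_).symm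
    generalize l / 2 = j at hl
    nth_rw 2 [← wval_single F j]
    interval_cases j
    exacts [h3 0 (by decide), h3 1 (by decide), h3 2 (by decide),
      h4.trans (D.eq _ _ (by decide +kernel))]
  · intro j hj
    interval_cases j
    exacts [h3 0 (by decide), h3 1 (by decide), h3 2 (by decide),
      h4.trans (D.eq _ _ (by decide +kernel))]

theorem stepD (top : gp F (sing 4) = M) (hM : M.index = 2) {c : H} (h : c ∉ M)
    (hW : ∀ j < 4, c * F j * c⁻¹ = wval F (W.getD j [])) {s : List ℕ} (hs : c * c = wval F s)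
    {K : List (List ℕ)} (hK : chkA s K = true) :
    ∃ f : ℕ → H, f 0 = wval F wx ∧ gp f (sing 3) = ⊤ ∧ ∀ w ∈ K, wval f w = 1 := by
  obtain ⟨h1, hK⟩ := band_eq hK
  obtain ⟨h2, h3⟩ := band_eq hK
  have key : ∀ w, chk s w = true → wval (Function.update F 500 c) w = 1 := fun w hw => by
    rw [(zl_sound (W := W) (s := s) (fun j hj => by
      rw [Function.update_self, Function.update_of_ne (by omega), hW j hj,
        wval_upd c ((by decide : ∀ j < 4, lt2 500 (W.getD j []) = true) j hj)])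
      (by rw [Function.update_self, wval_upd c h1, hs]) w).1, wval_upd c (band_eq hw).1,
      D.one _ (band_eq hw).2]
  refine ⟨fun i => wval (Function.update F 500 c) (V.getD i []), wval_upd c (by decide), ?_,
    fun w hw => (wval_subst _ V w).symm.trans (key _ (allL_all h2 w hw))⟩
  set f := fun i => wval (Function.update F 500 c) (V.getD i []) with hf
  have h4 : M ≤ gp f (sing 3) := top ▸ gp_le.2 fun w hw => by
    obtain ⟨j, hj, rfl, h5⟩ := (by decide : ∀ w ∈ sing 4, ∃ j < 4, w = [2 * j] ∧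
      lettersIn (sing 3) [BW.getD j []] = true) w hw
    have := key _ (allR_all h3 j (Nat.zero_le _) (by simpa using hj))
    rw [wval_append, wval_subst, wval_odd, wval_nil, mul_one, mul_inv_eq_one,
      Function.update_of_ne (by omega)] at this
    rw [wval_single, ← this]
    exact mem_gp_of_lettersIn h5 _ List.mem_cons_self
  have h5 : c ∈ gp f (sing 3) := by
    have : f 2 = wval F wm * c := by
      change wval _ (wm ++ [2 * 500]) = _
      rw [wval_append, wval_upd c (by decide), wval_single, Function.update_self]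
    exact ((gp f (sing 3)).mul_mem_cancel_left (h4 (D.mem wm))).1 (this ▸ mem_sing f (by decide))
  refine eq_top_iff.2 fun g _ => ?_
  by_cases hg : g ∈ M
  · exact h4 hg
  · exact ((gp f (sing 3)).mul_mem_cancel_right h5).1
      (h4 ((mul_mem_iff_of_index_two hM).2 (iff_of_false hg h)))

end

theorem main {H : Type*} [Group H] [Finite H] {t : H} (ht : t ≠ 1) (hc : t ∈ center H)
    (M : Subgroup H) [M.Normal] (hM : M.index = 2) (hout : centralizer (M : Set H) ≤ M)
    (hcov : IsNonsplitDoubleCover M Spor.HS) : ∃ f : ℕ → H, f 0 ^ 2 = t ∧ gp f (sing 3) = ⊤ ∧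
      Nat.card H = 177408000 ∧ ((∀ w ∈ HNTC.K1, wval f w = 1) ∨ ∀ w ∈ K1m, wval f w = 1) := by
  have tM : t ∈ M := hout (mem_centralizer_iff.2 fun g _ => mem_center_iff.1 hc g)
  obtain ⟨y, h1, h2, h3, h4⟩ := exists_lift (H := M) (z := ⟨t, tM⟩)
    (fun e => ht (congrArg Subtype.val e))
    (mem_center_iff.2 fun g => Subtype.ext (mem_center_iff.1 hc g)) hcov
  have top : gp (fun i => (y i : H)) (sing 4) = M := by
    have := congrArg (map M.subtype) h1
    rwa [map_gp, ← MonoidHom.range_eq_map, range_subtype] at this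
  obtain ⟨D⟩ := vTM.fmodel top (fun w hw => (map_wval M.subtype y w).symm.trans
    (congrArg Subtype.val (h2 w hw))) vK (fun z => card_le z) h3.ge
  rw [← gp_ext _ 4 vdefs _ (by decide)] at top
  generalize ext (fun i => (y i : H)) 4 vdefs = F at D top
  have key : ∀ g : H, (∀ j < 4, g * F j * g⁻¹ = F j) → g = 1 ∨ g = t := fun g hg => by
    have : g ∈ centralizer (M : Set H) := mem_centralizer_iff.2 fun q hq => by
      obtain ⟨w, hw, rfl⟩ := PermModel.exists_word (n := 4) (ws := sing 4) (by decide) (top.ge hq)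
      refine mem_centralizer_singleton_iff.1 (wval_mem fun l hl => mem_centralizer_singleton_iff.2 ?_)
      exact (mul_inv_eq_iff_eq_mul.1
        (hg _ (by have := List.all_eq_true.1 hw l hl; simp at this; omega))).symm
    simpa using h4 ⟨g, hout this⟩ (mem_center_iff.2 fun q => Subtype.ext (this q q.2))
  obtain ⟨c, c1⟩ : ∃ c, c ∉ M := by
    by_contra h
    rw [show M = ⊤ from eq_top_iff.2 fun g _ => not_not.1 (not_exists.1 h g), index_top] at hM
    omega
  obtain ⟨c, c1, c2⟩ := stepA D h3 c1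
  obtain ⟨c, c1, c2⟩ := stepB D c1 c2
  have hW := stepC D top hout c1 c2
  have hx : wval F (wx ++ wx) = t := (key _ fun j hj => by
    rw [← wval_single F j]
    exact D.cj _ _ _ ((by decide +kernel : ∀ j < 4, fixW (nat_lit 10) (nat_lit 1023) vtt
      (vch.map Lv.b) ((wx ++ wx ++ [2 * j] ++ invW (wx ++ wx)) ++ invW [2 * j]) = true) j hj)).resolve_left
    (D.ne_one _ (by decide +kernel))
  have card : Nat.card H = 177408000 := by rw [← M.index_mul_card, hM, h3]
  rcases key (c * c) fun j hj => by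
    rw [show c * c * F j * (c * c)⁻¹ = c * (c * F j * c⁻¹) * c⁻¹ by group, hW j hj,
      conj_word hW ((by decide : ∀ j < 4, lt2 4 (W.getD j []) = true) j hj), ← wval_single F j]
    exact D.eq _ _ ((by decide +kernel : ∀ j < 4, fixW (nat_lit 10) (nat_lit 1023) vtt
      (vch.map Lv.b) (subst W (W.getD j []) ++ invW [2 * j]) = true) j hj) with e | e
  · obtain ⟨f, f1, f2, f3⟩ := stepD D top hM c1 hW (s := []) e (K := HNTC.K1) (by decide +kernel)
    exact ⟨f, by rw [f1, sq, ← wval_append, hx], f2, card, .inl f3⟩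
  · obtain ⟨f, f1, f2, f3⟩ := stepD D top hM c1 hW (e.trans hx.symm) (K := K1m) (by decide +kernel)
    exact ⟨f, by rw [f1, sq, ← wval_append, hx], f2, card, .inr f3⟩

theorem exists_gens {G : Type*} [Group G] [Finite G] (t : G) (ht : orderOf t = 2)
    (M : Subgroup (centralizer ({t} : Set G))) [M.Normal] (hM : M.index = 2)
    (hout : centralizer (M : Set (centralizer ({t} : Set G))) ≤ M)
    (hcov : IsNonsplitDoubleCover M Spor.HS) : ∃ f : ℕ → G, f 0 ^ 2 = t ∧
      gp f (sing 3) = centralizer {t} ∧ Nat.card (centralizer ({t} : Set G)) = 177408000 ∧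
      ((∀ w ∈ HNTC.K1, wval f w = 1) ∨ ∀ w ∈ K1m, wval f w = 1) := by
  obtain ⟨y, h1, h2, h3, h4⟩ := main (t := ⟨t, mem_centralizer_singleton_iff.2 rfl⟩)
    (fun e => by rw [show t = 1 from congrArg Subtype.val e] at ht; simp at ht)
    (mem_center_iff.2 fun g => Subtype.ext (mem_centralizer_singleton_iff.1 g.2)) M hM hout hcov
  have key : ∀ w, wval y w = 1 → wval (fun i => (y i : G)) w = 1 := fun w h =>
    (map_wval (centralizer {t}).subtype y w).symm.trans (congrArg Subtype.val h)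
  refine ⟨fun i => y i, congrArg Subtype.val h1, ?_, h3,
    h4.imp (fun h w hw => key w (h w hw)) fun h w hw => key w (h w hw)⟩
  have := congrArg (map (centralizer {t}).subtype) h2
  rwa [map_gp, ← MonoidHom.range_eq_map, range_subtype] at this

end Cfsg.Agent.Lib.HNP
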