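import Cfsg.Agent.Lib.HNE
import Cfsg.Agent.Lib.HNFin

/-! Identification of the Harada–Norton group from the fusion of involutions. -/

set_option autoImplicit false

namespace Cfsg.Agent.Lib.HNZ

open Subgroup Cfsg.Agent.Lib.PermNet Cfsg.Agent.Lib.Words Cfsg.Agent.Lib.PermGroup Cfsg.Agent.Lib.DCE
  Cfsg.Agent.Lib.BT Cfsg.Agent.Lib.HNEM

variable {G : Type*} [Group G] {f : ℕ → G}

theorem iso [Finite G] [IsSimpleGroup G] (rel : ∀ w ∈ HNTC.K1, wval f w = 1)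
    (top : gp f (sing 3) = centralizer {f 0 ^ 2})
    (card : Nat.card (centralizer ({f 0 ^ 2} : Set G)) = 177408000) (fus : IsConj (f 0 ^ 2) (f 2))
    (ne : f 0 ^ 2 ≠ 1) (nu : ¬ IsConj (f 0 ^ 2) (wval f [0, 0, 2, 2, 2, 4, 2, 2, 2, 4, 2, 2, 2]))
    (cR : centralizer {f 0 ^ 2} ⊓ centralizer {wval f [0, 0, 2, 2, 2, 4, 2, 2, 2, 4, 2, 2, 2]} ≤
      gp f [[4, 0, 3, 0, 3, 0, 2, 0, 2, 0], [3, 3, 4, 3, 0, 2, 0, 2, 2, 2]]) :
    Nonempty (G ≃* Spor.HN) ∧ ∃ u : G, orderOf u = 2 ∧ ¬ IsConj (f 0 ^ 2) u ∧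
      ∀ v : G, orderOf v = 2 → IsConj v (f 0 ^ 2) ∨ IsConj v u := by
  obtain ⟨φ, inj, e, hC⟩ := HNFin.exists_hom rel top card fus ne
  have hw : ∀ i w, (defsOK 4 edefs && (defRels 4 edefs).contains ((2 * i + 1) :: w) && lt2 3 w) = true →
      φ (E i) = wval f w := fun i w h => by
    rw [Bool.and_eq_true] at h
    rw [HNEM.E, letter_eq _ _ _ i w h.1, map_wval]
    exact wval_congr (n := 3) (fun j hj => by rw [ext_of_lt _ _ (by omega), e j hj]) (by simpa using h.2)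
  have e8 : φ (E 8) = f 0 ^ 2 := (hw 8 [0, 0] (by decide)).trans (by simp [wval, lval, sq])
  have e4 := hw 4 [0, 0, 2, 2, 2, 4, 2, 2, 2, 4, 2, 2, 2] (by decide)
  obtain ⟨sj, cls⟩ := HNE.main φ inj
    (by rw [e8, ← e 0 (by decide), ← map_pow, hC]; exact map_le_range _ _) (by rwa [e8, e4])
    fun g h1 h2 => (gp_le (K := gp (fun i => φ (E i)) [[10], [12]])).2 (by
      simp only [List.forall_mem_cons, List.not_mem_nil, IsEmpty.forall_iff, implies_true, and_true]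
      rw [← hw 5 _ (by decide), ← hw 6 _ (by decide), ← wval_single (fun i => φ (E i)) 5,
        ← wval_single (fun i => φ (E i)) 6]
      exact ⟨mem_gp (by decide), mem_gp (by decide)⟩)
      (cR ⟨mem_centralizer_singleton_iff.2 (e8 ▸ h1), mem_centralizer_singleton_iff.2 (e4 ▸ h2)⟩)
  refine ⟨⟨(MulEquiv.ofBijective φ ⟨inj, sj⟩).symm⟩, φ (E 4), ?_, by rwa [e4], fun v hv => e8 ▸ cls v
    (by rw [← sq, ← hv, pow_orderOf_eq_one]) (by rintro rfl; simp at hv)⟩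
  rw [orderOf_injective φ inj]
  exact orderOf_eq_prime (by simpa [wval, lval, sq] using rels [8, 8] (by decide +kernel)) u_ne

end Cfsg.Agent.Lib.HNZ
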