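import Cfsg.Agent.Lib.HNB
import Cfsg.Agent.Lib.HNP
import Cfsg.Agent.Lib.HNZ

/-! The characterisation of the Harada–Norton group by the centraliser `2.HS.2`. -/

set_option autoImplicit false

namespace Cfsg.Agent.Lib.HNMain

open Subgroup Cfsg.Agent.Lib.PermNet Cfsg.Agent.Lib.Words Cfsg.Agent.Lib.DCE

theorem gens {G : Type*} [Group G] [Finite G] [IsSimpleGroup G] (t : G) (ht : orderOf t = 2)
    (M : Subgroup (centralizer ({t} : Set G))) [M.Normal] (hM : M.index = 2)
    (hout : centralizer (M : Set (centralizer ({t} : Set G))) ≤ M)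
    (hcov : IsNonsplitDoubleCover M Spor.HS) : ∃ f : ℕ → G, f 0 ^ 2 ≠ 1 ∧
      gp f (sing 3) = centralizer {f 0 ^ 2} ∧ Nat.card (centralizer ({f 0 ^ 2} : Set G)) = 177408000 ∧
      ∀ w ∈ HNTC.K1, wval f w = 1 := by
  obtain ⟨f, rfl, top, card, h⟩ := HNP.exists_gens t ht M hM hout hcov
  exact ⟨f, fun e => by rw [e] at ht; simp at ht, top, card,
    h.resolve_right fun h => HNB.minus h top card⟩

theorem main {G : Type*} [Group G] [Finite G] [IsSimpleGroup G] (t : G) (ht : orderOf t = 2)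
    (M : Subgroup (centralizer ({t} : Set G))) [M.Normal] (hM : M.index = 2)
    (hout : centralizer (M : Set (centralizer ({t} : Set G))) ≤ M)
    (hcov : IsNonsplitDoubleCover M Spor.HS) : Nonempty (G ≃* Spor.HN) ∧ ∃ x y : G, orderOf x = 2 ∧
      orderOf y = 2 ∧ ¬ IsConj x y ∧ ∀ z : G, orderOf z = 2 → IsConj z x ∨ IsConj z y := by
  obtain ⟨f, ne, top, card, rel⟩ := gens t ht M hM hout hcov
  have e : wval f [0, 0, 2, 2, 2, 4, 2, 2, 2, 4, 2, 2, 2] = wval f HNB.uw := by
    have : f 2 * f 2 = 1 := by simpa [wval, lval] using rel [4, 4] (by decide)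
    simp [HNB.uw, wval, lval, inv_eq_of_mul_eq_one_right this]
  obtain ⟨h, u, h1, h2, h3⟩ := HNZ.iso rel top card (HNB.fus rel top card) ne
    (e ▸ HNB.not_u rel top card) (e ▸ (HNB.centR rel top card).le)
  have C := HNB.cxp rel top card
  exact ⟨h, _, u, orderOf_eq_prime (by rw [sq, ← C.z0, C.z2]) ne, h1, h2, h3⟩

end Cfsg.Agent.Lib.HNMain
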