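import Cfsg.Agent.Lib.HNPK
import Cfsg.Agent.S1666
import Cfsg.Prelude.Def_SporadicB

/-! Generators and relations for a non-split double cover of the Higman–Sims group. -/

set_option autoImplicit false
set_option maxRecDepth 100000

namespace Cfsg.Agent.Lib.HNP

open Subgroup Cfsg.Agent.Lib.PermNet Cfsg.Agent.Lib.Words Cfsg.Agent.Lib.PermGroup Cfsg.Agent.Lib.DCE
  Cfsg.Agent.Lib.BT

/-- The generators as words in the permutations on `100` points. -/
def Wh : List (List ℕ) := [[60], [1, 60, 60, 60, 1, 61, 61, 1],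
  [1, 61, 3, 60, 3, 0, 3, 60, 1, 3, 3, 0, 3], [1, 2, 1, 3, 3, 0, 2, 1, 2, 0, 2]]

/-- The way back. -/
def Bk : List (List ℕ × List ℕ) := [([5, 0, 6, 0, 5, 7, 1, 7, 1, 7, 0], [0]),
  ([7, 1, 7, 0, 4, 1, 6, 0, 6, 4], [2]), ([0], [60])]

/-- Relators of the simple group. -/
def KQ : List (List ℕ) := [6, 4, 6, 4] :: KA

theorem hrel : ∀ r ∈ (KQ.map (·, []) ++ Bk).map fun r : List ℕ × List ℕ => (subst Wh r.1, r.2),
    wval HSR.nets.perm r.1 = wval HSR.nets.perm r.2 :=
  wval_eq_of_relsOn (K := 7) HSR.hv (by norm_num)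
    (relsOn_of_B _ _ _ _ _ 7 _ (by decide +kernel) (by decide +kernel))

/-- The permutations. -/
noncomputable def p (i : ℕ) : Equiv.Perm ℕ := wval HSR.nets.perm (Wh.getD i [])

theorem hp {r : List ℕ × List ℕ} (h : r ∈ KQ.map (·, []) ++ Bk) :
    wval p r.1 = wval HSR.nets.perm r.2 :=
  (wval_subst _ Wh _).symm.trans (hrel _ (List.mem_map_of_mem h))

theorem exists_f : ∃ f : ℕ → Spor.HS, gp f (sing 4) = ⊤ ∧ (∀ w ∈ KQ, wval f w = 1) ∧
    Nat.card Spor.HS = 44352000 := by
  obtain ⟨φ, hφ, e, hc⟩ := S1666.range_eq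
  have h1 : ∀ i < 4, ∃ g, φ g = p i := fun i hi => e.le
    (mem_gp_of_lettersIn (us := Wh) (by decide) _ ((by decide : ∀ i < 4, Wh.getD i [] ∈ Wh) i hi))
  choose! f hf using h1
  have hw : ∀ w, lt2 4 w = true → φ (wval f w) = wval p w := fun w h =>
    (map_wval φ f w).trans (wval_congr hf (by simpa using h))
  refine ⟨f, eq_top_iff.2 fun g _ => ?_, fun w h => hφ ((hw w
    ((by decide : ∀ w ∈ KQ, lt2 4 w = true) w h)).trans ((hp (r := (w, []))
      (List.mem_append_left _ (List.mem_map_of_mem h))).trans φ.map_one.symm)), hc⟩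
  have : gp HSR.nets.perm HSR.ls ≤ (gp f (sing 4)).map φ := gp_le.2 fun w h => by
    obtain ⟨r, h1, rfl, h2, h3⟩ := (by decide : ∀ w ∈ HSR.ls, ∃ r ∈ Bk, r.2 = w ∧ lt2 4 r.1 = true ∧
      lettersIn (sing 4) [r.1] = true) w h
    exact ⟨_, mem_gp_of_lettersIn h3 _ List.mem_cons_self,
      (hw _ h2).trans (hp (List.mem_append_right _ h1))⟩
  obtain ⟨x, hx, e'⟩ := this (e.ge ⟨g, rfl⟩)
  exact hφ e' ▸ hx

/-- The orders of the generators. -/
def o (i : ℕ) : ℕ := [7, 3, 5, 3].getD i 0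

theorem exists_lift {H : Type*} [Group H] [Finite H] {z : H} (hz : z ≠ 1) (hc : z ∈ center H)
    (hC : IsNonsplitDoubleCover H Spor.HS) : ∃ y : ℕ → H, gp y (sing 4) = ⊤ ∧
      (∀ w ∈ KA, wval y w = 1) ∧ Nat.card H = 88704000 ∧ ∀ g ∈ center H, g = 1 ∨ g = z := by
  obtain ⟨f, gp_top, hf, card_X⟩ := exists_f
  obtain ⟨h2, ⟨e⟩, hn⟩ := hC
  let π : H →* Spor.HS := e.toMonoidHom.comp (QuotientGroup.mk' _)
  have hs : Function.Surjective π := e.surjective.comp (QuotientGroup.mk'_surjective _)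
  have hk : ∀ g, π g = 1 ↔ g ∈ center H := fun g =>
    (map_eq_one_iff e e.injective).trans (QuotientGroup.eq_one_iff g)
  have key : ∀ g ∈ center H, g = 1 ∨ g = z := fun g hg => by
    obtain ⟨y, -, hy⟩ := (Nat.card_eq_two_iff' (1 : center H)).mp h2
    by_cases h : g = 1
    · exact .inl h
    · exact .inr (congrArg Subtype.val ((hy ⟨g, hg⟩ fun e => h (congrArg Subtype.val e)).trans
        (hy ⟨z, hc⟩ fun e => hz (congrArg Subtype.val e)).symm))
  have zz : z * z = 1 := (key _ (mul_mem hc hc)).resolve_right fun e => hz (mul_eq_left.1 e)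
  have sq2 : ∀ g, π g = 1 → g * g = 1 := fun g h => by
    rcases key _ ((hk g).1 h) with h | h <;> rw [h]
    exacts [one_mul 1, zz]
  have card : Nat.card H = 88704000 := by
    rw [card_eq_card_quotient_mul_card_subgroup (center H), Nat.card_congr e.toEquiv, card_X, h2]
  have h1 : ∀ i < 4, ∃ y : H, π y = f i ∧ y ^ o i = 1 := fun i hi => by
    obtain ⟨x, hx⟩ := hs (f i)
    obtain ⟨a1, k, -, a2⟩ := (by decide : ∀ i < 4, rep (o i) [2 * i] ∈ KQ ∧ ∃ k < 5, o i + 1 = 2 * k) i hi
    have f3 := hf _ a1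
    rw [wval_rep, wval_single] at f3
    refine ⟨x ^ (o i + 1), by rw [map_pow, hx, pow_succ, f3, one_mul], ?_⟩
    rw [← pow_mul, mul_comm, pow_mul, a2, pow_mul, sq, sq2 _ (by rw [map_pow, hx, f3]), one_pow]
  choose! y hy y3 using h1
  have hw : ∀ w : List ℕ, lt2 4 w = true → π (wval y w) = wval f w :=
    fun w h => (map_wval π y w).trans (wval_congr hy (by simpa using h))
  have l3 : ∀ l < 8, wval y [l] ^ (2 * 52 + 1) = 1 := fun l hl => by
    obtain ⟨k, -, hk⟩ := (by decide : ∀ i < 4, ∃ k < 36, 2 * 52 + 1 = o i * k) (l / 2) (by omega)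
    have : y (l / 2) ^ (2 * 52 + 1) = 1 := by rw [hk, pow_mul, y3 _ (by omega), one_pow]
    rw [wval_cons, wval_nil, mul_one, lval]
    split_ifs
    · exact this
    · rw [inv_pow, this, inv_one]
  have l4 : ∀ g ∈ [0, 0] :: (List.range 8).map fun l => [l], wval y g ^ (2 * 52 + 1) = 1 :=
    List.forall_mem_cons.2 ⟨by
      rw [show [0, 0] = rep 2 [0] from rfl, wval_rep, ← pow_mul, mul_comm, pow_mul, l3 0 (by decide),
        one_pow], List.forall_mem_map.2 fun l hl => l3 l (List.mem_range.1 hl)⟩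
  have rel : ∀ w ∈ KA, wval y w = 1 := by
    rw [show KA = (List.range 4).map (fun i => rep (o i) [2 * i]) ++
      (RB.map (fun r => (r.1 ++ r.2.1 ++ invW r.1) ++ invW r.2.2) ++ [[6, 4, 6, 4] ++ [6, 4, 6, 4]])
      by decide, List.forall_mem_append, List.forall_mem_append,
      List.forall_mem_map, List.forall_mem_map, List.forall_mem_singleton]
    refine ⟨fun i hi => by rw [wval_rep, wval_single, y3 i (List.mem_range.1 hi)], fun r hr => ?_, by
      rw [wval_append, sq2 _ ((hw _ (by decide)).trans (hf _ List.mem_cons_self))]⟩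
    obtain ⟨a1, a2, a3, a4⟩ := (by decide : ∀ r ∈ RB,
      r.2.1 ∈ ([0, 0] :: (List.range 8).map fun l => [l]) ∧
      r.2.2 ∈ ([0, 0] :: (List.range 8).map fun l => [l]) ∧
      (r.1 ++ r.2.1 ++ invW r.1) ++ invW r.2.2 ∈ KQ ∧
      lt2 4 ((r.1 ++ r.2.1 ++ invW r.1) ++ invW r.2.2) = true) r hr
    have := key _ ((hk _).1 ((hw _ a4).trans (hf _ a3)))
    rw [wval_append, wval_invW] at this ⊢
    rw [mul_inv_eq_one]
    refine BT.rigid (k := 52) zz (mem_center_iff.1 hc _) ?_ (l4 _ a2) ((BT.mem_zpowers_two zz).2 this)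
    rw [wval_append, wval_append, wval_invW, conj_pow, l4 _ a1]; simp
  have sur : ∀ g : H, ∃ x ∈ gp y (sing 4), g * x⁻¹ ∈ center H := fun g => by
    have : π g ∈ (gp y (sing 4)).map π := by
      rw [map_gp, gp_congr hy (by decide), gp_top]; exact mem_top _
    obtain ⟨x, hx, e⟩ := this
    exact ⟨x, hx, (hk _).1 (by rw [map_mul, map_inv, e, mul_inv_cancel])⟩
  have zm : z ∈ gp y (sing 4) := by_contra fun h => hn (gp y (sing 4))
    (isComplement'_of_disjoint_and_mul_eq_univ (disjoint_def.2 fun {g} h1 h2 =>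
      (key g h1).resolve_right fun e => h (e ▸ h2)) (Set.eq_univ_of_forall fun g => by
        obtain ⟨x, hx, e⟩ := sur g
        exact ⟨_, e, x, hx, by simp⟩))
  refine ⟨y, eq_top_iff.2 fun g _ => ?_, rel, card, key⟩
  obtain ⟨x, hx, e⟩ := sur g
  have : g * x⁻¹ ∈ gp y (sing 4) := by
    rcases key _ e with h | h <;> rw [h]
    exacts [one_mem _, zm]
  simpa using mul_mem this hx

/-- Move the letter `500` to the right. -/
def zl (W : List (List ℕ)) (s : List ℕ) : List ℕ → Bool → List ℕ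
  | [], b => if b then [1000] else []
  | l :: w, false => if l = 1000 then zl W s w true else if l = 1001 then invW s ++ zl W s w true
      else l :: zl W s w false
  | l :: w, true => if l = 1000 then s ++ zl W s w false else if l = 1001 then zl W s w false
      else if l < 8 then subst W [l] ++ zl W s w true else 1000 :: l :: zl W s w false

theorem zl_sound {G : Type*} [Group G] {F : ℕ → G} {W : List (List ℕ)} {s : List ℕ}
    (hW : ∀ j < 4, F 500 * F j * (F 500)⁻¹ = wval F (W.getD j [])) (hs : F 500 * F 500 = wval F s)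
    (w : List ℕ) : wval F w = wval F (zl W s w false) ∧
      F 500 * wval F w = wval F (zl W s w true) := by
  have e0 : lval F 1000 = F 500 := rfl
  have e1 : lval F 1001 = (F 500)⁻¹ := rfl
  induction w with
  | nil => exact ⟨rfl, rfl⟩
  | cons l w ih =>
    rw [zl, zl, wval_cons]
    constructor <;> split_ifs with h1 h2 h3
    · rw [h1, e0, ih.2]
    · rw [h2, e1, wval_append, wval_invW, ← ih.2, ← hs]; group
    · rw [wval_cons, ← ih.1]
    · rw [h1, e0, wval_append, ← ih.1, ← hs, mul_assoc]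
    · rw [h2, e1, ← ih.1]; group
    · rw [wval_append, ← ih.2, ← conj_word hW (u := [l]) (by simpa using h3), wval_cons, wval_nil]
      group
    · rw [wval_cons, wval_cons, e0, ← ih.1]

end Cfsg.Agent.Lib.HNP
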