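import Cfsg.Agent.Lib.HNXT

/-! Certificates. -/

set_option autoImplicit false
set_option maxRecDepth 100000

namespace Cfsg.Agent.Lib.HNX

open Cfsg.Agent.Lib.PermNet Cfsg.Agent.Lib.Words Cfsg.Agent.Lib.PermGroup Cfsg.Agent.Lib.DCE Cfsg.Agent.Lib.PermModel Cfsg.Agent.Lib.BT

/-- The number of elements of the normal 2-subgroup that commute with a word. -/
noncomputable def cnt (a : List ℕ) : ℕ :=
  ((List.range 256).filter fun v => fixW (nat_lit 9) (nat_lit 511) xtt xB ((sw v ++ a) ++ invW (a ++ sw v))).length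

theorem hcnt : (reps2.drop 3).all (fun a => a == [10, 20] || decide (cnt a ≤ 16)) = true ∧
    cnt [4, 2, 2, 0] ≤ 1 ∧ cnt [4] ≤ 16 := by
  decide +kernel

theorem hnc : allR (fun i => fixW (nat_lit 9) (nat_lit 511) xtt xB
    ((ncW.getD i []).flatMap (fun g => g ++ reps2.getD i [] ++ invW g) ++ invW [6])) 1 6 = true := by
  decide +kernel

end Cfsg.Agent.Lib.HNX
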