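import Cfsg.Agent.Lib.TCHE2P

set_option autoImplicit false
set_option maxRecDepth 100000

namespace Cfsg.Agent.Lib.TCHE2
open Cfsg.Agent.Lib.TCCore

theorem k0 : P.RowsS 0 120 := P.rowsS_of_chk _ _ [nat_lit 0x40c0804040c0c0800010101010501010204010101000040c0808080c0c0800010101020501010204010101000080c0808080c0c080001010102050101040401010100004080418040c0c0c00010604010604020303030000404040814040408100804040002030202020303040000404080c0808080c0c0c00010104050105010301030001004100418100404100800010102030202020303030000404040814040408080804040040100401004010040100010101, nat_lit 0x10201010102020201010000408040404080808040400020102020201010102000040c04100c0c040404040001020102020201010102000040c04100c0c040404040001020102020201010102000040c04100c0c040404040001020102020201010102000040c04100c0c04040404000101020101010202020101000040804040408080804040002030202020303030000c0408040808080404040800010202020201030202000040c04041c0404041004040400, nat_lit 0x10201010102020201010000408040404080808040400020102020201010102000040804080808040404100001010201010102020201010000408040404080808040400020102020201010102000040804080808040404100001010201010102020201010000408040404080808040400020102020201010102000040c04100c0c04040404000102030202020303030000404080408080804040408000101020101010202020301000080c0808080c0c0c000101, nat_lit 0x102010101020202010100004080404040808080404000102010101020202010200004080404040808080404000102010101020202050100004080404040808080404000102010101020202010100004080404040808080404000201020202010101020000404080404040808080c0400020302020203030300004040804080808040404080001020102020201010104000040408040404080808040400020102020201010102000040804080808040404100001,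 nat_lit 0x3010403030101010100004080c0808080c0c0c0001030201020202010101020000404080404040808080c040002030202020303030000404080c0808080c0c0c000103020102020201010102000040c04100c0c04040404000101010101010101010100010080c0808080c0c0c000101010201010102020201010000408040404080808040400010201010102020201010000408040404080808040400010201010102020201010000408040404080808040400, nat_lit 0x1020101010202020301000080c0808080c0c0c0001010201020202010101020000404080404040808080c0400020302020203030300004040804080808040404080001010101010101010101000080804080808040404080001010101010101010101000080804080808040404080001030104030301010101000040404040404040404040004020302020203030300004040804080808040404080001010101010101010101000080804080808040404080001, nat_lit 0x2010202020101010200004040404040404040404000201020101010202020102000040804040408080804040002010202020101010200004080c0808080c0c0c000105010201010102020205010000408040404080808040400020102020201010102000040404040404040404040002020102020201010102000040c04100c0c0404040400010201020202010101020000404080404040808080c0400020302020203030300004040804080808040404080001, nat_lit 0x10101010101010102000080404040404040404040002010201010102020205010000408040404080808040400020102020201010102000040404040404040404040002010201010102020201020000408040404080808040400] (by decide +kernel)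
theorem k1 : P.RowsT 120 129 := P.rowsT_of_chk _ _ [nat_lit 0x100c0004001040300010004100c0004001040300010004100c0004001040300010004100c0004001040300010004100c0004001] (by decide +kernel)
theorem s0 : P.RowsS 0 120 := k0
theorem t0 : P.RowsT 120 129 := k1

end Cfsg.Agent.Lib.TCHE2
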