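import Cfsg.Agent.Lib.TCGroup
import Cfsg.Agent.Lib.TCHE2C0

set_option autoImplicit false
set_option maxRecDepth 100000

namespace Cfsg.Agent.Lib.TCHE2
open Cfsg.Agent.Lib.TCCore

theorem rowsS : P.RowsS 0 P.N := s0

theorem rowsT : P.RowsT P.N P.M := t0

def base : List (List Nat) := [
  [0, 0],
  [1, 2],
  [3, 3],
  [4, 4],
  [5, 5],
  [6, 6],
  [7, 7],
  [8, 8],
  [9, 9],
  [10, 10],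
  [3, 4, 3, 4],
  [3, 5, 3, 5],
  [3, 6, 3, 6],
  [5, 6, 5, 6],
  [4, 7, 4, 7],
  [5, 7, 5, 7],
  [5, 8, 5, 8],
  [7, 8, 7, 8],
  [3, 9, 3, 9],
  [4, 9, 4, 9],
  [6, 9, 6, 9],
  [8, 9, 8, 9],
  [3, 10, 3, 10],
  [4, 10, 4, 10],
  [5, 10, 5, 10],
  [8, 10, 8, 10],
  [0, 3, 0, 3],
  [0, 4, 0, 3, 4],
  [0, 5, 0, 6],
  [0, 6, 0, 5],
  [0, 9, 0, 10],
  [0, 10, 0, 9],
  [1, 3, 2, 3],
  [1, 4, 2, 5],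
  [1, 6, 2, 9],
  [1, 7, 2, 3, 4, 6, 7, 9],
  [1, 10, 2, 4, 5, 7, 8, 9, 10],
  [0, 1, 1, 0, 1, 1, 0, 1, 1, 3, 7, 8],
  [0, 1, 0, 1, 0, 1, 0, 1, 0, 1, 0, 1],
  [4, 5, 4, 5],
  [4, 6, 4, 6],
  [3, 7, 3, 7],
  [6, 7, 6, 7],
  [3, 8, 3, 8],
  [4, 8, 4, 8],
  [6, 8, 6, 8],
  [5, 9, 5, 9],
  [7, 9, 7, 9],
  [6, 10, 6, 10],
  [7, 10, 7, 10],
  [9, 10, 9, 10],
  [0, 7, 0, 4, 5, 6, 8],
  [0, 8, 0, 3, 4, 5, 6, 7],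
  [1, 5, 2, 3, 4],
  [1, 8, 2, 5, 6, 8, 9],
  [1, 9, 2, 3, 5, 6, 7, 8],
  [1, 1, 1, 1, 3, 5, 7, 8]]

theorem static_ok : TCGroup.static P base [0, 2, 1, 3, 4, 5, 6, 7, 8, 9, 10] 11 11 [3, 4, 5, 6, 7, 8, 9, 10] = true := by decide +kernel

theorem bound {G : Type*} [Group G] (y : Nat → G) (H : Subgroup G)
    (hrel : ∀ r ∈ base, (r.map y).prod = 1) (hinv : ∀ i < 11, y (List.getD [0, 2, 1, 3, 4, 5, 6, 7, 8, 9, 10] i i) = (y i)⁻¹)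
    (hsub : ∀ i ∈ ([3, 4, 5, 6, 7, 8, 9, 10] : List Nat), y i ∈ H) :
    H.relIndex (Subgroup.closure (y '' {i | i < 11})) ≠ 0 ∧
      H.relIndex (Subgroup.closure (y '' {i | i < 11})) ≤ 120 :=
  TCGroup.relIndex_le y 11 11 base [0, 2, 1, 3, 4, 5, 6, 7, 8, 9, 10] [3, 4, 5, 6, 7, 8, 9, 10] P H hrel hinv hsub static_ok rowsS rowsT

end Cfsg.Agent.Lib.TCHE2
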