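import Cfsg.Agent.Lib.HNXC0
import Cfsg.Agent.Lib.HNXC1
import Cfsg.Agent.Lib.HNXC2
import Cfsg.Agent.Lib.HNXC3
import Cfsg.Agent.Lib.HNXC4
import Cfsg.Agent.Lib.TCHE1
import Cfsg.Agent.Lib.TCHE2
import Cfsg.Agent.Lib.TCHE3
import Cfsg.Agent.Lib.HNE1

/-! A model of the group `2^8.(A5 wr 2)`, the centraliser of a 2-central involution of the
Harada–Norton group modulo that involution. -/

set_option autoImplicit false
set_option maxRecDepth 100000

namespace Cfsg.Agent.Lib.HNX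

open Subgroup Cfsg.Agent.Lib.PermNet Cfsg.Agent.Lib.Words Cfsg.Agent.Lib.PermGroup Cfsg.Agent.Lib.DCE
  Cfsg.Agent.Lib.PermModel Cfsg.Agent.Lib.BT

theorem xok : TabsOK (nat_lit 355) (nat_lit 9) (nat_lit 511) (nat_lit 31) xth xid := ⟨xok_id, (allR_of 0 31 31 (by decide) xok_0)⟩

theorem xTM : TM 11 (nat_lit 355) (nat_lit 9) (nat_lit 511) (nat_lit 31) xid 1843200 xth xdefs xch :=
  ⟨xok, (xok.relsA _ xd0), xc, by decide +kernel⟩

theorem xK : ∀ w ∈ KX, wval (tp (nat_lit 355) (nat_lit 9) (nat_lit 511) xtt) w = 1 :=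
  derive [] (xok.relsA _ xk0) _ (by decide +kernel)

theorem b1 {X : Type*} [Group X] (z : ℕ → X) (hz : ∀ w ∈ KX, wval z w = 1) :
    (gp z []).relIndex (gp z [[6], [8], [10], [12], [14], [16], [18], [20]]) ≠ 0 ∧
    (gp z []).relIndex (gp z [[6], [8], [10], [12], [14], [16], [18], [20]]) ≤ 256 :=
  tc_wrap [0, 3, 4, 5, 6, 7, 8, 9, 10] hz [[6], [8], [10], [12], [14], [16], [18], [20]] TCHE1.bound _ _ (by decide +kernel)

theorem b2 {X : Type*} [Group X] (z : ℕ → X) (hz : ∀ w ∈ KX, wval z w = 1) :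
    (gp z [[6], [8], [10], [12], [14], [16], [18], [20]]).relIndex (gp z [[0], [2], [6], [8], [10], [12], [14], [16], [18], [20]]) ≠ 0 ∧
    (gp z [[6], [8], [10], [12], [14], [16], [18], [20]]).relIndex (gp z [[0], [2], [6], [8], [10], [12], [14], [16], [18], [20]]) ≤ 120 :=
  tc_wrap [0, 3, 4, 5, 6, 7, 8, 9, 10] hz [[0], [2], [3], [6], [8], [10], [12], [14], [16], [18], [20]] TCHE2.bound _ _ (by decide +kernel)

theorem b3 {X : Type*} [Group X] (z : ℕ → X) (hz : ∀ w ∈ KX, wval z w = 1) :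
    (gp z [[0], [2], [6], [8], [10], [12], [14], [16], [18], [20]]).relIndex (gp z [[0], [2], [4], [6], [8], [10], [12], [14], [16], [18], [20]]) ≠ 0 ∧
    (gp z [[0], [2], [6], [8], [10], [12], [14], [16], [18], [20]]).relIndex (gp z [[0], [2], [4], [6], [8], [10], [12], [14], [16], [18], [20]]) ≤ 60 :=
  tc_wrap [0, 3, 4, 5, 6, 7, 8, 9, 10] hz [[0], [2], [3], [4], [5], [6], [8], [10], [12], [14], [16], [18], [20]] TCHE3.bound _ _ (by decide +kernel)

theorem cardA {X : Type*} [Group X] (z : ℕ → X) (hz : ∀ w ∈ KX, wval z w = 1) :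
    Nat.card (gp z (sl QL)) ≠ 0 ∧ Nat.card (gp z (sl QL)) ≤ 256 * 1 :=
  card_le_of_relIndex (gp_mono (by decide)) (b1 z hz) (card_gp_nil z)

theorem hub {X : Type*} [Group X] (z : ℕ → X) (hz : ∀ w ∈ KX, wval z w = 1) :
    Nat.card (gp z (sing 11)) ≠ 0 ∧ Nat.card (gp z (sing 11)) ≤ 60 * (120 * (256 * 1)) :=
  card_le_of_relIndex (gp_mono (by decide)) (b3 z hz)
    (card_le_of_relIndex (gp_mono (by decide)) (b2 z hz) (cardA z hz))

variable {Y : Type*} [Group Y] {y : ℕ → Y}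

/-- The generators followed by the auxiliary elements. -/
abbrev FX (y : ℕ → Y) : ℕ → Y := ext y 11 xdefs

/-- The group. -/
abbrev NN (y : ℕ → Y) : Subgroup Y := gp y (sing 11)

/-- The normal 2-subgroup. -/
abbrev AA (y : ℕ → Y) : Subgroup Y := gp (FX y) (sl QL)

/-- The faithful model on 355 points. -/
abbrev MX (y : ℕ → Y) :=
  Model (FX y) (NN y) ⊥ (nat_lit 355) (nat_lit 9) (nat_lit 511) xtt xB 1843200

theorem model (hK : ∀ w ∈ KX, wval y w = 1) (hT : 1843200 ≤ Nat.card (NN y)) : Nonempty (MX y) := by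
  obtain ⟨M⟩ := xTM.fmodel rfl hK xK (fun z => hub z) hT
  exact ⟨M.rebase xB (by decide +kernel)⟩

theorem conj_back {c k r m : Y} (e : k * c * k⁻¹ = m * r * m⁻¹) :
    c = k⁻¹ * m * r * (k⁻¹ * m)⁻¹ := by
  calc c = k⁻¹ * (k * c * k⁻¹) * k := by group
    _ = _ := by rw [e]; group

section
variable (M : MX y)
include M

theorem cls2 {c : Y} (hc : c ∈ NN y) (h : c * c = 1) :
    ∃ m ∈ NN y, ∃ i < 7, c = m * wval (FX y) (reps2.getD i []) * m⁻¹ := by
  have ch := M.ch_top xch2 (by rw [xc2]; decide +kernel)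
  obtain ⟨k, -, hk⟩ := M.pfix ch xc2 (j := 1) Nat.prime_two 2 (by decide +kernel) hc hc
    (by rw [pow_one, sq, h]; exact one_mem _)
  obtain ⟨u, hu, e⟩ := M.find1 ch s_2 (by decide) (k * ⟨c, hc⟩ * k⁻¹).2 hk .nil
    (List.forall_mem_singleton.2 (by
      rw [wval_cons, wval_cons, lval_upd (nv := 500), wval_nil, mul_one, ← coe_mul, conj_mul, mem_bot]
      simp [h])) (by simp)
  rw [wval_mkC] at e
  exact ⟨_, mul_mem (inv_mem k.2) (M.mem _), _, blt_lt hu, conj_back e⟩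

theorem cls3 {c : Y} (hc : c ∈ NN y) (h : c ^ 3 = 1) :
    ∃ m ∈ NN y, ∃ i < 3, c = m * wval (FX y) (reps3.getD i []) * m⁻¹ := by
  have ch := M.ch_top xch3 (by rw [xc3]; decide +kernel)
  obtain ⟨k, -, hk⟩ := M.pfix ch xc3 (j := 1) Nat.prime_three 3 (by decide +kernel) hc hc
    (by rw [pow_one, h]; exact one_mem _)
  obtain ⟨u, hu, e⟩ := M.find1 ch s_3 (by decide) (k * ⟨c, hc⟩ * k⁻¹).2 hk .nil
    (List.forall_mem_singleton.2 (by
      rw [wval_cons, wval_cons, wval_cons, lval_upd (nv := 500), wval_nil, mul_one, ← coe_mul, ← coe_mul,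
        conj_mul, conj_mul, mem_bot]
      simp [← pow_three, h])) (by simp)
  rw [wval_mkC] at e
  exact ⟨_, mul_mem (inv_mem k.2) (M.mem _), _, blt_lt hu, conj_back e⟩

theorem centA {c : Y} (hc : c ∈ NN y) (h : ∀ w ∈ sl QL, c * wval (FX y) w = wval (FX y) w * c) :
    c * c = 1 := by
  obtain ⟨u, hu, e⟩ := M.find1 (M.ch_top xch (by rw [xc]; decide +kernel)) s_c (by decide) hc
    (by simp) (comm_pairs _ h) (by simp) (by simp)
  rw [e, ← wval_append]; exact M.one _ hu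

theorem link (g : NN y) : ∀ p < 60, M.π g p < 60 ∧
    g * wval (FX y) (getW dW p) * (g : Y)⁻¹ = wval (FX y) (getW dW (M.π g p)) :=
  M.link (n0 := 11) (gp_congr (fun _ hi => ext_of_lt _ _ hi) (by decide)) (by decide) dW
    (allR_of 0 22 22 (by decide) hlink) g

omit M in
theorem dA {p : ℕ} (hp : p < 60) : wval (FX y) (getW dW p) ∈ AA y :=
  mem_word QL (fun i hi => by
    rw [← wval_single (FX y)]; exact mem_gp (List.mem_map_of_mem hi))
    (band_eq (allR_all htW p (Nat.zero_le _) (by omega))).1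

theorem normA {g x : Y} (hg : g ∈ NN y) (hx : x ∈ AA y) : g * x * g⁻¹ ∈ AA y := by
  refine (gp_le (K := (AA y).comap (MulAut.conj g).toMonoidHom)).2 (fun w hw => ?_) hx
  obtain ⟨p, hp, rfl⟩ := (by decide +kernel : ∀ w ∈ sl QL, ∃ p < 60, getW dW p = w) w hw
  obtain ⟨h1, h2⟩ := link M ⟨g, hg⟩ p hp
  exact (h2 ▸ dA h1 : g * _ * g⁻¹ ∈ AA y)

theorem memA (hK : ∀ w ∈ KX, wval y w = 1) {x : Y} (hx : x ∈ AA y) :
    (∃ v < 256, x = wval (FX y) (sw v)) ∧ x * x = 1 := by
  obtain ⟨g, hg, u, hu, z, hz, e⟩ := M.solve (M.ch_sub QL xchA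
    (cardA _ ((rels_ext 11 xdefs (by decide +kernel)).2 hK)) (by rw [xcA]; decide +kernel))
    (fun _ h => mem_of_okL _ h) s_A (gp_le.2 (fun w _ => M.mem w) hx) hx (.inl rfl) .nil (by simp) (by simp)
  rw [show sl [] = [] from rfl, gp_nil] at hg
  rw [mem_bot.1 hg, mem_bot.1 hz, one_mul, mul_one] at e
  refine ⟨⟨_, blt_lt (band_eq hu).1, e⟩, ?_⟩
  rw [e, ← wval_append]; exact M.one _ (band_eq hu).2

theorem inj (hK : ∀ w ∈ KX, wval y w = 1) {X : Type*} [Group X] (ψ : Y →* X) (hz : ψ (y 3) ≠ 1)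
    {k : Y} (hk : k ∈ NN y) (h : ψ k = 1) : k = 1 := by
  have h2 : ∀ k ∈ NN y, ψ k = 1 → k * k = 1 → k = 1 := fun k hk h e => by
    obtain ⟨m, -, i, hi, rfl⟩ := cls2 M hk e
    rcases Nat.eq_zero_or_pos i with rfl | h0
    · simp [reps2]
    have h3 := M.eq _ _ (allR_all hnc i h0 (by omega))
    rw [map_mul, map_mul, map_inv, conj_eq_one_iff] at h
    refine absurd ?_ hz
    rw [← ext_of_lt y xdefs (show 3 < 11 by decide), ← wval_single (ext y 11 xdefs) 3, ← h3]
    induction ncW.getD i [] with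
    | nil => simp
    | cons g l ih => simp only [List.flatMap_cons, wval_append, wval_invW, map_mul, ih, h, map_inv]; simp
  refine h2 k hk h (centA M hk fun w hw => ?_)
  have h3 := mul_mem (normA M hk (mem_gp hw)) (inv_mem (mem_gp hw))
  have := h2 _ (mul_mem (mul_mem (mul_mem hk (M.mem w)) (inv_mem hk)) (inv_mem (M.mem w)))
    (by simp [h]) (memA M hK h3).2
  rwa [mul_inv_eq_one, mul_inv_eq_iff_eq_mul] at this

theorem cnt_le (hK : ∀ w ∈ KX, wval y w = 1) (a : List ℕ) {m : Y} (hm : m ∈ NN y) :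
    Nat.card ↥(AA y ⊓ centralizer {m * wval (FX y) a * m⁻¹}) ≤ cnt a := by
  rw [cnt, ← SetLike.coe_sort_coe, Nat.card_coe_set_eq]
  refine le_trans ?_ (List.toFinset_card_le _)
  rw [← Set.ncard_coe_finset]
  refine le_trans (Set.ncard_le_ncard (fun x hx => ?_) ((Finset.finite_toSet _).image _))
    (Set.ncard_image_le (f := fun v => m * wval (FX y) (sw v) * m⁻¹) (Finset.finite_toSet _))
  obtain ⟨v, hv, e⟩ := (memA M hK (normA M (inv_mem hm) hx.1)).1
  refine ⟨v, ?_, by simp only [← e]; group⟩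
  simp only [List.coe_toFinset, List.mem_filter, List.mem_range, Set.mem_setOf_eq]
  refine ⟨hv, by_contra fun h => M.ne (sw v ++ a) (a ++ sw v) (by rw [Bool.eq_false_iff.2 h]; rfl) ?_⟩
  have := mem_centralizer_singleton_iff.1 hx.2
  rw [wval_append, wval_append, ← e]
  calc _ = m⁻¹ * (x * (m * wval (FX y) a * m⁻¹)) * m := by group
    _ = _ := by rw [this]; group

end

theorem le_card (hK : ∀ w ∈ KX, wval y w = 1) (hz : y 3 ≠ 1) : 1843200 ≤ Nat.card (NN y) := by
  set P := tp (nat_lit 355) (nat_lit 9) (nat_lit 511) xtt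
  have hK' := rels_pair hK xK
  have := Nat.finite_of_card_ne_zero (hub _ hK').1
  have := Nat.finite_of_card_ne_zero (hub _ hK).1
  have h1 := xTM.le_card (f := fun i => (y i, P i)) (MonoidHom.snd _ _) fun _ _ => rfl
  obtain ⟨M⟩ := model hK' h1
  refine h1.trans (Nat.card_le_card_of_injective (fun k => (⟨k.1.1, by
    have := mem_map_of_mem (MonoidHom.fst Y _) k.2
    rwa [map_gp] at this⟩ : NN y)) fun a b e => Subtype.ext ?_)
  exact mul_inv_eq_one.1 (inj M hK' (MonoidHom.fst _ _) hz (mul_mem a.2 (inv_mem b.2))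
    (mul_inv_eq_one.2 (congrArg Subtype.val e)))

theorem eq_top [Finite Y] (hK : ∀ w ∈ KX, wval y w = 1) (hz : y 3 ≠ 1)
    (hC : ∀ g, g * y 3 = y 3 * g → g ∈ NN y)
    (hW : ∀ i < 7, i ≠ 1 → ∀ g, g * y 3 * g⁻¹ ≠ wval y (reps2.getD i [])) :
    NN y = ⊤ ∧ Nat.card Y = 1843200 ∧
      ∀ c : Y, c * c = 1 → ∃ m, ∃ i < 7, c = m * wval y (reps2.getD i []) * m⁻¹ := by
  obtain ⟨M⟩ := model hK (le_card hK hz)
  have cN : Nat.card (NN y) = 1843200 := le_antisymm (hub y hK).2 (le_card hK hz)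
  have er : ∀ i < 7, wval (FX y) (reps2.getD i []) = wval y (reps2.getD i []) := fun i hi =>
    wval_ext y 11 xdefs _ ((by decide : ∀ i < 7, lt2 11 (reps2.getD i []) = true) i hi)
  have e3 : wval (FX y) [6] = y 3 := (wval_single _ 3).trans (ext_of_lt _ _ (by decide))
  have hAN : AA y ≤ NN y := gp_le.2 fun w _ => M.mem w
  have top : NN y = ⊤ := by
    refine HNE1.core (AA y) (NN y) ((fun p => wval (FX y) (getW dW p)) '' Set.Iio 60) hAN
      (fun g hg => mem_normalizer_iff.2 fun x => ⟨normA M hg, fun h => by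
        simpa [mul_assoc] using normA M (inv_mem hg) h⟩) ?_ ?_ (fun a ha => (memA M hK ha).2)
      (le_antisymm (cardA _ ((rels_ext 11 xdefs (by decide +kernel)).2 hK)).2 ?_) ?_ cN ?_ ?_ ?_
      ⟨_, ⟨0, by decide, rfl⟩, _, ⟨1, by decide, rfl⟩, 2, by decide, by
        rw [← wval_append]; exact M.eq _ _ (by decide +kernel)⟩
    · rintro _ ⟨p, hp, rfl⟩; exact dA hp
    · rintro g hg _ ⟨p, hp, rfl⟩
      exact ⟨_, (link M ⟨g, hg⟩ p hp).1, (link M ⟨g, hg⟩ p hp).2.symm⟩
    · exact le_trans (by decide +kernel) ((M.le_card QL xchA xcA).1.trans (M.le_card QL xchA xcA).2)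
    · rw [Set.ncard_image_of_injOn (s := Set.Iio 60) (fun p hp q hq => M.inj dW 60 hinj p hp q hq),
        Set.ncard_Iio_nat]
    · rintro _ ⟨p, hp, rfl⟩ g hg
      have h1 := M.cj _ _ _ (band_eq (allR_all htW p (Nat.zero_le _) (by simpa using hp))).2
      have h2 := (memA M hK (dA (y := y) hp)).2
      obtain ⟨m, hm, i, hi, e⟩ := cls2 M hg (by rw [conj_mul, h2]; simp)
      beta_reduce at e
      rw [← h1, e3] at e
      replace e : m⁻¹ * g * wval (FX y) (getW tW p) * y 3 * (m⁻¹ * g * wval (FX y) (getW tW p))⁻¹ =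
          wval (FX y) (reps2.getD i []) := by
        calc _ = m⁻¹ * (g * (wval (FX y) (getW tW p) * y 3 * (wval (FX y) (getW tW p))⁻¹) * g⁻¹) * m := by
              group
          _ = _ := by rw [e]; group
      obtain rfl : i = 1 := by_contra fun h => hW i hi h _ (er i hi ▸ e)
      have := hC _ (mul_inv_eq_iff_eq_mul.1 (e.trans e3))
      simpa [mul_assoc] using mul_mem (mul_mem hm this) (inv_mem (M.mem (getW tW p)))
    · intro a ha h1 h2
      obtain ⟨m, hm, i, hi, rfl⟩ := cls2 M ha h2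
      refine (cnt_le M hK _ hm).trans (by_contra fun h => h1 (normA M hm (mem_word QL (fun i hi => by
        rw [← wval_single (FX y)]; exact mem_gp (List.mem_map_of_mem hi)) ?_)))
      have := hcnt.1
      simp only [reps2, List.drop, List.all_cons, Bool.and_eq_true, Bool.or_eq_true, beq_iff_eq,
        decide_eq_true_eq] at this
      interval_cases i
      iterate 3 decide +kernel
      · exact absurd (this.1.resolve_left (by decide)) h
      · decide +kernel
      · exact absurd (this.2.2.1.resolve_left (by decide)) h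
      · exact absurd (this.2.2.2.1.resolve_left (by decide)) h
    · intro a ha h1 h2
      obtain ⟨m, hm, i, hi, rfl⟩ := cls3 M ha h2
      have := cnt_le M hK (reps3.getD i []) hm
      interval_cases i
      · simp [reps3] at h1
      · have := this.trans hcnt.2.1
        exact ⟨by omega, by omega⟩
      · refine ⟨this.trans hcnt.2.2, fun _ => ⟨_, ⟨_, (link M ⟨m, hm⟩ 16 (by decide)).1, rfl⟩, ?_⟩⟩
        beta_reduce
        rw [← (link M ⟨m, hm⟩ 16 (by decide)).2, conj_mul, conj_mul, M.comm _ _ (by decide +kernel)]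
  refine ⟨top, by rw [← cN, top, card_top], fun c h => ?_⟩
  obtain ⟨m, -, i, hi, e⟩ := cls2 M (top ▸ mem_top c) h
  exact ⟨m, i, hi, er i hi ▸ e⟩

end Cfsg.Agent.Lib.HNX
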