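import Cfsg.Agent.Lib.HeAR

set_option autoImplicit false
set_option maxRecDepth 100000

namespace Cfsg.Agent.Lib.HeA
open Cfsg.Agent.Lib.PermNet

theorem tr_0 : subB (ones 2058) (grow nets allg [1, 6, 2, 3, 2, 4, 5, 3, 1, 2, 6, 5, 3, 6, 4, 2, 3, 5, 1, 2, 3, 6, 1, 5] (pt 0)) = true := by decide +kernel

theorem fix0 : fixB nets hs (pt 0) = true := by decide +kernel

theorem o0_0 : subB (ivl 1 136) (grow nets hs [2, 3, 4, 2, 1, 2, 4, 1, 2, 3, 6, 0, 4, 2, 3, 1, 2, 1] (pt 1)) = true := by decide +kernel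

theorem fix1 : fixB nets hs (ivl 1 136) = true := by decide +kernel

theorem o1_0 : subB (ivl 137 136) (grow nets hs [1, 3, 2, 4, 3, 2, 6, 0, 4, 2, 1, 3, 2, 1, 2] (pt 137)) = true := by decide +kernel

theorem fix2 : fixB nets hs (ivl 137 136) = true := by decide +kernel

theorem o2_0 : subB (ivl 273 425) (grow nets hs [0, 1, 3, 4, 2, 1, 3, 2, 4, 1, 3, 2, 1, 2, 3, 4, 6, 4, 2] (pt 273)) = true := by decide +kernel

theorem fix3 : fixB nets hs (ivl 273 425) = true := by decide +kernel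

theorem o3_0 : subB (ivl 698 1360) (grow nets hs [1, 2, 1, 3, 4, 2, 1, 4, 3, 2, 1, 4, 2, 1, 6, 2, 4, 2, 1, 3, 2, 1, 4, 3, 2, 1, 6, 0] (pt 698)) = true := by decide +kernel

theorem fix4 : fixB nets hs (ivl 698 1360) = true := by decide +kernel

theorem sub_0 : levelB nets [[0], [2], [4], [6], [8]] [] 4 [1, 3, 2, 0, 1, 3, 4, 2, 3, 1, 4, 2, 3, 1, 2, 4, 1, 3, 2, 3, 4, 2, 1] 4 2036 756 = true := by decide +kernel

theorem sub_1 : levelB nets [[4], [6, 8, 6]] [4] 181 [0, 1, 0, 1, 0, 1, 0, 1, 0, 1] 181 68 20 = true := by decide +kernel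

theorem ch_0 : levelB nets [[0], [2], [4], [6], [8], [10], [12]] [] 0 [1, 6, 2, 3, 2, 4, 5, 3, 1, 2, 6, 5, 3, 6, 4, 2, 3, 5, 1, 2, 3, 6, 1, 5] 0 2058 2058 = true := by decide +kernel

theorem ch_1 : levelB nets [[0], [4], [6], [8], [10], [0, 2, 0, 2], [14]] [0] 698 [1, 2, 1, 3, 4, 2, 6, 3, 4, 1, 2, 6, 4, 3, 1, 2, 1, 3, 6, 4, 2, 3, 0] 698 1360 1360 = true := by decide +kernel

theorem ch_2 : levelB nets [[0], [6], [8], [10], [0, 2, 0, 2], [14]] [698, 0] 726 [1, 2, 3, 5, 1, 3, 2, 1, 5, 2, 3, 1, 5, 0] 726 1107 360 = true := by decide +kernel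

theorem ch_3 : levelB nets [[0], [16]] [726, 698, 0] 11 [0, 1] 11 58 4 = true := by decide +kernel

theorem rels0_0 : RelsOn nets 2058 12 rels0 0 12 :=
  relsOn_of_B _ _ _ _ _ 12 _ (by decide +kernel) (by decide +kernel)

end Cfsg.Agent.Lib.HeA
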