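import Cfsg.Agent.Lib.HeTC
import Cfsg.Agent.Lib.TCHe3
import Cfsg.Agent.Lib.HeAC0

/-! The presented Held group acting on 2058 points: index, suborbits, order, simplicity. -/

set_option autoImplicit false
set_option maxRecDepth 100000

namespace Cfsg.Agent.Lib.HeA

open Cfsg.Agent.Lib.PermNet Cfsg.Agent.Lib.Words Cfsg.Agent.Lib.PermGroup Cfsg.Agent.Lib.HeBase

theorem hrels : ∀ w ∈ relW rels, wval nets.perm w = 1 :=
  relW_one (wval_eq_of_relsOn (K := 12) hv (by norm_num) rels0_0)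

/-- The generators followed by the auxiliary elements. -/
def Y : ℕ → Spor.He := ext y 7 defs

theorem hdefs : ∀ w ∈ defRels 7 defs, wval nets.perm w = 1 :=
  derive I hrels _ (by decide +kernel)

theorem exists_phi : ∃ φ : Spor.He →* Equiv.Perm ℕ, ∀ i, φ (Y i) = nets.perm i := by
  obtain ⟨φ, h⟩ := exists_hom nets.perm (derive I hrels K (by decide +kernel))
  exact ⟨φ, map_ext φ y 7 defs nets h hdefs (by decide +kernel)⟩

noncomputable def phi : Spor.He →* Equiv.Perm ℕ := exists_phi.choose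

theorem hphi : ∀ i, phi (Y i) = nets.perm i := exists_phi.choose_spec

theorem gpY (ws : List (List ℕ))
    (hw : ws.all (fun w => w.all (fun l => decide (l < 2 * 7))) = true) : gp Y ws = gp y ws :=
  gp_ext y 7 defs ws hw

theorem hKY : ∀ w ∈ K, wval Y w = 1 := (rels_ext 7 defs (by decide +kernel)).2 hK

theorem htr : InOrb phi.range 0 (ones 2058) := (InOrb.step hv (wval_mem_range hphi _) [1, 6, 2, 3, 2, 4, 5, 3, 1, 2, 6, 5, 3, 6, 4, 2, 3, 5, 1, 2, 3, 6, 1, 5] (inOrb_pt _ 0) tr_0)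

theorem index_hs : (gp Y hs).index = 2058 ∧ ∀ g, g ∈ gp Y hs ↔ phi g 0 = 0 :=
  index_gp_eq hv hphi (by rw [gpY hs (by decide)]; exact HeTC.index1) fix0 htr

theorem index_eq : (gp y hs).index = 2058 := by rw [← gpY hs (by decide)]; exact index_hs.1

theorem orb0 : InOrb (gp nets.perm hs) 1 (ivl 1 136) := (InOrb.step hv (fun _ h => mem_gp h) [2, 3, 4, 2, 1, 2, 4, 1, 2, 3, 6, 0, 4, 2, 3, 1, 2, 1] (inOrb_pt _ 1) o0_0)

theorem suborbit0 : ∃ q : Spor.He ⧸ gp Y hs,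
    toPt index_hs.2 '' MulAction.orbit (gp Y hs) q = Set.Ico 1 (1 + 136) ∧
      (MulAction.orbit (gp Y hs) q).ncard = 136 :=
  exists_suborbit hv hphi index_hs.2 htr (by norm_num) (by norm_num) orb0 fix1

theorem orb1 : InOrb (gp nets.perm hs) 137 (ivl 137 136) := (InOrb.step hv (fun _ h => mem_gp h) [1, 3, 2, 4, 3, 2, 6, 0, 4, 2, 1, 3, 2, 1, 2] (inOrb_pt _ 137) o1_0)

theorem suborbit1 : ∃ q : Spor.He ⧸ gp Y hs,
    toPt index_hs.2 '' MulAction.orbit (gp Y hs) q = Set.Ico 137 (137 + 136) ∧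
      (MulAction.orbit (gp Y hs) q).ncard = 136 :=
  exists_suborbit hv hphi index_hs.2 htr (by norm_num) (by norm_num) orb1 fix2

theorem orb2 : InOrb (gp nets.perm hs) 273 (ivl 273 425) := (InOrb.step hv (fun _ h => mem_gp h) [0, 1, 3, 4, 2, 1, 3, 2, 4, 1, 3, 2, 1, 2, 3, 4, 6, 4, 2] (inOrb_pt _ 273) o2_0)

theorem suborbit2 : ∃ q : Spor.He ⧸ gp Y hs,
    toPt index_hs.2 '' MulAction.orbit (gp Y hs) q = Set.Ico 273 (273 + 425) ∧
      (MulAction.orbit (gp Y hs) q).ncard = 425 :=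
  exists_suborbit hv hphi index_hs.2 htr (by norm_num) (by norm_num) orb2 fix3

theorem orb3 : InOrb (gp nets.perm hs) 698 (ivl 698 1360) := (InOrb.step hv (fun _ h => mem_gp h) [1, 2, 1, 3, 4, 2, 1, 4, 3, 2, 1, 4, 2, 1, 6, 2, 4, 2, 1, 3, 2, 1, 4, 3, 2, 1, 6, 0] (inOrb_pt _ 698) o3_0)

theorem suborbit3 : ∃ q : Spor.He ⧸ gp Y hs,
    toPt index_hs.2 '' MulAction.orbit (gp Y hs) q = Set.Ico 698 (698 + 1360) ∧
      (MulAction.orbit (gp Y hs) q).ncard = 1360 :=
  exists_suborbit hv hphi index_hs.2 htr (by norm_num) (by norm_num) orb3 fix4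

theorem topY : gp Y allg = ⊤ := by rw [gpY allg (by decide)]; exact gp_top (by decide)

theorem top_bhs : gp Y ([2] :: hs) = ⊤ := by
  rw [eq_top_iff, ← topY]
  refine gp_le.2 fun w hw => ?_
  by_cases h : w = [12]
  · rw [h]; exact mem_gp_of_point hv hphi index_hs.2 [2] [15, 10, 14, 0, 4, 6, 10, 8, 6, 4, 0] [12] 649 (by decide +kernel)
  · refine mem_gp ?_
    revert w; decide

theorem coatom : IsCoatom (gp Y hs) :=
  isCoatom_of_cover hv hphi index_hs.2 [2] top_bhs 698 (by norm_num) (by decide +kernel)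
    [(136, [12, 10, 6, 4, 6, 4, 2], [0, 4, 1, 2, 1]), (136, [12, 4, 6, 2, 4, 6, 10, 8, 6, 4, 2], [1, 14, 1, 8, 6, 0, 0]), (425, [8, 6, 0, 2, 4, 6, 4, 2], [4, 6, 0, 0]), (1360, [2], [0])]
    (by decide +kernel) ⟨orb0, orb1, orb2, orb3, trivial⟩

theorem faithful_abcde : Nat.card (gp Y [[0], [2], [4], [6], [8]]) = 15120 ∧
    ∀ g ∈ gp Y [[0], [2], [4], [6], [8]], phi g = 1 → g = 1 := by
  have h : Nat.card (gp Y [[0], [2], [4], [6], [8]]) ≠ 0 ∧ Nat.card (gp Y [[0], [2], [4], [6], [8]]) ≤ 15120 := by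
    rw [gpY _ (by decide)]; exact HeTC.card_abcde
  refine faithful_of_card phi h ?_
  have := finite_map phi h.1
  rw [map_gp' hphi] at this ⊢
  rw [← fixer_nil (gp nets.perm _)]
  exact (le_card_fixer hv [[0], [2], [4], [6], [8]] (mem_gp_of_lettersIn (by decide +kernel)) [] 4 [1, 3, 2, 0, 1, 3, 4, 2, 3, 1, 4, 2, 3, 1, 2, 4, 1, 3, 2, 3, 4, 2, 1] 4 2036 756 sub_0
    (le_card_fixer hv [[4], [6, 8, 6]] (mem_gp_of_lettersIn (by decide +kernel)) [4] 181 [0, 1, 0, 1, 0, 1, 0, 1, 0, 1] 181 68 20 sub_1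
    (one_le_card_fixer _)))

theorem rel_cde : ∀ w ∈ [[4, 6, 8, 4, 6, 8, 4, 6, 8, 4, 6, 8, 4, 6, 8]], wval y w = 1 :=
  (rels_ext 7 defs (by decide)).1 (rels_of_faithful hphi faithful_abcde.2
    (mem_gp_of_lettersIn (by decide)) (derive I hrels _ (by decide +kernel)))

theorem b3 : (gp y [[6], [8], [10], [12]]).relIndex (gp y [[0], [4], [6], [8], [10], [12]]) ≠ 0 ∧
    (gp y [[6], [8], [10], [12]]).relIndex (gp y [[0], [4], [6], [8], [10], [12]]) ≤ 480 :=
  tc_wrap I (all_append hK rel_cde) [[0], [4], [6], [8], [10], [12]] TCHe3.bound _ _ (by decide +kernel)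

theorem card_top : Nat.card (gp y [[0], [2], [4], [6], [8], [10], [12]]) ≠ 0 ∧
    Nat.card (gp y [[0], [2], [4], [6], [8], [10], [12]]) ≤ 4030387200 :=
  card_le_of_relIndex (gp_mono (by decide)) HeTC.b2 (card_le_of_relIndex (gp_mono (by decide)) b3
    (card_le_of_relIndex (gp_mono (by decide)) HeTC.b4 (card_gp_nil y)))

instance finiteG : Finite Spor.He := by
  have := card_top.1
  rw [gp_top (by decide), Subgroup.card_top] at this
  exact Nat.finite_of_card_ne_zero this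

theorem card_range : 4030387200 ≤ Nat.card phi.range := by
  have : Finite phi.range := Finite.of_surjective _ phi.rangeRestrict_surjective
  rw [← fixer_nil phi.range]
  exact (le_card_fixer hv [[0], [2], [4], [6], [8], [10], [12]] (wval_mem_range hphi _) [] 0 [1, 6, 2, 3, 2, 4, 5, 3, 1, 2, 6, 5, 3, 6, 4, 2, 3, 5, 1, 2, 3, 6, 1, 5] 0 2058 2058 ch_0
    (le_card_fixer hv [[0], [4], [6], [8], [10], [0, 2, 0, 2], [14]] (wval_mem_range hphi _) [0] 698 [1, 2, 1, 3, 4, 2, 6, 3, 4, 1, 2, 6, 4, 3, 1, 2, 1, 3, 6, 4, 2, 3, 0] 698 1360 1360 ch_1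
    (le_card_fixer hv [[0], [6], [8], [10], [0, 2, 0, 2], [14]] (wval_mem_range hphi _) [698, 0] 726 [1, 2, 3, 5, 1, 3, 2, 1, 5, 2, 3, 1, 5, 0] 726 1107 360 ch_2
    (le_card_fixer hv [[0], [16]] (wval_mem_range hphi _) [726, 698, 0] 11 [0, 1] 11 58 4 ch_3
    (one_le_card_fixer _)))))

theorem faithful : Nat.card (⊤ : Subgroup Spor.He) = 4030387200 ∧
    ∀ g ∈ (⊤ : Subgroup Spor.He), phi g = 1 → g = 1 :=
  faithful_of_card phi (gp_top (ws := [[0], [2], [4], [6], [8], [10], [12]]) (by decide) ▸ card_top)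
    (by rw [← MonoidHom.range_eq_map]; exact card_range)

theorem card_eq : Nat.card Spor.He = 4030387200 := by
  rw [← Subgroup.card_top]; exact faithful.1

theorem phi_eq_one {g : Spor.He} (h : phi g = 1) : g = 1 := faithful.2 g trivial h

/-- Every relation checked on the networks holds in the group. -/
theorem hrelsY : ∀ w ∈ relW rels, wval Y w = 1 :=
  rels_of_faithful (L := ⊤) hphi (fun _ _ h => phi_eq_one h) (fun _ _ => trivial) hrels

theorem card_hs : Nat.card (gp Y hs) = 1958400 := by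
  have := (gp Y hs).index_mul_card
  rw [index_hs.1, card_eq] at this
  omega

theorem simple : IsSimpleGroup Spor.He := by
  refine isSimpleGroup_of coatom (fun M hM h => ?_) (p := 7) (by norm_num)
    (by rw [card_hs]; norm_num) (fun M hM h => ?_)
  · exact eq_bot_iff.2 fun g hg =>
      phi_eq_one (core_of_faithful hv hphi topY index_hs.2 htr hM h hg)
  · rw [eq_top_iff, ← topY]
    exact le_of_steps I (all_append hKY hrelsY) 7 [[12, 6, 8, 4, 12, 6, 2, 10, 2, 4, 6, 0], [12, 6, 10, 8]] allg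
      [([12, 6, 8, 4, 12, 6, 2, 10, 2, 4, 6, 0], [2], 21, 2), ([12, 6, 10, 8], [6], 3, 2), ([2], [4], 3, 2), ([6], [8], 3, 2), ([6], [10], 3, 2), ([6], [12], 3, 2), ([4, 6, 4, 6, 4, 6, 4, 6, 4, 6], [0], 1, 2)]
      (by decide +kernel) M hM h

end Cfsg.Agent.Lib.HeA
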