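import Cfsg.Agent.Lib.TCHe4P

set_option autoImplicit false
set_option maxRecDepth 100000

namespace Cfsg.Agent.Lib.TCHe4
open Cfsg.Agent.Lib.TCCore

theorem k0 : P.RowsS 0 168 := P.rowsS_of_chk _ _ [nat_lit 0x8000301000040804000201010000404040400030101000040404040001020000c040001020100008040400010101010000c04040001010101000040404040001010101, nat_lit 0x1000040c040001010101010000404040001010100004040400010101000040404000101010000c040400010101000040404000104010000404040001010400004040400, nat_lit 0x4040800010101010404000040c0001010100010040c00010101000100404000100004040808000301000040804000201010000404080001010101000040c04000301, nat_lit 0x100004040c04100004010000404040004040100004040400040101000040800030100004080400020101000040408000101010301010000800030100004080400020101, nat_lit 0x103000040800010101000040c04000101000080804040c0003020000404100400010401000040404000401010000404100400000080804040c000102000040404000103, nat_lit 0x80804040c00010200004041004000104010000404040004010100004080003010000408040002010100004040800010101000080804040c000102000040400020201, nat_lit 0x30101000040404000104010000c0404000101010000410040003010100004040400000080804040c00010200004040002020101030000c0800010101000040c04000101, nat_lit 0x80804040c00010200004040001020101010400000020201010000c041004000100004140404100400000080804040c00010001804040410040000004080804041000, nat_lit 0x80804040c0001020000404000102020101040000410040003010100004040400000080804040c0001020000404000102020101040000410040003010100004040400,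 nat_lit 0x808080400030300004080804140004030101000041004000301010000404040000008080804000303000040808041400040301010000410040003010100004040400, nat_lit 0x8080804000303000040808041400040301010000410040003010100004040400] (by decide +kernel)
theorem s0 : P.RowsS 0 168 := k0

end Cfsg.Agent.Lib.TCHe4
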