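import Cfsg.Agent.Lib.TCHe5P

set_option autoImplicit false
set_option maxRecDepth 100000

namespace Cfsg.Agent.Lib.TCHe5
open Cfsg.Agent.Lib.TCCore

theorem k0 : P.RowsS 0 315 := P.rowsS_of_chk _ _ [nat_lit 0xc00010201000040410100003010104000040404100408040005010401010000408040001000040c10180404140001000040c0410041c0001080100004042004040001080000c0410100400010202400050040100, nat_lit 0x30001004081410140007000080c041004041400050101000040c1404180005000040404100404040007010102010001404140001020100004040404000301010100004041404040001010201000040001030104, nat_lit 0x4040410041400010301010000404080400030302010000c040408040005010000404080400010201010000404080400010201010000404080400010201010000404040c00040202030000404080c00010201, nat_lit 0x101000040c08080001010101000040400010301040101000040c0804000101010100004041004080400020100004041408040005050101000040c00010102040101010000c00010201000040410040003010101, nat_lit 0x102010000408040003030401010600008040003010000404100404040003030101010700004041400010101010000404000102020100004080400010301040101000040c0804000101010100004040001030104, nat_lit 0x10000404040c00040202010204000040003010104010401010000003010401010000408040c0004010201000100404080400030304010105000080400030100004041004040408140001010000c040410041400, nat_lit 0x10100004040408040005010000404080400010201010000404080400010201010000404080400010201010000404040410041400010000408040400010102010000808040400010102010000408040400040102, nat_lit 0x40101010000c00010201000040410040003010101000040c0404100408180002010000c04040400030301010000c04080c0004030000404041000010301010000c0410040400040102010102010000414000101,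 nat_lit 0x20100004040404000301010100004040c00010202050101000140c00010102040101010000c00010201050101000041004080400020100004040c00010102040101010000c00070201050101000040c00010102, nat_lit 0x101000040c08040001010101000040400010301040101000040c08040001010101000040404041400050401000040c0c000401020000c0c04040400040102010500004040001030104010102030001404140001, nat_lit 0x40410040404081400010105000040404040005010101000040804000303040101060000808000301000040410040404000303010401070000404000301010000408040001030406010105000040001030104, nat_lit 0x104010100004080400010105000040c0400010102010001004040400010201010000404040400010202010000408040400010202010000408040003030406010205000040804000303040101050000808000301, nat_lit 0x10000404080400010201010000404080400010201010000404080400010201010000404040408040005010000404080400010201010000404080400010201010401050000408040001010401010000408080001, nat_lit 0x180c04040400040102010102010000414000101010100004041004080400020100004040c00010202000040410100003010401000040410040400040102010102010000414000101010100004040408040005, nat_lit 0x30000404080804000103030000404081004041000030000408040804000301030000408041404040001030000404040804000101050101000040804000101030000404041c0400010101010000c041020080400, nat_lit 0x401010100008040001010300004040414041800050000404041004040814000101050000404040001030000c0c10041404040005000100404100404080400010100020041004040400030000408041404040001, nat_lit 0x30000408080003030406010205000041810082400010205000041018081400050105000040c000401020401020100014081400070300020040408140001030000c0c04040414000103010001004040804000103,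 nat_lit 0x404100404040003030104010700004040003010100004080400010304060101050000410040804000201000040404140001030101000040400010301040105000040c0804000101010100004041408040005, nat_lit 0x10000408040c0004010201000100404000303040601000140804080400030304010105000080400030100004041004041808140001010000c040410041400010000408040804000303040101060000808000301, nat_lit 0xc0004020201000100804101808180002010000c04040400030301010000c040c00040202010204000040003010104010401010000003010401] (by decide +kernel)
theorem s0 : P.RowsS 0 315 := k0

end Cfsg.Agent.Lib.TCHe5
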