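import Cfsg.Agent.Lib.TCHe6P

set_option autoImplicit false
set_option maxRecDepth 100000

namespace Cfsg.Agent.Lib.TCHe6
open Cfsg.Agent.Lib.TCCore

theorem k0 : P.RowsS 0 48 := P.rowsS_of_chk _ _ [nat_lit 0x40404000101000040408040001010000404000201010100004040001010000c0404000103010101000040c040400000040404040804000100004040404040001010101, nat_lit 0x200004080c041400020000404000103010000c040c10100001050201000000301030101000040c040400010501000040400010100004040404040004010000404040004, nat_lit 0x200008080c04100002000080400010301010204000040002010101040000003010301020100008000201020000408040002010100004081004000403010100010040001] (by decide +kernel)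
theorem s0 : P.RowsS 0 48 := k0

end Cfsg.Agent.Lib.TCHe6
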