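import Cfsg.Agent.Lib.HeBase
import Cfsg.Agent.Lib.TCHe1
import Cfsg.Agent.Lib.TCHe2
import Cfsg.Agent.Lib.TCHe4
import Cfsg.Agent.Lib.TCHe5
import Cfsg.Agent.Lib.TCHe6

/-! Upper bounds for indices and orders in the presented Held group. -/

set_option autoImplicit false
set_option maxRecDepth 100000

namespace Cfsg.Agent.Lib.HeTC

open Cfsg.Agent.Lib.PermNet Cfsg.Agent.Lib.Words Cfsg.Agent.Lib.PermGroup Cfsg.Agent.Lib.HeBase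

theorem b1 : (gp y [[0], [4], [6], [8], [10], [0, 2, 0, 2], [2, 4, 6, 8, 2, 4, 6, 8, 2, 4, 6, 8, 2, 4, 6, 8, 2, 4, 6, 8, 2, 4, 6, 8, 2, 4, 6, 8]]).relIndex (gp y [[0], [2], [4], [6], [8], [10], [12]]) ≠ 0 ∧
    (gp y [[0], [4], [6], [8], [10], [0, 2, 0, 2], [2, 4, 6, 8, 2, 4, 6, 8, 2, 4, 6, 8, 2, 4, 6, 8, 2, 4, 6, 8, 2, 4, 6, 8, 2, 4, 6, 8]]).relIndex (gp y [[0], [2], [4], [6], [8], [10], [12]]) ≤ 2058 :=
  tc_wrap I hK [[0], [2], [4], [6], [8], [10], [12], [0, 2, 0, 2], [3, 1, 3, 1], [2, 4, 6, 8, 2, 4, 6, 8, 2, 4, 6, 8, 2, 4, 6, 8, 2, 4, 6, 8, 2, 4, 6, 8, 2, 4, 6, 8], [9, 7, 5, 3, 9, 7, 5, 3, 9, 7, 5, 3, 9, 7, 5, 3, 9, 7, 5, 3, 9, 7, 5, 3, 9, 7, 5, 3]] TCHe1.bound _ _ (by decide +kernel)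

theorem b2 : (gp y [[0], [4], [6], [8], [10], [12]]).relIndex (gp y [[0], [2], [4], [6], [8], [10], [12]]) ≠ 0 ∧
    (gp y [[0], [4], [6], [8], [10], [12]]).relIndex (gp y [[0], [2], [4], [6], [8], [10], [12]]) ≤ 49980 :=
  tc_wrap I hK [[0], [2], [4], [6], [8], [10], [12]] TCHe2.bound _ _ (by decide +kernel)

theorem b4 : (gp y []).relIndex (gp y [[6], [8], [10], [12]]) ≠ 0 ∧
    (gp y []).relIndex (gp y [[6], [8], [10], [12]]) ≤ 168 :=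
  tc_wrap I hK [[6], [8], [10], [12]] TCHe4.bound _ _ (by decide +kernel)

theorem b5 : (gp y [[0], [2], [4], [8]]).relIndex (gp y [[0], [2], [4], [6], [8]]) ≠ 0 ∧
    (gp y [[0], [2], [4], [8]]).relIndex (gp y [[0], [2], [4], [6], [8]]) ≤ 315 :=
  tc_wrap I hK [[0], [2], [4], [6], [8]] TCHe5.bound _ _ (by decide +kernel)

theorem b6 : (gp y []).relIndex (gp y [[0], [2], [4], [8]]) ≠ 0 ∧
    (gp y []).relIndex (gp y [[0], [2], [4], [8]]) ≤ 48 :=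
  tc_wrap I hK [[0], [2], [4], [8]] TCHe6.bound _ _ (by decide +kernel)

theorem index1 : (gp y [[0], [4], [6], [8], [10], [0, 2, 0, 2], [2, 4, 6, 8, 2, 4, 6, 8, 2, 4, 6, 8, 2, 4, 6, 8, 2, 4, 6, 8, 2, 4, 6, 8, 2, 4, 6, 8]]).index ≠ 0 ∧
    (gp y [[0], [4], [6], [8], [10], [0, 2, 0, 2], [2, 4, 6, 8, 2, 4, 6, 8, 2, 4, 6, 8, 2, 4, 6, 8, 2, 4, 6, 8, 2, 4, 6, 8, 2, 4, 6, 8]]).index ≤ 2058 := by
  have := b1
  rwa [gp_top (ws := [[0], [2], [4], [6], [8], [10], [12]]) (by decide), Subgroup.relIndex_top_right] at this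

theorem card_abcde : Nat.card (gp y [[0], [2], [4], [6], [8]]) ≠ 0 ∧
    Nat.card (gp y [[0], [2], [4], [6], [8]]) ≤ 15120 :=
  card_le_of_relIndex (gp_mono (by decide)) b5
    (card_le_of_relIndex (gp_mono (by decide)) b6 (card_gp_nil y))

end Cfsg.Agent.Lib.HeTC
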