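import Cfsg.Agent.Lib.HeldDeg

/-! The degenerate fusion pattern: identification with the stabilizer of a vector. -/

set_option autoImplicit false
set_option maxRecDepth 100000
set_option Elab.async false

namespace Cfsg.Agent.Lib.HeldFus

open Subgroup Cfsg.Agent.Lib.PCore Cfsg.Agent.Lib.PCoreConj Cfsg.Agent.Lib.HeldModel
  Cfsg.Agent.Lib.HeldFacts Cfsg.Agent.Lib.HeldGen Cfsg.Agent.Lib.HeldSL
open scoped Matrix

/-- A complement in the model. -/
def Lm : Subgroup Hm where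
  carrier := {h | e0 ᵥ* HeldSL.mt (toSL h) = e0}
  one_mem' := by
    change e0 ᵥ* HeldSL.mt (toSL 1) = e0
    rw [map_one, mt_one, Matrix.vecMul_one]
  mul_mem' := fun {a b} (ha : _ = _) (hb : _ = _) => by
    change e0 ᵥ* HeldSL.mt (toSL (a * b)) = e0
    rw [map_mul, mt_mul, ← Matrix.vecMul_vecMul, ha, hb]
  inv_mem' := fun {a} (ha : _ = _) => by
    change e0 ᵥ* HeldSL.mt (toSL a⁻¹) = e0
    nth_rw 1 [← ha]
    rw [Matrix.vecMul_vecMul, ← mt_mul, ← map_mul, mul_inv_cancel, map_one, mt_one, Matrix.vecMul_one]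

theorem mem_Lm {h : Hm} : h ∈ Lm ↔ ∀ j, toM h.v 0 j = e0 j := by
  change Pi.single 0 1 ᵥ* toM h.v = e0 ↔ _
  rw [Matrix.single_one_vecMul, funext_iff]
  rfl

theorem V_sup_L : Vm ⊔ Lm = ⊤ := eq_top_of_gens fun i hi =>
  ((by decide +kernel : ∀ i ∈ [1, 64, 128, 512, 10752, 15872], ind (eh i) < 16 ∨
    ∀ j, toM (eh i).v 0 j = e0 j) i hi).elim (fun h => mem_sup_left (mem_Vm.2 h))
      fun h => mem_sup_right (mem_Lm.2 h)

theorem V_inf_L {h : Hm} (h1 : h ∈ Vm) (h2 : h ∈ Lm) : h = 1 := by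
  obtain ⟨m, hm, rfl⟩ := h1
  exact (by decide +kernel : All 16 fun m => (∀ j, toM (vm m).v 0 j = e0 j) → vm m = 1) m hm
    (mem_Lm.1 h2)

theorem card_Vm : Nat.card Vm = 2 ^ 4 := by
  rw [← Nat.card_eq_of_bijective (fun i : Fin 16 => (⟨vm i, i, i.2, rfl⟩ : Vm))
    ⟨fun a b h => Fin.ext (vm_inj a.2 b.2 (congrArg Subtype.val h)), ?_⟩, Nat.card_fin]
  · norm_num
  · rintro ⟨_, m, hm, rfl⟩
    exact ⟨⟨m, hm⟩, rfl⟩

theorem lin_div (c : List ℕ) (x : ℕ) : lin c x / 2 = lin (c.map (· / 2)) x := by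
  induction c generalizing x with
  | nil => simp [lin_nil]
  | cons a c ih =>
    rw [List.map_cons, lin_cons, lin_cons, Nat.xor_div_two, ih]
    rcases Nat.mod_two_eq_zero_or_one x with h | h <;> simp [h]

theorem lin_par (c : List ℕ) (x : ℕ) : lin c x % 2 = lin (c.map (· % 2)) x := by
  induction c generalizing x with
  | nil => simp [lin_nil]
  | cons a c ih =>
    rw [List.map_cons, lin_cons, lin_cons, ← ih, ← pow_one 2, Nat.xor_mod_two_pow, pow_one]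
    rcases Nat.mod_two_eq_zero_or_one x with h | h <;> simp [h]

universe u

variable {G : Type u} [Group G] (φ : Hm →* G)

/-- The rows of the affine matrix of an element. -/
def Rows (L : Subgroup G) (m : G) (c : List ℕ) : Prop := c.length = 5 ∧ (∀ x ∈ c, x < 2 ^ 5) ∧
  ∀ x, lin c x % 2 = x % 2 ∧ (x % 2 = 0 → φ (vm (x / 2)) * m = m * φ (vm (lin c x / 2))) ∧
    (x % 2 = 1 → ∃ l ∈ L, φ (vm (x / 2)) * m = l * φ (vm (lin c x / 2)))

variable {φ} {L : Subgroup G} {m m' : G} {c c' : List ℕ}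

theorem Rows.mul (h : Rows φ L m c) (h' : Rows φ L m' c') :
    Rows φ L (m * m') (c.map (lin c')) := by
  refine ⟨by simpa using h.1, fun x hx => ?_, fun x => ?_⟩
  · obtain ⟨_, -, rfl⟩ := List.mem_map.1 hx
    exact lin_lt h'.2.1 _
  · obtain ⟨h1, h2, h3⟩ := h.2.2 x
    obtain ⟨h4, h5, h6⟩ := h'.2.2 (lin c x)
    rw [lin_map]
    refine ⟨h4.trans h1, fun e => by rw [← mul_assoc, h2 e, mul_assoc, h5 (h1.trans e), mul_assoc],
      fun e => ?_⟩
    obtain ⟨l, l1, l2⟩ := h3 e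
    obtain ⟨k, k1, k2⟩ := h6 (h1.trans e)
    exact ⟨_, mul_mem l1 k1, by rw [← mul_assoc, l2, mul_assoc, k2, mul_assoc]⟩

theorem rows_of {l : G} (hl : l ∈ L) {t : ℕ} (ht : t < 16) (e : m = l * φ (vm t)) {g : List ℕ}
    (h1 : g.length = 4) (h2 : ∀ x ∈ g, x < 16)
    (h3 : ∀ i < 4, m⁻¹ * φ (vm (2 ^ i)) * m⁻¹⁻¹ = φ (vm (lin g (2 ^ i)))) :
    Rows φ L m ((2 * t + 1) :: g.map (2 * ·)) := by
  have h4 : ∀ y, φ (vm y) * m = m * φ (vm (lin g y)) := fun y => by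
    rw [← lin_mod, h1, ← vm_mod y, ← xor_ext (F := fun y => m⁻¹ * φ (vm y) * m⁻¹⁻¹)
      (F' := fun y => φ (vm (lin g y))) (fun x y => by simp only [← vm_mul, map_mul, conj_mul])
      (fun x y => by simp only [lin_xor, ← vm_mul, map_mul]) (by norm_num) h3 _
      (Nat.mod_lt _ (by norm_num))]
    group
  refine ⟨by simp [h1], fun x hx => ?_, fun x => ?_⟩
  · rcases List.mem_cons.1 hx with rfl | hx
    · omega
    · obtain ⟨y, hy, rfl⟩ := List.mem_map.1 hx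
      have := h2 y hy
      omega
  · have h5 : lin ((2 * t + 1) :: g.map (2 * ·)) x / 2 = x % 2 * t ^^^ lin g (x / 2) := by
      rw [lin_div, List.map_cons, lin_cons, List.map_map, show (2 * t + 1) / 2 = t by omega,
        List.map_congr_left (g := id) (fun y _ => by simp), List.map_id]
    rw [h5, h4]
    refine ⟨?_, fun h => by simp [h], fun h => ⟨l, hl, by
      rw [h, one_mul, ← vm_mul, map_mul, ← mul_assoc, ← e]⟩⟩
    match g, h1 with
    | [a, b, c, d], _ =>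
      rw [lin_par]
      simp [lin_cons, lin_nil, Nat.add_mod]

theorem rows_vm {t : ℕ} (ht : t < 16) : Rows φ L (φ (vm t)) [2 * t + 1, 2, 4, 8, 16] :=
  rows_of (one_mem L) ht (one_mul _).symm (g := [1, 2, 4, 8]) rfl (by decide) fun i hi => by
    rw [(by decide +kernel : All 4 fun i => lin [1, 2, 4, 8] (2 ^ i) = 2 ^ i) i hi, mul_assoc,
      inv_inv, VV_comm (vm_mem _) (vm_mem t), inv_mul_cancel_left]

theorem exists_rows (hm : m ∈ MM φ) (h : ∃ l ∈ L, ∃ v ∈ VV φ, m = l * v) : ∃ c, Rows φ L m c := by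
  obtain ⟨l, hl, v, hv, e⟩ := h
  obtain ⟨t, ht, rfl⟩ := mem_VV.1 hv
  choose f h1 h2 using fun y => mem_VV.1 ((conj_VV (inv_mem hm)).2 (vm_mem (φ := φ) y))
  refine ⟨_, rows_of hl ht e (g := [f 1, f 2, f 4, f 8]) rfl (by simp [h1]) fun i hi => ?_⟩
  rw [h2]
  interval_cases i <;> simp [lin_cons, lin_zero]

variable (S : Setup φ)
include S

theorem Setup.rows_unique (hL : ∀ x ∈ L, x ∈ VV φ → x = 1) (h : Rows φ L m c) (h' : Rows φ L m c') :
    c = c' := by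
  have key : ∀ x, lin c x = lin c' x := fun x => by
    obtain ⟨h1, h2, h3⟩ := h.2.2 x
    obtain ⟨h4, h5, h6⟩ := h'.2.2 x
    have h7 := lin_lt h.2.1 x
    have h8 := lin_lt h'.2.1 x
    suffices φ (vm (lin c x / 2)) = φ (vm (lin c' x / 2)) by
      have := vm_inj (by omega) (by omega) (S.inj this)
      omega
    rcases Nat.mod_two_eq_zero_or_one x with e | e
    · exact mul_left_cancel ((h2 e).symm.trans (h5 e))
    · obtain ⟨l, l1, l2⟩ := h3 e
      obtain ⟨k, k1, k2⟩ := h6 e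
      have h9 : k⁻¹ * l = φ (vm (lin c' x / 2)) * (φ (vm (lin c x / 2)))⁻¹ := by
        rw [inv_mul_eq_iff_eq_mul, ← mul_assoc, ← k2, l2, mul_inv_cancel_right]
      exact (mul_inv_eq_one.1 (h9.symm.trans (hL _ (mul_mem (inv_mem k1) l1)
        (h9 ▸ mul_mem (vm_mem _) (inv_mem (vm_mem _)))))).symm
  rw [five h.1, five h'.1]
  simp only [key]

variable [Finite G]

theorem Setup.exists_compl : ∃ L : Subgroup G, (∀ x ∈ L, x ∈ VV φ → x = 1) ∧
    ∀ m ∈ MM φ, ∃ l ∈ L, ∃ v ∈ VV φ, m = l * v := by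
  have h1 : ∀ P : Subgroup Hm, P.map φ ≤ MM φ := fun P =>
    map_le_iff_le_comap.2 fun h _ => mem_MM h
  have : ((VV φ).subgroupOf (MM φ)).Normal := normal_in_normalizer
  have : IsMulCommutative ((VV φ).subgroupOf (MM φ)) :=
    ⟨⟨fun a b => Subtype.ext (Subtype.ext (VV_comm a.2 b.2))⟩⟩
  obtain ⟨H, hH⟩ := Gaschuetz.gaschuetz (N := (VV φ).subgroupOf (MM φ))
    (C := (Lm.map φ).subgroupOf (MM φ)) (K := ((⊤ : Subgroup Hm).map φ).subgroupOf (MM φ)) (by
      rw [Nat.card_congr (subgroupOfEquivOfLe (show VV φ ≤ MM φ from h1 Vm)).toEquiv, VV,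
        card_map_of_injective S.inj, card_Vm]
      exact Nat.Coprime.pow_left _ ((Nat.Prime.coprime_iff_not_dvd Nat.prime_two).2
        ((S.sylow.of_le (h1 Tm) le_top).not_dvd_relIndex_of_le (map_mono le_top))))
    (eq_bot_iff.2 fun x hx => by
      obtain ⟨⟨a, a1, a2⟩, b, b1, b2⟩ := hx
      obtain rfl : a = b := S.inj (a2.trans b2.symm)
      exact Subtype.ext (a2.symm.trans (by rw [V_inf_L a1 b1, map_one]; rfl)))
    (by rw [← V_sup_L, Subgroup.map_sup, subgroupOf_sup (h1 _) (h1 _)]; rfl)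
  refine ⟨H.map (MM φ).subtype, ?_, fun m hm => ?_⟩
  · rintro _ ⟨x, x1, rfl⟩ x2
    exact congrArg Subtype.val (disjoint_def.1 hH.disjoint x2 x1)
  · obtain ⟨⟨l, v⟩, e⟩ := hH.symm.2 ⟨m, hm⟩
    exact ⟨_, ⟨_, l.2, rfl⟩, _, v.2, (congrArg Subtype.val e).symm⟩

theorem Setup.card_MM (hp : Pat φ 129) : 15 * 21504 ≤ Nat.card (MM φ) := by
  have h0 : ∀ i : Fin 15, vm (i + 1) ≠ 1 := by decide +kernel
  choose g hg using fun i : Fin 15 => isConj_iff.1 (S.inD_V hp (vm_mem (i + 1))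
    fun h => h0 i (S.inj (by rw [h, map_one])))
  rw [← card_Hm, ← Nat.card_fin 15, ← Nat.card_prod]
  refine Nat.card_le_card_of_injective (fun a => ⟨g a.1 * φ a.2,
    mul_mem (S.mem_M hp (hg _ ▸ vm_mem _)) (mem_MM _)⟩) ?_
  rintro ⟨i, a⟩ ⟨j, b⟩ h
  have h1 : g i * φ a = g j * φ b := congrArg Subtype.val h
  have h2 : ∀ i a, g i * φ a * φ z * (g i * φ a)⁻¹ = φ (vm (i + 1)) := fun i a => by
    rw [← conj_conj_eq, ← map_mul, z_comm, map_mul, mul_inv_cancel_right, hg]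
  obtain rfl : i = j := Fin.ext (Nat.succ_injective (vm_inj (by omega) (by omega)
    (S.inj ((h2 i a).symm.trans (h1 ▸ h2 j b)))))
  rw [S.inj (mul_left_cancel h1)]

theorem Setup.exists_equiv (hp : Pat φ 129) :
    ∃ e : MM φ ≃* St, ∀ k < 16, (e ⟨φ (vm k), mem_MM _⟩ : SL5) = toSL (vm k) := by
  obtain ⟨L, h1, h2⟩ := S.exists_compl
  choose c hc using fun m : MM φ => exists_rows m.2 (h2 m m.2)
  have h3 : ∀ a b, Mx (c (a * b)) = Mx (c a) * Mx (c b) := fun a b => by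
    rw [S.rows_unique h1 (hc (a * b)) ((hc a).mul (hc b)), Mx_mul _ (hc b).1]
  have h4 : ∀ k < 16, Mx (c ⟨φ (vm k), mem_MM _⟩) = toM (vm k).v := fun k hk => by
    rw [S.rows_unique h1 (hc _) (rows_vm hk)]
    exact (by decide +kernel : All 16 fun k => Mx [2 * k + 1, 2, 4, 8, 16] = toM (vm k).v) k hk
  have h5 : Mx (c 1) = 1 := by
    have := h4 0 (by norm_num)
    simp only [vm_zero, map_one] at this
    exact this.trans toM_one
  have h6 : ∀ a, (Mx (c a)).det = 1 := fun a => by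
    have := congrArg Matrix.det (h3 a a⁻¹)
    rw [mul_inv_cancel, h5, Matrix.det_one, Matrix.det_mul] at this
    exact (by decide : ∀ x y : ZMod 2, 1 = x * y → x = 1) _ _ this
  let ψ : MM φ →* St := MonoidHom.mk' (fun a => ⟨⟨Mx (c a), h6 a⟩, mem_St.2 fun i => by
    change bv ((lin (c a) (2 ^ ht i)).testBit 0) = _
    rw [Nat.testBit_zero, ((hc a).2.2 _).1]
    revert i
    decide⟩) fun a b => Subtype.ext (mt_ext (h3 a b))
  have h7 : Function.Injective ψ := (injective_iff_map_eq_one ψ).2 fun a h => by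
    have e : c a = [1, 2, 4, 8, 16] := Mx_inj (hc a).1 rfl (hc a).2.1 (by decide)
      ((congrArg (fun x : St => HeldSL.mt x) h).trans (mt_one.trans (by decide +kernel)))
    have h8 := (hc a).2.2
    rw [e] at h8
    have h9 : ∀ i < 4, a * φ (vm (2 ^ (3 - i))) = φ (vm (2 ^ (3 - i))) * a := fun i hi => by
      obtain ⟨k1, k2, k3⟩ := (by decide +kernel : All 4 fun i => 2 ^ (4 - i) % 2 = 0 ∧
        2 ^ (4 - i) / 2 = 2 ^ (3 - i) ∧ lin [1, 2, 4, 8, 16] (2 ^ (4 - i)) / 2 = 2 ^ (3 - i)) i hi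
      have := (h8 _).2.1 k1
      rw [k2, k3] at this
      exact this.symm
    obtain ⟨u, hu⟩ := S.cent a ((by decide +kernel : vm (2 ^ (3 - 0)) = z) ▸ h9 0 (by norm_num))
    obtain ⟨l, l1, l2⟩ := (h8 1).2.2 rfl
    rw [show lin [1, 2, 4, 8, 16] 1 / 2 = 0 by decide +kernel, show 1 / 2 = 0 from rfl, vm_zero,
      map_one, one_mul, mul_one] at l2
    exact Subtype.ext (h1 _ (l2 ▸ l1) (hu ▸ mem_map_of_mem φ (mem_Vm.2 (cent_Vm u fun i hi =>
      S.inj (by rw [map_mul, map_mul, hu, h9 i hi])))))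
  exact ⟨MulEquiv.ofBijective ψ (h7.bijective_of_nat_card_le (card_St.trans (S.card_MM hp))),
    fun k hk => mt_ext (h4 k hk)⟩

theorem Setup.iso_St (hp : Pat φ 129) : Nonempty (G ≃* St) := by
  obtain ⟨e, he⟩ := S.exists_equiv hp
  let χ : Hm →* G := (MM φ).subtype.comp (e.symm.toMonoidHom.comp (toSL.codRestrict St toSL_mem))
  have h0 : ∀ h, χ h ∈ MM φ := fun h => (e.symm _).2
  have h1 : ∀ h, (e ⟨χ h, h0 h⟩ : SL5) = toSL h := fun h =>
    congrArg Subtype.val (e.apply_symm_apply _)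
  have h2 : ∀ {a b : MM φ}, (e a : SL5) = e b → (a : G) = b := fun h =>
    congrArg Subtype.val (e.injective (Subtype.ext h))
  have h3 : ∀ k < 16, χ (vm k) = φ (vm k) := fun k hk => h2 ((h1 _).trans (he k hk).symm)
  have h4 : χ z = φ z := (by decide +kernel : vm 8 = z) ▸ h3 8 (by norm_num)
  have h5 : ∀ {a b c d : MM φ}, (a * b : G) = c * d ↔ (e a * e b : SL5) = e c * e d := by
    intro a b c d
    rw [← coe_mul, ← coe_mul, ← coe_mul, ← coe_mul, ← map_mul, ← map_mul, Subtype.coe_inj,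
      Subtype.coe_inj, e.apply_eq_iff_eq]
  have S' : Setup χ := ⟨fun a b h => toSL_inj (by
      rw [← h1, ← h1]
      simp only [h]), fun g hg => by
    obtain ⟨u, rfl⟩ := S.cent g (h4 ▸ hg)
    obtain ⟨v, hv⟩ := (mem_range_toSL toSL_z).1 (h1 z ▸ (h5 (a := ⟨_, mem_MM u⟩) (b := ⟨_, h0 z⟩)
      (c := ⟨_, h0 z⟩) (d := ⟨_, mem_MM u⟩)).1 hg)
    exact ⟨v, h2 ((h1 v).trans hv)⟩⟩
  have h6 : VV χ = VV φ := Subgroup.ext fun x => by
    rw [mem_VV, mem_VV]
    exact exists_congr fun k => and_congr_right fun hk => by rw [h3 k hk]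
  have h7 : MM χ = MM φ := by rw [MM, h6, MM]
  have hp' : Pat χ 129 := ⟨by norm_num, fun c hc => by
    rw [InD, h4, ← show (ind (rep c) < 16 ∧ rep c ≠ 1) ↔ Nat.testBit 129 c = true from
      (by decide +kernel : All 8 fun c => (ind (rep c) < 16 ∧ rep c ≠ 1) ↔
        Nat.testBit 129 c = true) c hc]
    refine ⟨fun h => ⟨?_, (by decide +kernel : All 8 fun c => rep c ≠ 1) c hc⟩, fun h =>
      S.inD_V hp (h6 ▸ mem_map_of_mem χ (mem_Vm.2 h.1)) fun e => h.2 (S'.inj (by rw [e, map_one]))⟩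
    obtain ⟨v, v1, v2⟩ : χ (rep c) ∈ VV χ := h6 ▸ S.mem_V' hp (h0 _) h
    exact mem_Vm.1 (S'.inj v2 ▸ v1)⟩
  have h8 := S'.deg_top hp' fun y hy h => by
    rw [h7] at hy
    have := cent_t' (e ⟨y, hy⟩).2 (h1 _ ▸ (h5 (a := ⟨y, hy⟩) (b := ⟨_, h0 _⟩) (c := ⟨_, h0 _⟩)
      (d := ⟨y, hy⟩)).1 h)
    rw [← h1, ← h1, ← h5, ← h5] at this
    rw [α_mul]
    exact this.imp mul_inv_eq_iff_eq_mul.2 mul_inv_eq_iff_eq_mul.2
  exact ⟨(topEquiv.symm.trans (MulEquiv.subgroupCongr (h7.symm.trans h8).symm)).trans e⟩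

end Cfsg.Agent.Lib.HeldFus
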