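import Cfsg.Agent.Lib.HeldStab
import Cfsg.Agent.Lib.Gaschuetz

/-! The degenerate fusion pattern: the group is the normalizer of an elementary abelian group of
order `16`. -/

set_option autoImplicit false
set_option maxRecDepth 100000
set_option Elab.async false

namespace Cfsg.Agent.Lib.HeldFus

open Subgroup Cfsg.Agent.Lib.PCore Cfsg.Agent.Lib.PCoreConj Cfsg.Agent.Lib.HeldModel
  Cfsg.Agent.Lib.HeldFacts Cfsg.Agent.Lib.HeldGen Cfsg.Agent.Lib.KleinCount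
  Cfsg.Agent.Lib.InvolCount

/-- The elements of the normal elementary abelian subgroup of order `16`. -/
def vm (m : ℕ) : Hm := el (Nat.land m 15) 0

theorem vm_mod (m : ℕ) : vm (m % 16) = vm m := by
  have : Nat.land (m % 16) 15 = Nat.land m 15 := by
    change m % 16 &&& 15 = m &&& 15
    rw [Nat.and_two_pow_sub_one_eq_mod _ 4, Nat.and_two_pow_sub_one_eq_mod _ 4, Nat.mod_mod]
  rw [vm, vm, this]

theorem vm_mul (m n : ℕ) : vm m * vm n = vm (m ^^^ n) := by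
  rw [← vm_mod m, ← vm_mod n, ← vm_mod (m ^^^ n), Nat.xor_mod_two_pow (n := 4)]
  exact (by decide +kernel : All 16 fun m => All 16 fun n => vm m * vm n = vm (m ^^^ n)) _
    (Nat.mod_lt _ (by norm_num)) _ (Nat.mod_lt _ (by norm_num))

theorem vm_zero : vm 0 = 1 := by decide +kernel

theorem ind_vm : All 16 fun m => ind (vm m) = m ∧ vm m = eh m := by decide +kernel

theorem vm_inj {m n : ℕ} (hm : m < 16) (hn : n < 16) (h : vm m = vm n) : m = n := by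
  rw [← (ind_vm m hm).1, h, (ind_vm n hn).1]

theorem vm_sq (m : ℕ) : vm m * vm m = 1 := by rw [vm_mul, Nat.xor_self, vm_zero]

/-- The normal elementary abelian subgroup of order `16`. -/
def Vm : Subgroup Hm where
  carrier := {h | ∃ m < 16, h = vm m}
  one_mem' := ⟨0, by norm_num, vm_zero.symm⟩
  mul_mem' := by
    rintro _ _ ⟨m, h1, rfl⟩ ⟨n, h2, rfl⟩
    exact ⟨_, Nat.xor_lt_two_pow (n := 4) h1 h2, vm_mul m n⟩
  inv_mem' := by
    rintro _ ⟨m, h, rfl⟩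
    exact ⟨m, h, inv_eq_of_sq (vm_sq m)⟩

theorem mem_Vm {h : Hm} : h ∈ Vm ↔ ind h < 16 :=
  ⟨by rintro ⟨m, h, rfl⟩; rwa [(ind_vm m h).1],
    fun H => ⟨_, H, (eh_ind h).symm.trans (ind_vm _ H).2.symm⟩⟩

theorem norm_Vm : normalizer (Vm : Set Hm) = ⊤ := eq_top_of_gens fun i hi =>
  mem_normalizer_fintype (by
    rintro _ ⟨m, hm, rfl⟩
    exact mem_Vm.2 ((by decide +kernel : ∀ i ∈ [1, 64, 128, 512, 10752, 15872], All 16 fun m =>
      ind (eh i * vm m * (eh i)⁻¹) < 16) i hi m hm))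

theorem cent_Vm : ∀ h : Hm, (All 4 fun i => h * vm (2 ^ (3 - i)) = vm (2 ^ (3 - i)) * h) →
    ind h < 16 := by decide +kernel

theorem mul_conj {G : Type*} [Group G] {s t : G} (hs : s * s = 1) (ht : t * t = 1) (k : ℤ) :
    IsConj s (s * (s * t) ^ k) ∨ IsConj t (s * (s * t) ^ k) := by
  have h1 : ∀ j : ℤ, ((s * t) ^ j)⁻¹ * s = s * (s * t) ^ j := fun j => by
    rw [← conj_mul_zpow hs ht, inv_mul_cancel_right]
  have h2 : s * (s * t) = t := by rw [← mul_assoc, hs, one_mul]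
  rcases Int.even_or_odd' k with ⟨j, rfl | rfl⟩
  · exact Or.inl (isConj_iff.2 ⟨((s * t) ^ j)⁻¹, by rw [h1]; group⟩)
  · refine Or.inr (isConj_iff.2 ⟨((s * t) ^ j)⁻¹, ?_⟩)
    generalize s * t = a at h1 h2
    rw [← h2, ← mul_assoc, h1]
    group

universe u

variable {G : Type u} [Group G] (φ : Hm →* G)

/-- The image of the normal elementary abelian subgroup. -/
def VV : Subgroup G := Vm.map φ

/-- Its normalizer. -/
def MM : Subgroup G := normalizer (VV φ : Set G)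

variable {φ}

theorem mem_VV {x : G} : x ∈ VV φ ↔ ∃ m < 16, x = φ (vm m) :=
  ⟨by rintro ⟨_, ⟨m, h, rfl⟩, rfl⟩; exact ⟨m, h, rfl⟩,
    by rintro ⟨m, h, rfl⟩; exact ⟨_, ⟨m, h, rfl⟩, rfl⟩⟩

theorem vm_mem (m : ℕ) : φ (vm m) ∈ VV φ :=
  mem_VV.2 ⟨m % 16, Nat.mod_lt _ (by norm_num), by rw [vm_mod]⟩

theorem VV_comm {x y : G} (hx : x ∈ VV φ) (hy : y ∈ VV φ) : x * y = y * x := by
  obtain ⟨m, -, rfl⟩ := mem_VV.1 hx
  obtain ⟨n, -, rfl⟩ := mem_VV.1 hy
  rw [← map_mul, ← map_mul, vm_mul, vm_mul, Nat.xor_comm]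

theorem VV_sq {x : G} (hx : x ∈ VV φ) : x * x = 1 := by
  obtain ⟨m, -, rfl⟩ := mem_VV.1 hx
  rw [← map_mul, vm_sq, map_one]

theorem z_mem : φ z ∈ VV φ := (by decide +kernel : vm 8 = z) ▸ vm_mem 8

theorem conj_VV {g x : G} (hg : g ∈ MM φ) : g * x * g⁻¹ ∈ VV φ ↔ x ∈ VV φ :=
  (mem_normalizer_iff.1 hg x).symm

variable [Finite G]

theorem mem_MM (h : Hm) : φ h ∈ MM φ := mem_normalizer_fintype (by
  rintro _ ⟨v, hv, rfl⟩
  exact ⟨_, (mem_normalizer_iff.1 (norm_Vm.ge (mem_top h)) v).1 hv, by simp⟩)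

variable (S : Setup φ) (hp : Pat φ 129)
include S hp

theorem Setup.inD_V {x : G} (hx : x ∈ VV φ) (h1 : x ≠ 1) : InD φ x := by
  obtain ⟨m, hm, rfl⟩ := mem_VV.1 hx
  obtain ⟨h2, h3, h4⟩ := (by decide +kernel : All 16 fun m => vm m ≠ 1 → pos (vm m) < 192 ∧
    vm m = iv (pos (vm m)) ∧ Nat.testBit 129 (cl (pos (vm m))) = true) m hm
      fun h => h1 (by rw [h, map_one])
  rw [h3]
  exact (S.inD_iv hp h2).2 h4

theorem Setup.mem_V {N : Subgroup G} (h1 : TT φ ≤ N) (h2 : N ≤ MM φ) {x : G} (hx : x ∈ N)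
    (h : InD φ x) : x ∈ VV φ := by
  obtain ⟨m, hm, i, hi, e⟩ := S.exists_iv h1 hx
    (sq_of_isConj (by rw [← map_mul, z_sq, map_one]) h)
  rw [← conj_VV (h2 hm), e]
  exact mem_map_of_mem φ (mem_Vm.2 ((by decide +kernel : All 192 fun i =>
    Nat.testBit 129 (cl i) = true → ind (iv i) < 16) i hi ((S.inD_iv hp hi).1 (e ▸ h.conj m))))

theorem Setup.mem_M {g : G} (h : g * φ z * g⁻¹ ∈ VV φ) : g ∈ MM φ := by
  refine (MM φ).inv_mem_iff.1 (mem_normalizer_fintype fun v hv => ?_)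
  by_cases h1 : v = 1
  · simp [h1]
  · refine S.mem_V hp (map_le_range φ _) (by rintro _ ⟨u, rfl⟩; exact mem_MM u)
      (S.cent _ ?_) ((S.inD_V hp hv h1).conj _)
    calc _ = g⁻¹ * (v * (g * φ z * g⁻¹)) * g := by group
      _ = _ := by rw [VV_comm hv h]; group

theorem Setup.mem_V' {x : G} (hx : x ∈ MM φ) (h : InD φ x) : x ∈ VV φ :=
  S.mem_V hp (map_le_iff_le_comap.2 fun u _ => mem_MM u) le_rfl hx h

theorem Setup.good_V {x : G} (hx : x ∈ VV φ) (h1 : x ≠ 1) : Good (MM φ) x := by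
  obtain ⟨g, rfl⟩ := isConj_iff.1 (S.inD_V hp hx h1)
  exact Good.conj (fun g hg => S.mem_M hp (S.mem_V' hp hg (InD.conj (IsConj.refl _) g)))
    (S.mem_M hp hx)

theorem Setup.odd {d e g : G} (hd : d ∈ VV φ) (hd1 : d ≠ 1) (he : g * e * g⁻¹ ∈ VV φ) (he1 : e ≠ 1)
    (hg : g ∉ MM φ) : Odd (orderOf (d * e)) := by
  by_contra h
  obtain ⟨w, h1, h2, h3⟩ := exists_invol h
  have h4 : e * e = 1 := conj_eq_one_iff.1 (by rw [← conj_mul]; exact VV_sq he)
  have h5 : InD φ e := inD_conj.1 (S.inD_V hp he (mt conj_eq_one_iff.1 he1))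
  obtain ⟨h6, h7⟩ := comm_of_mem (VV_sq hd) h4 h2 h1
  have hVM : VV φ ≤ MM φ := le_normalizer
  have h8 : d * w ∈ VV φ := by
    refine S.mem_V' hp (mul_mem (hVM hd) ((S.good_V hp hd hd1).of_comm (hVM hd) h6.symm)) ?_
    obtain ⟨k, rfl⟩ := mem_zpowers_iff.1 h1
    exact (mul_conj (VV_sq hd) h4 k).elim ((S.inD_V hp hd hd1).trans ·) (h5.trans ·)
  have h9 : w ∈ VV φ := ((VV φ).mul_mem_cancel_left hd).1 h8
  exact hg (S.good_V hp (S.mem_V' hp ((S.good_V hp h9 h3).of_comm (hVM h9) h7) h5) he1 g (hVM he))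

theorem Setup.good_rep {c : ℕ} (hc : c < 8) (h5 : c ≠ 5) : Good (MM φ) (φ (rep c)) := by
  rcases (by decide +kernel : All 8 fun c => c ≠ 5 → (ind (rep c) < 16 ∧ rep c ≠ 1) ∨
    (rep c * rep c = 1 ∧ Ex 16 fun a => Ex 16 fun d => vm a * rep c * vm a * rep c = vm d ∧
      vm d ≠ 1 ∧ vm d * rep c = rep c * vm d ∧ (All 16 fun k => vm k * rep c * vm k * rep c = 1 ∨
        vm k * rep c * vm k * rep c = vm d) ∧ Ex 16 fun d' => vm d' ≠ 1 ∧ vm d' ≠ vm d ∧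
          vm d' * rep c = rep c * vm d')) c hc h5 with ⟨h1, h2⟩ | ⟨h0, a, -, d, -, h1, h2, h3, h4,
            d', -, h6, h7, h8⟩
  · exact S.good_V hp (mem_map_of_mem φ (mem_Vm.2 h1)) fun h => h2 (S.inj (by rw [h, map_one]))
  generalize rep c = r at *
  intro g hg
  by_contra hn
  have hu : φ r * φ r = 1 := by rw [← map_mul, h0, map_one]
  obtain ⟨e, e1, e2, e3⟩ : ∃ e, g * e * g⁻¹ ∈ VV φ ∧ e ≠ 1 ∧ e * φ r = φ r * e := by
    have h9 : g * φ r * g⁻¹ * (g * φ r * g⁻¹) = 1 := by rw [conj_mul, hu]; simp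
    generalize hw : g * φ r * g⁻¹ = w at hg h9
    suffices ∃ e ∈ VV φ, e ≠ 1 ∧ e * w = w * e by
      obtain ⟨e, e1, e2, e3⟩ := this
      refine ⟨g⁻¹ * e * g⁻¹⁻¹, by simpa [mul_assoc] using e1, mt conj_eq_one_iff.1 e2, ?_⟩
      calc _ = g⁻¹ * (e * w) * g := by rw [← hw]; group
        _ = _ := by rw [e3, ← hw]; group
    by_cases h : φ z * w = w * φ z
    · exact ⟨_, z_mem, S.z_ne, h⟩
    · have h10 := (conj_VV hg).2 (z_mem (φ := φ))
      refine ⟨_, mul_mem z_mem h10, fun e => h ?_, ?_⟩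
      · rw [eq_comm, ← mul_inv_eq_iff_eq_mul, ← inv_eq_of_mul_eq_one_right e,
          inv_eq_of_sq (VV_sq z_mem)]
      · calc _ = φ z * (w * φ z * w⁻¹) * w⁻¹ := by rw [inv_eq_of_sq h9]
          _ = w * φ z * w⁻¹ * (w * w) * φ z * w⁻¹ := by rw [VV_comm z_mem h10, h9, mul_one]
          _ = _ := by group
  have key : ∀ d, vm d ≠ 1 → vm d * r = r * vm d →
      ∃ c, c * φ r = φ r * c ∧ c * φ (vm d) * c⁻¹ = e := fun d d1 d2 => by
    obtain ⟨k, hk⟩ := exists_conj_of_odd (VV_sq (vm_mem d))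
      (conj_eq_one_iff.1 (by rw [← conj_mul]; exact VV_sq e1))
      (S.odd hp (vm_mem d) (fun h => d1 (S.inj (by rw [h, map_one]))) e1 e2 hn)
    refine ⟨_, (Commute.pow_left (Commute.mul_left ?_ e3) k).eq, hk⟩
    change _ * _ = _ * _
    rw [← map_mul, d2, map_mul]
  obtain ⟨c1, k1, k2⟩ := key d h2 h3
  obtain ⟨c2, k3, k4⟩ := key d' h6 h8
  have k5 : c2⁻¹ * c1 * φ (vm d) * (c2⁻¹ * c1)⁻¹ = φ (vm d') := by
    rw [← conj_conj_eq, k2, ← k4]; group
  have k6 : c2⁻¹ * c1 * φ r * (c2⁻¹ * c1)⁻¹ = φ r := by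
    rw [← conj_conj_eq, mul_inv_eq_iff_eq_mul.2 k1, inv_inv, mul_assoc, ← k3, inv_mul_cancel_left]
  have k7 := S.good_V hp (vm_mem d) (fun h => h2 (S.inj (by rw [h, map_one]))) _
    (k5 ▸ le_normalizer (vm_mem d'))
  obtain ⟨k, k8, k9⟩ := mem_VV.1 ((conj_VV k7).2 (vm_mem a))
  have : vm d' = vm k * r * vm k * r := S.inj (by
    simp only [map_mul, ← k9]
    rw [← k5, ← h1, ← k6]
    simp only [map_mul]
    group)
  rcases h4 k k8 with h | h
  exacts [h6 (this.trans h), h7 (this.trans h)]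

theorem Setup.deg_top (hct : ∀ y ∈ MM φ, y * φ (A 1 24) = φ (A 1 24) * y →
    y * φ (A 1 52) * y⁻¹ = φ (A 1 52) ∨ y * φ (A 1 52) * y⁻¹ = φ (A 1 52) * φ (A 1 24)) :
    MM φ = ⊤ := by
  have hTM : TT φ ≤ MM φ := map_le_iff_le_comap.2 fun h _ => mem_MM h
  have hr : rep 5 = A 1 24 := by decide +kernel
  have k1 : ∀ x ∈ MM φ, x * x = 1 → x ≠ 1 →
      Good (MM φ) x ∨ ∃ m ∈ MM φ, m * φ (A 1 24) * m⁻¹ = x := fun x x1 x2 x3 => by
    obtain ⟨m, m1, c, c1, e⟩ := S.exists_rep mem_MM x1 x2 x3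
    have e' : m⁻¹ * φ (rep c) * m⁻¹⁻¹ = x := by rw [← e]; group
    by_cases h : c = 5
    · exact Or.inr ⟨_, inv_mem m1, hr ▸ h ▸ e'⟩
    · exact Or.inl (e' ▸ (S.good_rep hp c1 h).conj (inv_mem m1))
  have k2 : ∀ m < 64, m ≠ 0 → ∃ u, φ u * φ (rep (cl (ix 1 m))) * (φ u)⁻¹ = φ (A 1 m) ∧
      cl (ix 1 m) < 8 := fun m m1 m2 => by
    rcases (iv_spec _ (ix_lt 1 m)).2.2 with h | ⟨h1, h2⟩
    · exact (S.α_ne (j := 1) m1 m2 (by rw [A, h, iv_zero, map_one])).elim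
    · exact ⟨_, by rw [← map_mul, h2, map_mul, mul_inv_cancel_right, A], h1⟩
  have k3 : ∀ m < 64, m ≠ 0 → cl (ix 1 m) ≠ 5 → Good (MM φ) (φ (A 1 m)) := fun m m1 m2 m3 => by
    obtain ⟨u, h1, h2⟩ := k2 m m1 m2
    exact h1 ▸ (S.good_rep hp h2 m3).conj (mem_MM u)
  have hP : IsPair (φ (A 1 24)) (φ (A 1 52)) := S.pair (by norm_num) (by norm_num) (by norm_num)
    (by norm_num) (by norm_num)
  have hz : ∀ m ∈ [0, 24, 52, 44], ¬ InD φ (φ (A 1 (4 ^^^ m))) ∧ ¬ InD φ (φ (A 1 24)) := by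
    simp only [S.inD_A hp]
    decide +kernel
  have hg : Good (MM φ) (φ (A 1 24)) := by
    by_contra hng
    have k4 : ∀ m ∈ [24, 52, 44], ∀ g ∈ MM φ, ∀ n < 64, g * φ (A 1 m) * g⁻¹ = φ (A 1 n) →
        cl (ix 1 n) = 5 := fun m m1 g g1 n n1 e => by
      obtain ⟨h1, h2, h3⟩ := (by decide +kernel : ∀ m ∈ [24, 52, 44], m < 64 ∧ m ≠ 0 ∧
        cl (ix 1 m) = 5) m m1
      obtain ⟨u, h4, -⟩ := k2 m h1 h2
      by_contra h
      have := (k3 n n1 (by
        rintro rfl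
        exact S.α_ne h1 h2 (conj_eq_one_iff.1 (by rwa [A_zero, map_one] at e))) h).conj
          (inv_mem (mul_mem g1 (mem_MM u)))
      rw [← e, ← h4, h3, hr] at this
      exact hng (by simpa [mul_assoc] using this)
    have hA : ∀ m, φ (A 1 m) ∈ centralizer {φ (A 1 24), φ (A 1 52)} := fun m =>
      mem_cent2.2 ⟨α_comm _ _, α_comm _ _⟩
    have hS : IsSylowIn 2 (AA φ 1) (MM φ ⊓ centralizer {φ (A 1 24), φ (A 1 52)}) := by
      refine IsSylowIn.of_inf_normalizer ⟨le_inf (le_inf (AA_le.trans hTM) fun x hx => by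
        obtain ⟨m, rfl⟩ := mem_AA.1 hx
        exact hA m) le_normalizer, S.pT.to_le AA_le, fun Q h1 h2 h3 =>
          le_antisymm (fun x hx => ?_) h3⟩
      obtain ⟨m, ⟨m1, m2⟩, h5⟩ := (S.sylow.of_le (le_inf hTM (T_norm (j := 1))) le_top).exists_conj_le
        (fun y hy => ⟨(h1 hy).1.1, (h1 hy).2⟩) h2
      obtain ⟨u, hu, e⟩ := h5 (conj_mem_conj m hx)
      obtain ⟨c, -, c1, c2⟩ := exists_act m2
      obtain ⟨h7, h8⟩ := mem_cent2.1 (h1 hx).1.2
      rw [mem_normalizer_iff.1 m2, ← e]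
      refine mem_AA.2 ⟨_, congrArg φ (forall_T (P := fun u => u = A 1 (co 1 u) ∨ All 64 fun p =>
        cl (ix 1 p) = 5 → u * A 1 p = A 1 p * u → All 64 fun q => cl (ix 1 q) = 5 →
          cl (ix 1 (p ^^^ q)) = 5 → u * A 1 q ≠ A 1 q * u) (by decide +kernel) u hu |>.resolve_right
            fun h => h _ (lin_lt c1 24) (k4 24 (by decide) m m1 _ (lin_lt c1 _) (c2 _)) (S.inj ?_) _
              (lin_lt c1 52) (k4 52 (by decide) m m1 _ (lin_lt c1 _) (c2 _)) ?_ (S.inj ?_))⟩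
      · rw [map_mul, map_mul, e, ← c2, conj_mul, conj_mul, h7]
      · rw [← lin_xor]
        exact k4 44 (by decide) m m1 _ (lin_lt c1 _) (c2 _)
      · rw [map_mul, map_mul, e, ← c2, conj_mul, conj_mul, h8]
    have hZ : ∀ {x}, x ∈ closure {φ (A 1 24), φ (A 1 52)} ↔ ∃ m ∈ [0, 24, 52, 44], x = φ (A 1 m) :=
      mem_pair hP
    have hC : centralizer {φ (A 1 24), φ (A 1 52)} ≤ MM φ := by
      by_contra hY
      have hN := normal_pair (φ (A 1 24)) (φ (A 1 52))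
      have hn : ∀ m, m < 64 → m ∉ [0, 24, 52, 44] → φ (A 1 m) ∉ closure {φ (A 1 24), φ (A 1 52)} :=
        fun m h1 h2 h3 => by
          obtain ⟨k, k1, k2⟩ := hZ.1 h3
          exact h2 (S.α_inj h1 ((by decide : ∀ k ∈ [0, 24, 52, 44], k < 64) k k1) k2 ▸ k1)
      obtain ⟨m, -, -, w, w1, e⟩ := exists_conj_mod (Z := closure {φ (A 1 24), φ (A 1 52)})
        (fun x hx => by
          obtain ⟨m, -, rfl⟩ := hZ.1 hx
          exact mem_MM _) hY (fun u h1 h2 h3 h4 g h5 h6 => by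
          obtain ⟨k, -, k2⟩ := hZ.1 h3
          obtain ⟨c, ⟨c1, c2⟩, c3⟩ := hS.exists_conj_mem (k := 2) (mem_inf.2 ⟨h1, h2⟩) (by
            rw [show u ^ 2 ^ 2 = u * u * (u * u) by simp [pow_succ, mul_assoc], k2, α_sq])
          obtain ⟨m, e⟩ := mem_AA.1 c3
          rw [← A_mod] at e
          obtain ⟨w, w1, w2, w3, w4⟩ := (by decide +kernel : All 64 fun m => m ∉ [0, 24, 52, 44] →
            ∃ w ∈ [0, 24, 52, 44], m ^^^ w < 64 ∧ m ^^^ w ≠ 0 ∧ cl (ix 1 (m ^^^ w)) ≠ 5) _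
            (Nat.mod_lt m (by norm_num)) fun h => h4 (by
              have h7 : c * u * c⁻¹ ∈ _ := hZ.2 ⟨_, h, e⟩
              have h8 := comm_pair h7 c2
              rw [inv_mul_cancel_right, mul_right_inj] at h8
              rwa [h8] at h7)
          have w5 : φ (A 1 w) ∈ closure {φ (A 1 24), φ (A 1 52)} := hZ.2 ⟨w, w1, rfl⟩
          have h9 := (k3 _ w2 w3 w4).conj (inv_mem c1)
          rw [← α_mul, ← e, ← mul_inv_eq_iff_eq_mul.2 (comm_pair w5 c2), conj_mul, conj_conj_eq,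
            inv_mul_cancel, one_mul, inv_one, mul_one] at h9
          refine h9 g ?_
          rw [← conj_mul, comm_pair w5 h5, mul_inv_cancel_right]
          exact mul_mem h6 (mem_MM _)) (mem_MM (A 1 1)) (hA 1) (α_sq (φ := φ) 1 ▸ one_mem _)
        (hn 1 (by norm_num) (by decide)) (mem_MM (A 1 4)) (hA 4) (α_sq (φ := φ) 4 ▸ one_mem _)
        (hn 4 (by norm_num) (by decide))
      obtain ⟨k, k1, rfl⟩ := hZ.1 w1
      exact (hz k k1).1 (α_mul (φ := φ) 4 k ▸ e ▸ A_one 1 ▸ InD.conj (IsConj.refl _) m)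
    have hD : ∀ m ∈ [1, 2, 3], Good (MM φ) (φ (A 1 m)) := fun m hm => by
      obtain ⟨h1, h2, h3⟩ := (by decide +kernel : ∀ m ∈ [1, 2, 3], m < 64 ∧ m ≠ 0 ∧
        cl (ix 1 m) ≠ 5) m hm
      exact k3 m h1 h2 h3
    have h2 : Good2 (MM φ) (φ (A 1 24)) (φ (A 1 52)) := fun g g1 g2 =>
      mem_of_cent (S.sylow.of_le hTM le_top) (hD 1 (by decide)) (mem_MM _) (by
        rintro _ ⟨u, -, rfl⟩
        rw [A_one, ← map_mul, z_comm, map_mul]) (U := closure {φ (A 1 24), φ (A 1 52)})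
        (S.pT.to_le ((closure_le _).2 (by
          rintro _ (rfl | rfl) <;> exact AA_le (A_mem _))))
        (fun c hc => hC (mem_cent2.2 ⟨hc _ (subset_closure (Or.inl rfl)),
          hc _ (subset_closure (Or.inr rfl))⟩)) fun u hu => by
        rcases (hP.mem_closure u).1 hu with rfl | rfl | rfl | rfl
        exacts [by simp, g1, g2, by rw [← conj_mul]; exact mul_mem g1 g2]
    have ht : ∀ y, y * φ (A 1 24) = φ (A 1 24) * y → y ∈ MM φ := fun y => good_of_zstar (mem_MM _)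
      (mem_MM _) (α_sq 24) (α_sq 52) (α_comm 52 24) h2 (fun y y1 y2 => by
        have y3 := mul_inv_eq_iff_eq_mul.2 y1
        have u1 : y * φ (A 1 52) * y⁻¹ * φ (A 1 24) = φ (A 1 24) * (y * φ (A 1 52) * y⁻¹) := by
          rw [← y3, conj_mul, conj_mul, α_comm]
        refine hct y (h2 y (y3.symm ▸ mem_MM _) (h2 _ ?_ ?_)) y1
        · rw [u1, mul_inv_cancel_right]
          exact mem_MM _
        · rcases y2 with h | h <;> rw [h]
          · rw [mul_inv_cancel_right]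
            exact mem_MM _
          · rw [mul_assoc _ _ (φ (A 1 24)), u1, ← mul_assoc, mul_inv_cancel_right]
            exact mul_mem (mem_MM _) (mem_MM _)) (S.pair (j := 1) (a := 1) (b := 2)
        (by norm_num) (by norm_num) (by norm_num) (by norm_num) (by norm_num)) (mem_MM _) (mem_MM _)
        (α_comm _ _) (α_comm _ _) (mt (S.α_inj (by norm_num) (by norm_num)) (by norm_num))
        (mt (S.α_inj (by norm_num) (by norm_num)) (by norm_num))
        (by rw [α_mul]; exact mt (S.α_inj (by decide) (by norm_num)) (by decide))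
        (hD 1 (by decide)) (hD 2 (by decide)) (by rw [α_mul]; exact hD 3 (by decide))
    refine hng fun g hg => ?_
    rcases k1 _ hg (by rw [conj_mul, α_sq]; simp) (mt conj_eq_one_iff.1 hP.ne1) with h | ⟨n, n1, e⟩
    · exact (MM φ).inv_mem_iff.1 (h _ (by simpa [mul_assoc] using mem_MM (φ := φ) (A 1 24)))
    · exact ((MM φ).mul_mem_cancel_left (inv_mem n1)).1 (ht _ (by
        rw [← mul_inv_eq_iff_eq_mul, ← conj_conj_eq, ← e]; group))
  by_contra hM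
  obtain ⟨m, -, h⟩ := HeldGen.exists_conj hM (fun u u1 u2 u3 => (k1 u u1 u2 u3).elim id (by
    rintro ⟨m, m1, rfl⟩
    exact hg.conj m1)) (mem_MM z) (by rw [← map_mul, z_sq, map_one]) S.z_ne (mem_MM (A 1 24))
      (α_sq 24) hP.ne1
  exact (hz 0 (by decide)).2 (h ▸ InD.conj (IsConj.refl _) m)

end Cfsg.Agent.Lib.HeldFus
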