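import Cfsg.Agent.Lib.ZStar
import Cfsg.Agent.Lib.InvolCount
import Cfsg.Agent.Lib.KleinCount
import Cfsg.Agent.Lib.CoprimeSylow
import Cfsg.Agent.Lib.CDLattice
import Cfsg.Agent.Lib.PCoreResidual
import Cfsg.Agent.Lib.LocFour

/-! Elements with a unique fixed point on a coset space. -/

set_option autoImplicit false

namespace Cfsg.Agent.Lib.HeldGen

open Subgroup Cfsg.Agent.Lib Cfsg.Agent.Lib.PCore Cfsg.Agent.Lib.PCoreConj
  Cfsg.Agent.Lib.InvolCount Cfsg.Agent.Lib.KleinCount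
open scoped Pointwise

universe u

variable {G : Type u} [Group G]

/-- Only elements of `M` conjugate `x` into `M`. -/
def Good (M : Subgroup G) (x : G) : Prop := ∀ g, g * x * g⁻¹ ∈ M → g ∈ M

/-- Only elements of `M` conjugate both `x` and `y` into `M`. -/
def Good2 (M : Subgroup G) (x y : G) : Prop := ∀ g, g * x * g⁻¹ ∈ M → g * y * g⁻¹ ∈ M → g ∈ M

variable {M : Subgroup G}

theorem Good.conj {x m : G} (h : Good M x) (hm : m ∈ M) : Good M (m * x * m⁻¹) := fun g hg => by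
  have := h (g * m) (by simpa [mul_assoc] using hg)
  exact (M.mul_mem_cancel_right hm).1 this

theorem Good.of_comm {x g : G} (h : Good M x) (hx : x ∈ M) (hg : g * x = x * g) : g ∈ M :=
  h g (by rwa [hg, mul_inv_cancel_right])

theorem inv_eq_of_sq {x : G} (h : x * x = 1) : x⁻¹ = x := inv_eq_of_mul_eq_one_right h

variable [Finite G]

/-- A `2`-subgroup whose centralizer lies in `M` has a unique fixed point. -/
theorem mem_of_cent {T : Subgroup G} (hT : IsSylowIn 2 T M) {z : G} (hz : Good M z) (hzM : z ∈ M)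
    (hzT : ∀ t ∈ T, t * z = z * t) {U : Subgroup G} (hU : IsPGroup 2 U)
    (hC : ∀ c, (∀ u ∈ U, c * u = u * c) → c ∈ M) {g : G} (hg : ∀ u ∈ U, g * u * g⁻¹ ∈ M) :
    g ∈ M := by
  have := Fact.mk Nat.prime_two
  obtain ⟨m, hm, h⟩ := hT.exists_conj_le (conj_le_iff.2 hg) (isPGroup_conj hU g)
  have h1 : (m * g)⁻¹ * z * (m * g) ∈ M := hC _ fun u hu => by
    have := hzT _ (h (conj_mem_conj m (conj_mem_conj g hu)))
    calc (m * g)⁻¹ * z * (m * g) * u = (m * g)⁻¹ * (z * (m * (g * u * g⁻¹) * m⁻¹)) * (m * g) := by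
          group
      _ = _ := by rw [← this]; group
  have h2 := hz (m * g)⁻¹ (by rwa [inv_inv])
  exact (M.mul_mem_cancel_left hm).1 (inv_mem_iff.1 h2)

section SE

variable (hM : M ≠ ⊤) (hG : ∀ u ∈ M, u * u = 1 → u ≠ 1 → Good M u)
include hM hG

theorem exists_outer {v : G} (hv : v ∈ M) (hv2 : v * v = 1) (hv1 : v ≠ 1) :
    ∃ s, s ∉ M ∧ s * s = 1 := by
  obtain ⟨g, -, hg⟩ := SetLike.not_le_iff_exists.1 (mt top_le_iff.1 hM)
  exact ⟨g * v * g⁻¹, fun h => hg (hG v hv hv2 hv1 g h), by rw [conj_mul, hv2]; simp⟩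

/-- One class of involutions. -/
theorem exists_conj {u v : G} (hu : u ∈ M) (hu2 : u * u = 1) (hu1 : u ≠ 1) (hv : v ∈ M)
    (hv2 : v * v = 1) (hv1 : v ≠ 1) : ∃ m ∈ M, m * u * m⁻¹ = v := by
  obtain ⟨s, hs, hs2⟩ := exists_outer hM hG hv hv2 hv1
  have key : ∀ u ∈ M, u * u = 1 → u ≠ 1 → ∃ a, a * u * a⁻¹ = s := fun u hu hu2 hu1 => by
    by_cases h : Odd (orderOf (u * s))
    · obtain ⟨k, hk⟩ := exists_conj_of_odd hu2 hs2 h
      exact ⟨_, hk⟩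
    · obtain ⟨w, hw, hw2, hw1⟩ := exists_invol h
      obtain ⟨h1, h2⟩ := comm_of_mem hu2 hs2 hw2 hw
      have h3 := (hG u hu hu2 hu1).of_comm hu h1.symm
      exact absurd ((hG w h3 hw2 hw1).of_comm h3 h2) hs
  obtain ⟨a, ha⟩ := key u hu hu2 hu1
  obtain ⟨b, hb⟩ := key v hv hv2 hv1
  have h : b⁻¹ * a * u * (b⁻¹ * a)⁻¹ = v := by
    calc _ = b⁻¹ * (a * u * a⁻¹) * b := by group
      _ = v := by rw [ha, ← hb]; group
  exact ⟨_, hG u hu hu2 hu1 _ (h ▸ hv), h⟩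

/-- If the involutions of a strongly embedded subgroup of `2`-rank at least two have `2`-groups as
centralizers, none of them inverts an element of order three. -/
theorem false_of_inverted {u₀ : G} (h0 : u₀ ∈ M) (h02 : u₀ * u₀ = 1) (h01 : u₀ ≠ 1)
    (hC : ∀ c ∈ M, c * u₀ = u₀ * c → ∃ n, c ^ 2 ^ n = 1) {a b : G} (ha : a ∈ M) (hb : b ∈ M)
    (hab : IsPair a b) {x i : G} (hx : x ∈ M) (hx3 : x ^ 3 = 1) (hx1 : x ≠ 1) (hi : i ∈ M)
    (hi2 : i * i = 1) (hix : i * x * i = x⁻¹) : False := by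
  have h2 := Fact.mk Nat.prime_two
  have h3 := Fact.mk Nat.prime_three
  obtain ⟨s, hs, hs2⟩ := exists_outer hM hG h0 h02 h01
  have hsi := inv_eq_of_sq hs2
  let K : Subgroup G := M ⊓ M ^ᶜ s
  have hK : ∀ k, k ∈ K ↔ k ∈ M ∧ s * k * s ∈ M := fun k => by
    simp only [K, mem_inf, mem_conj_iff, hsi]
  -- no involutions in `K`
  have k1 : ∀ k ∈ K, k * k = 1 → k = 1 := fun k hk hk2 => by
    by_contra hne
    obtain ⟨h1, h2⟩ := (hK k).1 hk
    exact hs (hG k h1 hk2 hne s (by rwa [hsi]))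
  have k2 : ∀ k ∈ K, ∀ n, k ^ 2 ^ n = 1 → k = 1 := fun k hk n => by
    induction n with
    | zero => simp
    | succ n ih => exact fun h => ih (k1 _ (pow_mem hk _) (by rwa [← pow_add, ← mul_two, ← pow_succ]))
  -- centralizers of involutions
  have c1 : ∀ u ∈ M, u * u = 1 → u ≠ 1 → ∀ c ∈ M, c * u = u * c → ∃ n, c ^ 2 ^ n = 1 := by
    intro u hu hu2 hu1 c hc h
    obtain ⟨m, hm, rfl⟩ := exists_conj hM hG h0 h02 h01 hu hu2 hu1
    obtain ⟨n, hn⟩ := hC (m⁻¹ * c * m) (mul_mem (mul_mem (inv_mem hm) hc) hm) (by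
      calc _ = m⁻¹ * (c * (m * u₀ * m⁻¹)) * m := by group
        _ = _ := by rw [h]; group)
    refine ⟨n, ?_⟩
    have e : m⁻¹ * c * m = m⁻¹ * c * m⁻¹⁻¹ := by rw [inv_inv]
    rwa [e, conj_pow, conj_eq_one_iff] at hn
  -- every involution is conjugate to `u₀` by an element inverted by `s`
  have j1 : ∀ u ∈ M, u * u = 1 → u ≠ 1 → ∃ k ∈ K, s * k * s = k⁻¹ ∧ k * u * k⁻¹ = u₀ := by
    intro u hu hu2 hu1
    have hu' : s * u₀ * s * (s * u₀ * s) = 1 := by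
      calc _ = s * (u₀ * (s * s) * u₀) * s := by group
        _ = 1 := by rw [hs2, mul_one, h02, mul_one, hs2]
    by_cases h : Odd (orderOf (u * (s * u₀ * s)))
    · obtain ⟨n, hn⟩ := exists_conj_of_odd hu2 hu' h
      have h1 := conj_mul_zpow hu2 hu' n
      rw [zpow_natCast, inv_eq_of_sq hu2] at h1
      generalize (u * (s * u₀ * s)) ^ n = c at hn h1
      have h4 : s * (c * u) * u * (s * (c * u))⁻¹ = u₀ := by
        calc _ = s * (c * (u * u) * u⁻¹ * c⁻¹) * s⁻¹ := by group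
          _ = s * (c * u * c⁻¹) * s⁻¹ := by rw [hu2, inv_eq_of_sq hu2, mul_one]
          _ = (s * s) * u₀ * (s * s⁻¹) := by rw [hn]; group
          _ = u₀ := by rw [hs2]; group
      have h5 := hG u hu hu2 hu1 _ (h4 ▸ h0)
      have h6 : s * (s * (c * u)) * s = (s * (c * u))⁻¹ := by
        rw [← mul_assoc s s, hs2, one_mul, mul_inv_rev, hsi, mul_inv_rev, ← h1, inv_eq_of_sq hu2,
          ← mul_assoc u, ← mul_assoc u, hu2, one_mul]
      exact ⟨_, (hK _).2 ⟨h5, h6 ▸ inv_mem h5⟩, h6, h4⟩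
    · obtain ⟨w, hw, hw2, hw1⟩ := exists_invol h
      obtain ⟨h1, h4⟩ := comm_of_mem hu2 hu' hw2 hw
      have h5 := (hG u hu hu2 hu1).of_comm hu h1.symm
      have h6 : s * w * s ∈ M := (hG u₀ h0 h02 h01).of_comm h0 (by
        calc _ = s * (w * (s * u₀ * s)) * s⁻¹ := by group
          _ = (s * s) * u₀ * s * w * s⁻¹ := by rw [← h4]; group
          _ = _ := by rw [hs2, hsi]; group)
      exact absurd (k1 w ((hK w).2 ⟨h5, h6⟩) hw2) hw1
  have j2 : ∀ k ∈ K, ∀ u ∈ M, u * u = 1 → u ≠ 1 → k * u = u * k → k = 1 := fun k hk u hu hu2 hu1 h =>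
    (c1 u hu hu2 hu1 k hk.1 h).elim fun n hn => k2 k hk n hn
  have j3 : ∀ k ∈ K, s * k * s = k⁻¹ := fun k hk => by
    obtain ⟨l, hl, h1, h4⟩ := j1 (k⁻¹ * u₀ * k) (mul_mem (mul_mem (inv_mem hk.1) h0) hk.1)
      (by calc _ = k⁻¹ * (u₀ * u₀) * k := by group
        _ = 1 := by rw [h02]; group) (fun h => h01 (by
      calc u₀ = k * (k⁻¹ * u₀ * k) * k⁻¹ := by group
        _ = 1 := by rw [h]; group))
    have := j2 (l * k⁻¹) (mul_mem hl (inv_mem hk)) u₀ h0 h02 h01 (by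
      conv_rhs => rw [← h4]
      group)
    rwa [← mul_inv_eq_one.1 this]
  have j4 : ∀ k ∈ K, ∀ l ∈ K, k * l = l * k := fun k hk l hl => by
    have := j3 _ (mul_mem hk hl)
    rw [show s * (k * l) * s = (s * k * s) * (s * l * s) by
      calc _ = s * k * (s * s) * l * s := by rw [hs2]; group
        _ = _ := by group, j3 k hk, j3 l hl, ← mul_inv_rev, inv_inj] at this
    exact this.symm
  -- the factorization
  let C : Subgroup G := M ⊓ centralizer {u₀}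
  have f1 : ∀ m ∈ M, ∃ c ∈ C, ∃ k ∈ K, c * k = m := fun m hm => by
    obtain ⟨l, hl, -, h4⟩ := j1 (m⁻¹ * u₀ * m) (mul_mem (mul_mem (inv_mem hm) h0) hm)
      (by calc _ = m⁻¹ * (u₀ * u₀) * m := by group
        _ = 1 := by rw [h02]; group) (fun h => h01 (by
      calc u₀ = m * (m⁻¹ * u₀ * m) * m⁻¹ := by group
        _ = 1 := by rw [h]; group))
    refine ⟨m * l⁻¹, ⟨M.mul_mem hm (M.inv_mem hl.1), mem_centralizer_singleton_iff.2 ?_⟩, l, hl, by group⟩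
    conv_lhs => rw [← h4]
    group
  have f2 : IsPGroup 2 C := fun c => by
    obtain ⟨n, hn⟩ := hC c c.2.1 (mem_centralizer_singleton_iff.1 c.2.2)
    exact ⟨n, Subtype.ext hn⟩
  have f3 : ¬ 3 ∣ K.relIndex M := by
    have e1 := CDLattice.card_mul_set C K
    have e2 : ((C : Set G) * (K : Set G)) = M := by
      ext m
      refine ⟨?_, fun hm => ?_⟩
      · rintro ⟨c, hc, k, hk, rfl⟩
        exact mul_mem hc.1 hk.1
      · obtain ⟨c, hc, k, hk, h⟩ := f1 m hm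
        exact ⟨c, hc, k, hk, h⟩
    have e3 : C ⊓ K = ⊥ := eq_bot_iff.2 fun k hk =>
      j2 k hk.2 u₀ h0 h02 h01 (mem_centralizer_singleton_iff.1 hk.1.2)
    rw [e2, e3, card_bot, mul_one, SetLike.coe_sort_coe,
      ← card_mul_relIndex (inf_le_left : K ≤ M), mul_comm] at e1
    obtain ⟨n, hn⟩ := IsPGroup.iff_card.1 f2
    rw [Nat.eq_of_mul_eq_mul_right Nat.card_pos e1, hn]
    intro h
    exact absurd (Nat.prime_three.dvd_of_dvd_pow h) (by norm_num)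
  obtain ⟨P, hP⟩ := exists_isSylowIn 3 K
  obtain ⟨m, hm, hx'⟩ := (hP.trans_of_not_dvd inf_le_left f3).exists_conj_mem (k := 1) hx hx3
  have hx' := hP.le hx'
  have hi' : m * i * m⁻¹ ∈ M := mul_mem (mul_mem hm hi) (inv_mem hm)
  have hi2' : m * i * m⁻¹ * (m * i * m⁻¹) = 1 := by rw [conj_mul, hi2]; simp
  have hix' : m * i * m⁻¹ * (m * x * m⁻¹) * (m * i * m⁻¹) = (m * x * m⁻¹)⁻¹ := by
    rw [conj_mul, conj_mul, hix, conj_inv]
  have hx3' : (m * x * m⁻¹) ^ 3 = 1 := by rw [conj_pow, hx3]; simp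
  have hx1' : m * x * m⁻¹ ≠ 1 := by simpa using hx1
  clear hix hx hi2 hi hx3 hx1
  generalize m * i * m⁻¹ = i at *
  generalize m * x * m⁻¹ = x at *
  have hi1 : i ≠ 1 := by
    rintro rfl
    refine hx1' (k1 x hx' ?_)
    rw [one_mul, mul_one] at hix'
    nth_rewrite 1 [hix']
    exact inv_mul_cancel x
  have g1 : ∀ c ∈ M, c * x = x * c → c ∈ K := fun c hc h => by
    obtain ⟨d, hd, k, hk, rfl⟩ := f1 c hc
    have h1 : d * x = x * d := by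
      calc _ = d * (x * k) * k⁻¹ := by group
        _ = _ := by rw [j4 x hx' k hk, ← mul_assoc, h]; group
    by_cases ho : Odd (orderOf d)
    · obtain ⟨n, hn⟩ := hC d hd.1 (mem_centralizer_singleton_iff.1 hd.2)
      have : d = 1 := orderOf_eq_one_iff.1 (Nat.Coprime.eq_one_of_dvd
        ((Nat.coprime_two_right.2 ho).pow_right n) (orderOf_dvd_of_pow_eq_one hn))
      rwa [this, one_mul]
    · obtain ⟨w, hw, hw2, hw1⟩ := exists_invol ho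
      refine absurd (j2 x hx' w (zpowers_le.2 hd.1 hw) hw2 hw1 ?_) hx1'
      obtain ⟨n, rfl⟩ := mem_zpowers_iff.1 hw
      exact ((show Commute d x from h1).zpow_left n).eq.symm
  have hii := inv_eq_of_sq hi2'
  have g2 : ∀ k ∈ K, i * k * i = k⁻¹ := fun k hk => by
    have h1 : i * k * i ∈ K := g1 _ (mul_mem (mul_mem hi' hk.1) hi') (by
      have e : x = i * x⁻¹ * i := by
        rw [← hix']
        calc x = (i * i) * x * (i * i) := by rw [hi2']; group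
          _ = _ := by group
      have e' : ∀ y w, i * y * i * (i * w * i) = i * (y * w) * i := fun y w => by
        calc _ = i * y * (i * i) * w * i := by group
          _ = _ := by rw [hi2']; group
      rw [e, e', e', j4 k hk _ (inv_mem hx')])
    have h4 := j2 (k * (i * k * i)) (mul_mem hk h1) i hi' hi2' hi1 (by
      rw [j4 k hk _ h1]
      calc _ = i * k * i * k * i := by group
        _ = i * (k * (i * k * i)) := by group
        _ = _ := by rw [j4 k hk _ h1])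
    exact eq_inv_of_mul_eq_one_right h4
  have g3 : ∀ u ∈ M, u * u = 1 → u ≠ 1 → i * u ∈ K := fun u hu hu2 hu1 => by
    obtain ⟨k, hk, -, h1⟩ := j1 u hu hu2 hu1
    obtain ⟨l, hl, -, h4⟩ := j1 i hi' hi2' hi1
    have h5 : u = (k⁻¹ * l) * i * (k⁻¹ * l)⁻¹ := by
      calc u = k⁻¹ * (k * u * k⁻¹) * k := by group
        _ = _ := by rw [h1, ← h4]; group
    rw [h5, ← mul_assoc, ← mul_assoc i, g2 _ (mul_mem (inv_mem hk) hl)]
    exact mul_mem (inv_mem (mul_mem (inv_mem hk) hl)) (inv_mem (mul_mem (inv_mem hk) hl))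
  have g4 : a * b ∈ K := by
    have := mul_mem (inv_mem (g3 a ha hab.sq1 hab.ne1)) (g3 b hb hab.sq2 hab.ne2)
    rwa [mul_inv_rev, inv_eq_of_sq hab.sq1, mul_assoc, inv_mul_cancel_left] at this
  refine hab.ne ?_
  have := k1 _ g4 (by
    rw [mul_assoc, ← mul_assoc b, ← hab.comm, mul_assoc, hab.sq2, mul_one, hab.sq1])
  rw [← inv_eq_of_sq hab.sq2] at this
  exact mul_inv_eq_one.1 this

end SE

section Quot

variable {Z Y : Subgroup G} [hN : (Z.subgroupOf Y).Normal] (hZM : Z ≤ M) (hY : ¬ Y ≤ M)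
  (hG : ∀ u ∈ M, u ∈ Y → u * u ∈ Z → u ∉ Z → ∀ g ∈ Y, g * u * g⁻¹ ∈ M → g ∈ M)

omit [Finite G] in
theorem eq_bar (x y : Y) : (x : Y ⧸ Z.subgroupOf Y) = y ↔ (x : G)⁻¹ * y ∈ Z :=
  QuotientGroup.eq

omit [Finite G] in
include hZM in
theorem mem_bar {y : Y} :
    (y : Y ⧸ Z.subgroupOf Y) ∈ (M.subgroupOf Y).map (QuotientGroup.mk' _) ↔ (y : G) ∈ M := by
  refine ⟨?_, fun h => ⟨y, h, rfl⟩⟩
  rintro ⟨x, hx, h⟩
  have h1 := (eq_bar x y).1 h
  have := M.mul_mem hx (hZM h1)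
  simpa using this

omit [Finite G] in
theorem eq_one_bar {y : Y} : (y : Y ⧸ Z.subgroupOf Y) = 1 ↔ (y : G) ∈ Z :=
  QuotientGroup.eq_one_iff y

omit [Finite G] in
include hZM hY in
theorem bar_ne_top : (M.subgroupOf Y).map (QuotientGroup.mk' (Z.subgroupOf Y)) ≠ ⊤ := fun h =>
  hY fun y hy => (mem_bar hZM (y := ⟨y, hy⟩)).1 (h ▸ mem_top _)

omit [Finite G] in
include hZM hG in
theorem bar_good : ∀ u ∈ (M.subgroupOf Y).map (QuotientGroup.mk' (Z.subgroupOf Y)), u * u = 1 →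
    u ≠ 1 → Good ((M.subgroupOf Y).map (QuotientGroup.mk' (Z.subgroupOf Y))) u := by
  intro u hu hu2 hu1 g hg
  obtain ⟨u, rfl⟩ := QuotientGroup.mk_surjective u
  obtain ⟨g, rfl⟩ := QuotientGroup.mk_surjective g
  exact (mem_bar hZM).2 (hG u ((mem_bar hZM).1 hu) u.2 (eq_one_bar.1 hu2) (mt eq_one_bar.2 hu1) g g.2
    ((mem_bar hZM (y := g * u * g⁻¹)).1 hg))

include hZM hY hG

theorem exists_conj_mod {u v : G} (hu : u ∈ M) (huY : u ∈ Y) (hu2 : u * u ∈ Z) (hu1 : u ∉ Z)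
    (hv : v ∈ M) (hvY : v ∈ Y) (hv2 : v * v ∈ Z) (hv1 : v ∉ Z) :
    ∃ m ∈ M, m ∈ Y ∧ ∃ w ∈ Z, m * u * m⁻¹ = v * w := by
  obtain ⟨m, hm, h⟩ := exists_conj (bar_ne_top hZM hY) (bar_good hZM hG)
    (u := ((⟨u, huY⟩ : Y) : Y ⧸ Z.subgroupOf Y)) (v := ((⟨v, hvY⟩ : Y) : Y ⧸ Z.subgroupOf Y))
    ((mem_bar hZM).2 hu) (eq_one_bar.2 hu2) (mt eq_one_bar.1 hu1)
    ((mem_bar hZM).2 hv) (eq_one_bar.2 hv2) (mt eq_one_bar.1 hv1)
  obtain ⟨m, rfl⟩ := QuotientGroup.mk_surjective m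
  have h1 := (eq_bar ⟨v, hvY⟩ (m * ⟨u, huY⟩ * m⁻¹)).1 h.symm
  exact ⟨m, (mem_bar hZM).1 hm, m.2, _, h1, by simp⟩

theorem false_of_inverted_mod {u₀ : G} (h0 : u₀ ∈ M) (h0Y : u₀ ∈ Y) (h02 : u₀ * u₀ ∈ Z)
    (h01 : u₀ ∉ Z) (hC : ∀ c ∈ M, c ∈ Y → (c * u₀)⁻¹ * (u₀ * c) ∈ Z → ∃ n, c ^ 2 ^ n ∈ Z)
    {a b : G} (ha : a ∈ M) (haY : a ∈ Y) (hb : b ∈ M) (hbY : b ∈ Y) (ha1 : a ∉ Z) (hb1 : b ∉ Z)
    (hab1 : a⁻¹ * b ∉ Z) (ha2 : a * a = 1) (hb2 : b * b = 1) (hab : a * b = b * a) {x i : G}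
    (hx : x ∈ M) (hxY : x ∈ Y) (hx3 : x ^ 3 ∈ Z) (hx1 : x ∉ Z) (hi : i ∈ M) (hiY : i ∈ Y)
    (hi2 : i * i = 1) (hix : i * x * i = x⁻¹) : False := by
  refine false_of_inverted (bar_ne_top hZM hY) (bar_good hZM hG)
    (u₀ := ((⟨u₀, h0Y⟩ : Y) : Y ⧸ Z.subgroupOf Y)) ((mem_bar hZM).2 h0) (eq_one_bar.2 h02)
    (mt eq_one_bar.1 h01) (fun c hc h => ?_) (a := ((⟨a, haY⟩ : Y) : Y ⧸ Z.subgroupOf Y))
    (b := ((⟨b, hbY⟩ : Y) : Y ⧸ Z.subgroupOf Y)) ((mem_bar hZM).2 ha) ((mem_bar hZM).2 hb)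
    ⟨mt eq_one_bar.1 ha1, mt eq_one_bar.1 hb1, fun h => hab1 ((eq_bar _ _).1 h),
      (eq_one_bar (y := ⟨a, haY⟩ * ⟨a, haY⟩)).2 (show a * a ∈ Z from ha2 ▸ Z.one_mem),
      (eq_one_bar (y := ⟨b, hbY⟩ * ⟨b, hbY⟩)).2 (show b * b ∈ Z from hb2 ▸ Z.one_mem),
      congrArg _ (Subtype.ext hab : (⟨a, haY⟩ * ⟨b, hbY⟩ : Y) = ⟨b, hbY⟩ * ⟨a, haY⟩)⟩
    (x := ((⟨x, hxY⟩ : Y) : Y ⧸ Z.subgroupOf Y)) (i := ((⟨i, hiY⟩ : Y) : Y ⧸ Z.subgroupOf Y))
    ((mem_bar hZM).2 hx) (by rw [← QuotientGroup.mk_pow]; exact eq_one_bar.2 hx3) (mt eq_one_bar.1 hx1)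
    ((mem_bar hZM).2 hi)
    ((eq_one_bar (y := ⟨i, hiY⟩ * ⟨i, hiY⟩)).2 (show i * i ∈ Z from hi2 ▸ Z.one_mem))
    (congrArg _ (Subtype.ext hix : (⟨i, hiY⟩ * ⟨x, hxY⟩ * ⟨i, hiY⟩ : Y) = ⟨x, hxY⟩⁻¹))
  obtain ⟨c, rfl⟩ := QuotientGroup.mk_surjective c
  obtain ⟨n, hn⟩ := hC c ((mem_bar hZM).1 hc) c.2 
    ((eq_bar (c * (⟨u₀, h0Y⟩ : Y)) ((⟨u₀, h0Y⟩ : Y) * c)).1 h)
  exact ⟨n, (eq_one_bar (y := c ^ 2 ^ n)).2 hn⟩

end Quot

/-- A group of odd order normalized by a four-group. -/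
theorem le_of_pair {K H : Subgroup G} {a b : G} (h : IsPair a b) (hK : (Nat.card K).Coprime 2)
    (ha : a ∈ normalizer (K : Set G)) (hb : b ∈ normalizer (K : Set G))
    (hH : ∀ c, c = a ∨ c = b ∨ c = a * b → ∀ k ∈ K, k * c = c * k → k ∈ H) : K ≤ H := by
  have h4 := h.isKleinFour
  refine CoprimeSylow.le_of_centralizer_elt_le (A := closure {a, b}) ⟨⟨fun x y => ?_⟩⟩
    IsKleinFour.not_isCyclic ((closure_le _).2 ?_) ?_ fun c hc hc1 k hk => ?_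
  · have := IsKleinFour.mul_self (x * y)
    rw [← inv_eq_of_mul_eq_one_right this, mul_inv_rev, IsKleinFour.inv_eq_self,
      IsKleinFour.inv_eq_self]
  · rintro c (rfl | rfl)
    exacts [ha, hb]
  · rw [h4.card_four]
    exact (Nat.Coprime.pow_right 2 hK).symm
  · exact hH c (((h.mem_closure c).1 hc).resolve_left hc1) k hk.1
      (mem_centralizer_singleton_iff.1 hk.2)

/-- The centralizer of an involution `t`, by the `Z*`-theorem modulo `t`. -/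
theorem good_of_zstar {t t' : G} (ht : t ∈ M) (ht' : t' ∈ M) (ht2 : t * t = 1)
    (ht2' : t' * t' = 1) (hc : t' * t = t * t') (h2 : Good2 M t t')
    (hiso : ∀ y, y * t = t * y → (y * t' * y⁻¹ * t' = t' * (y * t' * y⁻¹) ∨
      y * t' * y⁻¹ * t' = t' * (y * t' * y⁻¹) * t) → y * t' * y⁻¹ = t' ∨ y * t' * y⁻¹ = t' * t)
    {a b : G} (hab : IsPair a b) (ha : a ∈ M) (hb : b ∈ M) (hat : a * t = t * a)
    (hbt : b * t = t * b) (ha1 : a ≠ t) (hb1 : b ≠ t) (hab1 : a * b ≠ t) (ga : Good M a)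
    (gb : Good M b) (gab : Good M (a * b)) {y : G} (hy : y * t = t * y) : y ∈ M := by
  let Y : Subgroup G := centralizer {t}
  let Z : Subgroup G := zpowers t
  have hZ : ∀ x, x ∈ Z ↔ x = 1 ∨ x = t := fun x =>
    ⟨LocFour.eq_one_or_eq_of_mem_zpowers (by rwa [pow_two]), by
      rintro (rfl | rfl)
      exacts [one_mem _, mem_zpowers _]⟩
  have hY : ∀ x, x ∈ Y ↔ x * t = t * x := fun x => mem_centralizer_singleton_iff
  have hN : (Z.subgroupOf Y).Normal := ⟨fun n hn g => by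
    rw [mem_subgroupOf, hZ] at hn ⊢
    rcases hn with h | h
    · simp [h]
    · right
      simp [h, (hY g).1 g.2]⟩
  have hZM : Z ≤ M := zpowers_le.2 ht
  let s : Y := ⟨t', (hY _).2 hc⟩
  let τ : Y ⧸ Z.subgroupOf Y := s
  have h1 : InZStar 2 τ := ZStar.zstar _ τ (by
    rw [pow_two]
    exact (eq_one_bar (y := ⟨t', (hY _).2 hc⟩ * ⟨t', (hY _).2 hc⟩)).2 (show t' * t' ∈ Z from ht2' ▸ Z.one_mem)) fun g hg => by
    obtain ⟨g, rfl⟩ := QuotientGroup.mk_surjective g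
    have h3 : (t' * (g * t' * (g : G)⁻¹))⁻¹ * (g * t' * (g : G)⁻¹ * t') ∈ Z :=
      (eq_bar (s * (g * s * g⁻¹)) (g * s * g⁻¹ * s)).1 hg.eq
    have h4 := hiso g ((hY g).1 g.2) (((hZ _).1 h3).imp (fun h => (inv_mul_eq_one.1 h).symm)
      fun h => inv_mul_eq_iff_eq_mul.1 h)
    refine ((eq_bar (hN := hN) s (g * s * g⁻¹)).2 ?_).symm
    change t'⁻¹ * (g * t' * (g : G)⁻¹) ∈ Z
    rw [hZ]
    exact h4.imp (fun h => by rw [h, inv_mul_cancel]) fun h => by rw [h, inv_mul_cancel_left]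
  have hne : ∀ {x : Y}, (x : G) ≠ 1 → (x : G) ≠ t → (x : Y ⧸ Z.subgroupOf Y) ≠ 1 :=
    fun h1 h2 h => ((hZ _).1 (eq_one_bar.1 h)).elim h1 h2
  have h3 : pPrimeCore 2 (Y ⧸ Z.subgroupOf Y) ≤ (M.subgroupOf Y).map (QuotientGroup.mk' _) := by
    refine le_of_pair (a := ((⟨a, (hY _).2 hat⟩ : Y) : Y ⧸ Z.subgroupOf Y))
      (b := ((⟨b, (hY _).2 hbt⟩ : Y) : Y ⧸ Z.subgroupOf Y))
      ⟨hne hab.ne1 ha1, hne hab.ne2 hb1, fun h => ?_,
        (eq_one_bar (y := ⟨a, (hY _).2 hat⟩ * ⟨a, (hY _).2 hat⟩)).2 (show a * a ∈ Z from hab.sq1 ▸ Z.one_mem),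
        (eq_one_bar (y := ⟨b, (hY _).2 hbt⟩ * ⟨b, (hY _).2 hbt⟩)).2 (show b * b ∈ Z from hab.sq2 ▸ Z.one_mem),
        congrArg _ (Subtype.ext hab.comm : (⟨a, (hY _).2 hat⟩ * ⟨b, (hY _).2 hbt⟩ : Y) =
          ⟨b, (hY _).2 hbt⟩ * ⟨a, (hY _).2 hat⟩)⟩
      (PCoreResidual.coprime_card_pPrimeCore 2 _) (le_normalizer_of_normal (mem_top _))
      (le_normalizer_of_normal (mem_top _)) fun c hc k _ hk => ?_
    · have h4 : a⁻¹ * b ∈ Z := (eq_bar _ _).1 h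
      rw [inv_eq_of_sq hab.sq1, hZ] at h4
      exact h4.elim (fun h => hab.ne (mul_left_cancel (hab.sq1.trans h.symm))) hab1
    · obtain ⟨k, rfl⟩ := QuotientGroup.mk_surjective k
      have key : ∀ c : Y, (c : G) ∈ M → Good M (c : G) →
          (k : Y ⧸ Z.subgroupOf Y) * c = c * k → (k : G) ∈ M := fun c hc gc h => gc _ (by
        have h5 : (((c * k)⁻¹ * (k * c) : Y) : G) ∈ Z := (eq_bar (c * k) (k * c)).1 h.symm
        have h6 : (((k * ((c * k)⁻¹ * (k * c)) * k⁻¹ : Y)) : G) ∈ Z := hN.conj_mem _ h5 k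
        have h9 := M.mul_mem hc (hZM h6)
        simpa [mul_assoc] using h9)
      rcases hc with rfl | rfl | rfl
      · exact (mem_bar hZM).2 (key _ ha ga hk)
      · exact (mem_bar hZM).2 (key _ hb gb hk)
      · exact (mem_bar hZM).2 (key ((⟨a, (hY _).2 hat⟩ : Y) * (⟨b, (hY _).2 hbt⟩ : Y))
         (M.mul_mem ha hb) gab hk)
  have h5 := h3 (h1 (⟨y, (hY _).2 hy⟩ : Y))
  have h4 : y * t' * y⁻¹ * t'⁻¹ ∈ M :=
    (mem_bar hZM (y := ⟨y, (hY _).2 hy⟩ * ⟨t', (hY _).2 hc⟩ * ⟨y, (hY _).2 hy⟩⁻¹ *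
      ⟨t', (hY _).2 hc⟩⁻¹)).1 h5
  exact h2 y (by rwa [hy, mul_inv_cancel_right]) ((M.mul_mem_cancel_right (inv_mem ht')).1 h4)

end Cfsg.Agent.Lib.HeldGen
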