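import Cfsg.Agent.Lib.HeldFacts
import Cfsg.Agent.Lib.HeldGen

/-! Fusion in a group with the involution centralizer of `SL(5, 2)`. -/

set_option autoImplicit false
set_option maxRecDepth 100000
set_option Elab.async false

namespace Cfsg.Agent.Lib.HeldFus

open Cfsg.Agent.Lib.HJModel (allN anyN allN_iff anyN_iff cntN cntN_eq force force_eq)
open Subgroup Cfsg.Agent.Lib.PCore Cfsg.Agent.Lib.PCoreConj Cfsg.Agent.Lib.HeldModel
  Cfsg.Agent.Lib.HeldFacts Cfsg.Agent.Lib.HeldGen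

/-- The linear map with the given images of the basis. -/
def lin' (c : List ℕ) : ℕ → ℕ := List.rec (fun _ => 0)
  (fun a _ ih m => Nat.xor (Nat.mul (Nat.land m 1) a) (ih (Nat.shiftRight m 1))) c

/-- The same map, evaluating the argument first. -/
def lin (c : List ℕ) (m : ℕ) : ℕ := force m (lin' c)

theorem lin_nil (m : ℕ) : lin [] m = 0 := force_eq _ _

theorem lin_cons (a : ℕ) (c : List ℕ) (m : ℕ) : lin (a :: c) m = m % 2 * a ^^^ lin c (m / 2) := by
  rw [lin, lin, force_eq, force_eq, ← Nat.and_one_is_mod, ← Nat.shiftRight_one]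
  rfl

theorem lin_xor (c : List ℕ) (x y : ℕ) : lin c (x ^^^ y) = lin c x ^^^ lin c y := by
  induction c generalizing x y with
  | nil => simp [lin_nil]
  | cons a c ih =>
    rw [lin_cons, lin_cons, lin_cons, Nat.xor_div_two, ih, Nat.xor_mod_two_pow (n := 1)]
    have : (x % 2 ^^^ y % 2) * a = x % 2 * a ^^^ y % 2 * a := by
      rcases Nat.mod_two_eq_zero_or_one x with h | h <;>
        rcases Nat.mod_two_eq_zero_or_one y with h' | h' <;> simp [h, h']
    rw [pow_one, this]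
    ac_rfl

theorem lin_zero (c : List ℕ) : lin c 0 = 0 := by
  have := lin_xor c 0 0
  rwa [Nat.xor_self, Nat.xor_self] at this

theorem lin_map (c c' : List ℕ) (m : ℕ) : lin (c'.map (lin c)) m = lin c (lin c' m) := by
  induction c' generalizing m with
  | nil => rw [List.map_nil, lin_nil, lin_zero]
  | cons a c' ih =>
    rw [List.map_cons, lin_cons, lin_cons, lin_xor, ih]
    rcases Nat.mod_two_eq_zero_or_one m with h | h <;> simp [h, lin_zero]

theorem lin_lt {c : List ℕ} {n : ℕ} (h : ∀ x ∈ c, x < 2 ^ n) (m : ℕ) : lin c m < 2 ^ n := by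
  induction c generalizing m with
  | nil => rw [lin_nil]; positivity
  | cons a c ih =>
    rw [lin_cons]
    refine Nat.xor_lt_two_pow ?_ (ih (fun x hx => h x (List.mem_cons_of_mem _ hx)) _)
    have := h a List.mem_cons_self
    rcases Nat.mod_two_eq_zero_or_one m with h | h <;> simp [h, this]

theorem lin_mod (c : List ℕ) (m : ℕ) : lin c (m % 2 ^ c.length) = lin c m := by
  induction c generalizing m with
  | nil => rw [lin_nil, lin_nil]
  | cons a c ih =>
    rw [lin_cons, lin_cons, List.length_cons, pow_succ', Nat.mod_mul_right_mod,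
      Nat.mod_mul_right_div_self, ih]

theorem lin_append (c l : List ℕ) {m : ℕ} (h : m < 2 ^ c.length) : lin (c ++ l) m = lin c m := by
  induction c generalizing m with
  | nil =>
    obtain rfl : m = 0 := by simpa using h
    rw [lin_zero, lin_zero]
  | cons a c ih =>
    rw [List.length_cons, pow_succ] at h
    rw [List.cons_append, lin_cons, lin_cons, ih (by omega)]

/-- The identity. -/
def id6 : List ℕ := [1, 2, 4, 8, 16, 32]

theorem lin_id6 (m : ℕ) : lin id6 m = m % 64 := (lin_mod id6 m).symm.trans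
  ((by decide +kernel : All 64 fun m => lin id6 m = m) _ (Nat.mod_lt _ (by norm_num)))

theorem xor_ext {G : Type*} [Group G] {F F' : ℕ → G} (h : ∀ x y, F (x ^^^ y) = F x * F y)
    (h' : ∀ x y, F' (x ^^^ y) = F' x * F' y) {n : ℕ} (hn : n ≤ 6)
    (hb : ∀ i < n, F (2 ^ i) = F' (2 ^ i)) : ∀ m < 2 ^ n, F m = F' m := by
  intro m hm
  induction m using Nat.strong_induction_on with
  | _ m ih =>
    rcases (by decide +kernel : All 7 fun n => All (2 ^ n) fun m => m = 0 ∨ Ex n fun i =>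
      2 ^ i ^^^ m < m) n (by omega) m hm with rfl | ⟨i, hi, h1⟩
    · have h1 := h 0 0
      have h2 := h' 0 0
      rw [Nat.xor_self, left_eq_mul] at h1 h2
      rw [h1, h2]
    · rw [← Nat.xor_xor_cancel_left (2 ^ i) m, h, h', hb i hi, ih _ h1 (h1.trans hm)]

theorem A_sq (j : Fin 2) (m : ℕ) : A j m * A j m = 1 := by rw [A_mul, Nat.xor_self, A_zero]

theorem A_inj {j : Fin 2} {m n : ℕ} (hm : m < 64) (hn : n < 64) (h : A j m = A j n) : m = n := by
  rw [← co_A j m hm, h, co_A j n hn]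

theorem A_T (j : Fin 2) (m : ℕ) : A j m ∈ Tm := iv_T _

/-- The elementary abelian subgroups of order `64` in the model. -/
def Am (j : Fin 2) : Subgroup Hm where
  carrier := {h | ∃ m, h = A j m}
  one_mem' := ⟨0, (A_zero j).symm⟩
  mul_mem' := by
    rintro _ _ ⟨m, rfl⟩ ⟨n, rfl⟩
    exact ⟨_, A_mul j m n⟩
  inv_mem' := by
    rintro _ ⟨m, rfl⟩
    exact ⟨m, inv_eq_of_sq (A_sq j m)⟩

theorem card_Am (j : Fin 2) : Nat.card (Am j) = 64 := by
  rw [← Nat.card_eq_of_bijective (fun i : Fin 64 => (⟨A j i, i, rfl⟩ : Am j))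
    ⟨fun a b h => Fin.ext (A_inj a.2 b.2 (congrArg Subtype.val h)), ?_⟩, Nat.card_fin]
  rintro ⟨_, m, rfl⟩
  exact ⟨⟨m % 64, Nat.mod_lt _ (by norm_num)⟩, Subtype.ext (A_mod j m)⟩

/-- An element of the model acts in the given way. -/
def Acts (j : Fin 2) (h : Hm) (c : List ℕ) : Prop :=
  c.length = 6 ∧ All 6 fun i => h * A j (2 ^ i) = A j (lin c (2 ^ i)) * h

instance decActs (j : Fin 2) (h : Hm) (c : List ℕ) : Decidable (Acts j h c) :=
  inferInstanceAs (Decidable (_ ∧ _))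

/-- The action of an element of the model. -/
def ac (j : Fin 2) (h : Hm) : List ℕ := id6.map fun m => co j (h * A j m * h⁻¹)

universe u

variable {G : Type u} [Group G]

/-- The centralizer of the involution is the model. -/
structure Setup (φ : Hm →* G) : Prop where
  inj : Function.Injective φ
  cent : ∀ g, g * φ z = φ z * g → ∃ h, φ h = g

variable (φ : Hm →* G)

/-- The element `g` acts by the linear map `c`. -/
def Act (j : Fin 2) (g : G) (c : List ℕ) : Prop :=
  ∀ m, g * φ (A j m) * g⁻¹ = φ (A j (lin c m))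

/-- The Sylow subgroup. -/
def TT : Subgroup G := Tm.map φ

/-- The elementary abelian subgroups of order `64`. -/
def AA (j : Fin 2) : Subgroup G := (Am j).map φ

/-- The class of the central involution. -/
def InD (x : G) : Prop := IsConj (φ z) x

/-- The classes of the model that fuse to the central involution. -/
def Pat (p : ℕ) : Prop := p < 256 ∧ ∀ c < 8, InD φ (φ (rep c)) ↔ p.testBit c = true

variable {φ} {j : Fin 2} {g g' : G} {c c' : List ℕ}

theorem mem_AA : g ∈ AA φ j ↔ ∃ m, g = φ (A j m) :=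
  ⟨by rintro ⟨_, ⟨m, rfl⟩, rfl⟩; exact ⟨m, rfl⟩, by rintro ⟨m, rfl⟩; exact ⟨_, ⟨m, rfl⟩, rfl⟩⟩

theorem A_mem (m : ℕ) : φ (A j m) ∈ AA φ j := mem_AA.2 ⟨m, rfl⟩

theorem AA_le : AA φ j ≤ TT φ := map_mono (by rintro _ ⟨m, rfl⟩; exact A_T j m)

theorem α_mul (m n : ℕ) : φ (A j m) * φ (A j n) = φ (A j (m ^^^ n)) := by rw [← map_mul, A_mul]

theorem α_comm (m n : ℕ) : φ (A j m) * φ (A j n) = φ (A j n) * φ (A j m) := by
  rw [α_mul, α_mul, Nat.xor_comm]

theorem α_sq (m : ℕ) : φ (A j m) * φ (A j m) = 1 := by rw [← map_mul, A_sq, map_one]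

theorem α_inv (m : ℕ) : (φ (A j m))⁻¹ = φ (A j m) := inv_eq_of_sq (α_sq m)

theorem Act.mul (h : Act φ j g c) (h' : Act φ j g' c') : Act φ j (g * g') (c'.map (lin c)) :=
  fun m => by rw [lin_map, ← h, ← h']; group

theorem Act.inv (h : Act φ j g c) (hc : c'.map (lin c) = id6) : Act φ j g⁻¹ c' := fun m => by
  have := h (lin c' m)
  rw [← lin_map, hc, lin_id6, A_mod] at this
  rw [← this]
  group

theorem Act.of_basis (hc : c.length = 6)
    (h : ∀ i < 6, g * φ (A j (2 ^ i)) * g⁻¹ = φ (A j (lin c (2 ^ i)))) : Act φ j g c := fun m => by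
  rw [← lin_mod, hc, ← A_mod j m]
  exact xor_ext (F := fun m => g * φ (A j m) * g⁻¹) (F' := fun m => φ (A j (lin c m)))
    (fun x y => by simp only [← α_mul]; group) (fun x y => by simp only [lin_xor, α_mul]) le_rfl h _
    (Nat.mod_lt _ (by norm_num))

theorem Acts.act {h : Hm} (H : Acts j h c) : Act φ j (φ h) c := Act.of_basis H.1 fun i hi => by
  rw [← map_mul, H.2 i hi, map_mul, mul_inv_cancel_right]

theorem act_one : Act φ j 1 id6 := fun m => by rw [lin_id6, A_mod]; group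

theorem act_self (n : ℕ) : Act φ j (φ (A j n)) id6 := fun m => by
  rw [lin_id6, A_mod, α_comm, mul_inv_cancel_right]

theorem act_E {n : ℕ} (hn : n < 16) : Act φ j (φ (A 0 n)) id6 := A_E j n hn ▸ act_self n

theorem Act.mem_norm [Finite G] (h : Act φ j g c) : g ∈ normalizer (AA φ j : Set G) :=
  mem_normalizer_fintype fun x hx => by
    obtain ⟨m, rfl⟩ := mem_AA.1 hx
    exact h m ▸ A_mem _

theorem exists_act (h : g ∈ normalizer (AA φ j : Set G)) :
    ∃ c : List ℕ, c.length = 6 ∧ (∀ x ∈ c, x < 2 ^ 6) ∧ Act φ j g c := by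
  have : ∀ m, ∃ n < 64, g * φ (A j m) * g⁻¹ = φ (A j n) := fun m => by
    obtain ⟨n, hn⟩ := mem_AA.1 ((mem_normalizer_iff.1 h _).1 (A_mem m))
    exact ⟨n % 64, Nat.mod_lt _ (by norm_num), by rwa [A_mod]⟩
  choose f h1 h2 using this
  refine ⟨id6.map f, rfl, fun x hx => ?_, Act.of_basis rfl fun i hi => ?_⟩
  · obtain ⟨m, -, rfl⟩ := List.mem_map.1 hx
    exact h1 m
  · rw [h2]
    interval_cases i <;> simp [id6, lin_cons, lin_zero]

theorem T_norm [Finite G] : TT φ ≤ normalizer (AA φ j : Set G) :=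
  map_le_iff_le_comap.2 (T_le (fun q hq => ((by decide +kernel : ∀ j, All 128 fun q =>
    Acts j (el q 0) (ac j (el q 0))) j q hq).act.mem_norm) fun k hk =>
      ((by decide +kernel : ∀ j, All 8 fun k =>
        Acts j (el 0 k) (ac j (el 0 k))) j k hk).act.mem_norm)

theorem InD.conj {x : G} (h : InD φ x) (g : G) : InD φ (g * x * g⁻¹) :=
  h.trans (isConj_iff.2 ⟨g, rfl⟩)

theorem inD_conj {x : G} : InD φ (g * x * g⁻¹) ↔ InD φ x :=
  ⟨fun h => by simpa [mul_assoc] using h.conj g⁻¹, fun h => h.conj g⟩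

theorem exists_pat (φ : Hm →* G) : ∃ p, Pat φ p := by
  classical
  exact ⟨Nat.ofBits fun c : Fin 8 => decide (InD φ (φ (rep c))), Nat.ofBits_lt_two_pow _,
    fun c hc => by rw [Nat.testBit_ofBits_lt _ _ hc, decide_eq_true_iff]⟩

/-- The indicator function of the class. -/
def db (p : ℕ) (j : Fin 2) (m : ℕ) : Bool := p.testBit (cl (ix j m))

/-- A counting invariant. -/
def N3 (p : ℕ) (j : Fin 2) (t u : ℕ) : ℕ :=
  cntN (fun y => db p j y && db p j (y ^^^ t) && db p j (y ^^^ u)) 64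

variable (S : Setup φ) {p : ℕ}
include S

theorem Setup.z_ne : φ z ≠ 1 := fun h => HeldFacts.z_ne (S.inj (h.trans (map_one φ).symm))

theorem Setup.inD_iv (hp : Pat φ p) {i : ℕ} (hi : i < 192) :
    InD φ (φ (iv i)) ↔ p.testBit (cl i) = true := by
  rcases (iv_spec i hi).2.2 with rfl | ⟨h1, h2⟩
  · rw [iv_zero, map_one, show cl 0 = 8 by decide +kernel, Nat.testBit_lt_two_pow hp.1]
    exact ⟨fun h => (S.z_ne (isConj_one_left.1 h)).elim, fun h => by cases h⟩
  · rw [← hp.2 _ h1, ← inD_conj (g := φ (eh (look tw 15 32767 i))) (x := φ (rep _)), ← map_mul, h2,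
      map_mul, mul_inv_cancel_right]

theorem Setup.inD_A (hp : Pat φ p) (m : ℕ) : InD φ (φ (A j m)) ↔ db p j m = true :=
  S.inD_iv hp (ix_lt j m)

theorem Setup.db_lin (hp : Pat φ p) (h : Act φ j g c) (m : ℕ) : db p j (lin c m) = db p j m := by
  rw [Bool.eq_iff_iff, ← S.inD_A hp, ← S.inD_A hp, ← h, inD_conj]

theorem Setup.lin_inj (h : Act φ j g c) {m n : ℕ} (hm : m < 64) (hn : n < 64)
    (e : lin c m = lin c n) : m = n := by
  have := (h m).trans (e ▸ (h n).symm)
  exact A_inj hm hn (S.inj (mul_left_cancel (mul_right_cancel this)))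

theorem Setup.N3_lin (hp : Pat φ p) (h : Act φ j g c) (hc : ∀ x ∈ c, x < 2 ^ 6) (t u : ℕ) :
    N3 p j (lin c t) (lin c u) = N3 p j t u := by
  rw [N3, N3, cntN_eq, cntN_eq]
  have hi : ∀ a ∈ Finset.range 64, ∀ b ∈ Finset.range 64, lin c a = lin c b → a = b :=
    fun a ha b hb => S.lin_inj h (Finset.mem_range.1 ha) (Finset.mem_range.1 hb)
  refine (Finset.card_bij (fun y _ => lin c y) (fun y hy => ?_) (fun a ha b hb => hi a
    (Finset.mem_filter.1 ha).1 b (Finset.mem_filter.1 hb).1) fun y hy => ?_).symm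
  · simp only [Finset.mem_filter, ← lin_xor, S.db_lin hp h] at hy ⊢
    exact ⟨Finset.mem_range.2 (lin_lt hc y), hy.2⟩
  · obtain ⟨h1, h2⟩ := Finset.mem_filter.1 hy
    obtain ⟨a, ha, rfl⟩ := Finset.surj_on_of_inj_on_of_card_le (s := Finset.range 64)
      (t := Finset.range 64) (fun y _ => lin c y) (fun a _ => Finset.mem_range.2 (lin_lt hc a))
      (fun a b ha hb => hi a ha b hb) le_rfl y h1
    simp only [← lin_xor, S.db_lin hp h] at h2
    exact ⟨a, Finset.mem_filter.2 ⟨ha, h2⟩, rfl⟩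

theorem Setup.cent_T (h1 : g * φ (A 0 1) = φ (A 0 1) * g) (h2 : g * φ (A 0 2) = φ (A 0 2) * g)
    (h4 : g * φ (A 0 4) = φ (A 0 4) * g) : ∃ u ∈ Tm, φ u = g := by
  obtain ⟨u, rfl⟩ := S.cent g (A_one 0 ▸ h1)
  exact ⟨u, mem_T_of (S.inj (by simpa using h2)) (S.inj (by simpa using h4)), rfl⟩

theorem Setup.cent_AA (h : ∀ m, g * φ (A j m) = φ (A j m) * g) : ∃ m < 64, g = φ (A j m) := by
  obtain ⟨u, hu, rfl⟩ := S.cent_T (A_E j 1 (by norm_num) ▸ h 1) (A_E j 2 (by norm_num) ▸ h 2)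
    (A_E j 4 (by norm_num) ▸ h 4)
  exact ⟨_, co_lt j u, congrArg φ (cent_A j u hu fun i _ => S.inj (by simpa using h _))⟩

theorem Setup.of_act (h : Act φ j g id6) : ∃ m < 64, g = φ (A j m) :=
  S.cent_AA fun m => by
    have := h m
    rwa [lin_id6, A_mod, mul_inv_eq_iff_eq_mul] at this

theorem Setup.of_act2 (h0 : Act φ 0 g id6) (h1 : Act φ 1 g id6) : ∃ m < 16, g = φ (A 0 m) := by
  obtain ⟨m, hm, rfl⟩ := S.of_act h0
  refine ⟨m, not_le.1 fun h => noncomm m hm h 16 (by norm_num) le_rfl (S.inj ?_), rfl⟩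
  have := h1 16
  rwa [lin_id6, A_mod, mul_inv_eq_iff_eq_mul, ← map_mul, ← map_mul] at this

variable [Finite G]

theorem Setup.norm_T_range (h : g ∈ normalizer (TT φ : Set G)) : ∃ u, φ u = g := by
  refine S.cent g ?_
  obtain ⟨u, hu, e⟩ := (mem_normalizer_iff.1 h _).1 (mem_map_of_mem φ (A_one 0 ▸ A_T 0 1 : z ∈ Tm))
  have key : ∀ i < 1024, u * eh i = eh i * u := fun i hi => S.inj (by
    obtain ⟨v, -, e'⟩ := (mem_normalizer_iff.1 (inv_mem h) _).1 (mem_map_of_mem φ (eh_T hi))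
    have : φ (eh i) = g * φ v * g⁻¹ := by rw [e']; group
    rw [map_mul, map_mul, e, this, conj_mul, conj_mul, ← map_mul, ← map_mul, z_comm])
  rcases center_T u hu (key _ (by norm_num)) (key _ (by norm_num)) (key _ (by norm_num))
    (key _ (by norm_num)) with rfl | rfl
  · exact (S.z_ne (by simpa using e.symm)).elim
  · exact mul_inv_eq_iff_eq_mul.1 e.symm

theorem Setup.norm_T (h : g ∈ normalizer (TT φ : Set G)) : g ∈ TT φ := by
  obtain ⟨u, rfl⟩ := S.norm_T_range h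
  refine mem_map_of_mem φ (HeldFacts.norm_T fun v hv => ?_)
  obtain ⟨w, hw, e⟩ := (mem_normalizer_iff.1 h _).1 (mem_map_of_mem φ hv)
  rwa [show u * v * u⁻¹ = w from S.inj (by simpa using e.symm)]

theorem Setup.sylow : IsSylowIn 2 (TT φ) ⊤ :=
  IsSylowIn.of_inf_normalizer ⟨le_inf le_top le_normalizer, (IsPGroup.of_card card_T).map φ,
    fun _ h _ h' => le_antisymm (fun _ hx => S.norm_T (h hx).2) h'⟩

theorem Setup.card_AA : Nat.card (AA φ j) = 64 := (card_map_of_injective S.inj).trans (card_Am j)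

theorem Setup.conj_AA (h : (AA φ j) ^ᶜ g ≤ TT φ) : ∃ j', (AA φ j) ^ᶜ g = AA φ j' := by
  have h1 : ∀ m, ∃ i < 192, g * φ (A j m) * g⁻¹ = φ (iv i) := fun m => by
    obtain ⟨u, hu, e⟩ := h (conj_mem_conj g (A_mem m))
    obtain ⟨h2, h3⟩ := sq_spec u hu (S.inj (by rw [map_mul, e, conj_mul, α_sq]; simp))
    exact ⟨_, h2, h3 ▸ e.symm⟩
  choose b hb e using h1
  have hc : ∀ m n, iv (b m) * iv (b n) = iv (b n) * iv (b m) := fun m n => S.inj (by
    rw [map_mul, map_mul, ← e, ← e, conj_mul, conj_mul, α_comm])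
  have h2 : ∀ m, b m < 112 := fun m => not_le.1 fun hm => by
    have := big_cent _ (hb m) hm
    rw [cntN_eq] at this
    refine this.not_ge (le_trans (Finset.card_range 64).ge (Finset.card_le_card_of_injOn b
      (fun n _ => by simpa using ⟨hb n, hc n m⟩) fun n hn n' hn' h => ?_))
    have := (e n).trans (h ▸ (e n').symm)
    exact A_inj (by simpa using hn) (by simpa using hn')
      (S.inj (mul_left_cancel (mul_right_cancel this)))
  suffices ∃ j', ∀ m, ∃ n, iv (b m) = A j' n by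
    obtain ⟨j', h3⟩ := this
    refine ⟨j', eq_of_le_of_card_ge (conj_le_iff.2 fun x hx => ?_)
      (by rw [card_conj, S.card_AA, S.card_AA])⟩
    obtain ⟨m, rfl⟩ := mem_AA.1 hx
    obtain ⟨n, hn⟩ := h3 m
    rw [e, hn]
    exact A_mem n
  by_cases h3 : ∀ m, b m < 64
  · refine ⟨0, fun m => ?_⟩
    rcases iv_lt _ (h2 m) with h4 | h4
    · exact ⟨_, h4.2⟩
    · exact absurd (h3 m) (not_lt.2 h4.1)
  · obtain ⟨n, hn⟩ := not_forall.1 h3
    refine ⟨1, fun m => ?_⟩
    rcases iv_lt _ (h2 m) with h4 | h4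
    · refine ⟨b m, h4.2.trans (A_E 1 _ (not_le.1 fun h5 => ?_)).symm⟩
      have h6 := ((iv_lt _ (h2 n)).resolve_left fun h => hn h.1).2
      have := h2 n
      exact noncomm _ h4.1 h5 (b n - 48) (by omega) (by omega) (h4.2 ▸ h6 ▸ hc m n)
    · exact ⟨_, h4.2⟩

theorem Setup.wc (h : (AA φ j) ^ᶜ g ≤ TT φ) : (AA φ j) ^ᶜ g = AA φ j := by
  obtain ⟨j', e⟩ := S.conj_AA h
  have h1 : IsSylowIn 2 (TT φ) (normalizer (AA φ j' : Set G)) := S.sylow.of_le T_norm le_top
  have h2 : IsSylowIn 2 ((TT φ) ^ᶜ g) (normalizer (AA φ j' : Set G)) :=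
    (S.sylow.conj_top g).of_le (by
      rw [← e, ← conj_normalizer]
      exact conj_mono g T_norm) le_top
  obtain ⟨n, hn, e'⟩ := h2.exists_conj_eq h1
  rw [conj_conj] at e'
  have h3 := conj_eq_of_mem_normalizer (H := AA φ j)
    (T_norm (S.norm_T (mem_normalizer_iff_conj_eq.2 e')))
  rw [← conj_conj, e, conj_eq_of_mem_normalizer hn] at h3
  rw [e, h3]

theorem Setup.wc' {P : Subgroup G} (hP : IsPGroup 2 P) (h1 : AA φ j ≤ P) (h2 : (AA φ j) ^ᶜ g ≤ P) :
    g ∈ normalizer (AA φ j : Set G) := by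
  obtain ⟨x, -, hx⟩ := S.sylow.exists_conj_le le_top hP
  have h3 := S.wc ((conj_mono x h1).trans hx)
  have h4 := S.wc (conj_conj _ g x ▸ (conj_mono x h2).trans hx)
  have := mul_mem (inv_mem (mem_normalizer_iff_conj_eq.2 h3)) (mem_normalizer_iff_conj_eq.2 h4)
  rwa [inv_mul_cancel_left] at this

theorem Setup.fus {Y C : Subgroup G} (hY : IsPGroup 2 Y) (h1 : Y ≤ C) (h2 : Y ^ᶜ g ≤ C) :
    ∃ c ∈ C, ∀ j, AA φ j ≤ Y → c * g ∈ normalizer (AA φ j : Set G) := by
  obtain ⟨P, hP, h3⟩ := exists_isSylowIn_ge h1 hY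
  obtain ⟨c, hc, h4⟩ := hP.exists_conj_le h2 (isPGroup_conj hY g)
  refine ⟨c, hc, fun j hj => S.wc' hP.isPGroup (hj.trans h3) ?_⟩
  rw [← conj_conj]
  exact (conj_mono c (conj_mono g hj)).trans h4

end Cfsg.Agent.Lib.HeldFus
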