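import Cfsg.Agent.Lib.HeldPat
import Cfsg.Agent.Lib.Words

/-! Generators and relations for the amalgam of the three maximal `2`-local subgroups. -/

set_option autoImplicit false
set_option maxRecDepth 100000
set_option Elab.async false

namespace Cfsg.Agent.Lib.HeldFus

open Cfsg.Agent.Lib.HJModel (allN anyN allN_iff anyN_iff cntN cntN_eq force force_eq)
open Subgroup Cfsg.Agent.Lib.PCore Cfsg.Agent.Lib.PCoreConj Cfsg.Agent.Lib.HeldModel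
  Cfsg.Agent.Lib.HeldFacts Cfsg.Agent.Lib.HeldGen Cfsg.Agent.Lib.PermNet Cfsg.Agent.Lib.Words

theorem six {c : List ℕ} (h : c.length = 6) :
    c = [lin c 1, lin c 2, lin c 4, lin c 8, lin c 16, lin c 32] := by
  match c, h with
  | [a, b, c, d, e, f], _ => simp [lin_cons, lin_zero]

/-- The action of the Sylow subgroup on the first elementary abelian subgroup. -/
def U0 : List (ℕ × List ℕ) := [(0, [1, 2, 4, 8, 16, 32]), (1, [1, 2, 5, 10, 16, 48]),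
  (32, [1, 2, 4, 8, 17, 36]), (33, [1, 2, 5, 10, 17, 53]), (64, [1, 3, 4, 12, 16, 32]),
  (65, [1, 3, 5, 15, 16, 48]), (96, [1, 3, 4, 12, 17, 36]), (97, [1, 3, 5, 15, 17, 53]),
  (512, [1, 2, 4, 8, 18, 40]), (513, [1, 2, 5, 10, 18, 58]), (544, [1, 2, 4, 8, 19, 44]),
  (545, [1, 2, 5, 10, 19, 63]), (576, [1, 3, 4, 12, 19, 44]), (577, [1, 3, 5, 15, 19, 63]),
  (608, [1, 3, 4, 12, 18, 40]), (609, [1, 3, 5, 15, 18, 58])]

/-- The action of the first elementary abelian subgroup on the second. -/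
def U1 : List (ℕ × List ℕ) := [(0, [1, 2, 4, 8, 16, 32]), (16, [1, 2, 4, 8, 17, 34]),
  (32, [1, 2, 4, 8, 20, 40]), (48, [1, 2, 4, 8, 21, 42])]

theorem U0_spec : ∀ r ∈ U0, r.1 < 1024 ∧ Acts 0 (eh r.1) r.2 := by decide +kernel

theorem U1_spec : ∀ r ∈ U1, Acts 1 (A 0 r.1) r.2 := by decide +kernel

/-- The pair of linear maps is induced by an element of the group. -/
def Pre (p : ℕ) (y0 y1 : List ℕ) : Prop := lin y0 1 < 16 ∧ db p 0 (lin y0 1) = true ∧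
  srch (db p 0) (fun c => U0.any fun r => r.2.map (lin c) == y0) [16, 16, 16, 64, 64]
    [lin y0 1] = true ∧
  srch (db p 1) (fun c => U1.any fun r => r.2.map (lin c) == y1) [64, 64]
    [lin y0 1, lin y0 2, lin y0 4, lin y0 8] = true ∧
  All 16 fun m => lin y0 m < 16

instance decPre (p : ℕ) (y0 y1 : List ℕ) : Decidable (Pre p y0 y1) := by
  unfold Pre; infer_instance

/-- A fixed point free map of order three. -/
def Fpf (y : List ℕ) : Prop := (All 64 fun e => lin y e % 64 = e → e = 0) ∧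
  (All 64 fun e => Ex 64 fun f => lin y (f ^^^ e) = f) ∧ y.map (lin (y.map (lin y))) = id6

instance decFpf (y : List ℕ) : Decidable (Fpf y) := by unfold Fpf; infer_instance

/-- The linear part of a word. -/
def affL (L : ℕ → List ℕ) (w : List ℕ) : List ℕ :=
  w.foldr (fun l f => f.map (lin (L (l / 2)))) id6

/-- The translation part of a word. -/
def affT (L : ℕ → List ℕ) (tr cm : ℕ) (w : List ℕ) : ℕ :=
  w.foldr (fun l m => if l = 2 * tr then cm ^^^ m else lin (L (l / 2)) m) 0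

/-- A pair of linear maps centralizes or inverts another pair. -/
def Nm (g0 g1 y0 y1 : List ℕ) : Prop :=
  (y0.map (lin g0) = g0.map (lin y0) ∧ y1.map (lin g1) = g1.map (lin y1)) ∨
  (y0.map (lin g0) = g0.map (lin (y0.map (lin y0))) ∧
    y1.map (lin g1) = g1.map (lin (y1.map (lin y1))))

instance decNm (g0 g1 y0 y1 : List ℕ) : Decidable (Nm g0 g1 y0 y1) := by unfold Nm; infer_instance

/-- The data describing an amalgam. -/
structure Dat where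
  p : ℕ
  y10 : List ℕ
  y11 : List ℕ
  y40 : List ℕ
  y41 : List ℕ
  h : List ℕ
  L0 : List (List ℕ)
  L1 : List (List ℕ)
  cm : ℕ
  dm : ℕ
  w3 : List (List ℕ)
  w2 : List (List ℕ)
  KH : List (List ℕ)
  K0 : List (List ℕ)
  K1 : List (List ℕ)

/-- The generators inside the model. -/
def Dat.x (D : Dat) (i : ℕ) : Hm := eh (D.h.getD i 0)

/-- The actions on the first subgroup. -/
def Dat.l0 (D : Dat) (i : ℕ) : List ℕ := D.L0.getD i []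

/-- The actions on the second subgroup. -/
def Dat.l1 (D : Dat) (i : ℕ) : List ℕ := D.L1.getD i []

/-- The conditions giving the two elements of order three. -/
def Dat.Ok1 (D : Dat) : Prop :=
  Pre D.p D.y10 D.y11 ∧ Pre D.p D.y40 D.y41 ∧ Fpf D.y10 ∧ Fpf D.y41 ∧
  (All 16 fun e => Ex 16 fun f => lin D.y41 (f ^^^ e) = f) ∧
  D.y40.map (lin D.y10) = D.y10.map (lin D.y40) ∧ D.y41.map (lin D.y11) = D.y11.map (lin D.y41) ∧
  (∀ i ∈ [0, 1], Acts 0 (D.x i) (D.l0 i) ∧ Acts 1 (D.x i) (D.l1 i) ∧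
    Nm (D.l0 i) (D.l1 i) D.y10 D.y11 ∧ Nm (D.l0 i) (D.l1 i) D.y40 D.y41) ∧
  All 16 fun f => All 16 fun f' => (∃ w ∈ [[0, 0], [2, 2], [0, 2, 0, 2]],
      wval (fun i => D.x i * A 1 (if i = 0 then f else f')) w ≠ 1 ∧
      wval (fun i => D.x i * A 1 (if i = 0 then f else f')) w =
        A 1 (co 1 (wval (fun i => D.x i * A 1 (if i = 0 then f else f')) w))) ∨
    Ex 16 fun e => A 1 e * (D.x 0 * A 1 f) * (A 1 e)⁻¹ = D.x 0 ∧
      A 1 e * (D.x 1 * A 1 f') * (A 1 e)⁻¹ = D.x 1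

instance decOk1 (D : Dat) : Decidable D.Ok1 := by unfold Dat.Ok1; infer_instance

/-- The conditions giving the relations. -/
def Dat.Ok2 (D : Dat) : Prop :=
  (∀ i ∈ [0, 1, 2, 3, 6], Acts 0 (D.x i) (D.l0 i)) ∧
  (∀ i ∈ [0, 1, 2, 3, 5], Acts 1 (D.x i) (D.l1 i)) ∧
  (D.x 2 = A 0 D.cm ∧ lin D.y40 D.cm = D.cm ∧ D.l0 2 = id6) ∧
  (D.x 3 = A 1 D.dm ∧ lin D.y11 D.dm = D.dm ∧ D.l1 3 = id6) ∧
  (Acts 0 (eh 5120) (D.l0 6) ∧ (D.y10.map (lin (D.l0 6)) = (D.l0 6).map (lin D.y10) ∨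
      D.y10.map (lin (D.l0 6)) = (D.l0 6).map (lin (D.y10.map (lin D.y10)))) ∧
    (∀ w ∈ D.w3, ∀ l ∈ w, l / 2 ∈ [6, 0, 1, 3]) ∧
    All 64 fun f => eh 5120 * A 0 f = D.x 6 ∨ ∃ w ∈ D.w3,
      wval (fun i => if i = 6 then eh 5120 * A 0 f else D.x i) w ≠ 1 ∧
      wval (fun i => if i = 6 then eh 5120 * A 0 f else D.x i) w =
        A 0 (co 0 (wval (fun i => if i = 6 then eh 5120 * A 0 f else D.x i) w))) ∧
  (Acts 1 (eh 10240) (D.l1 5) ∧ (D.y41.map (lin (D.l1 5)) = (D.l1 5).map (lin D.y41) ∨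
      D.y41.map (lin (D.l1 5)) = (D.l1 5).map (lin (D.y41.map (lin D.y41)))) ∧
    (∀ w ∈ D.w2, ∀ l ∈ w, l / 2 ∈ [5, 0, 1, 2]) ∧
    All 64 fun f => eh 10240 * A 1 f = D.x 5 ∨ ∃ w ∈ D.w2,
      wval (fun i => if i = 5 then eh 10240 * A 1 f else D.x i) w ≠ 1 ∧
      wval (fun i => if i = 5 then eh 10240 * A 1 f else D.x i) w =
        A 1 (co 1 (wval (fun i => if i = 5 then eh 10240 * A 1 f else D.x i) w))) ∧
  (D.l0 4 = (D.l0 0).map (lin D.y10) ∧ D.l1 4 = (D.l1 0).map (lin D.y11) ∧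
    D.l0 7 = (D.l0 1).map (lin D.y40) ∧ D.l1 7 = (D.l1 1).map (lin D.y41)) ∧
  (∀ w ∈ D.KH, (∀ l ∈ w, l / 2 ∈ [0, 1, 2, 3, 5, 6]) ∧ wval D.x w = 1) ∧
  (∀ w ∈ D.K0, (∀ l ∈ w, l ∈ [4, 0, 2, 6, 8, 12, 14]) ∧ affL D.l0 w = id6 ∧
    affT D.l0 2 D.cm w = 0) ∧
  (∀ w ∈ D.K1, (∀ l ∈ w, l ∈ [6, 0, 2, 4, 8, 10, 14]) ∧ affL D.l1 w = id6 ∧
    affT D.l1 3 D.dm w = 0)

instance decOk2 (D : Dat) : Decidable D.Ok2 := by unfold Dat.Ok2; infer_instance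

universe u

variable {G : Type u} [Group G]

/-- The normalizer of a cyclic group of order three. -/
def Nr (r : G) : Subgroup G where
  carrier := {g | g * r = r * g ∨ g * r = r⁻¹ * g}
  one_mem' := Or.inl (by simp)
  mul_mem' := by
    have key : ∀ {g s : G}, g * r = s * g → g * r⁻¹ = s⁻¹ * g := fun h => by
      rw [mul_inv_eq_iff_eq_mul, mul_assoc, h, inv_mul_cancel_left]
    rintro h k (h1 | h1) (h2 | h2)
    · exact Or.inl (by rw [mul_assoc, h2, ← mul_assoc, h1, mul_assoc])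
    · exact Or.inr (by rw [mul_assoc, h2, ← mul_assoc, key h1, mul_assoc])
    · exact Or.inr (by rw [mul_assoc, h2, ← mul_assoc, h1, mul_assoc])
    · exact Or.inl (by rw [mul_assoc, h2, ← mul_assoc, key h1, inv_inv, mul_assoc])
  inv_mem' := by
    rintro h (h1 | h1)
    · exact Or.inl (by rw [inv_mul_eq_iff_eq_mul, ← mul_assoc, h1, mul_inv_cancel_right])
    · exact Or.inr (by simpa using (congrArg (·⁻¹) h1).symm)

variable {φ : Hm →* G} {j : Fin 2} {g g' r s : G} {c c' y : List ℕ}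

theorem act_word {x : ℕ → G} {L : ℕ → List ℕ} {w : List ℕ}
    (h : ∀ l ∈ w, l % 2 = 0 ∧ Act φ j (x (l / 2)) (L (l / 2))) : Act φ j (wval x w) (affL L w) := by
  induction w with
  | nil => exact act_one
  | cons l w ih =>
    obtain ⟨h1, h2⟩ := h l List.mem_cons_self
    rw [wval_cons, lval, if_pos h1]
    exact h2.mul (ih fun l hl => h l (List.mem_cons_of_mem _ hl))

theorem aff_word {x : ℕ → G} {L : ℕ → List ℕ} {w : List ℕ} {tr cm : ℕ} {N : Subgroup G}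
    (hx : x tr = φ (A j cm)) (hL : L tr = id6)
    (h : ∀ l ∈ w, l = 2 * tr ∨ l ≠ 2 * tr ∧ l % 2 = 0 ∧ x (l / 2) ∈ N ∧
      Act φ j (x (l / 2)) (L (l / 2))) :
    ∃ k ∈ N, Act φ j k (affL L w) ∧ wval x w = φ (A j (affT L tr cm w)) * k := by
  induction w with
  | nil => exact ⟨1, one_mem _, act_one, by simp [affT, A_zero]⟩
  | cons l w ih =>
    obtain ⟨k, h1, h2, h3⟩ := ih fun l hl => h l (List.mem_cons_of_mem _ hl)
    rw [wval_cons, h3, show affL L (l :: w) = (affL L w).map (lin (L (l / 2))) from rfl,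
      show affT L tr cm (l :: w) = if l = 2 * tr then cm ^^^ affT L tr cm w
        else lin (L (l / 2)) (affT L tr cm w) from rfl]
    rcases h l List.mem_cons_self with rfl | ⟨h4, h5, h6, h7⟩
    · rw [if_pos rfl, lval, if_pos (by omega), show 2 * tr / 2 = tr by omega, hx, hL, ← mul_assoc,
        α_mul]
      exact ⟨k, h1, one_mul k ▸ act_one.mul h2, rfl⟩
    · rw [if_neg h4, lval, if_pos h5, ← h7]
      exact ⟨_, mul_mem h6 h1, h7.mul h2, by group⟩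

theorem adj {B e : ℕ} (hr : Act φ j r y) (hB : All B fun e => Ex B fun f => lin y (f ^^^ e) = f)
    (he : e < B) (h : g * r = s * g * φ (A j e)) :
    ∃ f < B, g * φ (A j f) * r = s * (g * φ (A j f)) := by
  obtain ⟨f, h1, h2⟩ := hB e he
  have h3 := hr (f ^^^ e)
  rw [h2, mul_inv_eq_iff_eq_mul] at h3
  refine ⟨f, h1, ?_⟩
  rw [mul_assoc, ← h3, ← mul_assoc, h, mul_assoc, α_mul, Nat.xor_comm f, Nat.xor_xor_cancel_left,
    mul_assoc]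

theorem Act.quot (h : Act φ j g c) (h' : Act φ j g' c) : Act φ j (g'⁻¹ * g) id6 := fun m => by
  rw [lin_id6, A_mod, ← conj_conj_eq, h, ← h']
  group

theorem Act.mul_id (h : Act φ j g c) (h' : Act φ j g' id6) : Act φ j (g * g') c := fun m => by
  rw [← conj_conj_eq, h', lin_id6, A_mod, h]

theorem Act.id_mul (h' : Act φ j g' id6) (h : Act φ j g c) : Act φ j (g' * g) c := fun m => by
  rw [← conj_conj_eq, h, h', lin_id6, A_mod]

theorem act_E' {n : ℕ} (hn : n < 16) : Act φ j (φ (A 1 n)) id6 := A_E 1 n hn ▸ act_E hn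

theorem mem_Nr (h : s = r ∨ s = r⁻¹) (h' : g * r = s * g) : g ∈ Nr r := by
  rcases h with rfl | rfl
  exacts [Or.inl h', Or.inr h']

theorem Nr_conj (h : g ∈ Nr r) (x : G) : x * g * x⁻¹ ∈ Nr (x * r * x⁻¹) :=
  h.imp (fun h => by rw [conj_mul, conj_mul, h]) fun h => by rw [conj_inv, conj_mul, conj_mul, h]

variable (S : Setup φ) {p : ℕ}
include S

theorem Setup.eq_mul (h : Act φ j g c) (h' : Act φ j g' c) : ∃ e < 64, g = g' * φ (A j e) := by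
  obtain ⟨e, h1, h2⟩ := S.of_act (h.quot h')
  exact ⟨e, h1, by rw [← h2, mul_inv_cancel_left]⟩

theorem Setup.eq_mul2 (h0 : Act φ 0 g c) (h0' : Act φ 0 g' c) (h1 : Act φ 1 g c')
    (h1' : Act φ 1 g' c') : ∃ e < 16, g = g' * φ (A 1 e) := by
  obtain ⟨e, h1, h2⟩ := S.of_act2 (h0.quot h0') (h1.quot h1')
  exact ⟨e, h1, by rw [A_E 1 e h1, ← h2, mul_inv_cancel_left]⟩

theorem Setup.fix (hr : Act φ j r y) (hf : Fpf y) {e : ℕ} (h : φ (A j e) * r = r * φ (A j e)) :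
    φ (A j e) = 1 := by
  have h1 := hr (e % 64)
  rw [A_mod, ← h, mul_inv_cancel_right, ← A_mod j e, ← A_mod j (lin _ _)] at h1
  rw [← A_mod, hf.1 _ (Nat.mod_lt e (by norm_num)) (A_inj (Nat.mod_lt _ (by norm_num))
    (Nat.mod_lt _ (by norm_num)) (S.inj h1.symm)), A_zero, map_one]

theorem Setup.cube (hr : Act φ j r y) (hf : Fpf y) : r⁻¹ = r * r := by
  obtain ⟨e, -, h⟩ := S.of_act (hf.2.2 ▸ (hr.mul hr).mul hr)
  refine inv_eq_of_mul_eq_one_left (h.trans (S.fix hr hf ?_))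
  rw [← h]
  group

theorem Setup.nrm (hr : Act φ j r y) (hf : Fpf y) {e : ℕ} (h : φ (A j e) ∈ Nr r) :
    φ (A j e) = 1 := by
  rcases h with h | h
  · exact S.fix hr hf h
  · have h2 : φ (A j e) * r⁻¹ * φ (A j e) = r := by
      rw [mul_assoc, ← h, ← mul_assoc, α_sq, one_mul]
    have h1 : r = φ (A j (lin y e ^^^ e)) := by
      rw [← α_inv, ← inv_eq_iff_eq_inv]
      calc r⁻¹ = r * (φ (A j e) * r⁻¹ * φ (A j e)) := by rw [h2, S.cube hr hf]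
        _ = _ := by rw [← α_mul, ← hr]; group
    exact S.fix hr hf (h1 ▸ α_comm _ _)

theorem Setup.pin (hr : Act φ j r y) (hf : Fpf y) {P : Hm} {L : List ℕ} (hP : Acts j P L)
    (hc : y.map (lin L) = L.map (lin y) ∨ y.map (lin L) = L.map (lin (y.map (lin y)))) {i₀ : ℕ}
    {x : ℕ → Hm} {ws : List (List ℕ)} (hw : ∀ w ∈ ws, ∀ l ∈ w, l / 2 = i₀ ∨ φ (x (l / 2)) ∈ Nr r)
    (hpin : All 64 fun f => P * A j f = x i₀ ∨ ∃ w ∈ ws,
      wval (fun i => if i = i₀ then P * A j f else x i) w ≠ 1 ∧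
      wval (fun i => if i = i₀ then P * A j f else x i) w =
        A j (co j (wval (fun i => if i = i₀ then P * A j f else x i) w))) : φ (x i₀) ∈ Nr r := by
  obtain ⟨f, h1, h2⟩ : ∃ f < 64, φ (P * A j f) ∈ Nr r := by
    rcases hc with hc | hc
    · obtain ⟨e, h1, h2⟩ := S.eq_mul (hP.act.mul hr) (hc ▸ hr.mul hP.act)
      obtain ⟨f, h3, h4⟩ := adj hr hf.2.1 h1 h2
      exact ⟨f, h3, Or.inl (by rwa [map_mul])⟩
    · obtain ⟨e, h1, h2⟩ := S.eq_mul (hP.act.mul hr) (hc ▸ (hr.mul hr).mul hP.act)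
      obtain ⟨f, h3, h4⟩ := adj hr hf.2.1 h1 h2
      exact ⟨f, h3, Or.inr (by rwa [map_mul, S.cube hr hf])⟩
  rcases hpin f h1 with h | ⟨w, h3, h4, h5⟩
  · exact h ▸ h2
  · refine (h4 (S.inj ?_)).elim
    rw [map_one, h5]
    refine S.nrm hr hf ?_
    rw [← h5, map_wval]
    refine wval_mem fun l hl => ?_
    split_ifs with h
    · exact h2
    · exact (hw w h3 l hl).resolve_left h

theorem Setup.rel (hr : Act φ j r y) (hf : Fpf y) {x : ℕ → G} {L : ℕ → List ℕ} {w : List ℕ}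
    {tr cm : ℕ} (hx : x tr = φ (A j cm)) (hL : L tr = id6)
    (h : ∀ l ∈ w, l = 2 * tr ∨ l ≠ 2 * tr ∧ l % 2 = 0 ∧ x (l / 2) ∈ Nr r ∧
      Act φ j (x (l / 2)) (L (l / 2))) (h1 : affL L w = id6) (h2 : affT L tr cm w = 0) :
    wval x w = 1 := by
  obtain ⟨k, h3, h4, h5⟩ := aff_word hx hL h
  obtain ⟨e, -, rfl⟩ := S.of_act (h1 ▸ h4)
  rw [h5, h2, A_zero, map_one, S.nrm hr hf h3, mul_one]

theorem Setup.nm {g0 g1 y0 y1 : List ℕ} (h0 : Act φ 0 g g0) (h1 : Act φ 1 g g1)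
    (r0 : Act φ 0 r y0) (r1 : Act φ 1 r y1) (h3 : r⁻¹ = r * r) (h : Nm g0 g1 y0 y1) :
    ∃ s, (s = r ∨ s = r⁻¹) ∧ ∃ e < 16, g * r = s * g * φ (A 1 e) := by
  rcases h with ⟨h, h'⟩ | ⟨h, h'⟩
  · exact ⟨r, Or.inl rfl, S.eq_mul2 (h0.mul r0) (h ▸ r0.mul h0) (h1.mul r1) (h' ▸ r1.mul h1)⟩
  · exact ⟨r * r, Or.inr h3.symm, S.eq_mul2 (h0.mul r0) (h ▸ (r0.mul r0).mul h0) (h1.mul r1)
      (h' ▸ (r1.mul r1).mul h1)⟩

variable [Finite G]

theorem Setup.exists_act2 (hp : Pat φ p) {y0 y1 : List ℕ} (h : Pre p y0 y1) :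
    ∃ r, Act φ 0 r y0 ∧ Act φ 1 r y1 := by
  obtain ⟨h1, h2, h3, h4, h6⟩ := h
  have hd : ∀ {j : Fin 2} {g : G} {c : List ℕ}, Act φ j g c → ∀ m < 2 ^ 6, m ≠ 0 →
      db p j (lin c m) = db p j m ∧ lin c m ≠ 0 := fun h m hm h0 =>
    ⟨S.db_lin hp h m, fun e => h0 (S.lin_inj h hm (by norm_num) (e.trans (lin_zero _).symm))⟩
  obtain ⟨g, hg⟩ := isConj_iff.1 ((S.inD_A hp _).2 h2)
  obtain ⟨n, hn, e⟩ := S.fusE (m := 1) (by norm_num) h1 (A_one 0 ▸ hg)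
  obtain ⟨c, c1, c2, c3⟩ := exists_act hn.1
  have c4 : ∀ m < 16, lin c m < 16 := fun m hm => by
    obtain ⟨l, h7, h8⟩ := S.conj_E hn hm
    rwa [A_inj (lin_lt c2 m) (h7.trans (by norm_num)) (S.inj ((c3 m).symm.trans h8))]
  have c5 : lin c 1 = lin y0 1 := A_inj (lin_lt c2 1) (by omega) (S.inj ((c3 1).symm.trans e))
  have c6 := srch_sound (l := [lin c 2, lin c 4, lin c 8, lin c 16, lin c 32])
    (by simp [c4, show ∀ m, lin c m < 64 from lin_lt c2]) _ h3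
  rw [← c5] at c6
  change (∀ m < 2 ^ 6, m ≠ 0 → db p 0 (lin [lin c 1, lin c 2, lin c 4, lin c 8, lin c 16, lin c 32] m)
    = _ ∧ lin [lin c 1, lin c 2, lin c 4, lin c 8, lin c 16, lin c 32] m ≠ 0) → (U0.any fun r =>
      r.2.map (lin [lin c 1, lin c 2, lin c 4, lin c 8, lin c 16, lin c 32]) == y0) = true at c6
  rw [← six c1] at c6
  obtain ⟨u, hu, c7⟩ := List.any_eq_true.1 (c6 (hd c3))
  have c8 : Act φ 0 (n * φ (eh u.1)) y0 := beq_iff_eq.1 c7 ▸ c3.mul (U0_spec u hu).2.act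
  obtain ⟨d, d1, d2, d3⟩ := exists_act
    (mul_mem hn.2 (T_norm (mem_map_of_mem φ (eh_T (U0_spec u hu).1))))
  have d4 : ∀ m < 16, lin y0 m = lin d m := fun m hm => A_inj (j := 1) ((h6 m hm).trans (by norm_num))
    (lin_lt d2 m) (S.inj (by rw [← d3, A_E 1 m hm, c8, A_E 1 _ (h6 m hm)]))
  have d6 := srch_sound (l := [lin d 16, lin d 32])
    (by simp [show ∀ m, lin d m < 64 from lin_lt d2]) _ h4
  rw [d4 1 (by norm_num), d4 2 (by norm_num), d4 4 (by norm_num), d4 8 (by norm_num)] at d6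
  change (∀ m < 2 ^ 6, m ≠ 0 → db p 1 (lin [lin d 1, lin d 2, lin d 4, lin d 8, lin d 16, lin d 32] m)
    = _ ∧ lin [lin d 1, lin d 2, lin d 4, lin d 8, lin d 16, lin d 32] m ≠ 0) → (U1.any fun r =>
      r.2.map (lin [lin d 1, lin d 2, lin d 4, lin d 8, lin d 16, lin d 32]) == y1) = true at d6
  rw [← six d1] at d6
  obtain ⟨v, hv, d7⟩ := List.any_eq_true.1 (d6 (hd d3))
  exact ⟨_, c8.mul_id (act_self v.1), beq_iff_eq.1 d7 ▸ d3.mul (U1_spec v hv).act⟩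

theorem Setup.exists_r {D : Dat} (hp : Pat φ D.p) (h : D.Ok1) : ∃ r s, Act φ 0 r D.y10 ∧
    Act φ 1 r D.y11 ∧ Act φ 0 s D.y40 ∧ Act φ 1 s D.y41 ∧ r * s = s * r ∧
      ∀ i ∈ [0, 1], φ (D.x i) ∈ Nr r ∧ φ (D.x i) ∈ Nr s := by
  obtain ⟨h1, h2, f1, f4, h3, h4, h5, h6, h7⟩ := h
  obtain ⟨r', a0, a1⟩ := S.exists_act2 hp h1
  obtain ⟨s, b0, b1⟩ := S.exists_act2 hp h2
  obtain ⟨e, e1, e2⟩ := S.eq_mul2 (a0.mul b0) (h4 ▸ b0.mul a0) (a1.mul b1) (h5 ▸ b1.mul a1)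
  obtain ⟨f, e3, e4⟩ := adj b1 h3 e1 e2
  have c0 := a0.mul_id (act_E' e3)
  have c1 := a1.mul_id (act_E' e3)
  generalize r' * φ (A 1 f) = r at e4 c0 c1
  have key : ∀ i ∈ [0, 1], ∃ f < 16, φ (D.x i * A 1 f) ∈ Nr r ∧ φ (D.x i * A 1 f) ∈ Nr s := by
    intro i hi
    obtain ⟨k0, k1, k2, k3⟩ := h6 i hi
    obtain ⟨s', k4, e, k5, k6⟩ := S.nm k0.act k1.act b0 b1 (S.cube b1 f4) k3
    obtain ⟨f, k7, k8⟩ := adj b1 h3 k5 k6
    have k9 : φ (D.x i) * φ (A 1 f) ∈ Nr s := mem_Nr k4 k8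
    obtain ⟨r', l4, e, -, l6⟩ := S.nm (k0.act.mul_id (act_E' k7)) (k1.act.mul_id (act_E' k7)) c0 c1
      (S.cube c0 f1) k2
    have l7 : r ∈ Nr s := Or.inl e4
    have l8 : r' ∈ Nr s := by
      rcases l4 with rfl | rfl
      exacts [l7, inv_mem l7]
    rw [S.nrm b1 f4 (e := e) (((Nr s).mul_mem_cancel_left (mul_mem l8 k9)).1 (l6 ▸ mul_mem k9 l7)),
      mul_one] at l6
    exact ⟨f, k7, map_mul φ _ _ ▸ mem_Nr l4 l6, map_mul φ _ _ ▸ k9⟩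
  obtain ⟨f, g1, g2, g3⟩ := key 0 (by simp)
  obtain ⟨f', g4, g5, g6⟩ := key 1 (by simp)
  rcases h7 f g1 f' g4 with ⟨w, k1, k2, k3⟩ | ⟨e, k1, k2, k3⟩
  · refine (k2 (S.inj ?_)).elim
    rw [map_one, k3]
    refine S.nrm b1 f4 ?_
    rw [← k3, map_wval]
    refine wval_mem fun l hl => ?_
    rcases (by decide : ∀ w ∈ [[0, 0], [2, 2], [0, 2, 0, 2]], ∀ l ∈ w, l = 0 ∨ l = 2) w k1 l hl
      with rfl | rfl
    exacts [g3, g6]
  · have k4 : ∀ {j : Fin 2} {g : G} {c : List ℕ}, Act φ j g c →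
        Act φ j (φ (A 1 e) * g * (φ (A 1 e))⁻¹) c := fun h =>
      ((act_E' k1).id_mul h).mul_id ((α_inv (φ := φ) e).symm ▸ act_E' k1)
    refine ⟨_, _, k4 c0, k4 c1, k4 b0, k4 b1, by rw [conj_mul, conj_mul, e4], fun i hi => ?_⟩
    rcases (by decide : ∀ i ∈ [0, 1], i = 0 ∨ i = 1) i hi with rfl | rfl
    · rw [← k2, map_mul, map_mul φ (A 1 e), map_inv]
      exact ⟨Nr_conj g2 _, Nr_conj g3 _⟩
    · rw [← k3, map_mul, map_mul φ (A 1 e), map_inv]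
      exact ⟨Nr_conj g5 _, Nr_conj g6 _⟩

theorem Setup.exists_gens {D : Dat} (hp : Pat φ D.p) (h : D.Ok1) (h' : D.Ok2) : ∃ y : ℕ → G,
    (∀ i ∈ [0, 1, 2, 3, 5, 6], y i = φ (D.x i)) ∧
    (∀ i ∈ [0, 1, 2, 3, 4, 6, 7], Act φ 0 (y i) (D.l0 i)) ∧
    (∀ i ∈ [0, 1, 2, 3, 4, 5, 7], Act φ 1 (y i) (D.l1 i)) ∧
      ∀ w ∈ D.KH ++ D.K0 ++ D.K1, wval y w = 1 := by
  obtain ⟨r, s, a0, a1, b0, b1, hc, hn⟩ := S.exists_r hp h
  obtain ⟨-, -, f1, f4, -⟩ := h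
  obtain ⟨x0, x1, ⟨c1, c2, c3⟩, ⟨d1, d2, d3⟩, ⟨p1, p2, p3, p4⟩, ⟨q1, q2, q3, q4⟩, ⟨l1, l2, l3, l4⟩,
    kH, k0, k1⟩ := h'
  obtain ⟨n0, m0⟩ := hn 0 (by simp)
  obtain ⟨n1, m1⟩ := hn 1 (by simp)
  have m2 : φ (D.x 2) ∈ Nr s := Or.inl (by
    rw [c1, eq_comm, ← mul_inv_eq_iff_eq_mul, b0, c2])
  have n3 : φ (D.x 3) ∈ Nr r := Or.inl (by
    rw [d1, eq_comm, ← mul_inv_eq_iff_eq_mul, a1, d2])
  have n6 : φ (D.x 6) ∈ Nr r := S.pin a0 f1 p1 p2 (fun w hw l hl => by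
    have := p3 w hw l hl
    simp only [List.mem_cons, List.not_mem_nil, or_false] at this
    rcases this with h | h | h | h <;> simp [h, n0, n1, n3]) p4
  have m5 : φ (D.x 5) ∈ Nr s := S.pin b1 f4 q1 q2 (fun w hw l hl => by
    have := q3 w hw l hl
    simp only [List.mem_cons, List.not_mem_nil, or_false] at this
    rcases this with h | h | h | h <;> simp [h, m0, m1, m2]) q4
  let y : ℕ → G := fun i => if i = 4 then r * φ (D.x 0) else if i = 7 then s * φ (D.x 1)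
    else φ (D.x i)
  have y0 : ∀ i ∈ [0, 1, 2, 3, 5, 6], y i = φ (D.x i) := by simp [y]
  have y1 : ∀ i ∈ [0, 1, 2, 3, 4, 6, 7], Act φ 0 (y i) (D.l0 i) := by
    simp only [List.forall_mem_cons] at x0 ⊢
    exact ⟨x0.1.act, x0.2.1.act, x0.2.2.1.act, x0.2.2.2.1.act, l1 ▸ a0.mul x0.1.act,
      x0.2.2.2.2.1.act, l3 ▸ b0.mul x0.2.1.act, by simp⟩
  have y2 : ∀ i ∈ [0, 1, 2, 3, 4, 5, 7], Act φ 1 (y i) (D.l1 i) := by
    simp only [List.forall_mem_cons] at x1 ⊢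
    exact ⟨x1.1.act, x1.2.1.act, x1.2.2.1.act, x1.2.2.2.1.act, l2 ▸ a1.mul x1.1.act,
      x1.2.2.2.2.1.act, l4 ▸ b1.mul x1.2.1.act, by simp⟩
  have y3 : ∀ i ∈ [0, 1, 3, 4, 6, 7], y i ∈ Nr r := by
    simp only [List.forall_mem_cons]
    exact ⟨n0, n1, n3, mul_mem (Or.inl rfl) n0, n6, mul_mem (Or.inl hc.symm) n1, by simp⟩
  have y4 : ∀ i ∈ [0, 1, 2, 4, 5, 7], y i ∈ Nr s := by
    simp only [List.forall_mem_cons]
    exact ⟨m0, m1, m2, mul_mem (Or.inl hc) m0, m5, mul_mem (Or.inl rfl) m1, by simp⟩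
  refine ⟨y, y0, y1, y2, all_append (all_append (fun w hw => ?_) fun w hw => ?_) fun w hw => ?_⟩
  · rw [← map_one φ, ← (kH w hw).2, map_wval, wval, wval]
    refine congrArg _ (List.map_congr_left fun l hl => ?_)
    rw [lval, lval, y0 _ ((kH w hw).1 l hl)]
  · refine S.rel a0 f1 (c1 ▸ y0 2 (by simp)) c3 (fun l hl => ?_) (k0 w hw).2.1 (k0 w hw).2.2
    refine ((by decide : ∀ l ∈ [4, 0, 2, 6, 8, 12, 14], l = 2 * 2 ∨ l ≠ 2 * 2 ∧ l % 2 = 0 ∧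
      l / 2 ∈ [0, 1, 3, 4, 6, 7] ∧ l / 2 ∈ [0, 1, 2, 3, 4, 6, 7]) l ((k0 w hw).1 l hl)).imp_right
        fun h => ⟨h.1, h.2.1, y3 _ h.2.2.1, y1 _ h.2.2.2⟩
  · refine S.rel b1 f4 (d1 ▸ y0 3 (by simp)) d3 (fun l hl => ?_) (k1 w hw).2.1 (k1 w hw).2.2
    refine ((by decide : ∀ l ∈ [6, 0, 2, 4, 8, 10, 14], l = 2 * 3 ∨ l ≠ 2 * 3 ∧ l % 2 = 0 ∧
      l / 2 ∈ [0, 1, 2, 4, 5, 7] ∧ l / 2 ∈ [0, 1, 2, 3, 4, 5, 7]) l ((k1 w hw).1 l hl)).imp_right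
        fun h => ⟨h.1, h.2.1, y4 _ h.2.2.1, y2 _ h.2.2.2⟩

end Cfsg.Agent.Lib.HeldFus
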