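import Cfsg.Agent.Lib.HeldHeR

set_option autoImplicit false
set_option maxRecDepth 100000

namespace Cfsg.Agent.Lib.HeldHe
open Cfsg.Agent.Lib.PermNet

theorem rels0_0 : RelsOn nets 2058 12 rels0 0 10 :=
  relsOn_of_B _ _ _ _ _ 10 _ (by decide +kernel) (by decide +kernel)

theorem rels0_10 : RelsOn nets 2058 12 rels0 10 12 :=
  relsOn_of_B _ _ _ _ _ 2 _ (by decide +kernel) (by decide +kernel)

end Cfsg.Agent.Lib.HeldHe
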