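import Cfsg.Agent.Lib.HeldBd
import Cfsg.Agent.Lib.HeA
import Cfsg.Agent.Lib.HeldHeC0

/-! The amalgam inside the presented Held group. -/

set_option autoImplicit false
set_option maxRecDepth 100000
set_option Elab.async false

namespace Cfsg.Agent.Lib.HeldHe

open Cfsg.Agent.Lib Cfsg.Agent.Lib.PermNet Cfsg.Agent.Lib.Words Cfsg.Agent.Lib.PermGroup
  Cfsg.Agent.Lib.HeldFus Cfsg.Agent.Lib.HeldDat

universe u

theorem hrels : ∀ w ∈ relW rels, wval nets.perm w = 1 :=
  relW_one (wval_eq_of_relsOn (K := 12) hv (by norm_num) (rels0_0.trans rels0_10))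

/-- The generators followed by the generators of the amalgam. -/
def Y : ℕ → Spor.He := ext HeBase.y 7 defs

theorem hphi : ∀ i, HeA.phi (Y i) = nets.perm i :=
  map_ext HeA.phi HeBase.y 7 defs nets (fun i hi => by
    rw [← ext_of_lt HeBase.y HeA.defs hi]
    refine (HeA.hphi i).trans ?_
    interval_cases i <;> rfl) (derive [] hrels _ (by decide +kernel)) (by decide +kernel)

theorem hY : ∀ w ∈ relW rels, wval Y w = 1 := fun w hw =>
  HeA.phi_eq_one ((map_wval' hphi w).trans (hrels w hw))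

/-- The letters of the generators of the amalgam. -/
def ws : List (List ℕ) := [[14], [16], [18], [20], [22], [24], [26], [28]]

/-- The generators of the amalgam. -/
def f (i : ℕ) : Spor.He := wval Y (ws.getD i [])

theorem hI : ∀ w ∈ relW rels ++ [7, 8, 9, 10, 11, 12, 13, 14].map fun i => [2 * i, 2 * i],
    wval Y w = 1 := all_append hY (derive [] hY _ (by decide +kernel))

theorem hf : ∀ w ∈ DH.K, wval f w = 1 := fun w hw => (wval_subst Y ws w).symm.trans
  (derive [7, 8, 9, 10, 11, 12, 13, 14] hI (DH.K.map (subst ws)) (by decide +kernel) _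
    (List.mem_map_of_mem hw))

/-- The old generators in terms of the new ones. -/
def vs : List (List ℕ) :=
  [[0], [12, 4, 6, 2, 12, 0, 2, 0, 14, 12, 6, 12, 8, 10, 8, 14, 4, 0, 10, 2, 6, 2, 12, 14, 8, 0,
  12, 14, 12, 4, 10, 8, 10, 4, 6], [2, 10, 4, 8, 0, 14, 12, 10, 14, 8, 10, 12, 10, 14, 2], [0, 6,
  2, 10, 8, 12, 10, 8, 10, 12, 8, 10, 2, 6], [0, 6, 2, 10, 14, 12, 10, 8, 10, 12, 14, 10, 2, 6],
  [2, 10, 6, 8, 14, 12, 10, 14, 8, 4, 10, 12, 10, 14, 2], [14, 12, 10, 8, 0, 6, 10, 14, 0, 4, 8,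
  2, 10, 14, 12, 2, 14, 12, 10, 14, 8, 6, 4, 10, 8, 12, 2]]

theorem top : gp f gens8 = ⊤ := by
  rw [eq_top_iff, ← HeBase.gp_top (ws := HeA.allg) (by decide), ← gp_ext HeBase.y 7 defs _ (by decide)]
  refine gp_le.2 fun w hw => ?_
  obtain ⟨v, h1, h2⟩ := (by decide +kernel : ∀ w ∈ HeA.allg, ∃ v ∈ vs,
    deriveB [] (relW rels) [w ++ invW (subst ws v)] = true) w hw
  rw [show wval (ext HeBase.y 7 defs) w = _ from derive_eq [] hY w _ h2, wval_subst]
  exact mem_gp_of_lettersIn (us := vs) (by decide +kernel) v h1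

theorem iso {G : Type u} [Group G] [Finite G] {φ : HeldModel.Hm →* G} (S : Setup φ)
    (hp : Pat φ 183) : Nonempty (G ≃* Spor.He) := by
  obtain ⟨y, h1, h2, -⟩ := topH S hp
  have := HeA.simple
  exact HeldBd.equiv_of_simple h1 hf (fun z => HeldBd.card_leH z) HeA.card_eq h2 top S.z_ne

end Cfsg.Agent.Lib.HeldHe
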