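import Cfsg.Agent.Lib.HeldBd

/-! The amalgam inside the Mathieu group of degree `24`. -/

set_option autoImplicit false
set_option maxRecDepth 100000
set_option Elab.async false

namespace Cfsg.Agent.Lib.HeldM24

open Cfsg.Agent.Lib Cfsg.Agent.Lib.PermNet Cfsg.Agent.Lib.Words Cfsg.Agent.Lib.PermGroup
  Cfsg.Agent.Lib.HeldFus Cfsg.Agent.Lib.HeldDat

universe u

/-- The generators of the amalgam as words. -/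
def ws : List (List ℕ) :=
  [[0, 3, 0, 3, 0, 3, 0, 2, 0, 3, 0, 3, 0, 3, 0, 2, 0, 2, 0, 3, 0, 3, 0, 3, 0, 3, 0, 2, 0, 2, 0,
  2, 0, 2, 0, 3, 0, 3, 0, 2, 0, 2, 0, 2, 0, 3, 0, 2, 0, 2, 0, 2, 0], [0, 2, 0, 2, 0, 3, 0, 2, 0,
  2, 0, 2, 0, 3, 0, 2, 0, 3, 0, 2, 0, 2, 0, 3, 0, 3, 0, 3, 0, 2, 0, 2, 0, 3, 0, 3, 0, 3, 0, 2, 0,
  3, 0, 3, 0, 3, 0, 3, 0, 2, 0, 2, 0, 3], [0, 2, 0, 2, 0, 2, 0, 2, 0, 3, 0, 3, 0, 2, 0, 3, 0, 2,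
  0, 3, 0, 3, 0, 3, 0, 2, 0, 2, 0, 3, 0, 3, 0, 2, 0, 2, 0, 2, 0, 3, 0, 2, 0, 3, 0, 2, 0, 2, 0, 3,
  0, 3, 0, 3, 0, 3, 0], [0, 3, 0, 2, 0, 2, 0, 2, 0, 2, 0, 2, 0, 2, 0, 3, 0, 2, 0, 3, 0, 3, 0, 2,
  0, 2, 0, 3, 0, 3, 0, 2, 0, 3, 0, 2, 0, 2, 0, 2, 0, 3, 0, 2, 0, 2, 0, 2], [3, 0, 2, 0, 3, 0, 3,
  0, 3, 0, 2, 0, 2, 0, 3, 0, 2, 0, 2, 0, 2, 0, 3, 0, 3, 0, 3, 0, 3, 0, 2, 0, 2, 0, 2, 0, 3, 0, 3,
  0, 3, 0, 2, 0, 3, 0, 2, 0, 3, 0, 3], [0, 3, 0, 3, 0, 2, 0, 3, 0, 2, 0, 2, 0, 2, 0, 3, 0, 2, 0,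
  3, 0, 3, 0, 3, 0, 2, 0, 3, 0, 3, 0, 3, 0, 2, 0, 3, 0, 2, 0, 3, 0, 2, 0, 3, 0, 2, 0], [0, 2, 0,
  3, 0, 3, 0, 3, 0, 3, 0, 2, 0, 2, 0, 2, 0, 3, 0, 3, 0, 3, 0, 3, 0, 3, 0, 3, 0, 3, 0, 2, 0, 3, 0,
  2, 0, 3, 0, 3, 0, 3, 0, 3, 0, 2, 0, 3, 0, 3, 0, 3], [0, 2, 0, 2, 0, 2, 0, 2, 0, 3, 0, 2, 0, 3,
  0, 2, 0, 3, 0, 2, 0, 3, 0, 2, 0, 2, 0, 2, 0, 2, 0, 2, 0, 3, 0, 3, 0, 3, 0, 2, 0, 2, 0, 3, 0, 2,
  0, 3]]

/-- The old generators in terms of the new ones. -/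
def vs : List (List ℕ) :=
  [[10, 4, 12, 2, 14, 12, 10, 8, 0, 4, 10, 12, 14, 2, 12, 10], [4, 8, 10, 12, 14, 12, 14, 0, 10,
  12, 10]]

/-- The relations to be checked. -/
def prs : List (List ℕ × List ℕ) := DM.K.map (fun w => (subst ws w, [])) ++
  [[0], [2]].zip (vs.map (subst ws))

theorem chk : RelsOn M24Ord.nets 24 5 prs 0 5 :=
  relsOn_of_B _ _ _ _ _ 5 _ (by decide +kernel) (by decide +kernel)

/-- The standard generators. -/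
def x (i : ℕ) : M24 := ⟨M24Ord.f i, M24Ord.f_mem i⟩

theorem hx : ∀ r ∈ prs, wval x r.1 = wval x r.2 := fun r hr =>
  Subtype.ext (M24Ord.phi_injective (by
    have := fun w => (map_wval M24.subtype x w).trans (rfl : _ = wval M24Ord.f w)
    simp only [Subgroup.coe_subtype] at this
    rw [this, this, map_wval' M24Ord.hphi, map_wval' M24Ord.hphi]
    exact wval_eq_of_relsOn (K := 5) M24Ord.hv (by norm_num) chk r hr))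

/-- The generators of the amalgam. -/
def f (i : ℕ) : M24 := wval x (ws.getD i [])

theorem hf : ∀ w ∈ DM.K, wval f w = 1 := fun w hw => (wval_subst x ws w).symm.trans
  (hx (subst ws w, []) (List.mem_append_left _ (List.mem_map_of_mem hw)))

theorem top : gp f gens8 = ⊤ := by
  have h : gp x [[0], [2]] = ⊤ := Subgroup.map_injective M24.subtype_injective (by
    rw [map_gp, ← MonoidHom.range_eq_map, Subgroup.range_subtype]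
    exact M24Ord.gp_eq)
  rw [eq_top_iff, ← h]
  refine gp_le.2 fun w hw => ?_
  obtain ⟨v, h1, h2⟩ := (by decide +kernel : ∀ w ∈ [[0], [2]], ∃ v ∈ vs, (w, subst ws v) ∈ prs) w hw
  rw [hx _ h2, wval_subst]
  exact mem_gp_of_lettersIn (us := vs) (by decide +kernel) v h1

theorem iso {G : Type u} [Group G] [Finite G] {φ : HeldModel.Hm →* G} (S : Setup φ)
    (hp : Pat φ 151) : Nonempty (G ≃* M24) := by
  obtain ⟨y, h1, h2, -⟩ := topM S hp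
  have := M24Ord.simple
  exact HeldBd.equiv_of_simple h1 hf (fun z => HeldBd.card_leM z) M24Ord.card_M24 h2 top S.z_ne

end Cfsg.Agent.Lib.HeldM24
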