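import Cfsg.Agent.Lib.HeldAff
import Cfsg.Agent.Lib.HeldM24
import Cfsg.Agent.Lib.HeldHe

/-! Groups with the involution centralizer of `SL(5, 2)`. -/

set_option autoImplicit false
set_option maxRecDepth 100000
set_option Elab.async false

namespace Cfsg.Agent.Lib.HeldFus

open Subgroup Cfsg.Agent.Lib.HeldModel Cfsg.Agent.Lib.HeldFacts Cfsg.Agent.Lib.HeldSL

universe u

variable {G : Type u} [Group G]

theorem center_Hm {u : Hm} (h : ∀ v, u * v = v * u) : u = 1 ∨ u = z :=
  center_T u (mem_T_of (h _) (h _)) (h _) (h _) (h _) (h _)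

theorem exists_setup {t : G} (ht : t ≠ 1) (e : centralizer ({t} : Set G) ≃* Hm) :
    ∃ φ : Hm →* G, Setup φ ∧ φ z = t := by
  have h0 : t ∈ centralizer ({t} : Set G) := mem_centralizer_singleton_iff.2 rfl
  have h1 : e ⟨t, h0⟩ = z := (center_Hm fun v => by
    obtain ⟨v, rfl⟩ := e.surjective v
    rw [← map_mul, ← map_mul]
    exact congrArg e (Subtype.ext (mem_centralizer_singleton_iff.1 v.2).symm)).resolve_left fun h =>
      ht (congrArg Subtype.val ((map_eq_one_iff e e.injective).1 h))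
  have h2 : ((centralizer ({t} : Set G)).subtype.comp e.symm.toMonoidHom) z = t :=
    congrArg Subtype.val (h1 ▸ e.symm_apply_apply ⟨t, h0⟩)
  exact ⟨_, ⟨Subtype.val_injective.comp e.symm.injective, fun g hg => ⟨e ⟨g,
    mem_centralizer_singleton_iff.2 (h2 ▸ hg)⟩, congrArg Subtype.val (e.symm_apply_apply _)⟩⟩, h2⟩

theorem equiv_cent {s : SL5} (hs : s.1 = Matrix.transvection 0 1 1) :
    Nonempty (Hm ≃* centralizer ({s} : Set SL5)) :=
  ⟨MulEquiv.ofBijective (toSL.codRestrict _ fun h => mem_centralizer_singleton_iff.2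
    ((mem_range_toSL hs).2 ⟨h, rfl⟩)) ⟨fun _ _ h => toSL_inj (congrArg Subtype.val h), fun g => by
      obtain ⟨h, e⟩ := (mem_range_toSL hs).1 (mem_centralizer_singleton_iff.1 g.2)
      exact ⟨h, Subtype.ext e⟩⟩⟩

variable [Finite G] {φ : Hm →* G} (S : Setup φ)
include S

theorem Setup.isolated (hp : Pat φ 128) {x : G} (h : InD φ x) (hx : x * φ z = φ z * x) :
    x = φ z := by
  have h2 : x * x = 1 := by
    obtain ⟨g, rfl⟩ := isConj_iff.1 h
    rw [conj_mul, ← map_mul, z_sq]
    simp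
  obtain ⟨m, ⟨u, rfl⟩, i, hi, e⟩ := S.exists_iv (M := φ.range) (map_le_range _ _) (S.cent x hx) h2
  have h3 := (by decide +kernel : All 192 fun i => Nat.testBit 128 (cl i) = true → iv i = z) i hi
    ((S.inD_iv hp hi).1 (e ▸ h.conj _))
  rw [h3, mul_inv_eq_iff_eq_mul, ← map_mul, ← z_comm, map_mul] at e
  exact mul_left_cancel e

theorem Setup.cases : Pat φ 128 ∨ Nonempty (G ≃* St) ∨ Nonempty (G ≃* SL5) ∨
    Nonempty (G ≃* M24) ∨ Nonempty (G ≃* Spor.He) := by
  obtain ⟨p, hp⟩ := exists_pat φ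
  have h := S.pat_cases hp
  simp only [List.mem_cons, List.not_mem_nil, or_false] at h
  rcases h with rfl | rfl | rfl | rfl | rfl | rfl | rfl
  · exact .inl hp
  · exact .inr (.inl (S.iso_St hp))
  · exact .inr (.inl ((setup_θ S).iso_St (pat_θ hp (by decide +kernel))))
  · exact .inr (.inr (.inl (HeldSL.iso S hp)))
  · exact .inr (.inr (.inr (.inl (HeldM24.iso S hp))))
  · exact .inr (.inr (.inr (.inl (HeldM24.iso (setup_θ S) (pat_θ hp (by decide +kernel))))))
  · exact .inr (.inr (.inr (.inr (HeldHe.iso S hp))))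

end Cfsg.Agent.Lib.HeldFus
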