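import Cfsg.Agent.Lib.HeldFus

/-! The possible fusion patterns. -/

set_option autoImplicit false
set_option maxRecDepth 100000
set_option Elab.async false

namespace Cfsg.Agent.Lib.HeldFus

open Cfsg.Agent.Lib.HJModel (allN anyN allN_iff anyN_iff cntN cntN_eq force force_eq)
open Subgroup Cfsg.Agent.Lib.PCore Cfsg.Agent.Lib.PCoreConj Cfsg.Agent.Lib.HeldModel
  Cfsg.Agent.Lib.HeldFacts Cfsg.Agent.Lib.HeldGen

/-- A search through all injective linear maps preserving `d`. -/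
def srch (d : ℕ → Bool) (goal : List ℕ → Bool) (bs : List ℕ) : List ℕ → Bool :=
  List.rec goal (fun b _ ih pre => allN (fun i => !(allN (fun m =>
    d (lin (pre ++ [i]) (Nat.add m (2 ^ pre.length))) == d (Nat.add m (2 ^ pre.length)) &&
      !(Nat.beq (lin (pre ++ [i]) (Nat.add m (2 ^ pre.length))) 0)) (2 ^ pre.length)) ||
        ih (pre ++ [i])) b) bs

theorem srch_sound {d : ℕ → Bool} {goal : List ℕ → Bool} {l bs : List ℕ}
    (hl : List.Forall₂ (· < ·) l bs) (pre : List ℕ) (h : srch d goal bs pre = true)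
    (hd : ∀ m < 2 ^ (pre ++ l).length, m ≠ 0 → d (lin (pre ++ l) m) = d m ∧ lin (pre ++ l) m ≠ 0) :
    goal (pre ++ l) = true := by
  induction hl generalizing pre with
  | nil => rwa [List.append_nil]
  | @cons i b l bs hi _ ih =>
    rw [List.append_cons] at hd ⊢
    refine ih _ ((Bool.or_eq_true_iff.1 (allN_iff.1 h i hi)).resolve_left ?_) hd
    rw [Bool.not_eq_true', Bool.not_eq_false, allN_iff]
    intro m hm
    have h1 : m + 2 ^ pre.length < 2 ^ (pre ++ [i]).length := by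
      rw [List.length_append, List.length_singleton, pow_succ]
      omega
    have h2 := hd _ (h1.trans_le (Nat.pow_le_pow_right (by norm_num)
      (by rw [List.length_append (as := pre ++ [i])]; omega))) (by positivity)
    rw [lin_append _ _ h1] at h2
    simp only [Bool.and_eq_true, beq_iff_eq, Bool.not_eq_true']
    exact ⟨h2.1, Bool.eq_false_iff.2 (mt Nat.eq_of_beq_eq_true h2.2)⟩

theorem eq_of_A_eq {m n : ℕ} (hm : m < 64) (hn : n < 64) (h : A 0 m = A 1 n) : m < 16 ∧ m = n := by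
  have h1 : m < 16 := not_le.1 fun h1 => noncomm m hm h1 16 (by norm_num) le_rfl (by
    rw [h, A_mul, A_mul, Nat.xor_comm])
  exact ⟨h1, A_inj hm hn ((A_E 1 m h1).trans h)⟩

theorem conj_conj_eq {G : Type*} [Group G] (x g a : G) :
    x * (g * a * g⁻¹) * x⁻¹ = x * g * a * (x * g)⁻¹ := by group

universe u

variable {G : Type u} [Group G] (φ : Hm →* G)

/-- The centralizer of the intersection of the two elementary abelian subgroups. -/
def RR : Subgroup G := centralizer {x | ∃ m < 16, x = φ (A 0 m)}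

/-- The intersection of the two normalizers. -/
def NN : Subgroup G := normalizer (AA φ 0 : Set G) ⊓ normalizer (AA φ 1 : Set G)

variable {φ} {j : Fin 2} {g g' : G} {c c' : List ℕ}

theorem mem_NN : g ∈ NN φ ↔ ∀ j, g ∈ normalizer (AA φ j : Set G) :=
  (Fin.forall_fin_two (p := fun j => g ∈ normalizer (AA φ j : Set G))).symm

theorem mem_RR : g ∈ RR φ ↔ ∀ m < 16, g * φ (A 0 m) = φ (A 0 m) * g :=
  ⟨fun h m hm => (h _ ⟨m, hm, rfl⟩).symm, by rintro h _ ⟨m, hm, rfl⟩; exact (h m hm).symm⟩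

theorem AA_le_RR : AA φ j ≤ RR φ := fun _ hx => by
  obtain ⟨n, rfl⟩ := mem_AA.1 hx
  exact mem_RR.2 fun m hm => A_E j m hm ▸ α_comm n m

theorem mem_RR_of {u : Hm} (h : InR u) : φ u ∈ RR φ := mem_RR.2 fun m hm =>
  mul_inv_eq_iff_eq_mul.1 (xor_ext (F := fun m => φ u * φ (A 0 m) * (φ u)⁻¹)
    (F' := fun m => φ (A 0 m)) (fun x y => by simp only [← α_mul]; group)
    (fun x y => (α_mul x y).symm) (n := 4) (by norm_num)
    (fun i hi => by rw [← map_mul, h i hi, map_mul, mul_inv_cancel_right]) m hm)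

variable (S : Setup φ) {p : ℕ}
include S

theorem Setup.of_RR (h : g ∈ RR φ) : ∃ u ∈ Tm, InR u ∧ φ u = g := by
  rw [mem_RR] at h
  obtain ⟨u, hu, rfl⟩ := S.cent_T (h 1 (by norm_num)) (h 2 (by norm_num)) (h 4 (by norm_num))
  exact ⟨u, hu, fun i hi => S.inj (by
    simpa using h _ (Nat.pow_lt_pow_right (by norm_num) hi : 2 ^ i < 2 ^ 4)), rfl⟩

theorem Setup.RR_le : RR φ ≤ TT φ := fun _ h => by
  obtain ⟨u, hu, -, rfl⟩ := S.of_RR h
  exact mem_map_of_mem φ hu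

theorem Setup.conj_E (h : g ∈ NN φ) {m : ℕ} (hm : m < 16) :
    ∃ n < 16, g * φ (A 0 m) * g⁻¹ = φ (A 0 n) := by
  obtain ⟨c, -, h1, h2⟩ := exists_act h.1
  obtain ⟨c', -, h3, h4⟩ := exists_act h.2
  exact ⟨_, (eq_of_A_eq (lin_lt h1 m) (lin_lt h3 m)
    (S.inj ((h2 m).symm.trans (A_E 1 m hm ▸ h4 m)))).1, h2 m⟩

theorem Setup.conj_K (h : g ∈ NN φ) {k : ℕ} (hk : K k) :
    ∃ n, K n ∧ g * φ (A 0 k) * g⁻¹ = φ (A 0 n) := by
  obtain ⟨c, -, h1, h2⟩ := exists_act h.1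
  obtain ⟨c', -, h3, h4⟩ := exists_act h.2
  have h0 := K_comm k hk.1 hk
  generalize look _ 6 63 k = a at h0
  generalize look _ 6 63 k = b at h0
  obtain ⟨h5, h6⟩ := comm_K _ (lin_lt h1 a) _ (lin_lt h3 b)
  refine ⟨_, h5, ?_⟩
  rw [← h6, ← h0]
  simp only [map_mul, ← h2 a, ← h4 b]
  group

theorem Setup.conj_not_K (h : g ∈ NN φ) {k : ℕ} (hk : k < 16) (hk' : ¬ K k) :
    ∃ n < 16, ¬ K n ∧ g * φ (A 0 k) * g⁻¹ = φ (A 0 n) := by
  obtain ⟨n, h1, h2⟩ := S.conj_E h hk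
  refine ⟨n, h1, fun h3 => ?_, h2⟩
  obtain ⟨l, h4, h5⟩ := S.conj_K (inv_mem h) h3
  rw [← h2] at h5
  exact hk' (A_inj (j := 0) (m := k) (by omega) (h4.1.trans (by norm_num))
    (S.inj (by simpa [mul_assoc] using h5)) ▸ h4)

variable [Finite G]

theorem Setup.pT : IsPGroup 2 (TT φ) := S.sylow.isPGroup

theorem Setup.fus2 {m m' n n' : ℕ} (h : g * φ (A j m) * g⁻¹ = φ (A j n))
    (h' : g * φ (A j m') * g⁻¹ = φ (A j n')) : ∃ c : List ℕ, (∀ x ∈ c, x < 2 ^ 6) ∧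
      (∃ x, Act φ j x c) ∧ A j (lin c m) = A j n ∧ A j (lin c m') = A j n' := by
  have key : ∀ {l : ℕ}, φ (A j l) ∈ centralizer {φ (A j n), φ (A j n')} := by
    rintro l _ (rfl | rfl) <;> exact α_comm _ _
  obtain ⟨x, hx, h1⟩ := S.fus (g := g) (Y := AA φ j) (C := centralizer {φ (A j n), φ (A j n')})
    (S.pT.to_le AA_le) (fun y hy => by obtain ⟨l, rfl⟩ := mem_AA.1 hy; exact key)
    (conj_le_iff.2 fun y hy => by
      obtain ⟨l, rfl⟩ := mem_AA.1 hy
      rintro _ (rfl | rfl)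
      · rw [← h, conj_mul, conj_mul, α_comm]
      · rw [← h', conj_mul, conj_mul, α_comm])
  obtain ⟨c, -, h2, h3⟩ := exists_act (h1 j le_rfl)
  refine ⟨c, h2, ⟨_, h3⟩, S.inj ?_, S.inj ?_⟩
  · rw [← h3, ← conj_conj_eq, h, ← hx _ (Or.inl rfl), mul_inv_cancel_right]
  · rw [← h3, ← conj_conj_eq, h', ← hx _ (Or.inr rfl), mul_inv_cancel_right]

theorem Setup.fusE {m n : ℕ} (hm : m < 16) (hn : n < 16) (h : g * φ (A 0 m) * g⁻¹ = φ (A 0 n)) :
    ∃ x ∈ NN φ, x * φ (A 0 m) * x⁻¹ = φ (A 0 n) := by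
  obtain ⟨x, hx, h1⟩ := S.fus (g := g) (Y := RR φ) (C := centralizer {φ (A 0 n)})
    (S.pT.to_le S.RR_le) (fun y hy => mem_centralizer_singleton_iff.2 (mem_RR.1 hy n hn))
    (conj_le_iff.2 fun y hy => mem_centralizer_singleton_iff.2 (by
      rw [← h, conj_mul, conj_mul, mem_RR.1 hy m hm]))
  refine ⟨_, mem_NN.2 fun j => h1 j AA_le_RR, ?_⟩
  rw [← conj_conj_eq, h, mem_centralizer_singleton_iff.1 hx, mul_inv_cancel_right]

theorem Setup.not_inD {m : ℕ} (hm : m < 16) (hk : ¬ K m) : ¬ InD φ (φ (A 0 m)) := fun h => by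
  obtain ⟨g, hg⟩ := isConj_iff.1 h
  obtain ⟨x, hx, h1⟩ := S.fusE (m := 1) (by norm_num) hm (A_one 0 ▸ hg)
  obtain ⟨n, h2, h3⟩ := S.conj_K hx (k := 1) (by decide)
  exact hk (A_inj (j := 0) (h2.1.trans (by norm_num)) (by omega) (S.inj (h3.symm.trans h1)) ▸ h2)

theorem Setup.pat_cases (hp : Pat φ p) : p ∈ [128, 129, 130, 135, 151, 167, 183] := by
  refine (by decide +kernel : All 256 fun p => db p 0 1 = true → ¬ db p 0 6 = true →
    ¬ db p 0 9 = true → (∀ j, All 64 fun m => db p j m = true → N3 p j m m = N3 p j 1 1) →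
      p ∈ [128, 129, 130, 135, 151, 167, 183]) p hp.1 ((S.inD_A hp 1).1 (A_one 0 ▸ IsConj.refl _))
    (mt (S.inD_A hp 6).2 (S.not_inD (by norm_num) (by decide)))
    (mt (S.inD_A hp 9).2 (S.not_inD (by norm_num) (by decide))) fun j m hm h => ?_
  obtain ⟨g, hg⟩ := isConj_iff.1 ((S.inD_A hp m).2 h)
  rw [← A_one j] at hg
  obtain ⟨c, h1, ⟨x, hx⟩, h2, -⟩ := S.fus2 hg hg
  rw [← S.N3_lin hp hx h1 1 1, A_inj (lin_lt h1 1) hm h2]

end Cfsg.Agent.Lib.HeldFus
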