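import Cfsg.Agent.Lib.HeldBd
import Cfsg.Agent.Lib.LinearOrders

/-! The graph automorphism, and the case of `SL(5, 2)`. -/

set_option autoImplicit false
set_option maxRecDepth 100000
set_option Elab.async false

namespace Cfsg.Agent.Lib.HeldSL

open Cfsg.Agent.Lib Cfsg.Agent.Lib.PermNet Cfsg.Agent.Lib.Words Cfsg.Agent.Lib.PermGroup
  Cfsg.Agent.Lib.HeldModel Cfsg.Agent.Lib.HeldFacts Cfsg.Agent.Lib.HeldFus Cfsg.Agent.Lib.HeldDat
  Matrix

universe u

/-- The special linear group. -/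
abbrev SL5 := SpecialLinearGroup (Fin 5) (ZMod 2)

/-- The reversal of the basis. -/
def fl : Equiv.Perm (Fin 5) := ⟨![1, 0, 4, 3, 2], ![1, 0, 4, 3, 2], by decide, by decide⟩

/-- The underlying matrix. -/
def mt (g : SL5) : Matrix (Fin 5) (Fin 5) (ZMod 2) := g.1

theorem mt_mul (a b : SL5) : mt (a * b) = mt a * mt b := rfl

theorem mt_one : mt 1 = 1 := rfl

theorem mt_ext {a b : SL5} (h : mt a = mt b) : a = b := Subtype.ext h

theorem mt_toSL (h : Hm) : mt (toSL h) = toM h.v := rfl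

/-- Transposition in the second diagonal. -/
def τ (g : SL5) : SL5 := ⟨(mt g)ᵀ.submatrix fl fl, by
  rw [det_submatrix_equiv_self, det_transpose]; exact g.2⟩

theorem mt_τ (g : SL5) : mt (τ g) = (mt g)ᵀ.submatrix fl fl := rfl

theorem τ_mul (a b : SL5) : τ (a * b) = τ b * τ a := mt_ext (by
  rw [mt_mul, mt_τ, mt_τ, mt_τ, mt_mul, transpose_mul, submatrix_mul_equiv])

/-- The graph automorphism. -/
def σ : SL5 →* SL5 := MonoidHom.mk' (fun g => τ g⁻¹) fun a b => by rw [_root_.mul_inv_rev, τ_mul]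

theorem σ_apply (g : SL5) : σ g = τ g⁻¹ := rfl

theorem σ_inj : Function.Injective σ := fun a b h => by
  have h1 := congrArg (fun g => (mt g).submatrix fl.symm fl.symm) h
  simp only [σ_apply, mt_τ, submatrix_submatrix, Equiv.self_comp_symm, submatrix_id_id] at h1
  exact inv_injective (mt_ext (transpose_injective h1))

theorem σ_eq {a b : Hm} (ha : a * a = 1) (h : (toM a.v)ᵀ.submatrix fl fl = toM b.v) :
    σ (toSL a) = toSL b := mt_ext (by
  rw [σ_apply, ← map_inv, HeldGen.inv_eq_of_sq ha, mt_τ, mt_toSL, mt_toSL, h])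

theorem σ_z : σ (toSL z) = toSL z := σ_eq z_sq (by decide +kernel)

theorem exists_θ (h : Hm) : ∃ k, toSL k = σ (toSL h) := (mem_range_toSL toSL_z).1 (by
  rw [← σ_z, ← map_mul, ← map_mul, ← map_mul, ← map_mul, z_comm])

theorem exists_θ' : ∃ θ : Hm →* Hm, ∀ h, toSL (θ h) = σ (toSL h) := by
  choose f hf using exists_θ
  exact ⟨MonoidHom.mk' f fun a b => toSL_inj (by rw [map_mul toSL, hf, hf, hf, map_mul, map_mul]), hf⟩

/-- The graph automorphism of the model. -/
noncomputable def θ : Hm →* Hm := exists_θ'.choose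

theorem toSL_θ (h : Hm) : toSL (θ h) = σ (toSL h) := exists_θ'.choose_spec h

theorem θ_inj : Function.Injective θ := fun a b h =>
  toSL_inj (σ_inj (by rw [← toSL_θ, ← toSL_θ, h]))

theorem θ_z : θ z = z := toSL_inj ((toSL_θ z).trans σ_z)

theorem θ_rep {c : ℕ} (hc : c < 8) :
    θ (HeldFacts.rep c) = HeldFacts.rep ([1, 0, 2, 3, 5, 4, 6, 7].getD c 0) := by
  obtain ⟨h1, h2⟩ := (by decide +kernel : All 8 fun c => HeldFacts.rep c * HeldFacts.rep c = 1 ∧
    (toM (HeldFacts.rep c).v)ᵀ.submatrix fl fl =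
      toM (HeldFacts.rep ([1, 0, 2, 3, 5, 4, 6, 7].getD c 0)).v) c hc
  exact toSL_inj ((toSL_θ _).trans (σ_eq h1 h2))

section
variable {G : Type u} [Group G] {φ : Hm →* G}

theorem setup_θ (S : Setup φ) : Setup (φ.comp θ) :=
  ⟨S.inj.comp θ_inj, fun g hg => by
    obtain ⟨h, rfl⟩ := S.cent g (by simpa [θ_z] using hg)
    obtain ⟨k, rfl⟩ := Finite.injective_iff_surjective.1 θ_inj h
    exact ⟨k, rfl⟩⟩

theorem pat_θ {p q : ℕ} (hp : Pat φ p) (h : q < 256 ∧ All 8 fun c =>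
    [1, 0, 2, 3, 5, 4, 6, 7].getD c 0 < 8 ∧
      p.testBit ([1, 0, 2, 3, 5, 4, 6, 7].getD c 0) = q.testBit c) : Pat (φ.comp θ) q :=
  ⟨h.1, fun c hc => by
    rw [← (h.2 c hc).2, ← hp.2 _ (h.2 c hc).1, InD, InD, MonoidHom.comp_apply, MonoidHom.comp_apply,
      θ_z, θ_rep hc]⟩

end

theorem setup : Setup toSL := ⟨toSL_inj, fun _ => (mem_range_toSL toSL_z).1⟩

theorem inD_of {g : ℕ} {h : Hm} (h1 : mulc g g = onec) (h2 : mulc g z.v = mulc h.v g) :
    InD toSL (toSL h) := isConj_iff.2 ⟨⟨toM g, (det_eq_one h1).1⟩, mul_inv_eq_iff_eq_mul.2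
      (Subtype.ext (((toM_mul _ _).symm.trans (congrArg toM h2)).trans (toM_mul _ _)))⟩

theorem conj_apply (g : SL5) (i j : Fin 5) :
    (mt (g * toSL z * g⁻¹) - 1) i j = mt g i 0 * mt g⁻¹ 1 j := by
  have : mt g * mt g⁻¹ = 1 := by rw [← mt_mul, mul_inv_cancel, mt_one]
  rw [mt_mul, mt_mul, show mt (toSL z) = _ from toSL_z, transvection, mul_add, add_mul,
    mul_one, this, add_sub_cancel_left]
  simp [Matrix.mul_apply, Fin.sum_univ_five, Matrix.single_apply]

theorem minor {x : SL5} (h : InD toSL x) (i j k l : Fin 5) :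
    (mt x - 1) i j * (mt x - 1) k l = (mt x - 1) i l * (mt x - 1) k j := by
  obtain ⟨g, rfl⟩ := isConj_iff.1 h
  simp only [conj_apply]
  ring

theorem pat : Pat toSL 135 := by
  obtain ⟨p, hp⟩ := exists_pat toSL
  obtain rfl : p = 135 := (by decide +kernel : ∀ p ∈ [128, 129, 130, 135, 151, 167, 183],
    Nat.testBit p 0 = true → Nat.testBit p 1 = true → ¬ Nat.testBit p 4 = true →
      ¬ Nat.testBit p 5 = true → p = 135) p (setup.pat_cases hp)
    ((hp.2 0 (by norm_num)).1 (inD_of (g := 8917057) (by decide +kernel) (by decide +kernel)))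
    ((hp.2 1 (by norm_num)).1 (inD_of (g := 17043490) (by decide +kernel) (by decide +kernel)))
    (fun h => absurd (minor ((hp.2 4 (by norm_num)).2 h) 0 3 2 4) (by decide +kernel))
    fun h => absurd (minor ((hp.2 5 (by norm_num)).2 h) 2 4 3 1) (by decide +kernel)
  exact hp

theorem card_SL5 : Nat.card SL5 = 9999360 := by
  have h := LinearOrders.card_SL_mul (F := ZMod 2) (n := Fin 5)
  rw [Matrix.card_GL_field, ZMod.card] at h
  rw [Fin.prod_univ_five] at h
  exact (mul_one _).symm.trans (h.trans (by norm_num))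

theorem eq_one_of_normal {X : Type*} [Group X] [Finite X] {ψ : Hm →* X} (S : Setup ψ) {p : ℕ}
    (hp : Pat ψ p) (h2 : db p 0 2 = true) (h3 : db p 0 3 = true) {N : Subgroup X} [hN : N.Normal]
    (h : ∀ u, ψ u ∈ N → u = 1) {n : X} (hn : n ∈ N) : n = 1 := by
  have k1 : ∀ d, InD ψ d → ∀ n ∈ N, d * n * d⁻¹ = n → n = 1 := fun d hd n hn e => by
    obtain ⟨g, rfl⟩ := isConj_iff.1 hd
    obtain ⟨u, hu⟩ := S.cent (g⁻¹ * n * g⁻¹⁻¹) (by
      rw [mul_inv_eq_iff_eq_mul] at e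
      calc _ = g⁻¹ * (n * (g * ψ z * g⁻¹)) * g := by group
        _ = _ := by rw [← e]; group)
    have := h u (hu ▸ hN.conj_mem n hn g⁻¹)
    rw [this, map_one] at hu
    exact conj_eq_one_iff.1 hu.symm
  have k2 : ∀ m, InD ψ (ψ (A 0 m)) → ∀ n ∈ N, ψ (A 0 m) * n * (ψ (A 0 m))⁻¹ = n⁻¹ := fun m hm n hn =>
    congrArg Subtype.val (congrFun (MonoidHom.FixedPointFree.coe_eq_inv_of_involutive
      (φ := MulAut.conjNormal (H := N) (ψ (A 0 m)))
      (fun x hx => Subtype.ext (k1 _ hm x x.2 (congrArg Subtype.val hx))) fun x => Subtype.ext (by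
        simp only [MulAut.conjNormal_apply]
        rw [conj_conj_eq, α_sq]
        simp)) ⟨n, hn⟩)
  refine k1 _ ((S.inD_A hp 3).2 h3) n hn ?_
  rw [show ψ (A 0 3) = ψ (A 0 1) * ψ (A 0 2) from (α_mul 1 2).symm, ← conj_conj_eq,
    k2 2 ((S.inD_A hp 2).2 h2) n hn, k2 1 (A_one 0 ▸ IsConj.refl _) _ (inv_mem hn), inv_inv]

theorem iso {G : Type u} [Group G] [Finite G] {φ : Hm →* G} (S : Setup φ) (hp : Pat φ 135) :
    Nonempty (G ≃* SL5) := by
  obtain ⟨y, y1, y2, y3⟩ := topL S hp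
  obtain ⟨f, f1, f2, f3⟩ := topL setup pat
  let w : ℕ → G × SL5 := fun i => (y i, f i)
  have h1 := HeldBd.card_leL w fun v hv => Prod.ext
    ((map_wval (MonoidHom.fst G SL5) w v).trans (y1 v hv))
    ((map_wval (MonoidHom.snd G SL5) w v).trans (f1 v hv))
  have e1 : (gp w gens8).map (MonoidHom.fst G SL5) = ⊤ := (map_gp _ _).trans y2
  have e2 : (gp w gens8).map (MonoidHom.snd G SL5) = ⊤ := (map_gp _ _).trans f2
  have h2 := (faithful_of_card (MonoidHom.snd G SL5) h1 (by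
    rw [e2, Subgroup.card_top, card_SL5])).2
  have h3 : ∀ u, φ.prod toSL u ∈ gp w gens8 := range_le (x := DL.x)
    (hw := [[0], [2], [4], [6], [4, 10, 4], [6, 12, 6]]) (by decide +kernel) fun i hi =>
      Prod.ext (y3 i hi) (f3 i hi)
  let a := (MonoidHom.snd G SL5).comp (gp w gens8).subtype
  let b := (MonoidHom.fst G SL5).comp (gp w gens8).subtype
  have a1 : Function.Bijective a := ⟨(injective_iff_map_eq_one _).2 fun x hx =>
    Subtype.ext (h2 x x.2 hx), fun g => by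
      obtain ⟨x, h, e⟩ := e2.ge (Subgroup.mem_top g)
      exact ⟨⟨x, h⟩, e⟩⟩
  have b1 : Function.Bijective b := ⟨(injective_iff_map_eq_one _).2 fun x hx => a1.1 (by
    haveI := (inferInstance : b.ker.Normal).map a a1.2
    rw [map_one]
    refine eq_one_of_normal setup pat (by decide +kernel) (by decide +kernel) (N := b.ker.map a)
      ?_ ⟨x, hx, rfl⟩
    rintro u ⟨v, h4, h5⟩
    obtain rfl : v = ⟨_, h3 u⟩ := a1.1 h5
    exact S.inj (h4.trans (map_one φ).symm)), fun g => by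
      obtain ⟨x, h, e⟩ := e1.ge (Subgroup.mem_top g)
      exact ⟨⟨x, h⟩, e⟩⟩
  exact ⟨(MulEquiv.ofBijective b b1).symm.trans (MulEquiv.ofBijective a a1)⟩

end Cfsg.Agent.Lib.HeldSL
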