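import Cfsg.Agent.Lib.HeldSL

/-! The stabilizer of a vector in `SL(5, 2)`. -/

set_option autoImplicit false
set_option maxRecDepth 100000
set_option Elab.async false

namespace Cfsg.Agent.Lib.HeldSL

open Cfsg.Agent.Lib.HeldModel Cfsg.Agent.Lib.HeldFacts Cfsg.Agent.Lib.HeldFus Matrix

/-- The matrix with the given rows. -/
def Mx (c : List ℕ) : Matrix (Fin 5) (Fin 5) (ZMod 2) :=
  Matrix.of fun i j => bv ((lin c (2 ^ ht i)).testBit (ht j))

theorem five {c : List ℕ} (h : c.length = 5) :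
    c = [lin c 1, lin c 2, lin c 4, lin c 8, lin c 16] := by
  match c, h with
  | [a, b, c, d, e], _ => simp [lin_cons, lin_zero]

theorem bv_mul (x a n : ℕ) : bv ((x % 2 * a).testBit n) = bv (x.testBit 0) * bv (a.testBit n) := by
  rcases Nat.mod_two_eq_zero_or_one x with h | h <;> simp [h, bv]

theorem Mx_mul (c : List ℕ) {c' : List ℕ} (h : c'.length = 5) :
    Mx (c.map (lin c')) = Mx c * Mx c' := by
  ext i j
  simp only [Mx, Matrix.of_apply, Matrix.mul_apply, lin_map, Fin.sum_univ_five]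
  generalize lin c (2 ^ ht i) = x
  generalize ht j = n
  simp only [ht, Matrix.cons_val_zero, Matrix.cons_val_one, Matrix.cons_val]
  nth_rw 1 [five h]
  simp only [lin_cons, lin_nil, Nat.testBit_xor, bv_xor, bv_mul, Nat.testBit_div_two,
    Nat.zero_testBit, show bv false = 0 from rfl]
  ring_nf

theorem Mx_inj {c c' : List ℕ} (h1 : c.length = 5) (h2 : c'.length = 5) (h3 : ∀ x ∈ c, x < 2 ^ 5)
    (h4 : ∀ x ∈ c', x < 2 ^ 5) (h : Mx c = Mx c') : c = c' := by
  have key : ∀ i : Fin 5, lin c (2 ^ ht i) = lin c' (2 ^ ht i) := fun i =>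
    Nat.eq_of_testBit_eq fun n => by
      by_cases hn : n < 5
      · obtain ⟨j, rfl⟩ := (by decide : ∀ n < 5, ∃ j, n = ht j) n hn
        exact bv_inj (congrFun (congrFun h i) j)
      · have h5 : 2 ^ 5 ≤ 2 ^ n := Nat.pow_le_pow_right (by norm_num) (by omega)
        rw [Nat.testBit_lt_two_pow ((lin_lt h3 _).trans_le h5),
          Nat.testBit_lt_two_pow ((lin_lt h4 _).trans_le h5)]
  rw [five h1, five h2, show lin c 1 = lin c' 1 from key 0, show lin c 16 = lin c' 16 from key 1,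
    show lin c 2 = lin c' 2 from key 2, show lin c 4 = lin c' 4 from key 3,
    show lin c 8 = lin c' 8 from key 4]

theorem exists_Mx (y : Matrix (Fin 5) (Fin 5) (ZMod 2)) :
    ∃ c : List ℕ, c.length = 5 ∧ (∀ x ∈ c, x < 2 ^ 5) ∧ Mx c = y := by
  let r : Fin 5 → ℕ := fun i => Nat.ofBits fun j : Fin 5 => decide (y i (![0, 2, 3, 4, 1] j) = 1)
  have h1 : ∀ i j, bv ((r i).testBit (ht j)) = y i j := fun i j => by
    rw [Nat.testBit_ofBits_lt _ _ (ht_lt j),
      (by decide : ∀ j, ![0, 2, 3, 4, 1] (⟨ht j, ht_lt j⟩ : Fin 5) = j) j]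
    generalize y i j = a
    revert a
    decide
  refine ⟨[r 0, r 2, r 3, r 4, r 1], rfl, fun x hx => ?_, ?_⟩
  · simp only [List.mem_cons, List.not_mem_nil, or_false] at hx
    rcases hx with rfl | rfl | rfl | rfl | rfl <;> exact Nat.ofBits_lt_two_pow _
  · ext i j
    rw [← h1, Mx, Matrix.of_apply]
    fin_cases i <;> simp [ht, lin_cons, lin_zero]

/-- The fixed vector. -/
def e0 : Fin 5 → ZMod 2 := Pi.single 0 1

/-- The stabilizer. -/
abbrev St : Subgroup SL5 := MulAction.stabilizer SL5 e0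

theorem mem_St {g : SL5} : g ∈ St ↔ ∀ i, mt g i 0 = e0 i := by
  change mt g *ᵥ Pi.single 0 1 = e0 ↔ _
  rw [mulVec_single_one, funext_iff]
  rfl

theorem toSL_mem (h : Hm) : toSL h ∈ St :=
  (eq_top_of_gens (P := St.comap toSL) fun i hi => mem_St.2 ((by decide +kernel :
    ∀ i ∈ [1, 64, 128, 512, 10752, 15872], ∀ j, toM (eh i).v j 0 = e0 j) i hi)).ge (Subgroup.mem_top h)

def tg : ℕ := 0x45251866b38c5149441ab4a2245241866b20c5149041ca482445051866838c5141441aa0a2245041866820c51410418a082841251860b38c5049441834a2241241860b20c504904182482441051860838c5041441820a2241041860820c5041041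

def tg' : ℕ := 0x45251864a3047149441a30222c5241864a2047149041c04824c505186483047141441a20222c5041864820471410410a0828c1251860a3047049441830222c1241860a2047049041804824c105186083047041441820222c104186082047041041

theorem card_St : Nat.card St ≤ 15 * 21504 := by
  have h1 : ∀ i : Fin 31, mulc (look tg 25 33554431 i) (look tg' 25 33554431 i) = onec := by
    decide +kernel
  let g : Fin 31 → SL5 := fun i => ⟨toM (look tg 25 33554431 i), (det_eq_one (h1 i)).1⟩
  have h2 : 31 ≤ St.index := by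
    rw [MulAction.index_stabilizer, ← Nat.card_coe_set_eq, ← Nat.card_fin 31]
    refine Nat.card_le_card_of_injective (fun i => ⟨g i • e0, g i, rfl⟩) fun a b h => ?_
    have h3 : mt (g a) *ᵥ Pi.single 0 1 = mt (g b) *ᵥ Pi.single 0 1 := congrArg Subtype.val h
    rw [mulVec_single_one, mulVec_single_one, funext_iff] at h3
    exact (by decide +kernel : ∀ a b : Fin 31, (∀ i, toM (look tg 25 33554431 a) i 0 =
      toM (look tg 25 33554431 b) i 0) → a = b) a b h3
  have h4 := (Nat.mul_le_mul_right (Nat.card St) h2).trans (St.index_mul_card.trans card_SL5).le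
  exact Nat.le_of_mul_le_mul_left (h4.trans (by norm_num)) (by norm_num : 0 < 31)

theorem par_of_mem {c : List ℕ} {g : SL5} (hg : g ∈ St) (h : Mx c = mt g) :
    lin c 1 % 2 = 1 ∧ ∀ x ∈ [2, 4, 8, 16], lin c x % 2 = 0 := by
  have key : ∀ i, (lin c (2 ^ ht i)).testBit 0 = decide (i = 0) := fun i =>
    bv_inj (((congrFun (congrFun h i) 0).trans (mem_St.1 hg i)).trans (by revert i; decide))
  simp only [Nat.testBit_zero, decide_eq_decide] at key
  simp only [List.forall_mem_cons, ← Nat.mod_two_ne_one]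
  exact ⟨(key 0).2 rfl, mt' (key 2), mt' (key 3), mt' (key 4), mt' (key 1), by simp⟩
where mt' {i : Fin 5} {p : Prop} (h : p ↔ i = 0) (hi : i ≠ 0 := by decide) : ¬ p := fun q => hi (h.1 q)

theorem cent_t' {y : SL5} (h0 : y ∈ St) (h : y * toSL (A 1 24) = toSL (A 1 24) * y) :
    y * toSL (A 1 52) = toSL (A 1 52) * y ∨ y * toSL (A 1 52) = toSL (A 1 44) * y := by
  obtain ⟨c, c1, c2, c3⟩ := exists_Mx (mt y)
  obtain ⟨d, d1, d2, d3⟩ := exists_Mx (mt y⁻¹)
  have t1 : mt (toSL (A 1 24)) = Mx [1, 10, 20, 8, 16] := by rw [mt_toSL]; decide +kernel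
  have t2 : mt (toSL (A 1 52)) = Mx [1, 18, 28, 8, 16] := by rw [mt_toSL]; decide +kernel
  have t3 : mt (toSL (A 1 44)) = Mx [1, 26, 12, 8, 16] := by rw [mt_toSL]; decide +kernel
  have b : ∀ {c d : List ℕ}, (∀ x ∈ d, x < 2 ^ 5) → ∀ x ∈ c.map (lin d), x < 2 ^ 5 := fun h x hx => by
    obtain ⟨_, -, rfl⟩ := List.mem_map.1 hx
    exact lin_lt h _
  have h1 : c.map (lin d) = [1, 2, 4, 8, 16] := Mx_inj (by simpa using c1) rfl (b d2) (by decide)
    (by rw [Mx_mul _ d1, c3, d3, ← mt_mul, mul_inv_cancel, mt_one]; decide +kernel)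
  have h2 : ∀ x < 32, lin c x = 0 → x = 0 := fun x hx e => by
    have := lin_map d c x
    rwa [h1, e, lin_zero, show lin [1, 2, 4, 8, 16] x = x from
      (by decide +kernel : All 32 fun x => lin [1, 2, 4, 8, 16] x = x) x hx] at this
  have h3 : c.map (lin [1, 10, 20, 8, 16]) = [1, 10, 20, 8, 16].map (lin c) :=
    Mx_inj (by simpa using c1) rfl (b (by decide)) (b c2)
      (by rw [Mx_mul _ c1, Mx_mul _ rfl, c3, ← t1, ← mt_mul, h, mt_mul])
  obtain ⟨p1, p2⟩ := par_of_mem h0 c3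
  have h4 : lin c 24 = lin c 8 ^^^ lin c 16 := lin_xor c 8 16
  have h5 : lin c 10 = lin c 2 ^^^ lin c 8 := lin_xor c 2 8
  have h6 : lin c 20 = lin c 4 ^^^ lin c 16 := lin_xor c 4 16
  nth_rw 1 [five c1] at h3
  simp only [List.map_cons, List.map_nil, List.cons.injEq, and_true, h5, h6] at h3
  rcases (by decide +kernel : All 32 fun r3 => lin [1, 10, 20, 8, 16] r3 = r3 → r3 % 2 = 0 → r3 ≠ 0 →
    All 32 fun r4 => lin [1, 10, 20, 8, 16] r4 = r4 → r4 % 2 = 0 → r4 ≠ 0 → r3 ^^^ r4 ≠ 0 →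
    All 32 fun r0 => lin [1, 10, 20, 8, 16] r0 = r0 → r0 % 2 = 1 →
    All 32 fun r1 => lin [1, 10, 20, 8, 16] r1 = r1 ^^^ r3 → r1 % 2 = 0 →
    All 32 fun r2 => lin [1, 10, 20, 8, 16] r2 = r2 ^^^ r4 → r2 % 2 = 0 →
      [r0, r1, r2, r3, r4].map (lin [1, 18, 28, 8, 16]) =
        [1, 18, 28, 8, 16].map (lin [r0, r1, r2, r3, r4]) ∨
      [r0, r1, r2, r3, r4].map (lin [1, 18, 28, 8, 16]) =
        [1, 26, 12, 8, 16].map (lin [r0, r1, r2, r3, r4]))
    _ (lin_lt c2 8) h3.2.2.2.1 (p2 8 (by decide)) (_root_.mt (h2 8 (by norm_num)) (by norm_num))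
    _ (lin_lt c2 16) h3.2.2.2.2 (p2 16 (by decide)) (_root_.mt (h2 16 (by norm_num)) (by norm_num))
    (h4 ▸ _root_.mt (h2 24 (by norm_num)) (by norm_num)) _ (lin_lt c2 1) h3.1 p1
    _ (lin_lt c2 2) h3.2.1 (p2 2 (by decide)) _ (lin_lt c2 4) h3.2.2.1 (p2 4 (by decide))
    with e | e <;> rw [← five c1] at e <;> have e' := congrArg Mx e <;>
      rw [Mx_mul _ c1, Mx_mul _ rfl, c3] at e'
  · exact Or.inl (mt_ext (by rwa [mt_mul, mt_mul, t2]))
  · exact Or.inr (mt_ext (by rwa [mt_mul, mt_mul, t2, t3]))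

end Cfsg.Agent.Lib.HeldSL
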