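import Cfsg.Agent.Lib.HeldGens

/-! The amalgam generates the whole group. -/

set_option autoImplicit false
set_option maxRecDepth 100000
set_option Elab.async false

namespace Cfsg.Agent.Lib.HeldFus

open Cfsg.Agent.Lib.HJModel (allN anyN allN_iff anyN_iff cntN cntN_eq force force_eq)
open Subgroup Cfsg.Agent.Lib.PCore Cfsg.Agent.Lib.PCoreConj Cfsg.Agent.Lib.HeldModel
  Cfsg.Agent.Lib.HeldFacts Cfsg.Agent.Lib.HeldGen Cfsg.Agent.Lib.PermNet Cfsg.Agent.Lib.Words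
  Cfsg.Agent.Lib.KleinCount

/-- The generators. -/
def gens8 : List (List ℕ) := [[0], [2], [4], [6], [8], [10], [12], [14]]

/-- The relators. -/
def Dat.K (D : Dat) : List (List ℕ) := D.KH ++ D.K0 ++ D.K1

/-- The conditions showing that the amalgam generates the group. -/
def Dat.Ok3 (D : Dat) (cw hw : List (List ℕ)) (xw : List ℕ) : Prop :=
  D.p ∈ [135, 151, 183] ∧
  (All 8 fun c => ((∀ l ∈ cw.getD c [], l ∈ [0, 2, 4, 6, 8, 12, 14]) ∧
      A 0 (lin (affL D.l0 (cw.getD c [])) (if D.p.testBit c then 1 else 6)) = HeldFacts.rep c) ∨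
    ((∀ l ∈ cw.getD c [], l ∈ [0, 2, 4, 6, 8, 10, 14]) ∧
      A 1 (lin (affL D.l1 (cw.getD c [])) (if D.p.testBit c then 1 else 6)) = HeldFacts.rep c)) ∧
  (∀ i ∈ [1, 64, 128, 512, 10752, 15872], ∃ w ∈ hw, (∀ l ∈ w, l / 2 ∈ [0, 1, 2, 3, 5, 6]) ∧
    wval D.x w = eh i) ∧
  (D.p = 183 → (∀ l ∈ xw, l ∈ [0, 2, 4, 6, 8, 12, 14]) ∧ lin (affL D.l0 xw) 6 = 6 ∧
    lin (affL D.l0 xw) 11 = 11 ∧ lin (D.l0 3) 6 = 6 ∧ lin (D.l0 3) 11 = 11 ∧
    deriveB [0, 1, 2, 3, 4, 5, 6, 7] D.K [xw ++ xw, [6, 6], Words.rep 3 (6 :: xw)] = true ∧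
    A 0 (lin ((affL D.l0 xw).map (lin (D.l0 3))) 16) ≠ A 0 16)

instance decOk3 (D : Dat) (cw hw : List (List ℕ)) (xw : List ℕ) : Decidable (D.Ok3 cw hw xw) := by
  unfold Dat.Ok3; infer_instance

universe u

variable {G : Type u} [Group G]

theorem mem_cent2 {g a b : G} : g ∈ centralizer ({a, b} : Set G) ↔ g * a = a * g ∧ g * b = b * g := by
  exact ⟨fun h => ⟨(h a (Or.inl rfl)).symm, (h b (Or.inr rfl)).symm⟩, by
    rintro ⟨h1, h2⟩ _ (rfl | rfl)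
    exacts [h1.symm, h2.symm]⟩

theorem comm_pair {g w a b : G} (hw : w ∈ closure ({a, b} : Set G))
    (hg : g ∈ centralizer ({a, b} : Set G)) : g * w = w * g :=
  (mem_centralizer_iff.1 (centralizer_closure ({a, b} : Set G) ▸ hg) w hw).symm

theorem normal_pair (a b : G) :
    ((closure ({a, b} : Set G)).subgroupOf (centralizer ({a, b} : Set G))).Normal :=
  ⟨fun n hn g => by
    rw [mem_subgroupOf] at hn ⊢
    rwa [coe_mul, coe_mul, comm_pair hn g.2, coe_inv, mul_inv_cancel_right]⟩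

variable {φ : Hm →* G} {M : Subgroup G} {j : Fin 2}

theorem mem_pair {a b : ℕ} (h : IsPair (φ (A j a)) (φ (A j b))) {x : G} :
    x ∈ closure ({φ (A j a), φ (A j b)} : Set G) ↔ ∃ m ∈ [0, a, b, a ^^^ b], x = φ (A j m) := by
  rw [h.mem_closure, α_mul]
  simp [A_zero]

theorem range_le {x : ℕ → Hm} {hw : List (List ℕ)} {y : ℕ → G}
    (h : ∀ i ∈ [1, 64, 128, 512, 10752, 15872], ∃ w ∈ hw, (∀ l ∈ w, l / 2 ∈ [0, 1, 2, 3, 5, 6]) ∧
      wval x w = eh i) (y0 : ∀ i ∈ [0, 1, 2, 3, 5, 6], y i = φ (x i)) (u : Hm) :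
    φ u ∈ gp y gens8 := by
  refine (eq_top_of_gens (P := (gp y gens8).comap φ) fun i hi => ?_).ge (mem_top u)
  obtain ⟨w, -, w1, w2⟩ := h i hi
  rw [← w2, mem_comap, map_wval]
  exact wval_mem fun l hl => y0 _ (w1 l hl) ▸ wval_single y (l / 2) ▸ mem_gp
    ((by decide : ∀ i ∈ [0, 1, 2, 3, 5, 6], [2 * i] ∈ gens8) _ (w1 l hl))

variable (S : Setup φ) {p : ℕ}
include S

theorem Setup.α_inj {m n : ℕ} (hm : m < 64) (hn : n < 64) (h : φ (A j m) = φ (A j n)) : m = n :=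
  A_inj hm hn (S.inj h)

theorem Setup.α_ne {m : ℕ} (hm : m < 64) (h : m ≠ 0) : φ (A j m) ≠ 1 := fun e =>
  h (S.α_inj hm (by norm_num) (by rw [e, A_zero, map_one]))

theorem Setup.pair {a b : ℕ} (ha : a < 64) (hb : b < 64) (h1 : a ≠ 0) (h2 : b ≠ 0) (h : a ≠ b) :
    IsPair (φ (A j a)) (φ (A j b)) :=
  ⟨S.α_ne ha h1, S.α_ne hb h2, mt (S.α_inj ha hb) h, α_sq _, α_sq _, α_comm _ _⟩

variable [Finite G]

theorem Setup.exists_iv (hM : TT φ ≤ M) {x : G} (hx : x ∈ M) (h2 : x * x = 1) :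
    ∃ m ∈ M, ∃ i < 192, m * x * m⁻¹ = φ (iv i) := by
  obtain ⟨m, hm, u, hu, e⟩ := (S.sylow.of_le hM le_top).exists_conj_mem (k := 1) hx
    (by rw [pow_one, pow_two, h2])
  obtain ⟨h3, h4⟩ := sq_spec u hu (S.inj (by rw [map_mul, e, conj_mul, h2]; simp))
  exact ⟨m, hm, _, h3, h4 ▸ e.symm⟩

theorem Setup.exists_rep (hH : ∀ h, φ h ∈ M) {x : G} (hx : x ∈ M) (h2 : x * x = 1) (h1 : x ≠ 1) :
    ∃ m ∈ M, ∃ c < 8, m * x * m⁻¹ = φ (rep c) := by
  obtain ⟨m, hm, i, hi, e⟩ := S.exists_iv (map_le_iff_le_comap.2 fun h _ => hH h) hx h2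
  rcases (iv_spec i hi).2.2 with rfl | ⟨h3, h4⟩
  · exact (h1 (by simpa [iv_zero] using e)).elim
  · refine ⟨_, mul_mem (inv_mem (hH (eh (look tw 15 32767 i)))) hm, _, h3, ?_⟩
    rw [← conj_conj_eq, e, inv_inv, mul_assoc, ← map_mul, ← h4, map_mul, inv_mul_cancel_left]

theorem Setup.sylR : IsSylowIn 2 (RR φ) (centralizer {φ (A 0 6), φ (A 0 11)}) := by
  refine IsSylowIn.of_inf_normalizer ⟨le_inf (fun x hx => mem_cent2.2 ⟨mem_RR.1 hx 6 (by norm_num),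
    mem_RR.1 hx 11 (by norm_num)⟩) le_normalizer, S.pT.to_le S.RR_le, fun Q h1 h2 h3 =>
      le_antisymm (fun x hx => ?_) h3⟩
  have h4 : Q ≤ NN φ := fun y hy => mem_NN.2 fun j => mem_normalizer_iff_conj_eq.2 (S.wc
    ((conj_le_of_mem_normalizer AA_le_RR (h1 hy).2).trans S.RR_le))
  obtain ⟨m, hm, h5⟩ := (S.sylow.of_le (le_inf T_norm T_norm) le_top).exists_conj_le h4 h2
  obtain ⟨u, hu, e⟩ := h5 (conj_mem_conj m hx)
  obtain ⟨a, a1, a2, a3⟩ := S.conj_not_K hm (k := 6) (by norm_num) (by decide)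
  obtain ⟨b, b1, b2, b3⟩ := S.conj_not_K hm (k := 11) (by norm_num) (by decide)
  obtain ⟨c, c1, c2, c3⟩ := S.conj_not_K hm (k := 13) (by norm_num) (by decide)
  have h6 : a ^^^ b = c := S.α_inj (j := 0) ((Nat.xor_lt_two_pow (n := 4) a1 b1).trans (by norm_num))
    (by omega) (by rw [← α_mul, ← a3, ← b3, ← c3, conj_mul, α_mul]; rfl)
  obtain ⟨h7, h8⟩ := mem_cent2.1 (h1 hx).1
  have h9 := cent_pair a a1 a2 b b1 b2 (h6 ▸ c2) _ (mem_T.1 hu)
  beta_reduce at h9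
  rw [eh_ind] at h9
  have h10 := mem_RR.1 (mem_RR_of (φ := φ) (h9
    (S.inj (by rw [map_mul, map_mul, e, ← a3, conj_mul, conj_mul, h7]))
    (S.inj (by rw [map_mul, map_mul, e, ← b3, conj_mul, conj_mul, h8]))))
  refine mem_RR.2 fun l hl => ?_
  obtain ⟨n, n1, n2⟩ := S.conj_E hm hl
  have := h10 n n1
  rw [e, ← n2, conj_mul, conj_mul] at this
  exact mul_left_cancel (mul_right_cancel this)

theorem Setup.sylS (hp : Pat φ p) (h6 : ¬ db p 0 6 = true) (h7 : ¬ db p 0 7 = true) :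
    IsSylowIn 2 (centralizer {φ z, φ (A 0 6)}) (centralizer {φ (A 0 6)}) ∧
      centralizer {φ z, φ (A 0 6)} ≤ TT φ := by
  have h1 : centralizer {φ z, φ (A 0 6)} ≤ TT φ := fun x hx => by
    obtain ⟨h2, h3⟩ := mem_cent2.1 hx
    obtain ⟨u, rfl⟩ := S.cent x h2
    exact mem_map_of_mem φ (cent_t u (S.inj (by simpa using h3)))
  refine ⟨IsSylowIn.of_inf_normalizer ⟨le_inf (centralizer_le (by simp)) le_normalizer,
    S.pT.to_le h1, fun Q h2 _ h3 => le_antisymm (fun x hx => ?_) h3⟩, h1⟩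
  obtain ⟨h4, h5⟩ := h2 hx
  refine mem_cent2.2 ⟨?_, mem_centralizer_singleton_iff.1 h4⟩
  have hz : φ z ∈ centralizer {φ z, φ (A 0 6)} :=
    mem_cent2.2 ⟨rfl, by rw [← map_mul, ← z_comm, map_mul]⟩
  obtain ⟨u, hu, e⟩ := h1 ((mem_normalizer_iff.1 h5 _).1 hz)
  obtain ⟨h8, h9⟩ := sq_spec u hu (S.inj (by rw [map_mul, e, conj_mul, ← map_mul, z_sq]; simp))
  have h10 : InD φ (φ (iv (pos u))) := h9 ▸ e ▸ InD.conj (IsConj.refl _) x
  rw [S.inD_iv hp h8] at h10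
  rcases center_S _ h8 (fun s hs => S.inj (by
    have h11 : φ (eh s) ∈ centralizer {φ z, φ (A 0 6)} := mem_cent2.2
      ⟨by rw [← map_mul, z_comm, map_mul], by rw [← map_mul, gens_S s hs, map_mul]⟩
    have h12 := (mem_cent2.1 ((mem_normalizer_iff.1 (inv_mem h5) _).1 h11)).1
    rw [← h9, map_mul, map_mul, e]
    calc _ = x * (x⁻¹ * φ (eh s) * x⁻¹⁻¹ * φ z) * x⁻¹ := by group
      _ = _ := by rw [h12]; group)) with h | h | h | h <;> rw [h] at h9 h10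
  · rw [show cl 0 = 8 by decide +kernel, Nat.testBit_lt_two_pow hp.1] at h10
    cases h10
  · rw [← mul_inv_eq_iff_eq_mul, ← e, h9, show iv 1 = z by decide +kernel]
  · exact (h6 h10).elim
  · exact (h7 h10).elim

variable (hp : Pat φ p) (hp' : p ∈ [135, 151, 183]) (hH : ∀ h, φ h ∈ M)
  (hcl : ∀ c < 8, ∃ m ∈ M, m * φ (A 0 (if p.testBit c then 1 else 6)) * m⁻¹ = φ (rep c))
include hp hp' hH hcl

theorem Setup.two_classes {x : G} (hx : x ∈ M) (h2 : x * x = 1) (h1 : x ≠ 1) :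
    ∃ m ∈ M, m * φ (A 0 1) * m⁻¹ = x ∨ m * φ (A 0 6) * m⁻¹ = x := by
  obtain ⟨m, hm, c, hc, e⟩ := S.exists_rep hH hx h2 h1
  obtain ⟨n, hn, e'⟩ := hcl c hc
  refine ⟨_, mul_mem (inv_mem hm) hn, ?_⟩
  split_ifs at e'
  · exact Or.inl (by rw [← conj_conj_eq, e', ← e]; group)
  · exact Or.inr (by rw [← conj_conj_eq, e', ← e]; group)

theorem Setup.good_D {x : G} (hx : x ∈ M) (h : InD φ x) : Good M x := by
  have key : ∀ x ∈ M, InD φ x → ∃ m ∈ M, m * φ z * m⁻¹ = x := fun x hx h => by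
    obtain ⟨m, hm, e | e⟩ := S.two_classes hp hp' hH hcl hx (InvolCount.sq_of_isConj
      (by rw [← map_mul, z_sq, map_one]) h) (by rintro rfl; exact S.z_ne (isConj_one_left.1 h))
    · exact ⟨m, hm, A_one 0 ▸ e⟩
    · exact (S.not_inD (m := 6) (by norm_num) (by decide) (inD_conj.1 (e ▸ h))).elim
  obtain ⟨m, hm, rfl⟩ := key x hx h
  refine Good.conj (fun g hg => ?_) hm
  obtain ⟨n, hn, e⟩ := key _ hg (InD.conj (IsConj.refl _) g)
  obtain ⟨u, hu⟩ := S.cent (n⁻¹ * g) (by rw [← mul_inv_eq_iff_eq_mul, ← conj_conj_eq, ← e]; group)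
  exact (M.mul_mem_cancel_left (inv_mem hn)).1 (hu ▸ hH u)

theorem Setup.cent_Z0 (hx : p = 183 → ∃ x ∈ M, ∃ i ∈ M, x ∈ centralizer {φ (A 0 6), φ (A 0 11)} ∧
    i ∈ centralizer {φ (A 0 6), φ (A 0 11)} ∧ x ^ 3 = 1 ∧ x ∉ AA φ 0 ∧ i * i = 1 ∧
      i * x * i = x⁻¹) : centralizer {φ (A 0 6), φ (A 0 11)} ≤ M := by
  by_contra hY
  have hP : IsPair (φ (A 0 6)) (φ (A 0 11)) := S.pair (by norm_num) (by norm_num) (by norm_num)
    (by norm_num) (by norm_num)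
  have hZ : ∀ {x}, x ∈ closure {φ (A 0 6), φ (A 0 11)} ↔ ∃ m ∈ [0, 6, 11, 13], x = φ (A 0 m) :=
    mem_pair hP
  have hlt : ∀ m ∈ [0, 6, 11, 13], m < 16 := by decide
  have hZM : closure {φ (A 0 6), φ (A 0 11)} ≤ M := fun x hx => by
    obtain ⟨m, -, rfl⟩ := hZ.1 hx
    exact hH _
  have hA : ∀ j m, φ (A j m) ∈ centralizer {φ (A 0 6), φ (A 0 11)} := fun j m =>
    S.sylR.le (AA_le_RR (A_mem m))
  have hN := normal_pair (φ (A 0 6)) (φ (A 0 11))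
  have hG : ∀ u ∈ M, u ∈ centralizer {φ (A 0 6), φ (A 0 11)} →
      u * u ∈ closure {φ (A 0 6), φ (A 0 11)} → u ∉ closure {φ (A 0 6), φ (A 0 11)} →
        ∀ g ∈ centralizer {φ (A 0 6), φ (A 0 11)}, g * u * g⁻¹ ∈ M → g ∈ M := by
    intro u h1 h2 h3 h4 g h5 h6
    obtain ⟨k, k1, k2⟩ := hZ.1 h3
    obtain ⟨c, ⟨c1, c2⟩, c3⟩ := (S.sylR.of_le (le_inf (S.RR_le.trans (map_le_iff_le_comap.2
      fun h _ => hH h)) S.sylR.le) inf_le_right).exists_conj_mem (k := 2) (mem_inf.2 ⟨h1, h2⟩)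
        (by rw [show u ^ 2 ^ 2 = u * u * (u * u) by simp [pow_succ, mul_assoc], k2, α_sq])
    obtain ⟨v, v1, v2, v3⟩ := S.of_RR c3
    obtain ⟨v4, v5⟩ := sq_R v v1 v2
    have v6 : v * v = A 0 k := S.inj (by
      rw [map_mul, v3, conj_mul, comm_pair h3 c2, mul_inv_cancel_right, k2])
    obtain rfl : k = 0 := (by decide : ∀ k ∈ [0, 6, 11, 13], K k → k = 0) k k1
      (A_inj (v4.1.trans (by norm_num)) ((hlt k k1).trans (by norm_num)) (v5.symm.trans v6) ▸ v4)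
    obtain ⟨v7, v8⟩ := sq_spec v v1 (v6.trans (A_zero 0))
    obtain ⟨j, m, m1, rfl⟩ : ∃ j, ∃ m < 64, v = A j m := by
      have := (iv_R _ v7).1 (v8 ▸ v2)
      rcases iv_lt _ this with h | h
      · exact ⟨0, _, h.1, v8.trans h.2⟩
      · exact ⟨1, _, by omega, v8.trans h.2⟩
    obtain ⟨w, w1, w2⟩ := (by decide +kernel : ∀ p ∈ [135, 151, 183], ∀ j, All 64 fun m =>
      m ∉ [0, 6, 11, 13] → ∃ w ∈ [0, 6, 11, 13], db p j (m ^^^ w) = true) p hp' j m m1 fun h => h4 (by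
        have h7 : c * u * c⁻¹ ∈ _ := hZ.2 ⟨m, h, A_E j m (hlt m h) ▸ v3.symm⟩
        have h8 := comm_pair h7 c2
        rw [inv_mul_cancel_right, mul_right_inj] at h8
        rwa [h8] at h7)
    have w3 : φ (A 0 w) ∈ closure {φ (A 0 6), φ (A 0 11)} := hZ.2 ⟨w, w1, rfl⟩
    refine S.good_D hp hp' hH hcl (mul_mem h1 (hH (A 0 w))) ((inD_conj (g := c)).1 ?_) g ?_
    · rw [← conj_mul, ← v3, comm_pair w3 c2, mul_inv_cancel_right, ← A_E j w (hlt w w1), α_mul]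
      exact (S.inD_A hp _).2 w2
    · rw [← conj_mul, comm_pair w3 h5, mul_inv_cancel_right]
      exact mul_mem h6 (hH _)
  have hn : ∀ j m, m < 64 → m ∉ [0, 6, 11, 13] → φ (A j m) ∉ closure {φ (A 0 6), φ (A 0 11)} :=
    fun j m h1 h2 h3 => by
      obtain ⟨k, k1, k2⟩ := hZ.1 h3
      rw [← A_E j k (hlt k k1)] at k2
      exact h2 (S.α_inj h1 ((hlt k k1).trans (by norm_num)) k2 ▸ k1)
  by_cases h183 : p = 183
  · obtain ⟨x, x1, i, i1, x2, i2, x3, x4, i3, i4⟩ := hx h183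
    refine false_of_inverted_mod hZM hY hG (hH (A 0 1)) (hA 0 1) (α_sq (φ := φ) 1 ▸ one_mem _)
      (hn 0 1 (by norm_num) (by decide)) (fun c c1 c2 c3 => ⟨4, ?_⟩) (hH (A 0 1)) (hA 0 1)
      (hH (A 0 2)) (hA 0 2) (hn 0 1 (by norm_num) (by decide)) (hn 0 2 (by norm_num) (by decide))
      (by rw [α_inv, α_mul]; exact hn 0 3 (by norm_num) (by decide)) (α_sq _) (α_sq _) (α_comm _ _)
      x1 x2 (x3 ▸ one_mem _) (fun h => x4 ?_) i1 i2 i3 i4
    · have c4 := comm_pair c3 c2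
      obtain ⟨k, k1, k2⟩ := hZ.1 c3
      rw [k2] at c4
      rw [inv_mul_eq_iff_eq_mul] at k2
      obtain ⟨u, hu⟩ := S.cent (c * c) (by
        rw [← A_one 0, ← mul_assoc, k2, mul_assoc _ _ c, ← c4, ← mul_assoc, mul_assoc c _ c, k2,
          ← mul_assoc, ← mul_assoc, mul_assoc _ (φ (A 0 k)), α_sq, mul_one])
      have c5 := forall_T (P := fun u => u * u * (u * u) * (u * u * (u * u)) = 1) (by decide +kernel)
        u (cent_t u (S.inj (by
          rw [map_mul, map_mul, hu, mul_assoc, (mem_cent2.1 c2).1, ← mul_assoc, (mem_cent2.1 c2).1,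
            mul_assoc])))
      rw [show c ^ 2 ^ 4 = c * c * (c * c) * (c * c * (c * c)) * (c * c * (c * c) * (c * c * (c * c)))
        by simp [pow_succ, mul_assoc], ← hu, ← map_mul, ← map_mul, ← map_mul, c5, map_one]
      exact one_mem _
    · obtain ⟨k, -, rfl⟩ := hZ.1 h
      exact A_mem k
  · obtain ⟨m, -, m1, w, w1, e⟩ := exists_conj_mod hZM hY hG (hH (A 0 1)) (hA 0 1)
      (α_sq (φ := φ) 1 ▸ one_mem _) (hn 0 1 (by norm_num) (by decide)) (hH (A 1 16)) (hA 1 16)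
      (α_sq (φ := φ) 16 ▸ one_mem _) (hn 1 16 (by norm_num) (by decide))
    obtain ⟨k, k1, rfl⟩ := hZ.1 w1
    refine (by decide +kernel : ∀ p ∈ [135, 151, 183], p ≠ 183 → ∀ k ∈ [0, 6, 11, 13],
      ¬ ∀ l ∈ [0, 6, 11, 13], db p 0 (1 ^^^ l) = db p 1 (16 ^^^ k ^^^ l)) p hp' h183 k k1
        fun l l1 => ?_
    rw [Bool.eq_iff_iff, ← S.inD_A hp, ← S.inD_A hp, ← α_mul, ← α_mul, ← α_mul, A_E 1 k (hlt k k1),
      A_E 1 l (hlt l l1), ← e, ← inD_conj (g := m), ← conj_mul, comm_pair (hZ.2 ⟨l, l1, rfl⟩) m1,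
      mul_inv_cancel_right]

theorem Setup.top (hx : p = 183 → ∃ x ∈ M, ∃ i ∈ M, x ∈ centralizer {φ (A 0 6), φ (A 0 11)} ∧
    i ∈ centralizer {φ (A 0 6), φ (A 0 11)} ∧ x ^ 3 = 1 ∧ x ∉ AA φ 0 ∧ i * i = 1 ∧
      i * x * i = x⁻¹) : M = ⊤ := by
  have hP : IsPair (φ (A 0 6)) (φ (A 0 11)) := S.pair (by norm_num) (by norm_num) (by norm_num)
    (by norm_num) (by norm_num)
  have hTM : TT φ ≤ M := map_le_iff_le_comap.2 fun h _ => hH h
  have hD : ∀ m ∈ [1, 2, 3], Good M (φ (A 0 m)) := fun m hm => S.good_D hp hp' hH hcl (hH _)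
    ((S.inD_A hp m).2 ((by decide +kernel : ∀ p ∈ [135, 151, 183], ∀ m ∈ [1, 2, 3],
      db p 0 m = true) p hp' m hm))
  have hn : ∀ m ∈ [6, 7, 11, 13], ¬ db p 0 m = true := (by decide +kernel : ∀ p ∈ [135, 151, 183],
    ∀ m ∈ [6, 7, 11, 13], ¬ db p 0 m = true) p hp'
  have h2 : Good2 M (φ (A 0 6)) (φ (A 0 11)) := fun g g1 g2 =>
    mem_of_cent (S.sylow.of_le hTM le_top) (hD 1 (by decide)) (hH _) (by
      rintro _ ⟨u, -, rfl⟩
      rw [A_one, ← map_mul, z_comm, map_mul]) (U := closure {φ (A 0 6), φ (A 0 11)})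
      (S.pT.to_le ((closure_le _).2 (by
        rintro _ (rfl | rfl) <;> exact AA_le (A_mem _))))
      (fun c hc => S.cent_Z0 hp hp' hH hcl hx (mem_cent2.2 ⟨hc _ (subset_closure (Or.inl rfl)),
        hc _ (subset_closure (Or.inr rfl))⟩)) fun u hu => by
      rcases (hP.mem_closure u).1 hu with rfl | rfl | rfl | rfl
      exacts [by simp, g1, g2, by rw [← conj_mul]; exact mul_mem g1 g2]
  obtain ⟨hS, hST⟩ := S.sylS hp (hn 6 (by decide)) (hn 7 (by decide))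
  have wc : ∀ y, y * φ (A 0 6) = φ (A 0 6) * y →
      y * φ (A 0 11) * y⁻¹ ∈ centralizer {φ z, φ (A 0 6)} →
      y * φ (A 0 11) * y⁻¹ = φ (A 0 11) ∨ y * φ (A 0 11) * y⁻¹ = φ (A 0 11) * φ (A 0 6) := by
    intro y y1 y2
    obtain ⟨v, v1, e⟩ := hST y2
    obtain ⟨v2, v3⟩ := sq_spec v v1 (S.inj (by rw [map_mul, e, conj_mul, α_sq]; simp))
    have y3 := mul_inv_eq_iff_eq_mul.2 y1
    by_cases h : pos v < 112
    · obtain ⟨j, m, m1, rfl⟩ : ∃ j, ∃ m < 64, v = A j m := by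
        rcases iv_lt _ h with h' | h'
        · exact ⟨0, _, h'.1, v3.trans h'.2⟩
        · exact ⟨1, _, by omega, v3.trans h'.2⟩
      obtain ⟨c, c1, ⟨x, c2⟩, c3, c4⟩ := S.fus2 (j := j) (m := 6) (n := 6) (m' := 11) (n' := m)
        (by rwa [A_E j 6 (by norm_num)]) (by rw [A_E j 11 (by norm_num), e])
      have c5 := A_inj (lin_lt c1 _) (by norm_num) c3
      have c6 := A_inj (lin_lt c1 _) m1 c4
      have c7 := S.N3_lin hp c2 c1 6 11
      have c8 := S.db_lin hp c2 11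
      have c9 := S.db_lin hp c2 (6 ^^^ 11)
      have c10 := mt (S.lin_inj c2 (m := 11) (n := 0) (by norm_num) (by norm_num)) (by norm_num)
      have c11 := mt (S.lin_inj c2 (m := 11) (n := 6) (by norm_num) (by norm_num)) (by norm_num)
      rw [lin_xor] at c9
      rw [lin_zero] at c10
      rw [c5, c6] at *
      rw [← e, α_mul]
      rcases (by decide +kernel : ∀ p ∈ [135, 151, 183], ∀ j, All 64 fun m => m ≠ 0 → m ≠ 6 →
        db p j m = db p j 11 → db p j (6 ^^^ m) = db p j (6 ^^^ 11) → N3 p j 6 m = N3 p j 6 11 →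
          m = 11 ∨ m = 13) p hp' j m m1 c10 c11 c8 c9 c7 with rfl | rfl
      · exact Or.inl (by rw [A_E j 11 (by norm_num)])
      · exact Or.inr (by rw [A_E j 13 (by norm_num)]; rfl)
    · exfalso
      obtain ⟨q1, q2, q3, l, l1, l2, l3⟩ := outer_S _ v2 (not_lt.1 h) (v3 ▸ S.inj (by
        rw [map_mul, map_mul, e, (mem_cent2.1 y2).2]))
      generalize eh (look tp 10 1023 (pos v)) = q at q1 q2 q3
      rw [← v3] at q3 l2
      have y4 : y⁻¹ * φ (A 0 6) * y⁻¹⁻¹ = φ (A 0 6) := by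
        rw [inv_inv, mul_assoc, ← y1, inv_mul_cancel_left]
      have y5 : y⁻¹ * φ v * y⁻¹⁻¹ = φ (A 0 11) := by rw [e]; group
      obtain ⟨c, c1, c2⟩ := S.sylR.exists_conj_mem (k := 2) (x := y⁻¹ * φ q * y⁻¹⁻¹) (mem_cent2.2
        ⟨by rw [← y4, conj_mul, conj_mul, ← map_mul, q2, map_mul],
          by rw [← y5, conj_mul, conj_mul, ← map_mul, q3, map_mul]⟩) (by
        rw [conj_pow, ← map_pow, show q ^ 2 ^ 2 = q * q * (q * q) by simp [pow_succ, mul_assoc], q1,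
          z_sq]
        simp)
      obtain ⟨w, w1, w2, w3⟩ := S.of_RR c2
      obtain ⟨w4, w5⟩ := sq_R w w1 w2
      generalize co 0 (w * w) = k at w4 w5
      obtain ⟨c3, c4⟩ := mem_cent2.1 c1
      have n1 : c * y⁻¹ * φ z * (c * y⁻¹)⁻¹ = φ (A 0 k) := by
        rw [← w5, map_mul, w3, ← q1, map_mul]
        group
      rcases (by decide +kernel : ∀ p ∈ [135, 151, 183], All 16 fun k => K k → k ≠ 0 →
        db p 0 (k ^^^ 6) = true ∨ db p 0 (k ^^^ 11) = true) p hp' k w4.1 w4 (by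
          rintro rfl
          exact S.z_ne (conj_eq_one_iff.1 (by rwa [A_zero, map_one] at n1))) with h' | h' <;> rw [← S.inD_A hp, ← α_mul,
            ← n1] at h'
      · rw [← mul_inv_eq_iff_eq_mul.2 c3, ← y4, conj_conj_eq, conj_mul, inD_conj, ← A_one 0, α_mul,
          S.inD_A hp] at h'
        exact hn 7 (by decide) h'
      · rw [← mul_inv_eq_iff_eq_mul.2 c4, ← y5, conj_conj_eq, conj_mul, inD_conj, ← map_mul, l2,
          S.inD_iv hp l1, l3, ← (by decide +kernel : cl (ix 0 6) = 3)] at h'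
        exact hn 6 (by decide) h'
  have ht : ∀ y, y * φ (A 0 6) = φ (A 0 6) * y → y ∈ M := fun y => good_of_zstar (hH _) (hH _)
    (α_sq 6) (α_sq 11) (α_comm 11 6) h2 (fun y y1 y2 => ?_) (S.pair (j := 0) (a := 1) (b := 2)
      (by norm_num) (by norm_num) (by norm_num) (by norm_num) (by norm_num)) (hH _) (hH _)
      (α_comm _ _) (α_comm _ _) (mt (S.α_inj (by norm_num) (by norm_num)) (by norm_num))
      (mt (S.α_inj (by norm_num) (by norm_num)) (by norm_num))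
      (by rw [α_mul]; exact mt (S.α_inj (by decide) (by norm_num)) (by decide))
      (hD 1 (by decide)) (hD 2 (by decide)) (by rw [α_mul]; exact hD 3 (by decide))
  · by_contra hM
    have key : ∀ x ∈ M, x * x = 1 → x ≠ 1 → ¬ InD φ x → ∃ m ∈ M, m * φ (A 0 6) * m⁻¹ = x :=
      fun x x1 x2 x3 x4 => by
        obtain ⟨m, m1, h | h⟩ := S.two_classes hp hp' hH hcl x1 x2 x3
        · exact (x4 (h ▸ A_one 0 ▸ InD.conj (IsConj.refl _) m)).elim
        · exact ⟨m, m1, h⟩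
    have hnt : ¬ InD φ (φ (A 0 6)) := mt (S.inD_A hp 6).1 (hn 6 (by decide))
    obtain ⟨m, -, h⟩ := HeldGen.exists_conj hM (fun u u1 u2 u3 => by
      by_cases h : InD φ u
      · exact S.good_D hp hp' hH hcl u1 h
      · obtain ⟨m, m1, rfl⟩ := key u u1 u2 u3 h
        refine Good.conj (fun g hg => ?_) m1
        obtain ⟨n, n1, e⟩ := key _ hg (by rw [conj_mul, α_sq]; simp) (by simpa using hP.ne1)
          (mt inD_conj.1 hnt)
        exact (M.mul_mem_cancel_left (inv_mem n1)).1 (ht _ (by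
          rw [← mul_inv_eq_iff_eq_mul, ← conj_conj_eq, ← e]; group))) (hH (A 0 1)) (α_sq 1)
        (S.α_ne (by norm_num) (by norm_num)) (hH (A 0 6)) (α_sq 6) hP.ne1
    exact hnt (h ▸ A_one 0 ▸ InD.conj (IsConj.refl _) m)
  · have hZ : ∀ c ∈ centralizer {φ (A 0 6)} ⊓ normalizer (closure {φ (A 0 6), φ (A 0 11)} : Set G),
        c * φ (A 0 11) * c⁻¹ = φ (A 0 11) ∨ c * φ (A 0 11) * c⁻¹ = φ (A 0 11) * φ (A 0 6) := by
      intro c hc
      have c1 := mul_inv_eq_iff_eq_mul.2 (mem_centralizer_singleton_iff.1 hc.1)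
      rcases (hP.mem_closure _).1 ((mem_normalizer_iff.1 hc.2 _).1 (subset_closure (Or.inr rfl)))
        with h | h | h | h
      · exact (hP.ne2 (by simpa using h)).elim
      · exact (hP.ne (mul_left_cancel (mul_right_cancel (c1.trans h.symm)))).elim
      · exact Or.inl h
      · exact Or.inr (h.trans hP.comm)
    have hN : ∀ c, c * φ (A 0 6) = φ (A 0 6) * c → (c * φ (A 0 11) * c⁻¹ = φ (A 0 11) ∨
        c * φ (A 0 11) * c⁻¹ = φ (A 0 11) * φ (A 0 6)) →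
        c ∈ centralizer {φ (A 0 6)} ⊓ normalizer (closure {φ (A 0 6), φ (A 0 11)} : Set G) := by
      intro c c1 c2
      refine ⟨mem_centralizer_singleton_iff.2 c1, mem_normalizer_of_conj_le ?_⟩
      rw [conj_le_iff_le_conj_inv, closure_le]
      rintro _ (rfl | rfl) <;> rw [SetLike.mem_coe, mem_conj_iff, inv_inv, hP.mem_closure]
      · exact Or.inr (Or.inl (mul_inv_eq_iff_eq_mul.2 c1))
      · exact Or.inr (Or.inr (c2.imp_right fun h => h.trans hP.comm.symm))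
    have u1 : y * φ (A 0 11) * y⁻¹ * φ (A 0 6) = φ (A 0 6) * (y * φ (A 0 11) * y⁻¹) := by
      rw [← mul_inv_eq_iff_eq_mul.2 y1, conj_mul, conj_mul, α_comm]
    obtain ⟨c, c1, c2⟩ := (hS.of_le (fun x hx => hN x (mem_cent2.1 hx).2 (wc x (mem_cent2.1 hx).2 (by
        obtain ⟨x1, x2⟩ := mem_cent2.1 hx
        rw [mem_cent2, ← mul_inv_eq_iff_eq_mul.2 x1, ← mul_inv_eq_iff_eq_mul.2 x2, conj_mul, conj_mul,
          conj_mul, conj_mul, α_comm, ← A_one 0, α_comm]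
        exact ⟨rfl, rfl⟩))) inf_le_left).exists_conj_mem (k := 1) (hN _ u1 (y2.imp
          mul_inv_eq_iff_eq_mul.2 fun h => by
            rw [mul_inv_eq_iff_eq_mul, h, mul_assoc, u1, ← mul_assoc]))
        (by rw [pow_one, pow_two, conj_mul, α_sq]; simp)
    have c3 := mem_centralizer_singleton_iff.1 c1.1
    have c4 := mul_inv_eq_iff_eq_mul.2 (mem_centralizer_singleton_iff.1 (inv_mem c1).1)
    rw [conj_conj_eq] at c2
    have c5 : y * φ (A 0 11) * y⁻¹ = c⁻¹ * (c * y * φ (A 0 11) * (c * y)⁻¹) * c⁻¹⁻¹ := by group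
    rcases wc _ (by rw [mul_assoc, y1, ← mul_assoc, c3, mul_assoc]) c2 with h | h <;> rw [c5, h]
    · exact hZ _ (inv_mem c1)
    · rw [← conj_mul, c4]
      rcases hZ _ (inv_mem c1) with h' | h' <;> rw [h']
      · exact Or.inr rfl
      · exact Or.inl (by rw [mul_assoc, α_sq, mul_one])

omit hp hp' hH hcl in
theorem Setup.gens_top {D : Dat} (hp : Pat φ D.p) (h1 : D.Ok1) (h2 : D.Ok2) {cw hw : List (List ℕ)}
    {xw : List ℕ} (h3 : D.Ok3 cw hw xw) :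
    ∃ y : ℕ → G, (∀ w ∈ D.K, wval y w = 1) ∧ gp y gens8 = ⊤ ∧
      ∀ i ∈ [0, 1, 2, 3, 5, 6], y i = φ (D.x i) := by
  obtain ⟨y, y0, y1, y2, y3⟩ := S.exists_gens hp h1 h2
  obtain ⟨k1, k2, k3, k4⟩ := h3
  have hm : ∀ w : List ℕ, (∀ l ∈ w, l / 2 < 8) → wval y w ∈ gp y gens8 := fun w h =>
    wval_mem fun l hl => wval_single y (l / 2) ▸ mem_gp
      ((by decide : ∀ i < 8, [2 * i] ∈ gens8) _ (h l hl))
  have a0 : ∀ w : List ℕ, (∀ l ∈ w, l ∈ [0, 2, 4, 6, 8, 12, 14]) →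
      wval y w ∈ gp y gens8 ∧ Act φ 0 (wval y w) (affL D.l0 w) := fun w h => by
    have := fun l hl => (by decide : ∀ l ∈ [0, 2, 4, 6, 8, 12, 14], l / 2 < 8 ∧ l % 2 = 0 ∧
      l / 2 ∈ [0, 1, 2, 3, 4, 6, 7]) l (h l hl)
    exact ⟨hm w fun l hl => (this l hl).1, act_word fun l hl =>
      ⟨(this l hl).2.1, y1 _ (this l hl).2.2⟩⟩
  have a1 : ∀ w : List ℕ, (∀ l ∈ w, l ∈ [0, 2, 4, 6, 8, 10, 14]) →
      wval y w ∈ gp y gens8 ∧ Act φ 1 (wval y w) (affL D.l1 w) := fun w h => by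
    have := fun l hl => (by decide : ∀ l ∈ [0, 2, 4, 6, 8, 10, 14], l / 2 < 8 ∧ l % 2 = 0 ∧
      l / 2 ∈ [0, 1, 2, 3, 4, 5, 7]) l (h l hl)
    exact ⟨hm w fun l hl => (this l hl).1, act_word fun l hl =>
      ⟨(this l hl).2.1, y2 _ (this l hl).2.2⟩⟩
  refine ⟨y, y3, S.top hp k1 (range_le k3 y0) (fun c hc => ?_) fun h => ?_, y0⟩
  · rcases k2 c hc with ⟨w1, w2⟩ | ⟨w1, w2⟩
    · exact ⟨_, (a0 _ w1).1, w2 ▸ (a0 _ w1).2 _⟩
    · refine ⟨_, (a1 _ w1).1, ?_⟩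
      rw [← w2, ← (a1 _ w1).2, A_E 1 _ (by split_ifs <;> norm_num)]
  · obtain ⟨x1, x2, x3, x4, x5, x6, x7⟩ := k4 h
    obtain ⟨b1, b2⟩ := a0 xw x1
    have b3 := y1 3 (by decide)
    have b4 : y 3 ∈ gp y gens8 := wval_single y 3 ▸ mem_gp (by decide)
    have b5 := derive _ y3 _ x6
    have b6 : wval y xw * wval y xw = 1 := wval_append y xw xw ▸ b5 _ (by simp)
    have b7 : y 3 * y 3 = 1 := by simpa [wval, lval] using b5 [6, 6] (by simp)
    have b8 : (y 3 * wval y xw) ^ 3 = 1 := by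
      have := b5 (Words.rep 3 (6 :: xw)) (by simp)
      rwa [wval_rep, wval_cons] at this
    have b9 : y 3 ∈ centralizer {φ (A 0 6), φ (A 0 11)} := mem_cent2.2
      ⟨mul_inv_eq_iff_eq_mul.1 (by rw [b3, x4]), mul_inv_eq_iff_eq_mul.1 (by rw [b3, x5])⟩
    refine ⟨_, mul_mem b4 b1, _, b4, mul_mem b9 (mem_cent2.2 ⟨mul_inv_eq_iff_eq_mul.1
      (by rw [b2, x2]), mul_inv_eq_iff_eq_mul.1 (by rw [b2, x3])⟩), b9, b8, fun h => x7 (S.inj ?_),
      b7, by rw [← mul_assoc, b7, one_mul, mul_inv_rev, inv_eq_of_sq b6, inv_eq_of_sq b7]⟩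
    obtain ⟨m, hm⟩ := mem_AA.1 h
    rw [← b3.mul b2, hm, α_comm, mul_inv_cancel_right]

end Cfsg.Agent.Lib.HeldFus
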