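import Cfsg.Agent.Lib.HuC

/-! The central involution is isolated unless the extension is the split one. -/

set_option autoImplicit false
set_option maxRecDepth 100000
set_option Elab.async false

namespace Cfsg.Agent.Lib.Hu

open Cfsg.Agent.Lib.HJModel (cntN cntN_eq)
open Subgroup Cfsg.Agent.Lib.HeldModel Cfsg.Agent.Lib.HeldFus Cfsg.Agent.Lib.PCore
  Cfsg.Agent.Lib.PCoreConj

variable {H : Type*} [Group H] [Finite H] {Q : Subgroup H} {z c a : H} {ψ : ℕ → H} {π : H →* L3}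
  {G : Type*} [Group G] [Finite G] {φ : H →* G} {d : Crt}

theorem Crt.r_lt (c : ℕ) : d.r c < 2 ^ 7 := Nat.and_lt_two_pow _ (by norm_num)

theorem Crt.p_lt (c : ℕ) : d.p c < 2 ^ 7 := Nat.and_lt_two_pow _ (by norm_num)

namespace Ext

variable (X : Ext Q z c a ψ π d.k d.e) (hd : d.Ok) (hφ : Function.Injective φ)
  (hc : ∀ g, g * φ z = φ z * g → ∃ h, φ h = g)
include X hd hφ hc

theorem swap {i : ℕ} (hi : i < 1024) (h1 : IsConj (φ z) (φ (tau ψ a c i))) (h2 : i ≠ 1) :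
    ∃ g : G, g * φ z * g⁻¹ ≠ φ z ∧ ∀ j, d.Cm j i →
      ∃ l < 1024, φ (tau ψ a c l) = g * φ (tau ψ a c j) * g⁻¹ := by
  obtain ⟨T, t1, t2⟩ := X.sylow hd
  obtain ⟨g, hg⟩ := isConj_iff.1 h1.symm
  obtain ⟨u, -, hu⟩ := t1.exists_conj_le (Q := (((T ⊓ centralizer {tau ψ a c i}).map φ) ^ᶜ g).comap φ)
    le_top ((((t1.isPGroup.to_le inf_le_left).map φ).map _).comap_of_injective φ hφ)
  have h3 : φ u * φ z * (φ u)⁻¹ = φ z := by
    rw [← map_mul, X.xs.cen, map_mul, mul_inv_cancel_right]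
  refine ⟨φ u * g, fun h => h2 (X.inj hi (by norm_num) (hφ ?_)), fun j hj => ?_⟩
  · rw [tau_lt (m := 1) (by norm_num), X.qb.one]
    nth_rw 2 [← h3] at h
    nth_rw 2 [← hg] at h
    rw [conj_conj_eq, mul_left_inj, mul_right_inj] at h
    exact h.symm
  · have h4 : tau ψ a c j * tau ψ a c i = tau ψ a c i * tau ψ a c j := by
      rw [(X.rep hd j hj.1 i hi).2, (X.rep hd i hi j hj.1).2, hj.2]
    obtain ⟨y, hy⟩ := hc (g * φ (tau ψ a c j) * g⁻¹) (by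
      rw [← hg, conj_mul, conj_mul, ← map_mul, h4, map_mul])
    obtain ⟨l, l1, l2⟩ := (t2 _).1 (hu (conj_mem_conj u (x := y) (by
      rw [mem_comap, hy]
      exact conj_mem_conj g (mem_map_of_mem φ
        ⟨(t2 _).2 ⟨j, hj.1, rfl⟩, mem_centralizer_singleton_iff.2 h4⟩))))
    exact ⟨l, l1, by rw [l2, map_mul, map_mul, map_inv, hy, conj_conj_eq]⟩

omit hd hc [Finite H] [Finite G] in
theorem nc {m : ℕ} (hm : m < 128) (h1 : IsConj (φ z) (φ (ψ m))) (h2 : m ≠ 1) : Nc m := by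
  obtain ⟨g, hg⟩ := isConj_iff.1 h1
  refine ⟨?_, X.qb.inj X.xs (mq_lt hm hm) (by norm_num) (hφ ?_)⟩
  · obtain _ | _ | m := m
    · exact (X.xs.ne (hφ (by simpa [X.qb.zero] using hg))).elim
    · exact (h2 rfl).elim
    · omega
  · rw [← X.qb.mul hm hm, map_mul, ← hg, conj_mul, ← map_mul, X.xs.sq, X.qb.zero]
    simp

omit hd hφ hc [Finite H] [Finite G] in
theorem conj_r (h1 : d.Ok1) {m : ℕ} (hm : m < 128) (h : Nc m) : IsConj (ψ (d.r (d.c m))) (ψ m) := by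
  generalize hn : look d.dp 4 15 m = n
  induction n using Nat.strong_induction_on generalizing m with
  | _ n ih =>
    rcases (h1.2.1 m hm h).2 with e | ⟨e1, e2, e3, e4⟩
    · rw [← e]
    · refine (e2 ▸ ih _ (hn ▸ e3) (d.p_lt m) e1 rfl).trans ?_
      generalize d.p m = l, d.p_lt m = hl at e1 e4
      rcases e4 with rfl | rfl | rfl
      · exact isConj_iff.2 ⟨_, X.cj.conj hl⟩
      · exact isConj_iff.2 ⟨_, X.qb.cj.conj hl⟩
      · obtain ⟨q, hq, e⟩ := (by decide +kernel : All 128 fun l => 2 ≤ l → Ex 128 fun q =>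
          mq (mq q l) (iq q) = mq l 1) l hl e1.1
        exact isConj_iff.2 ⟨_, e ▸ (X.qb.rep.inner X.qb.zero hq).conj hl⟩

theorem eq_one (h1 : d.Ok1) (hD : {x | IsConj (φ z) x}.ncard % 4 = 1) {m : ℕ} (hm : m < 128)
    (h : IsConj (φ z) (φ (ψ m))) : m = 1 := by
  classical
  by_contra h2
  have k0 : ∀ {m}, m < 128 → Nc m → (IsConj (φ z) (φ (ψ m)) ↔ IsConj (φ z) (φ (ψ (d.r (d.c m))))) :=
    fun hm h => ⟨fun e => e.trans (φ.map_isConj (X.conj_r h1 hm h)).symm,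
      fun e => e.trans (φ.map_isConj (X.conj_r h1 hm h))⟩
  have k1 := X.nc hφ hm h h2
  obtain ⟨k2, k3, k4⟩ := h1.1 _ (h1.2.1 m hm k1).1
  obtain ⟨g, g1, g2⟩ := X.swap hd hφ hc (i := d.r (d.c m)) ((d.r_lt _).trans (by norm_num))
    (by rw [tau_lt (d.r_lt _)]; exact (k0 hm k1).1 h) (by have := k2.1; omega)
  obtain ⟨l, l1, l2⟩ := g2 _ k3
  have R := X.rep hd
  have k5 : ∀ j < 1024, tau ψ a c (d.sq (d.sq j)) = tau ψ a c j ^ 4 := fun j hj => by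
    rw [d.sq_eq, d.sq_eq, ← (R _ (R j hj j hj).1 _ (R j hj j hj).1).2, ← (R j hj j hj).2]
    simp only [pow_succ, pow_zero, one_mul, mul_assoc]
  have k6 : φ (tau ψ a c (d.sq (d.sq l))) = g * φ z * g⁻¹ := by
    rw [k5 l l1, map_pow, l2, conj_pow, ← map_pow, ← k5 _ k3.1, k4, tau_lt (by norm_num), X.qb.one]
  have k7 : d.sq (d.sq l) < 128 := by have := h1.2.2.1 l l1; omega
  rw [tau_lt k7] at k6
  have k8 : IsConj (φ z) (φ (ψ (d.sq (d.sq l)))) := isConj_iff.2 ⟨g, k6.symm⟩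
  have k9 := X.nc hφ k7 k8 fun e => g1 (by rw [← k6, e, X.qb.one])
  have k10 : d.c (d.sq (d.sq l)) = d.wc :=
    ((h1.2.2.1 l l1).resolve_left (not_lt.2 k9.1)).2
  have k11 : ∀ c < 3, (Nat.ofBits fun c : Fin 3 => decide (IsConj (φ z) (φ (ψ (d.r c))))).testBit c =
      true ↔ IsConj (φ z) (φ (ψ (d.r c))) := fun c hc => by
    rw [Nat.testBit_ofBits_lt _ _ hc, decide_eq_true_iff]
  refine h1.2.2.2.1 _ (Nat.ofBits_lt_two_pow _) (k10 ▸ (k11 _ (h1.2.1 _ k7 k9).1).2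
    ((k0 k7 k9).1 k8)) ?_
  generalize (Nat.ofBits fun c : Fin 3 => decide (IsConj (φ z) (φ (ψ (d.r c))))) = p at k11
  have e1 : {x | IsConj (φ z) x} ∩ Q.map φ = (fun m => φ (ψ m)) '' ((Finset.range 128).filter
      fun m => decide (m = 1 ∨ Nc m ∧ p.testBit (d.c m) = true) = true) := by
    ext x
    simp only [Set.mem_image, Finset.mem_coe, Finset.mem_filter, Finset.mem_range, decide_eq_true_iff]
    refine ⟨?_, ?_⟩
    · rintro ⟨x1, y, y1, rfl⟩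
      obtain ⟨n, hn, rfl⟩ := (X.qb.mem y).1 y1
      exact ⟨n, ⟨hn, or_iff_not_imp_left.2 fun e => ⟨X.nc hφ hn x1 e,
        (k11 _ (h1.2.1 _ hn (X.nc hφ hn x1 e)).1).2 ((k0 hn (X.nc hφ hn x1 e)).1 x1)⟩⟩, rfl⟩
    · rintro ⟨n, ⟨hn, rfl | ⟨n1, n2⟩⟩, rfl⟩
      · exact ⟨X.qb.one ▸ IsConj.refl _, mem_map_of_mem φ (X.qb.mem' hn)⟩
      · exact ⟨(k0 hn n1).2 ((k11 _ (h1.2.1 _ hn n1).1).1 n2), mem_map_of_mem φ (X.qb.mem' hn)⟩
  have e2 := Set.ncard_inter_add_ncard_diff_eq_ncard {x | IsConj (φ z) x} (Q.map φ)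
  rw [e1, Set.ncard_image_of_injOn (fun a ha b hb e => X.qb.inj X.xs
    (Finset.mem_range.1 (Finset.mem_filter.1 ha).1) (Finset.mem_range.1 (Finset.mem_filter.1 hb).1)
      (hφ e)), Set.ncard_coe_finset, ← cntN_eq] at e2
  suffices 4 ∣ ({x | IsConj (φ z) x} \ Q.map φ).ncard by omega
  refine four_dvd_ncard (P := Q.map φ) ((IsPGroup.of_card (n := 7) X.xs.card).map φ)
    (fun y hy g hg => ⟨hy.1.trans (isConj_iff.2 ⟨g, rfl⟩), fun e => hy.2 (by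
      simpa [mul_assoc] using mul_mem (mul_mem (inv_mem hg) e) hg)⟩) fun y hy => ?_
  by_cases e : y * φ z = φ z * y
  · obtain ⟨y, rfl⟩ := hc y e
    obtain ⟨g, hg⟩ := isConj_iff.1 hy.1
    obtain ⟨u, i, hi, hu⟩ := X.exists_conj hd (x := y) (hφ (by
      rw [map_mul, ← hg, conj_mul, ← map_mul, X.xs.sq]; simp))
    have f1 : ∀ {x}, x ∈ Q → u⁻¹ * x * u⁻¹⁻¹ ∈ Q := fun hx => X.xs.normal.conj_mem _ hx _
    have f2 : 128 ≤ i := not_lt.1 fun e => hy.2 (mem_map_of_mem φ (by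
      have := f1 (X.qb.mem' e)
      rw [← tau_lt (ψ := ψ) (a := a) (c := c) e, hu, conj_conj_eq, inv_mul_cancel] at this
      simpa using this))
    obtain ⟨j1, j2, j3⟩ := h1.2.2.2.2
    have f3 : ∀ m ∈ [d.m1, d.m2, mq d.m1 d.m2], m < 128 → φ (u⁻¹ * ψ m * u⁻¹⁻¹) * φ y ≠
        φ y * φ (u⁻¹ * ψ m * u⁻¹⁻¹) := fun m hm hm' e => j3 (i - 128) (by omega) m hm (by
      rw [Nat.sub_add_cancel f2]
      refine ⟨by omega, X.inj (R _ (by omega) _ (by omega)).1 (R _ (by omega) _ (by omega)).1 ?_⟩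
      rw [← (R _ (by omega) _ (by omega)).2, ← (R _ (by omega) _ (by omega)).2, hu, tau_lt hm']
      rw [← map_mul, ← map_mul] at e
      calc _ = u * (u⁻¹ * ψ m * u⁻¹⁻¹ * y) * u⁻¹ := by group
        _ = _ := by rw [hφ e]; group)
    refine ⟨_, mem_map_of_mem φ (f1 (X.qb.mem' j1)), _, mem_map_of_mem φ (f1 (X.qb.mem' j2)),
      f3 _ (by simp) j1, f3 _ (by simp) j2, ?_⟩
    rw [← map_mul, conj_mul, X.qb.mul j1 j2]
    exact f3 _ (by simp) (mq_lt j1 j2)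
  · have f1 : φ (ψ 18) * φ (ψ 18) = φ z := by
      rw [← map_mul, X.qb.mul (by norm_num) (by norm_num), show mq 18 18 = 1 by decide +kernel,
        X.qb.one]
    have f2 : φ (ψ 18) * y ≠ y * φ (ψ 18) := fun h => e (by
      rw [← f1, ← mul_assoc, ← h, mul_assoc, ← h, mul_assoc])
    exact ⟨_, mem_map_of_mem φ (X.qb.mem' (by norm_num)), _,
      mem_map_of_mem φ (X.qb.mem' (by norm_num)), f2, f2, by rw [f1]; exact Ne.symm e⟩

theorem isolated (h1 : d.Ok1) (h2 : d.Ok2) (hD : {x | IsConj (φ z) x}.ncard % 4 = 1) :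
    IsIsolated (φ z) := fun g hg => by
  by_contra h3
  have R := X.rep hd
  have t1 : tau ψ a c 1 = z := (tau_lt (by norm_num)).trans X.qb.one
  have k0 : ∀ i < 256, ∀ g, φ (tau ψ a c i) = g * φ z * g⁻¹ → g * φ z * g⁻¹ ≠ φ z →
      ∃ j < 128, i = j + 128 ∧ d.sq (j + 128) = 0 := fun i hi g e1 e2 => by
    have : 128 ≤ i := not_lt.1 fun h => e2 (by
      rw [← e1, X.eq_one hd hφ hc h1 hD h (isConj_iff.2 ⟨g, by rw [← e1, tau_lt h]⟩), t1])
    refine ⟨i - 128, by omega, by omega, ?_⟩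
    rw [Nat.sub_add_cancel this, d.sq_eq]
    refine X.inj (R _ (by omega) _ (by omega)).1 (by norm_num) (hφ ?_)
    rw [← (R _ (by omega) _ (by omega)).2, map_mul, e1, conj_mul, ← map_mul, X.xs.sq,
      tau_lt (by norm_num), X.qb.zero]
    simp
  obtain ⟨y, hy⟩ := hc _ hg.symm
  obtain ⟨u, i, hi, hu⟩ := X.exists_conj hd (x := y) (hφ (by
    rw [map_mul, hy, conj_mul, ← map_mul, X.xs.sq]; simp))
  have k1 : φ (tau ψ a c i) = φ u * g * φ z * (φ u * g)⁻¹ := by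
    rw [hu, map_mul, map_mul, map_inv, hy, conj_conj_eq]
  obtain ⟨i, hi', rfl, k2⟩ := k0 i hi _ k1 fun e => h3 (by
    rw [← conj_conj_eq, mul_inv_eq_iff_eq_mul, ← map_mul, ← X.xs.cen, map_mul, mul_right_inj] at e
    exact e)
  obtain ⟨k3, k4, -⟩ := h2.2 i hi' k2
  obtain ⟨g, g1, g2⟩ := X.swap hd hφ hc (by omega) (isConj_iff.2 ⟨_, k1.symm⟩) (by omega)
  obtain ⟨l, l1, l2⟩ := g2 _ k3
  have k5 : ∀ j < 1024, tau ψ a c (d.sq j) = tau ψ a c j * tau ψ a c j := fun j hj => by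
    rw [d.sq_eq, (R j hj j hj).2]
  have k6 : φ (tau ψ a c (d.sq l)) = g * φ z * g⁻¹ := by
    rw [k5 l l1, map_mul, l2, conj_mul, ← map_mul, ← k5 _ k3.1, k4, t1]
  obtain ⟨i, hi', k7, k2⟩ := k0 _ (h2.1 l l1) _ k6 g1
  obtain ⟨k8, k9, k10⟩ := (h2.2 i hi' k2).2.2.resolve_left fun e => e l l1 k7
  obtain ⟨g, g1, g2⟩ := X.swap hd hφ hc (by omega) (isConj_iff.2 ⟨_, k7 ▸ k6.symm⟩) (by omega)
  obtain ⟨p, p1, p2⟩ := g2 _ k8
  obtain ⟨q, q1, q2⟩ := g2 _ k9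
  obtain ⟨n, n1, n2⟩ := g2 1 ⟨by norm_num, X.inj (R _ (by omega) _ (by omega)).1
    (R _ (by omega) _ (by omega)).1 (by
      rw [← (R _ (by omega) _ (by omega)).2, ← (R _ (by omega) _ (by omega)).2, t1, X.xs.cen])⟩
  have k11 := congrArg (tau ψ a c) k10
  have k12 := (h2.1 _ k8.1).trans (show 256 < 1024 by norm_num)
  rw [← (R _ k12 _ k9.1).2, ← (R _ (by norm_num) _ (R _ k9.1 _ k12).1).2, ← (R _ k9.1 _ k12).2,
    k5 _ k8.1] at k11
  obtain ⟨m, m1, m2⟩ := (X.qb.mem _).1 (X.law (h2.1 p p1) q1 (x := tau ψ a c n) (hφ (by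
    simp only [k5 p p1, map_mul, p2, q2, n2, conj_mul]
    simp only [← map_mul, k11])))
  rw [← m2, t1] at n2
  exact g1 (by rw [← n2, X.eq_one hd hφ hc h1 hD m1 (isConj_iff.2 ⟨g, n2.symm⟩), X.qb.one])

end Ext

end Cfsg.Agent.Lib.Hu
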