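import Cfsg.Agent.Lib.HuE
import Cfsg.Agent.Lib.HeldMain
import Cfsg.Agent.Lib.TCL32
import Cfsg.Agent.Lib.SmallRecog
import Cfsg.Agent.Lib.D8Amalg

/-! The split extension, and the uniqueness of the Held group. -/

set_option autoImplicit false
set_option maxRecDepth 100000
set_option Elab.async false

namespace Cfsg.Agent.Lib.Hu

open Subgroup Cfsg.Agent.Lib.HeldModel Cfsg.Agent.Lib.HeldFacts Cfsg.Agent.Lib.HeldFus
  Cfsg.Agent.Lib.PermNet Cfsg.Agent.Lib.Words Cfsg.Agent.Lib.PermGroup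
open scoped Pointwise

/-- Relators of `SL(3, 2)`. -/
def K0 : List (List ℕ) := [[0, 0], [2, 2, 2, 2, 2, 2, 2], [0, 2, 0, 2, 0, 2],
  [0, 2, 0, 3, 0, 2, 0, 3, 0, 2, 0, 3, 0, 2, 0, 3]]

theorem card_le {X : Type*} [Group X] (y : ℕ → X) (hy : ∀ w ∈ K0, wval y w = 1) :
    Nat.card (gp y [[0], [2]]) ≠ 0 ∧ Nat.card (gp y [[0], [2]]) ≤ 168 :=
  card_le_of_relIndex (gp_mono (by decide)) (tc_wrap [] hy [[0], [1], [2], [3]] TCL32.bound [] _
    (by decide +kernel)) (card_gp_nil y)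

/-- Coordinates in the model. -/
def pm (m : ℕ) : Hm := eh (look 0xe5ebdf3fddbbfffbd7a7ce3e7c70950a5c38d3a3cf8b3624c9306440344899b3c58b9f2a74e142264c1044a91ab4cb93af5a956245285420b54a9dbad7afd7bb56a5ca366c50c5ab1ebdd9b7e7cbb726cd38746064e9db36cf9fb76af5e3462e5c3014085831c187871a146041204400 7 127 m)

/-- Generators of a complement in the model. -/
def gm (i : ℕ) : Hm := eh ([18944, 1792].getD i 0)

theorem rep_pm : Rep 128 mq pm := fun i hi j hj => ⟨mq_lt hi hj,
  (by decide +kernel : All 128 fun i => All 128 fun j => pm i * pm j = pm (mq i j)) i hi j hj⟩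

theorem cent_pm {h : Hm} (H : ∀ m < 128, h * pm m = pm m * h) : h = 1 ∨ h = pm 1 := by
  obtain ⟨k, hk, rfl⟩ := mem_Vm.2 (cent_Vm h fun i hi => by
    obtain ⟨m, hm, e⟩ := (by decide +kernel : All 4 fun i => Ex 128 fun m =>
      vm (2 ^ (3 - i)) = pm m) i hi
    exact e ▸ H m hm)
  exact (by decide +kernel : All 16 fun k => (All 128 fun m => vm k * pm m = pm m * vm k) →
    vm k = 1 ∨ vm k = pm 1) k hk H

variable {H : Type*} [Group H] {Q : Subgroup H} {t c a : H} {ψ : ℕ → H} {π : H →* L3}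

theorem Ext.neg {k e : ℕ} (X : Ext Q t c a ψ π k e) : Ext Q t c (t * a) ψ π k e :=
  { X with
    pa := by rw [map_mul, (X.ker t).2 X.xs.mem, one_mul, X.pa]
    cj := fun i hi => ⟨(X.cj i hi).1, by
      rw [mul_assoc, (X.cj i hi).2, ← mul_assoc, ← X.xs.cen, mul_assoc]⟩
    sq := by rw [← X.xs.cen a, mul_assoc, ← mul_assoc t, ← X.xs.cen a, mul_assoc, X.xs.sq, mul_one,
      X.sq] }

theorem Ext.equiv' [Finite H] (X : Ext Q t c a ψ π 0 0) (h3 : a * c * (a * c) * (a * c) = 1) :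
    Nonempty (H ≃* Hm) := by
  let y : ℕ → H × Hm := fun i => (if i = 0 then a else c, gm i)
  have h4 := Ext.four (d := ⟨0, 0, 0, 0, 0, 128⟩) X (by decide +kernel)
  have h1 := card_le y fun w hw => Prod.ext ((map_wval (MonoidHom.fst H Hm) y w).trans (by
      have h5 := X.sq
      have h6 := X.c7
      rw [X.qb.zero] at h4 h5
      simp only [K0, List.mem_cons, List.not_mem_nil, or_false] at hw
      rcases hw with rfl | rfl | rfl | rfl <;> simp [wval, lval, y, ← mul_assoc]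
      · exact h5
      · simpa [pow_succ] using h6
      · simpa only [← mul_assoc] using h3
      · simpa only [← mul_assoc] using h4))
    ((map_wval (MonoidHom.snd H Hm) y w).trans
      ((by decide +kernel : ∀ w ∈ K0, wval gm w = 1) w hw))
  have R : Rep 128 mq fun m => (ψ m, pm m) := fun i hi j hj =>
    ⟨mq_lt hi hj, Prod.ext (X.qb.mul hi hj) (rep_pm i hi j hj).2⟩
  obtain ⟨P, hP⟩ := R.exists_subgroup (by norm_num) (Prod.ext X.qb.zero (show pm 0 = 1 by
    decide +kernel))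
  have h2 : gp y [[0], [2]] ≤ normalizer (P : Set (H × Hm)) := gp_le.2 fun w hw =>
    mem_normalizer_fintype fun x hx => by
      obtain ⟨m, hm, rfl⟩ := (hP x).1 hx
      simp only [List.mem_cons, List.not_mem_nil, or_false] at hw
      rcases hw with rfl | rfl
      · exact (hP _).2 ⟨_, fa_lt 0 m, wval_single y 0 ▸ Prod.ext (X.cj.conj hm).symm
          ((by decide +kernel : All 128 fun m => pm (fa 0 m) = gm 0 * pm m * (gm 0)⁻¹) m hm)⟩
      · exact (hP _).2 ⟨_, fc_lt m, wval_single y 1 ▸ Prod.ext (X.qb.cj.conj hm).symm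
          ((by decide +kernel : All 128 fun m => pm (fc m) = gm 1 * pm m * (gm 1)⁻¹) m hm)⟩
  have h5 : Nat.card P ≤ 128 := (Nat.card_le_card_of_surjective (fun m : Fin 128 =>
    (⟨_, (hP _).2 ⟨m, m.2, rfl⟩⟩ : P)) fun ⟨x, hx⟩ => by
      obtain ⟨m, hm, rfl⟩ := (hP x).1 hx
      exact ⟨⟨m, hm⟩, rfl⟩).trans (Nat.card_fin 128).le
  have h6 : Nat.card (P ⊔ gp y [[0], [2]] : Subgroup _) ≤ 21504 := by
    have := Set.natCard_mul_le (s := (P : Set (H × Hm))) (t := gp y [[0], [2]])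
    rw [← coe_mul_of_right_le_normalizer_left _ _ h2] at this
    exact this.trans ((Nat.mul_le_mul h5 h1.2).trans (by norm_num))
  have h7 : (P ⊔ gp y [[0], [2]]).map (MonoidHom.snd H Hm) = ⊤ := eq_top_of_gens fun i hi => by
    obtain ⟨r, -, r1, r2, r3⟩ := (by decide +kernel : ∀ i ∈ [1, 64, 128, 512, 10752, 15872],
      ∃ r ∈ [(2, []), (96, []), (0, [2, 0, 3]), (0, [2, 2, 0, 3, 3, 3, 0, 2, 2]), (0, [2, 2, 2, 0, 3, 3, 3]), (0, [0, 2, 0, 3, 0, 2, 0, 3])],
        r.1 < 128 ∧ lettersIn [[0], [2]] [r.2] = true ∧ pm r.1 * wval gm r.2 = eh i) i hi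
    exact ⟨_, mul_mem_sup ((hP _).2 ⟨_, r1, rfl⟩) (mem_gp_of_lettersIn r2 _ List.mem_cons_self),
      (congrArg _ (map_wval (MonoidHom.snd H Hm) y _)).trans r3⟩
  obtain ⟨h8, h9⟩ := faithful_of_card (MonoidHom.snd H Hm) ⟨Nat.card_pos.ne', h6⟩ (by
    rw [h7, card_top, card_Hm])
  have h10 : ∀ g ∈ P ⊔ gp y [[0], [2]], ∀ m < 128, g.2 = pm m → g.1 = ψ m := fun g hg m hm e =>
    congrArg Prod.fst (mul_inv_eq_one.1 (h9 _ (mul_mem hg (inv_mem (mem_sup_left
      ((hP _).2 ⟨m, hm, rfl⟩)))) (mul_inv_eq_one.2 e)))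
  let α := (MonoidHom.fst H Hm).comp (P ⊔ gp y [[0], [2]]).subtype
  let β := (MonoidHom.snd H Hm).comp (P ⊔ gp y [[0], [2]]).subtype
  have b1 : Function.Injective β := (injective_iff_map_eq_one _).2 fun x hx =>
    Subtype.ext (h9 x x.2 hx)
  have a1 : Function.Injective α := (injective_iff_map_eq_one _).2 fun x hx => by
    have e : x.1.1 = 1 := hx
    rcases cent_pm (h := x.1.2) fun m hm => by
      obtain ⟨n, hn, h⟩ := (hP _).1 ((mem_normalizer_iff.1 (sup_le le_normalizer h2 x.2) _).1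
        ((hP _).2 ⟨m, hm, rfl⟩))
      obtain rfl := X.qb.inj X.xs hn hm (by simpa [e] using congrArg Prod.fst h)
      exact mul_inv_eq_iff_eq_mul.1 (congrArg Prod.snd h).symm with h | h
    · exact Subtype.ext (Prod.ext e h)
    · exact (X.xs.ne (X.qb.one.symm.trans ((h10 _ x.2 1 (by norm_num) h).symm.trans e))).elim
  exact ⟨(MulEquiv.ofBijective α (a1.bijective_of_nat_card_le (X.card.trans h8.symm).le)).symm.trans
    (MulEquiv.ofBijective β (b1.bijective_of_nat_card_le (card_Hm.trans h8.symm).le))⟩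

theorem Ext.equiv [Finite H] (X : Ext Q t c a ψ π 0 0) : Nonempty (H ≃* Hm) := by
  have h := X.cj.comp X.qb.cj
  rcases X.qb.eq_of_cj X.xs ((h.comp h).comp h) (X.qb.rep.inner X.qb.zero (q := 0) (by norm_num))
    (by decide +kernel) with e | e
  · exact X.equiv' (e.trans X.qb.zero)
  · refine X.neg.equiv' ?_
    rw [X.qb.zero, mul_one] at e
    rw [mul_assoc t a c]
    generalize a * c = u at e
    rw [← pow_three', (show Commute t u from (X.xs.cen u).symm).mul_pow, pow_three', pow_three', e,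
      X.xs.sq, one_mul, X.xs.sq]

theorem isoHe {G : Type*} [Group G] [Finite G] [IsSimpleGroup G] (t : G) (ht : orderOf t = 2)
    (Q : Subgroup (centralizer ({t} : Set G))) [Q.Normal] (hQ : IsExtraspecial 2 Q)
    (hcard : Nat.card Q = 2 ^ 7) (h2c : centralizer (Q : Set (centralizer ({t} : Set G))) ≤ Q)
    (e : centralizer ({t} : Set G) ⧸ Q ≃* L3) (hG : Nat.card G = 4030387200) :
    Nonempty (G ≃* Spor.He) := by
  have h0 : t ∈ centralizer ({t} : Set G) := mem_centralizer_singleton_iff.2 rfl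
  have h1 : t ≠ 1 := by rintro rfl; simp at ht
  have h2 : Nat.card (centralizer ({t} : Set G)) = 21504 := by
    rw [card_eq_card_quotient_mul_card_subgroup Q, Nat.card_congr e.toEquiv, D8Amalg.card_SL3, hcard]
    rfl
  have h3 : (centralizer ({t} : Set G)).index = 187425 := by
    have := (centralizer ({t} : Set G)).card_mul_index
    rw [h2, hG] at this
    omega
  have h4 : ¬ IsIsolated t := fun h => by
    have h5 := ZStar.zstar G t (ht ▸ pow_orderOf_eq_one t) h
    rcases IsSimpleGroup.eq_bot_or_eq_top_of_normal (pPrimeCore 2 G) inferInstance with k | k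
    · rw [(eq_top_iff' _).2 fun g => mem_centralizer_singleton_iff.2 (mul_inv_eq_iff_eq_mul.1
        (mul_inv_eq_one.1 (mem_bot.1 (k ▸ h5 g)))), index_top] at h3
      omega
    · have := PCoreResidual.coprime_card_pPrimeCore 2 G
      rw [k, card_top, hG] at this
      norm_num at this
  obtain ⟨c, a, ψ, k, hk, s, hs, X⟩ := exists_ext (π := e.toMonoidHom.comp (QuotientGroup.mk' Q))
    (xs_of hQ hcard h2c (z := ⟨t, h0⟩) ((orderOf_submonoid _).symm.trans ht) fun g =>
      Subtype.ext (mem_centralizer_singleton_iff.1 g.2))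
    (fun x => (map_eq_one_iff e e.injective).trans (QuotientGroup.eq_one_iff x))
    (e.surjective.comp (QuotientGroup.mk'_surjective Q)) h2
  have h5 : ∀ d : Crt, d.k = k → d.e = s → ¬ (d.Ok ∧ d.Ok1 ∧ d.Ok2) := by
    rintro d rfl rfl ⟨d1, d2, d3⟩
    refine h4 (X.isolated (φ := (centralizer ({t} : Set G)).subtype) d1 Subtype.val_injective
      (fun g hg => ⟨⟨g, mem_centralizer_singleton_iff.2 hg⟩, rfl⟩) d2 d3 ?_)
    simp only [isConj_comm (g := (centralizer ({t} : Set G)).subtype _)]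
    rw [← SmallRecog.index_centralizer]
    exact congrArg (· % 4) h3
  interval_cases k <;> interval_cases s
  · obtain ⟨f⟩ := X.equiv
    obtain ⟨φ, S, rfl⟩ := exists_setup h1 f
    rcases S.cases with h | ⟨⟨h⟩⟩ | ⟨⟨h⟩⟩ | ⟨⟨h⟩⟩ | h
    · exact (h4 fun g hg => S.isolated h (isConj_iff.2 ⟨g, rfl⟩) hg.symm).elim
    · exact absurd ((Nat.card_congr h.toEquiv).trans_le HeldSL.card_St) (by rw [hG]; norm_num)
    · exact absurd ((Nat.card_congr h.toEquiv).trans HeldSL.card_SL5) (by rw [hG]; norm_num)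
    · exact absurd ((Nat.card_congr h.toEquiv).trans M24Ord.card_M24) (by rw [hG]; norm_num)
    · exact h
  · exact (h5 d01 rfl rfl ok01).elim
  · exact (h5 d10 rfl rfl ok10).elim
  · exact (h5 d11 rfl rfl ok11).elim
  · exact (h5 d20 rfl rfl ok20).elim
  · exact (h5 d21 rfl rfl ok21).elim

end Cfsg.Agent.Lib.Hu
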