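import Cfsg.Agent.Lib.HeldPat

/-! Coordinates for an extraspecial group of order `128` with an automorphism of order seven. -/

set_option autoImplicit false
set_option maxRecDepth 100000
set_option Elab.async false

namespace Cfsg.Agent.Lib.Hu

open Cfsg.Agent.Lib.HJModel (force force_eq)
open Subgroup Cfsg.Agent.Lib.HeldModel Cfsg.Agent.Lib.HeldFus

variable {H : Type*} [Group H]

/-- The map `τ` is multiplicative on the numbers below `n`. -/
def Rep (n : ℕ) (mul : ℕ → ℕ → ℕ) (τ : ℕ → H) : Prop :=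
  ∀ i < n, ∀ j < n, mul i j < n ∧ τ i * τ j = τ (mul i j)

/-- Conjugation by `g` in coordinates. -/
def Cj (n N : ℕ) (ρ τ : ℕ → H) (g : H) (f : ℕ → ℕ) : Prop :=
  ∀ i < n, f i < N ∧ g * ρ i = τ (f i) * g

/-- Coordinates for an extension of index two. -/
def ex (n : ℕ) (τ : ℕ → H) (x : H) (i : ℕ) : H := if i < n then τ i else τ (i - n) * x

/-- The multiplication of an extension of index two. -/
def em (n : ℕ) (mul : ℕ → ℕ → ℕ) (α : ℕ → ℕ) (s i j : ℕ) : ℕ := force i fun i => force j fun j =>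
  cond (Nat.blt i n) (cond (Nat.blt j n) (mul i j) (Nat.add (mul i (Nat.sub j n)) n))
    (cond (Nat.blt j n) (Nat.add (mul (Nat.sub i n) (α j)) n)
      (mul (mul (Nat.sub i n) (α (Nat.sub j n))) s))

/-- Conjugation on an extension of index two. -/
def ea (n : ℕ) (mul : ℕ → ℕ → ℕ) (β : ℕ → ℕ) (y i : ℕ) : ℕ := force i fun i =>
  cond (Nat.blt i n) (β i) (mul (β (Nat.sub i n)) y)

section
variable {n N : ℕ} {mul : ℕ → ℕ → ℕ} {ρ τ : ℕ → H} {x g : H} {α β : ℕ → ℕ} {s y i j : ℕ}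

theorem cond_blt {X : Type*} (i n : ℕ) (a b : X) :
    cond (Nat.blt i n) a b = if i < n then a else b := by
  rw [Bool.cond_eq_ite]
  exact if_congr (by rw [Nat.blt_eq]) rfl rfl

theorem em_eq : em n mul α s i j = if i < n then (if j < n then mul i j else mul i (j - n) + n)
    else if j < n then mul (i - n) (α j) + n else mul (mul (i - n) (α (j - n))) s := by
  simp only [em, force_eq, cond_blt]
  rfl

theorem ea_eq : ea n mul β y i = if i < n then β i else mul (β (i - n)) y := by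
  simp only [ea, force_eq, cond_blt]
  rfl

theorem ex_lt (h : i < n) : ex n τ x i = τ i := if_pos h

theorem ex_add : ex n τ x (i + n) = τ i * x := by
  rw [ex, if_neg (by omega), Nat.add_sub_cancel]

theorem cases_lt {P : ℕ → Prop} (h1 : ∀ i < n, P i) (h2 : ∀ i < n, P (i + n)) :
    ∀ i < n + n, P i := fun i hi => by
  by_cases h : i < n
  · exact h1 i h
  · rw [← Nat.sub_add_cancel (not_lt.1 h)]
    exact h2 _ (by omega)

theorem Rep.ext (R : Rep n mul τ) (h : Cj n n τ τ x α) (hs : s < n) (hx : x * x = τ s) :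
    Rep (n + n) (em n mul α s) (ex n τ x) := by
  refine cases_lt (fun i hi => cases_lt (fun j hj => ?_) fun j hj => ?_)
    fun i hi => cases_lt (fun j hj => ?_) fun j hj => ?_
  all_goals simp only [em_eq, hi, hj, if_true, Nat.add_sub_cancel, ex_add, ex_lt,
    show ∀ k, ¬ k + n < n from fun k => by omega, if_false]
  · obtain ⟨h1, h2⟩ := R i hi j hj
    exact ⟨by omega, by rw [ex_lt h1, h2]⟩
  · obtain ⟨h1, h2⟩ := R i hi j hj
    exact ⟨by omega, by rw [← mul_assoc, h2]⟩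
  · obtain ⟨h1, h2⟩ := R i hi _ (h j hj).1
    exact ⟨by omega, by rw [mul_assoc, (h j hj).2, ← mul_assoc, h2]⟩
  · obtain ⟨h1, h2⟩ := R i hi _ (h j hj).1
    obtain ⟨h3, h4⟩ := R _ h1 _ hs
    exact ⟨by omega, by rw [ex_lt h3, ← h4, ← h2, ← hx, mul_assoc, ← mul_assoc x, (h j hj).2,
      mul_assoc, mul_assoc]⟩

theorem Rep.cj (R : Rep N mul τ) (h : Cj n N ρ τ g β) (hy : y < N) (hx : g * x = τ y * g) :
    Cj (n + n) N (ex n ρ x) τ g (ea n mul β y) := by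
  refine cases_lt (fun i hi => ?_) fun i hi => ?_
  all_goals simp only [ea_eq, hi, if_true, Nat.add_sub_cancel, ex_add, ex_lt,
    show ∀ k, ¬ k + n < n from fun k => by omega, if_false]
  · exact h i hi
  · obtain ⟨h1, h2⟩ := R _ (h i hi).1 _ hy
    exact ⟨h1, by rw [← mul_assoc, (h i hi).2, mul_assoc, hx, ← mul_assoc, h2]⟩

theorem Cj.ex (h : Cj n N ρ τ g β) : Cj n (N + N) ρ (ex N τ x) g β := fun i hi =>
  ⟨(h i hi).1.trans_le (Nat.le_add_right _ _), by rw [ex_lt (h i hi).1, (h i hi).2]⟩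

theorem Cj.comp {g' : H} {β' : ℕ → ℕ} (h : Cj n n τ τ g β) (h' : Cj n n τ τ g' β') :
    Cj n n τ τ (g * g') fun i => β (β' i) := fun i hi =>
  ⟨(h _ (h' i hi).1).1, by rw [mul_assoc, (h' i hi).2, ← mul_assoc, (h _ (h' i hi).1).2, mul_assoc]⟩

theorem Cj.inv {β' : ℕ → ℕ} (h : Cj n n τ τ g β) (h' : All n fun i => β' i < n ∧ β (β' i) = i) :
    Cj n n τ τ g⁻¹ β' := fun i hi => ⟨(h' i hi).1, by
  have := (h _ (h' i hi).1).2
  rw [(h' i hi).2] at this
  rw [inv_mul_eq_iff_eq_mul, ← mul_assoc, this, mul_inv_cancel_right]⟩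

theorem Cj.congr {β' : ℕ → ℕ} (h : Cj n N ρ τ g β) (h' : All n fun i => β i = β' i) :
    Cj n N ρ τ g β' := fun i hi => (show β i = β' i from h' i hi) ▸ h i hi

theorem Cj.conj (h : Cj n N ρ τ g β) (hi : i < n) : g * ρ i * g⁻¹ = τ (β i) := by
  rw [(h i hi).2, mul_inv_cancel_right]

end

/-- The parity of the three lowest bits. -/
def par (x : ℕ) : ℕ := Nat.land (Nat.shiftRight 150 (Nat.land x 7)) 1

/-- The multiplication of the extraspecial group. -/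
def mq (m n : ℕ) : ℕ := force m fun m => force n fun n =>
  Nat.xor (Nat.xor m n) (par (Nat.land (Nat.shiftRight m 4) (Nat.shiftRight n 1)))

/-- Coordinates given by a list of generators. -/
def tw : List H → ℕ → H
  | [] => fun _ => 1
  | x :: l => ex (2 ^ l.length) (tw l) x

/-- Conjugation given by the images of the generators. -/
def ta : List ℕ → ℕ → ℕ := List.rec (fun _ => 0) fun y l ih => ea (2 ^ l.length) mq ih y

theorem tw_zero (l : List H) : tw l 0 = 1 := by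
  induction l with
  | nil => rfl
  | cons x l ih => exact (ex_lt (by positivity)).trans ih

theorem Rep.cj_tw {N : ℕ} {τ : ℕ → H} (R : Rep N mq τ) (h0 : 0 < N) (h1 : τ 0 = 1) {g : H}
    {l : List H} {ys : List ℕ} (h : List.Forall₂ (fun x y => y < N ∧ g * x = τ y * g) l ys) :
    Cj (2 ^ l.length) N (tw l) τ g (ta ys) := by
  induction h with
  | nil => exact fun i _ => ⟨h0, by simp [tw, ta, h1]⟩
  | @cons x y l ys h1 h2 ih =>
    have := R.cj ih h1.1 h1.2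
    rw [← two_mul, ← pow_succ', h2.length_eq] at this
    rw [List.length_cons, tw, h2.length_eq]
    exact this

theorem Rep.step {l : List H} (R : Rep (2 ^ l.length) mq (tw l)) {x : H} (hx : x * x = 1)
    (ys : List ℕ) (h : List.Forall₂ (fun a y => y < 2 ^ l.length ∧ x * a = tw l y * x) l ys)
    (hm : All (2 ^ (ys.length + 1)) fun i => All (2 ^ (ys.length + 1)) fun j =>
      em (2 ^ ys.length) mq (ta ys) 0 i j = mq i j) : Rep (2 ^ (x :: l).length) mq (tw (x :: l)) := by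
  have := R.ext (R.cj_tw (by positivity) (tw_zero l) h) (by positivity) (hx.trans (tw_zero l).symm)
  rw [← two_mul, ← pow_succ'] at this
  rw [← h.length_eq] at hm
  exact fun i hi j hj => (show _ = mq i j from hm i hi j hj) ▸ this i hi j hj

theorem rep_tw {z w0 w1 w2 u0 u1 u2 : H} (hz : ∀ g, g * z = z * g) (s0 : z * z = 1)
    (s1 : w0 * w0 = 1) (s2 : w1 * w1 = 1) (s3 : w2 * w2 = 1) (s4 : u0 * u0 = 1) (s5 : u1 * u1 = 1)
    (s6 : u2 * u2 = 1) (a1 : w1 * w0 = w0 * w1) (a2 : w2 * w0 = w0 * w2) (a3 : w2 * w1 = w1 * w2)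
    (b1 : u1 * u0 = u0 * u1) (b2 : u2 * u0 = u0 * u2) (b3 : u2 * u1 = u1 * u2)
    (c0 : u0 * w0 = z * (w0 * u0)) (c1 : u0 * w1 = w1 * u0) (c2 : u0 * w2 = w2 * u0)
    (d0 : u1 * w0 = w0 * u1) (d1 : u1 * w1 = z * (w1 * u1)) (d2 : u1 * w2 = w2 * u1)
    (e0 : u2 * w0 = w0 * u2) (e1 : u2 * w1 = w1 * u2) (e2 : u2 * w2 = z * (w2 * u2)) :
    Rep 128 mq (tw [u2, u1, u0, w2, w1, w0, z]) := by
  have R0 : Rep (2 ^ ([] : List H).length) mq (tw ([] : List H)) := fun i hi j hj => by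
    obtain rfl : i = 0 := by simpa using hi
    obtain rfl : j = 0 := by simpa using hj
    exact ⟨show mq 0 0 < 1 by decide +kernel, mul_one 1⟩
  have R1 := R0.step s0 [] .nil (by decide +kernel)
  have R2 := R1.step s1 [1] (by simp [tw, ex, hz]) (by decide +kernel)
  have R3 := R2.step s2 [2, 1] (by simp [tw, ex, hz, a1]) (by decide +kernel)
  have R4 := R3.step s3 [4, 2, 1] (by simp [tw, ex, hz, a2, a3]) (by decide +kernel)
  have R5 := R4.step s4 [8, 4, 3, 1] (by simp [tw, ex, hz u0, c0, c1, c2, mul_assoc])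
    (by decide +kernel)
  have R6 := R5.step s5 [16, 8, 5, 2, 1] (by simp [tw, ex, hz u1, b1, d0, d1, d2, mul_assoc])
    (by decide +kernel)
  exact R6.step s6 [32, 16, 9, 4, 2, 1] (by simp [tw, ex, hz u2, b2, b3, e0, e1, e2, mul_assoc])
    (by decide +kernel)

/-- The data of an extraspecial group of order `128` with central involution `z`. -/
structure Xs (Q : Subgroup H) (z : H) : Prop where
  card : Nat.card Q = 128
  mem : z ∈ Q
  ne : z ≠ 1
  sq : z * z = 1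
  cen : ∀ g, g * z = z * g
  eq_of : ∀ g, (∀ r ∈ Q, r * g = g * r) → g = 1 ∨ g = z
  comm : ∀ q ∈ Q, ∀ r ∈ Q, q * r = r * q ∨ q * r = z * (r * q)
  normal : Q.Normal

theorem xs_of [Finite H] {Q : Subgroup H} [Q.Normal] (hQ : Cfsg.IsExtraspecial 2 Q)
    (hc : Nat.card Q = 2 ^ 7) (hC : centralizer (Q : Set H) ≤ Q) {z : H} (hz : orderOf z = 2)
    (hzc : ∀ g, g * z = z * g) : Xs Q z := by
  have hzQ : z ∈ Q := hC fun g _ => hzc g
  have hz1 : z ≠ 1 := by rintro rfl; simp at hz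
  have key : ∀ g : Q, g ∈ center Q → (g : H) = 1 ∨ (g : H) = z := by
    intro g hg
    obtain ⟨y, -, hy⟩ := (Nat.card_eq_two_iff' (1 : center Q)).mp hQ.2
    have h1 := hy ⟨⟨z, hzQ⟩, mem_center_iff.mpr fun r => Subtype.ext (hzc r)⟩
      fun h => hz1 (congrArg (fun x : center Q => ((x : Q) : H)) h)
    by_cases h : (⟨g, hg⟩ : center Q) = 1
    · exact Or.inl (congrArg (fun x : center Q => ((x : Q) : H)) h)
    · exact Or.inr (congrArg (fun x : center Q => ((x : Q) : H)) ((hy _ h).trans h1.symm))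
  refine ⟨hc, hzQ, hz1, by rw [← sq, ← hz, pow_orderOf_eq_one], hzc, fun g hg => ?_,
    fun q hq r hr => ?_, inferInstance⟩
  · exact key ⟨g, hC hg⟩ (mem_center_iff.mpr fun r => Subtype.ext (hg r r.2))
  · have h1 := commutator_mem_commutator (mem_top (⟨q, hq⟩ : Q)) (mem_top (⟨r, hr⟩ : Q))
    rw [← commutator_def, hQ.1.2.2] at h1
    rcases key _ h1 with h | h
    · left
      change q * r * q⁻¹ * r⁻¹ = 1 at h
      rw [← one_mul (r * q), ← h]; group
    · right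
      change q * r * q⁻¹ * r⁻¹ = z at h
      rw [← h]; group

open Classical in
/-- The commutator form. -/
noncomputable def B (x y : H) : ZMod 2 := if x * y = y * x then 0 else 1

/-- Conjugation by a power of `c`. -/
def pc (c : H) (k : ℕ) (x : H) : H := c ^ k * x * (c ^ k)⁻¹

/-- The elements annihilated by the polynomial `1 + X + X ^ 3`. -/
def W1 (Q : Subgroup H) (c w : H) : Prop :=
  w ∈ Q ∧ ∀ r ∈ Q, B (pc c 3 w) r = B w r + B (pc c 1 w) r

/-- An idempotent. -/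
def th (c g : H) : H := g * pc c 1 g * pc c 2 g * pc c 4 g

section
variable {c x y w : H} {i j k : ℕ}

theorem B_eq_zero : B x y = 0 ↔ x * y = y * x := by
  unfold B
  split_ifs with h <;> simp [h]

theorem B_comm (x y : H) : B x y = B y x := by
  classical exact if_congr eq_comm rfl rfl

theorem B_conj (g x y : H) : B (g * x * g⁻¹) (g * y * g⁻¹) = B x y := by
  classical exact if_congr (by rw [conj_mul, conj_mul, mul_left_inj, mul_right_inj]) rfl rfl

theorem pc_pc (i j : ℕ) (x : H) : pc c i (pc c j x) = pc c (i + j) x := by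
  simp only [pc, pow_add]
  group

theorem pc_mul (k : ℕ) (x y : H) : pc c k (x * y) = pc c k x * pc c k y := conj_mul.symm

theorem pc_zero (x : H) : pc c 0 x = x := by simp [pc]

theorem pc_one (x : H) : pc c 1 x = c * x * c⁻¹ := by rw [pc, pow_one]

theorem pc_seven (hc : c ^ 7 = 1) (k : ℕ) (x : H) : pc c (k + 7) x = pc c k x := by
  rw [pc, pow_add, hc, mul_one, pc]

theorem B_pc (k : ℕ) (x y : H) : B (pc c k x) (pc c k y) = B x y := B_conj _ _ _

theorem B_inv (i j : ℕ) (x y : H) : B (pc c i x) (pc c⁻¹ j y) = B (pc c (j + i) x) y := by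
  rw [← B_pc (c := c) j, pc_pc]
  congr 1
  simp only [pc, inv_pow]
  group

end

namespace Xs

variable {Q : Subgroup H} {z : H} (E : Xs Q z) {c x y w : H}
include E

theorem pc_mem (k : ℕ) (hx : x ∈ Q) : pc c k x ∈ Q := E.normal.conj_mem _ hx _

theorem pc_z (k : ℕ) : pc c k z = z := by rw [pc, E.cen, mul_inv_cancel_right]

theorem of_one (hx : x ∈ Q) (hy : y ∈ Q) (h : B x y = 1) : x * y = z * (y * x) :=
  (E.comm x hx y hy).resolve_left fun e => by simp [B_eq_zero.2 e] at h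

theorem B_one (h : x * y = z * (y * x)) : B x y = 1 :=
  if_neg fun e => E.ne (by simpa [e] using h.symm)

theorem B_mul (hx : x ∈ Q) (hy : y ∈ Q) (hw : w ∈ Q) : B (x * y) w = B x w + B y w := by
  rcases E.comm x hx w hw with h | h <;> rcases E.comm y hy w hw with k | k
  · rw [B_eq_zero.2 h, B_eq_zero.2 k, B_eq_zero.2 (by rw [mul_assoc, k, ← mul_assoc, h, mul_assoc])]
    rfl
  · rw [B_eq_zero.2 h, E.B_one k, E.B_one (by
      rw [mul_assoc, k, ← mul_assoc, E.cen, mul_assoc, ← mul_assoc x, h, mul_assoc])]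
    rfl
  · rw [E.B_one h, B_eq_zero.2 k, E.B_one (by rw [mul_assoc, k, ← mul_assoc, h]; group)]
    rfl
  · rw [E.B_one h, E.B_one k, B_eq_zero.2 (by
      rw [mul_assoc, k, ← mul_assoc, E.cen, mul_assoc, ← mul_assoc x, h, ← mul_assoc, ← mul_assoc,
        E.sq, one_mul, mul_assoc])]
    rfl

theorem B_z (x y : H) : B (z * x) y = B x y := by
  classical
  exact if_congr (by rw [← mul_assoc y, E.cen y, mul_assoc, mul_assoc, mul_right_inj]) rfl rfl

theorem eq_of_B (hx : x ∈ Q) (hy : y ∈ Q) (h : ∀ r ∈ Q, B x r = B y r) : x = y ∨ x = z * y := by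
  have := E.eq_of (x * y⁻¹) fun r hr => (B_eq_zero.1 (by
    have h1 := E.B_mul (mul_mem hx (inv_mem hy)) hy hr
    rw [inv_mul_cancel_right, h r hr] at h1
    exact left_eq_add.1 (h1.trans (add_comm _ _)))).symm
  exact this.imp mul_inv_eq_one.1 mul_inv_eq_iff_eq_mul.1

theorem sq_mem (hx : x ∈ Q) : x * x = 1 ∨ x * x = z := by
  simpa using E.eq_of_B (mul_mem hx hx) (one_mem Q) fun r hr => by
    rw [E.B_mul hx hx hr, CharTwo.add_self_eq_zero, B_eq_zero.2 (by simp)]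

theorem th_mem (hx : x ∈ Q) : th c x ∈ Q :=
  mul_mem (mul_mem (mul_mem hx (E.pc_mem _ hx)) (E.pc_mem _ hx)) (E.pc_mem _ hx)

theorem B_th (k : ℕ) (hx : x ∈ Q) (hy : y ∈ Q) : B (pc c k (th c x)) y = B (pc c k x) y +
    B (pc c (k + 1) x) y + B (pc c (k + 2) x) y + B (pc c (k + 4) x) y := by
  have h := fun k => E.pc_mem (c := c) k hx
  simp only [th, pc_mul, pc_pc]
  rw [E.B_mul (mul_mem (mul_mem (h _) (h _)) (h _)) (h _) hy, E.B_mul (mul_mem (h _) (h _)) (h _) hy,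
    E.B_mul (h _) (h _) hy]

theorem w1_th (hc : c ^ 7 = 1) (hx : x ∈ Q) : W1 Q c (th c x) := ⟨E.th_mem hx, fun r hr => by
  rw [← pc_zero (c := c) (th c x), pc_pc, pc_pc, E.B_th _ hx hr, E.B_th _ hx hr, E.B_th _ hx hr,
    pc_seven hc 0]
  norm_num
  generalize B (pc c 0 x) r = a0, B (pc c 1 x) r = a1, B (pc c 2 x) r = a2, B (pc c 3 x) r = a3,
    B (pc c 4 x) r = a4, B (pc c 5 x) r = a5
  revert a0 a1 a2 a3 a4 a5
  decide⟩

theorem w1_rec (h : W1 Q c w) (hy : y ∈ Q) (k : ℕ) :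
    B (pc c (k + 3) w) y = B (pc c k w) y + B (pc c (k + 1) w) y := by
  have := h.2 _ (E.pc_mem (c := c⁻¹) k hy)
  rwa [B_inv, B_inv, ← pc_zero (c := c) w, B_inv, pc_zero] at this

theorem w1_pc (h : W1 Q c w) (k : ℕ) : W1 Q c (pc c k w) := ⟨E.pc_mem _ h.1, fun r hr => by
  rw [pc_pc, pc_pc, add_comm 3, add_comm 1, E.w1_rec h hr]⟩

theorem exists_pair (hc : c ^ 7 = 1) (hc1 : c ≠ 1) :
    ∃ w v, W1 Q c w ∧ W1 Q c⁻¹ v ∧ B w v = 1 := by
  have hc' : c⁻¹ ^ 7 = 1 := by rw [inv_pow, hc, inv_one]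
  by_contra h
  push Not at h
  have h1 : ∀ x ∈ Q, ∀ y ∈ Q, ∀ k, B (pc c k x) y + B (pc c (k + 1) x) y + B (pc c (k + 2) x) y +
      B (pc c (k + 4) x) y = 0 := fun x hx y hy k => by
    have h1 := E.w1_pc (E.w1_th hc hx) k
    have h2 := h _ _ h1 (E.w1_th hc' hy)
    have h3 := E.w1_rec h1 hy 1
    rw [B_comm, ← pc_zero (c := c⁻¹) (th c⁻¹ y), E.B_th _ hy h1.1] at h2
    rw [← E.B_th k hx hy]
    simp only [B_comm _ (pc c k _)] at h2
    rw [← pc_zero (c := c) (pc c k _), B_inv, B_inv, B_inv, B_inv, h3, pc_zero] at h2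
    revert h2
    norm_num
    generalize B (pc c k (th c x)) y = a, B (pc c 1 (pc c k (th c x))) y = a1,
      B (pc c 2 (pc c k (th c x))) y = a2
    revert a a1 a2
    decide
  have h2 : ∀ x ∈ Q, ∀ y ∈ Q, B (pc c 1 x) y = B x y := fun x hx y hy => by
    have k : ∀ i j, B (pc c i y) (pc c (i + j) x) = B (pc c j x) y := fun i j => by
      rw [← pc_pc, B_pc, B_comm]
    have e0 := h1 x hx y hy 0
    have e1 := h1 x hx y hy 1
    have f0 := h1 y hy _ (E.pc_mem (c := c) 7 hx) 0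
    have f1 := h1 y hy _ (E.pc_mem (c := c) 8 hx) 0
    rw [k 0 7, k (0 + 1) 6, k (0 + 2) 5, k (0 + 4) 3, pc_seven hc 0] at f0
    rw [k 0 8, k (0 + 1) 7, k (0 + 2) 6, k (0 + 4) 4, pc_seven hc 0, pc_seven hc 1] at f1
    rw [← pc_zero (c := c) x, pc_pc]
    revert e0 e1 f0 f1
    norm_num
    generalize B (pc c 0 x) y = a0, B (pc c 1 x) y = a1, B (pc c 2 x) y = a2, B (pc c 3 x) y = a3,
      B (pc c 4 x) y = a4, B (pc c 5 x) y = a5, B (pc c 6 x) y = a6
    revert a0 a1 a2 a3 a4 a5 a6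
    decide
  have h3 : c ^ 2 * c ^ 2 = 1 := by
    rcases E.eq_of (c ^ 2) fun r hr => (mul_inv_eq_iff_eq_mul.1 (show pc c (1 + 1) r = r by
      rw [← pc_pc]
      rcases E.eq_of_B (E.pc_mem 1 hr) hr (h2 r hr) with h | h
      · rw [h, h]
      · rw [h, pc_mul, E.pc_z, h, ← mul_assoc, E.sq, one_mul])).symm with h | h
    · rw [h, one_mul]
    · rw [h, E.sq]
  exact hc1 (by rw [← one_mul c, ← hc, ← pow_succ, show 7 + 1 = 2 + 2 + (2 + 2) from rfl, pow_add,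
    pow_add, h3, one_mul, hc])

theorem exists_shift (h : W1 Q c w) (hy : y ∈ Q) (h1 : B w y = 1) :
    ∃ k, B (pc c k w) y = 1 ∧ B (pc c (k + 1) w) y = 0 ∧ B (pc c (k + 2) w) y = 0 := by
  have r := E.w1_rec h hy
  rw [← pc_zero (c := c) w] at h1
  rcases (by decide : ∀ a : ZMod 2, a = 0 ∨ a = 1) (B (pc c 1 w) y) with h2 | h2 <;>
    rcases (by decide : ∀ a : ZMod 2, a = 0 ∨ a = 1) (B (pc c 2 w) y) with h3 | h3
  · exact ⟨0, h1, h2, h3⟩
  · exact ⟨4, by rw [r 1, h2, h3]; rfl, by rw [r 2, r 0, h1, h2, h3]; rfl,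
      by rw [r 3, r 1, r 0, h1, h2, h3]; rfl⟩
  · exact ⟨1, h2, h3, by rw [r 0, h1, h2]; rfl⟩
  · exact ⟨2, h3, by rw [r 0, h1, h2]; rfl, by rw [r 1, h2, h3]; rfl⟩

theorem exists_norm (hc : c ^ 7 = 1) (h : W1 Q c w) : ∃ w', W1 Q c w' ∧
    (∀ k r, B (pc c k w') r = B (pc c k w) r) ∧ pc c 3 w' = pc c 0 w' * pc c 1 w' ∧
      (∀ k, pc c k w' * pc c k w' = 1) ∧ pc c 1 w' * pc c 0 w' = pc c 0 w' * pc c 1 w' ∧
      pc c 2 w' * pc c 0 w' = pc c 0 w' * pc c 2 w' ∧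
      pc c 2 w' * pc c 1 w' = pc c 1 w' * pc c 2 w' := by
  obtain ⟨w', h1, h2, h3⟩ : ∃ w', W1 Q c w' ∧ (∀ k r, B (pc c k w') r = B (pc c k w) r) ∧
      pc c 3 w' = w' * pc c 1 w' := by
    rcases E.eq_of_B (E.pc_mem 3 h.1) (mul_mem h.1 (E.pc_mem 1 h.1)) fun r hr => by
      rw [h.2 r hr, E.B_mul h.1 (E.pc_mem 1 h.1) hr] with e | e
    · exact ⟨w, h, fun _ _ => rfl, e⟩
    · refine ⟨z * w, ⟨mul_mem E.mem h.1, fun r hr => ?_⟩, fun k r => ?_, ?_⟩
      · simp only [pc_mul, E.pc_z, E.B_z, h.2 r hr]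
      · rw [pc_mul, E.pc_z, E.B_z]
      · rw [pc_mul, pc_mul, E.pc_z, E.pc_z, e, mul_assoc, ← mul_assoc w, E.cen w, mul_assoc]
  have r := E.w1_rec h1 h1.1
  have k : ∀ i j, i + j = 0 + 7 → B (pc c i w') w' = B (pc c j w') w' := fun i j e => by
    rw [← B_pc (c := c) j, pc_pc, add_comm j, e, pc_seven hc, pc_zero, B_comm]
  have k1 := k 6 1 rfl
  have k2 := k 5 2 rfl
  rw [r 3, r 1, r 0, pc_zero, B_eq_zero.2 rfl] at k1
  rw [r 2, r 0, pc_zero, B_eq_zero.2 rfl] at k2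
  have h4 : B (pc c 1 w') w' = 0 := by simpa using k2
  have h5 : B (pc c 2 w') w' = 0 := by simpa [h4] using k1
  have h6 : w' * w' = 1 := (E.sq_mem h1.1).resolve_right fun e => E.ne (by
    rw [← E.pc_z (c := c) 3, ← e, pc_mul, h3, mul_assoc, ← mul_assoc (pc c 1 w'), B_eq_zero.1 h4,
      mul_assoc, ← pc_mul, ← mul_assoc, e, E.pc_z, E.sq])
  refine ⟨w', h1, h2, by rw [pc_zero, h3], fun k => by rw [← pc_mul, h6]; simp [pc], ?_, ?_,
    B_eq_zero.1 (by rw [← pc_pc 1 1, B_pc, h4])⟩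
  · rw [pc_zero, B_eq_zero.1 h4]
  · rw [pc_zero, B_eq_zero.1 h5]

end Xs

/-- The action of the element of order seven. -/
def fc : ℕ → ℕ := lin [1, 4, 8, 6, 48, 64, 16]

/-- The action of its inverse. -/
def fd : ℕ → ℕ := lin [1, 10, 2, 4, 64, 80, 32]

/-- The inverse in the extraspecial group. -/
def iq (m : ℕ) : ℕ := mq m (mq m m)

/-- Coordinates adapted to the element `c` of order seven. -/
structure QB (Q : Subgroup H) (z c : H) (ψ : ℕ → H) : Prop where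
  rep : Rep 128 mq ψ
  zero : ψ 0 = 1
  one : ψ 1 = z
  mem : ∀ x, x ∈ Q ↔ ∃ m < 128, ψ m = x
  cj : Cj 128 128 ψ ψ c fc

theorem mq_lt {m n : ℕ} (hm : m < 128) (hn : n < 128) : mq m n < 128 :=
  (by decide +kernel : All 128 fun m => All 128 fun n => mq m n < 128) m hm n hn

theorem iq_spec : All 128 fun m => iq m < 128 ∧ mq m (iq m) = 0 := by decide +kernel

section
variable {ψ : ℕ → H} (R : Rep 128 mq ψ) (h0 : ψ 0 = 1)
include R h0

theorem Rep.iq_eq {m : ℕ} (hm : m < 128) : ψ (iq m) = (ψ m)⁻¹ :=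
  eq_inv_of_mul_eq_one_right (by rw [(R m hm _ (iq_spec m hm).1).2, (iq_spec m hm).2, h0])

theorem Rep.inj (h1 : ψ 1 ≠ 1) {m n : ℕ} (hm : m < 128) (hn : n < 128) (h : ψ m = ψ n) : m = n := by
  have key : ∀ m < 128, ψ m = 1 → m = 0 := fun m hm h => by
    rcases (by decide +kernel : All 128 fun m => m = 0 ∨ m = 1 ∨ Ex 128 fun n =>
      mq m n = mq (mq n m) 1) m hm with e | rfl | ⟨n, hn, e⟩
    · exact e
    · exact (h1 h).elim
    · have := congrArg ψ e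
      rw [← (R m hm n hn).2, ← (R _ (mq_lt hn hm) 1 (by norm_num)).2, ← (R n hn m hm).2, h] at this
      exact (h1 (by simpa using this)).elim
  exact (by decide +kernel : All 128 fun m => All 128 fun n => mq m (iq n) = 0 → m = n) m hm n hn
    (key _ (mq_lt hm (iq_spec n hn).1) (by
      rw [← (R m hm _ (iq_spec n hn).1).2, R.iq_eq h0 hn, h, mul_inv_cancel]))

theorem Rep.basis {g : H} (f : ℕ → ℕ) (h : ∀ i < 7, f (2 ^ i) < 128 ∧
    g * ψ (2 ^ i) = ψ (f (2 ^ i)) * g) :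
    Cj 128 128 ψ ψ g (ta [f 64, f 32, f 16, f 8, f 4, f 2, f 1]) := fun m hm => by
  have h1 := (R.cj_tw (by norm_num) h0 (g := 1) (l := [ψ 64, ψ 32, ψ 16, ψ 8, ψ 4, ψ 2, ψ 1])
    (ys := [64, 32, 16, 8, 4, 2, 1]) (by simp) m hm).2
  rw [show ta [64, 32, 16, 8, 4, 2, 1] m = m from
    (by decide +kernel : All 128 fun m => ta [64, 32, 16, 8, 4, 2, 1] m = m) m hm, one_mul,
    mul_one] at h1
  exact h1 ▸ R.cj_tw (by norm_num) h0 (l := [ψ 64, ψ 32, ψ 16, ψ 8, ψ 4, ψ 2, ψ 1])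
    (.cons (h 6 (by norm_num)) (.cons (h 5 (by norm_num)) (.cons (h 4 (by norm_num))
      (.cons (h 3 (by norm_num)) (.cons (h 2 (by norm_num)) (.cons (h 1 (by norm_num))
        (.cons (h 0 (by norm_num)) .nil))))))) m hm

theorem Rep.inner {q : ℕ} (hq : q < 128) :
    Cj 128 128 ψ ψ (ψ q) fun m => mq (mq q m) (iq q) := fun m hm =>
  ⟨mq_lt (mq_lt hq hm) (iq_spec q hq).1, by
    rw [← (R _ (mq_lt hq hm) _ (iq_spec q hq).1).2, ← (R q hq m hm).2, R.iq_eq h0 hq,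
      inv_mul_cancel_right]⟩

end

theorem tw_mem {Q : Subgroup H} {l : List H} (h : ∀ x ∈ l, x ∈ Q) (m : ℕ) : tw l m ∈ Q := by
  induction l generalizing m with
  | nil => exact one_mem Q
  | cons x l ih =>
    have h1 := ih fun y hy => h y (List.mem_cons_of_mem _ hy)
    unfold tw ex
    split_ifs
    exacts [h1 _, mul_mem (h1 _) (h x List.mem_cons_self)]

theorem Xs.mk_QB [Finite H] {Q : Subgroup H} {z c : H} (E : Xs Q z) {ψ : ℕ → H} (R : Rep 128 mq ψ)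
    (h0 : ψ 0 = 1) (h1 : ψ 1 = z) (h2 : ∀ m, ψ m ∈ Q) (h3 : Cj 128 128 ψ ψ c fc) : QB Q z c ψ := by
  refine ⟨R, h0, h1, fun x => ⟨fun hx => ?_, fun ⟨m, _, e⟩ => e ▸ h2 m⟩, h3⟩
  obtain ⟨m, hm⟩ := (Function.Injective.bijective_of_nat_card_le (f := fun m : Fin 128 =>
    (⟨_, h2 m⟩ : Q)) (fun a b h => Fin.ext (R.inj h0 (h1 ▸ E.ne) a.2 b.2 (congrArg Subtype.val h)))
      (by rw [E.card, Nat.card_fin])).2 ⟨x, hx⟩
  exact ⟨m, m.2, congrArg Subtype.val hm⟩

theorem Xs.exists_QB [Finite H] {Q : Subgroup H} {z : H} (E : Xs Q z) {c : H} (hc : c ^ 7 = 1)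
    (hc1 : c ≠ 1) : ∃ ψ, QB Q z c ψ := by
  obtain ⟨w', v', h1, h2, h3⟩ := E.exists_pair hc hc1
  obtain ⟨k, k0, k1, k2⟩ := E.exists_shift h1 h2.1 h3
  obtain ⟨w, w1, w2, w3, w4, w5, w6, w7⟩ := E.exists_norm hc (E.w1_pc h1 k)
  obtain ⟨v, v1, v2, v3, v4, v5, v6, v7⟩ := E.exists_norm (by rw [inv_pow, hc, inv_one]) h2
  have hs : ∀ i j, B (pc c⁻¹ j v) (pc c i w) = B (pc c (k + (j + i)) w') v' := fun i j => by
    rw [v2, B_comm, w2, B_inv, pc_pc, add_comm]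
  have k3 : B (pc c (k + 3) w') v' = 1 := by rw [E.w1_rec h1 h2.1, k0, k1]; rfl
  have k4 : B (pc c (k + 4) w') v' = 0 := by rw [E.w1_rec h1 h2.1 (k + 1), k1, k2]; rfl
  have hw := fun i => E.pc_mem (c := c) i w1.1
  have hv := fun i => E.pc_mem (c := c⁻¹) i v1.1
  have R := rep_tw E.cen E.sq (w4 0) (w4 1) (w4 2) (v4 0) (v4 2) (v4 1) w5 w6 w7 v6 v5 v7.symm
    (E.of_one (hv _) (hw _) ((hs 0 0).trans k0)) (B_eq_zero.1 ((hs 1 0).trans k1))
    (B_eq_zero.1 ((hs 2 0).trans k2)) (B_eq_zero.1 ((hs 0 2).trans k2))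
    (E.of_one (hv _) (hw _) ((hs 1 2).trans k3)) (B_eq_zero.1 ((hs 2 2).trans k4))
    (B_eq_zero.1 ((hs 0 1).trans k1)) (B_eq_zero.1 ((hs 1 1).trans k2))
    (E.of_one (hv _) (hw _) ((hs 2 1).trans k3))
  have a1 : ∀ i x, c * pc c i x = pc c (1 + i) x * c := fun i x => by
    rw [← pc_pc, pc_one, inv_mul_cancel_right]
  have a2 : ∀ i x, c * pc c⁻¹ (1 + i) x = pc c⁻¹ i x * c := fun i x => by
    rw [← pc_pc, pc_one]
    group
  have a3 : c * pc c⁻¹ 0 v = pc c⁻¹ 0 v * pc c⁻¹ 2 v * c := by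
    have := a2 2 v
    rw [v3, ← mul_assoc, ← mul_inv_cancel_right (c * _) c⁻¹, inv_inv, mul_assoc _ c, a2 0, ← mul_assoc,
      mul_left_inj, ← eq_mul_inv_iff_mul_eq, HeldGen.inv_eq_of_sq (v4 0), v6] at this
    rw [← this, inv_mul_cancel_right]
  have h0 := tw_zero [pc c⁻¹ 1 v, pc c⁻¹ 2 v, pc c⁻¹ 0 v, pc c 2 w, pc c 1 w, pc c 0 w, z]
  have h5 : tw [pc c⁻¹ 1 v, pc c⁻¹ 2 v, pc c⁻¹ 0 v, pc c 2 w, pc c 1 w, pc c 0 w, z] 1 = z := by
    simp [tw, ex]
  have h6 := tw_mem (Q := Q) (l := [pc c⁻¹ 1 v, pc c⁻¹ 2 v, pc c⁻¹ 0 v, pc c 2 w, pc c 1 w, pc c 0 w,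
    z]) (by simp [hw, hv, E.mem])
  have h7 : Cj 128 128 _ _ c _ := R.cj_tw (by norm_num) h0 (ys := [16, 64, 48, 6, 8, 4, 1])
    (l := [pc c⁻¹ 1 v, pc c⁻¹ 2 v, pc c⁻¹ 0 v, pc c 2 w, pc c 1 w, pc c 0 w, z]) (by
      simp [tw, ex, a1, a2 0, a2 1, a3, w3, E.cen c])
  exact ⟨_, E.mk_QB R h0 h5 h6 (h7.congr (by decide +kernel))⟩

end Cfsg.Agent.Lib.Hu
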