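import Mathlib
import Cfsg.Agent.Lib.J1E

/-! Finite groups with one class of involutions whose centralizers are `ℤ/2 × A₅`: the basic
local facts. -/

set_option autoImplicit false
set_option linter.unusedSectionVars false

namespace Cfsg.Agent.Lib.J1Basic

open Subgroup Cfsg.Agent.Lib.J1E

variable {G : Type*} [Group G]

/-- An involution. -/
def Iv (u : G) : Prop := u * u = 1 ∧ u ≠ 1

theorem Iv.inv_eq {u : G} (h : Iv u) : u⁻¹ = u := inv_eq_of_mul_eq_one_left h.1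

theorem Iv.conj {u : G} (h : Iv u) (g : G) : Iv (g * u * g⁻¹) :=
  ⟨by rw [show g * u * g⁻¹ * (g * u * g⁻¹) = g * (u * u) * g⁻¹ by group, h.1]; group,
    fun e => h.2 (by rwa [mul_inv_eq_one, mul_eq_left] at e)⟩

theorem Iv.mul {u v : G} (hu : Iv u) (hv : Iv v) (hne : u ≠ v) (hc : u * v = v * u) :
    Iv (u * v) :=
  ⟨by rw [mul_assoc, ← mul_assoc v, ← hc, mul_assoc, hv.1, mul_one, hu.1],
    fun e => hne (by rw [← hv.inv_eq]; exact eq_inv_of_mul_eq_one_left e)⟩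

theorem Iv.cancel {u : G} (hu : Iv u) (g : G) : u * (u * g) = g := by
  rw [← mul_assoc, hu.1, one_mul]

theorem Iv.cancel' {u : G} (hu : Iv u) (g : G) : g * u * u = g := by
  rw [mul_assoc, hu.1, mul_one]

theorem Iv.orderOf_eq {u : G} (hu : Iv u) : orderOf u = 2 :=
  orderOf_eq_prime (by rw [pow_two, hu.1]) hu.2

theorem iv_of_orderOf {u : G} (hu : orderOf u = 2) : Iv u :=
  ⟨by rw [← pow_two, ← hu, pow_orderOf_eq_one], fun e => by simp [e] at hu⟩

theorem eq_one_of_odd {g : G} {n : ℕ} (h : g * g = 1) (hn : Odd n) (hg : g ^ n = 1) : g = 1 := by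
  obtain ⟨k, rfl⟩ := hn
  rwa [pow_succ, pow_mul, pow_two, h, one_pow, one_mul] at hg

theorem eq_one_of_odd' {g : G} (h : g * g = 1) (hg : Odd (orderOf g)) : g = 1 :=
  eq_one_of_odd h hg (pow_orderOf_eq_one g)

theorem odd_of_pow {g : G} {n : ℕ} (hn : Odd n) (hg : g ^ n = 1) : Odd (orderOf g) :=
  hn.of_dvd_nat (orderOf_dvd_of_pow_eq_one hg)

theorem conj_comm {u v : G} (h : u * v = v * u) (g : G) :
    g * u * g⁻¹ * (g * v * g⁻¹) = g * v * g⁻¹ * (g * u * g⁻¹) := by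
  rw [show g * u * g⁻¹ * (g * v * g⁻¹) = g * (u * v) * g⁻¹ by group, h]; group

theorem conj_pow_eq_one {u : G} {n : ℕ} (h : u ^ n = 1) (g : G) : (g * u * g⁻¹) ^ n = 1 := by
  rw [conj_pow, h]; group

theorem conj_ne_one {u : G} (h : u ≠ 1) (g : G) : g * u * g⁻¹ ≠ 1 := fun e =>
  h (by rwa [mul_inv_eq_one, mul_eq_left] at e)

theorem orderOf_conj (g u : G) : orderOf (g * u * g⁻¹) = orderOf u :=
  (MulAut.conj g).orderOf_eq u

/-- Two involutions whose product has odd order are conjugate in the group they generate. -/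
theorem exists_conj_of_odd {p q : G} (hp : p * p = 1) (hq : q * q = 1) {n : ℕ} (hn : Odd n)
    (h : (p * q) ^ n = 1) : ∃ m : ℕ, ((p * q) ^ m)⁻¹ * p * (p * q) ^ m = q := by
  obtain ⟨k, rfl⟩ := hn
  have hp' : p⁻¹ = p := inv_eq_of_mul_eq_one_left hp
  have hq' : q⁻¹ = q := inv_eq_of_mul_eq_one_left hq
  have e : (p * q)⁻¹ * p = p * (p * q) := by
    rw [mul_inv_rev, hp', hq', mul_assoc, hp, ← mul_assoc, hp, one_mul, mul_one]
  have e' : ∀ m : ℕ, ((p * q) ^ m)⁻¹ * p = p * (p * q) ^ m := fun m => by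
    rw [← inv_pow]
    exact (SemiconjBy.pow_right (show SemiconjBy p (p * q) (p * q)⁻¹ from e.symm) m).eq.symm
  refine ⟨k + 1, ?_⟩
  rw [e', mul_assoc, ← pow_add, show k + 1 + (k + 1) = 2 * k + 1 + 1 by ring, pow_succ, h, one_mul,
    ← mul_assoc, hp, one_mul]

/-- An involution that normalizes a group of odd order: every element is the product of a
centralized and an inverted element. -/
theorem half [Finite G] {K : Subgroup G} (hK : ∀ k ∈ K, Odd (orderOf k)) {v : G} (hv : v * v = 1)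
    (hn : ∀ k ∈ K, v * k * v ∈ K) {k : G} (hk : k ∈ K) :
    ∃ c ∈ K, ∃ i ∈ K, k = c * i ∧ v * c = c * v ∧ v * i * v = i⁻¹ := by
  have hv' : v⁻¹ = v := inv_eq_of_mul_eq_one_left hv
  set j := k⁻¹ * (v * k * v) with hj
  have hjK : j ∈ K := mul_mem (inv_mem hk) (hn k hk)
  have hvj : v * j * v⁻¹ = j⁻¹ := by
    rw [hj, hv']
    calc v * (k⁻¹ * (v * k * v)) * v = v * k⁻¹ * v * k * (v * v) := by group
      _ = (k⁻¹ * (v * k * v))⁻¹ := by rw [hv]; simp only [mul_inv_rev, hv', inv_inv]; group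
  obtain ⟨m, hm⟩ := hK j hjK
  have hjm : j ^ (2 * m + 1) = 1 := by rw [← hm, pow_orderOf_eq_one]
  have hvi : v * j ^ m * v = (j ^ m)⁻¹ := by
    rw [← inv_pow, ← hvj, conj_pow, hv']
  refine ⟨k * (j ^ m)⁻¹, mul_mem hk (inv_mem (pow_mem hjK m)), j ^ m, pow_mem hjK m, by group,
    ?_, hvi⟩
  have h1 : v * k = k * j * v := by
    rw [hj]
    calc v * k = v * k * (v * v) := by rw [hv, mul_one]
      _ = k * (k⁻¹ * (v * k * v)) * v := by group
  have h2 : v * (j ^ m)⁻¹ = j ^ m * v := by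
    rw [← hvi, ← mul_assoc, ← mul_assoc, hv, one_mul]
  have h3 : j * j ^ m = (j ^ m)⁻¹ := by
    rw [eq_inv_iff_mul_eq_one, ← hjm, ← pow_succ', ← pow_add]; congr 1; ring
  rw [← mul_assoc, h1, mul_assoc, h2, ← mul_assoc, mul_assoc k j, h3]

/-- `f` embeds `A₅` onto the complement of `⟨u⟩` in the centralizer of `u`. -/
structure Frame (u : G) (f : E →* G) : Prop where
  inj : Function.Injective f
  ne : ∀ e, f e ≠ u
  comm : ∀ e, u * f e = f e * u
  cov : ∀ g, u * g = g * u → ∃ e, g = f e ∨ g = u * f e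

theorem Frame.conj {u : G} {f : E →* G} (h : Frame u f) (g : G) :
    Frame (g * u * g⁻¹) ((MulAut.conj g).toMonoidHom.comp f) where
  inj := (MulAut.conj g).injective.comp h.inj
  ne e he := h.ne e ((MulAut.conj g).injective he)
  comm e := conj_comm (h.comm e) g
  cov x hx := by
    have := conj_comm hx g⁻¹
    simp only [inv_inv, mul_assoc, inv_mul_cancel, mul_one, inv_mul_cancel_left] at this
    obtain ⟨e, he | he⟩ := h.cov (g⁻¹ * x * g) (by simpa only [mul_assoc] using this)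
    · exact ⟨e, Or.inl (by simp [← he, mul_assoc])⟩
    · refine ⟨e, Or.inr ?_⟩
      simp only [MulEquiv.toMonoidHom_eq_coe, MonoidHom.coe_comp, MonoidHom.coe_coe,
        Function.comp_apply, MulAut.conj_apply]
      rw [show g * u * g⁻¹ * (g * f e * g⁻¹) = g * (u * f e) * g⁻¹ by group, ← he]; group

namespace Frame

variable {u : G} {f : E →* G} (h : Frame u f)
include h

theorem commute (e : E) : Commute u (f e) := h.comm e

theorem eq_one {e : E} : f e = 1 ↔ e = 1 := map_eq_one_iff f h.inj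

theorem mul_pow (e : E) (n : ℕ) : (u * f e) ^ n = u ^ n * f (e ^ n) := by
  rw [(h.commute e).mul_pow, map_pow]

theorem mul_mul (hu : Iv u) (e e' : E) : u * f e * (u * f e') = f (e * e') := by
  rw [mul_assoc, ← mul_assoc (f e), ← h.comm, mul_assoc, hu.cancel, map_mul]

theorem mul_ne_one (e : E) : u * f e ≠ 1 := fun he =>
  h.ne e⁻¹ (by rw [map_inv]; exact (eq_inv_of_mul_eq_one_left he).symm)

theorem mul_ne (e e' : E) : u * f e ≠ f e' := fun he =>
  h.ne (e' * e⁻¹) (by rw [map_mul, map_inv, ← he]; group)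

theorem odd (hu : Iv u) {g : G} (hg : u * g = g * u) {n : ℕ} (hn : Odd n) (hgn : g ^ n = 1) :
    ∃ e, g = f e := by
  obtain ⟨e, he | he⟩ := h.cov g hg
  · exact ⟨e, he⟩
  · obtain ⟨k, rfl⟩ := hn
    rw [he, h.mul_pow, pow_succ, pow_mul, pow_two, hu.1, one_pow, one_mul] at hgn
    exact absurd hgn (h.mul_ne_one _)

theorem iv {e : E} : Iv (f e) ↔ e * e = 1 ∧ e ≠ 1 := by
  rw [Iv, ← map_mul, h.eq_one, Ne, h.eq_one]

theorem pow_eq_one {e : E} {n : ℕ} : f e ^ n = 1 ↔ e ^ n = 1 := by rw [← map_pow, h.eq_one]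

theorem comm_iff {e e' : E} : f e * f e' = f e' * f e ↔ e * e' = e' * e := by
  rw [← map_mul, ← map_mul, h.inj.eq_iff]

theorem comm_mul_left {e : E} {g : G} (hg : u * g = g * u) :
    u * f e * g = g * (u * f e) ↔ f e * g = g * f e := by
  rw [← mul_assoc, ← hg, mul_assoc, mul_assoc, mul_right_inj]

theorem comm_mul_right {e : E} {g : G} (hg : u * g = g * u) :
    g * (u * f e) = u * f e * g ↔ g * f e = f e * g := by
  rw [eq_comm, h.comm_mul_left hg, eq_comm]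

/-- An involution of the centralizer other than `u`. -/
theorem cov_iv (hu : Iv u) {v : G} (hv : Iv v) (hne : u ≠ v) (hc : u * v = v * u) :
    ∃ e, e * e = 1 ∧ e ≠ 1 ∧ (v = f e ∨ v = u * f e) := by
  obtain ⟨e, he | he⟩ := h.cov v hc
  · exact ⟨e, (h.iv.1 (he ▸ hv)).1, (h.iv.1 (he ▸ hv)).2, Or.inl he⟩
  · refine ⟨e, ?_, ?_, Or.inr he⟩
    · have := hv.1
      rwa [he, h.mul_mul hu, h.eq_one] at this
    · rintro rfl
      exact hne (by simpa using he.symm)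

theorem sq_of_comm (hu : Iv u) {v g : G} (hv : Iv v) (hne : u ≠ v) (hc : u * v = v * u)
    (h1 : u * g = g * u) (h2 : v * g = g * v) : g * g = 1 := by
  obtain ⟨p, hp, hp1, hv'⟩ := h.cov_iv hu hv hne hc
  have h3 : f p * g = g * f p := by
    rcases hv' with rfl | rfl
    · exact h2
    · exact (h.comm_mul_left h1).1 h2
  obtain ⟨e, rfl | rfl⟩ := h.cov g h1
  · rw [← map_mul, e_cent2 p hp hp1 e (h.comm_iff.1 h3), map_one]
  · rw [h.mul_mul hu, e_cent2 p hp hp1 e (h.comm_iff.1 ((h.comm_mul_right (h.comm p)).1 h3)),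
      map_one]

theorem ncard (P : G → Prop) : {g | u * g = g * u ∧ P g}.ncard =
    {e | P (f e)}.ncard + {e | P (u * f e)}.ncard := by
  have hi : Function.Injective fun e => u * f e := fun a b hab => h.inj (mul_left_cancel hab)
  rw [← Set.ncard_image_of_injective _ h.inj, ← Set.ncard_image_of_injective _ hi,
    ← Set.ncard_union_eq]
  · congr 1
    ext g
    constructor
    · rintro ⟨h1, h2⟩
      obtain ⟨e, rfl | rfl⟩ := h.cov g h1
      · exact Or.inl ⟨e, h2, rfl⟩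
      · exact Or.inr ⟨e, h2, rfl⟩
    · rintro (⟨e, he, rfl⟩ | ⟨e, he, rfl⟩)
      · exact ⟨h.comm e, he⟩
      · exact ⟨by simp only; rw [mul_assoc, ← h.comm], he⟩
  · rw [Set.disjoint_left]
    rintro g ⟨e, -, rfl⟩ ⟨e', -, he'⟩
    exact h.mul_ne e' e he'

theorem card_centralizer : Nat.card (centralizer ({u} : Set G)) = 120 := by
  have := h.ncard fun _ => True
  simp only [and_true, Set.ofPred_true, Set.ncard_univ, card_E] at this
  rw [show 120 = 60 + 60 from rfl, ← this, ← Nat.card_coe_set_eq]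
  exact Nat.card_congr (Equiv.subtypeEquivRight fun g => by simp [mem_centralizer_iff])

theorem card_inf (hu : Iv u) {v : G} (hv : Iv v) (hne : u ≠ v) (hc : u * v = v * u) :
    Nat.card (centralizer ({u} : Set G) ⊓ centralizer ({v} : Set G) : Subgroup G) = 8 := by
  obtain ⟨p, hp, hp1, hv'⟩ := h.cov_iv hu hv hne hc
  have e1 : ∀ g, u * g = g * u → (v * g = g * v ↔ f p * g = g * f p) := fun g hg => by
    rcases hv' with rfl | rfl
    · rfl
    · exact h.comm_mul_left hg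
  have := h.ncard fun g => f p * g = g * f p
  simp only [h.comm_iff, h.comm_mul_right (h.comm p), n_cent hp hp1] at this
  rw [show 8 = 4 + 4 from rfl, ← this, ← Nat.card_coe_set_eq]
  refine Nat.card_congr (Equiv.subtypeEquivRight fun g => ?_)
  simp only [mem_inf, mem_centralizer_iff, Set.mem_singleton_iff, forall_eq, Set.mem_ofPred_eq]
  exact and_congr_right fun hg => e1 g hg

theorem ncard_iv (hu : Iv u) : {g | u * g = g * u ∧ Iv g}.ncard = 31 := by
  have := h.ncard Iv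
  have e2 : ∀ e, Iv (u * f e) ↔ e * e = 1 := fun e => by
    rw [Iv, h.mul_mul hu, h.eq_one]; simp [h.mul_ne_one e]
  simpa only [h.iv, e2, n_inv, n_sq] using this

end Frame

/-- `v` is an involution of the derived group of the centralizer of `u`. -/
def R (u v : G) : Prop :=
  Iv v ∧ u * v = v * u ∧ ∃ x, u * x = x * u ∧ x ^ 3 = 1 ∧ (v * x) ^ 3 = 1

theorem R.conj {u v : G} (h : R u v) (g : G) : R (g * u * g⁻¹) (g * v * g⁻¹) := by
  obtain ⟨h1, h2, x, h3, h4, h5⟩ := h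
  refine ⟨h1.conj g, conj_comm h2 g, g * x * g⁻¹, conj_comm h3 g, conj_pow_eq_one h4 g, ?_⟩
  rw [show g * v * g⁻¹ * (g * x * g⁻¹) = g * (v * x) * g⁻¹ by group]
  exact conj_pow_eq_one h5 g

theorem Frame.R_iff {u : G} {f : E →* G} (h : Frame u f) (hu : Iv u) {v : G} :
    R u v ↔ ∃ e, e * e = 1 ∧ e ≠ 1 ∧ v = f e := by
  constructor
  · rintro ⟨h1, h2, x, h3, h4, h5⟩
    obtain ⟨x', rfl⟩ := h.odd hu h3 (by decide) h4
    obtain ⟨y, hy⟩ := h.odd hu (g := v * f x') (by rw [← mul_assoc, h2, mul_assoc, h3, mul_assoc])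
      (by decide) h5
    have : v = f (y * x'⁻¹) := by rw [map_mul, map_inv, ← hy]; group
    exact ⟨_, (h.iv.1 (this ▸ h1)).1, (h.iv.1 (this ▸ h1)).2, this⟩
  · rintro ⟨e, h1, h2, rfl⟩
    obtain ⟨x, h3, h4⟩ := e_R e h1
    exact ⟨h.iv.2 ⟨h1, h2⟩, h.comm e, f x, h.comm x, h.pow_eq_one.2 h3,
      by rw [← map_mul]; exact h.pow_eq_one.2 h4⟩

/-- The hypothesis on `G`. -/
structure Hyp (G : Type*) [Group G] : Prop where
  frame : ∀ u : G, Iv u → ∃ f, Frame u f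
  conj : ∀ u v : G, Iv u → Iv v → ∃ g, g * u * g⁻¹ = v

/-- An involution `t`, an element `x` of order 3 centralized by it and an involution `a` of the
derived group of `C(t)` inverting `x`. -/
structure Tri (t a x : G) : Prop where
  ht : Iv t
  hR : R t a
  h3 : x ^ 3 = 1
  h1 : x ≠ 1
  tx : t * x = x * t
  ax : a * x * a = x⁻¹

theorem Tri.conj {t a x : G} (h : Tri t a x) (g : G) :
    Tri (g * t * g⁻¹) (g * a * g⁻¹) (g * x * g⁻¹) :=
  ⟨h.ht.conj g, h.hR.conj g, conj_pow_eq_one h.h3 g, conj_ne_one h.h1 g, conj_comm h.tx g, by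
    rw [show g * a * g⁻¹ * (g * x * g⁻¹) * (g * a * g⁻¹) = g * (a * x * a) * g⁻¹ by group, h.ax]
    group⟩

namespace Hyp

variable (H : Hyp G)
include H

theorem sq_of_comm {u v g : G} (hu : Iv u) (hv : Iv v) (hne : u ≠ v) (hc : u * v = v * u)
    (h1 : u * g = g * u) (h2 : v * g = g * v) : g * g = 1 := by
  obtain ⟨f, hf⟩ := H.frame u hu
  exact hf.sq_of_comm hu hv hne hc h1 h2

theorem no_four {g : G} (h : g * g * (g * g) = 1) : g * g = 1 := by
  by_contra hne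
  have hu : Iv (g * g) := ⟨h, hne⟩
  obtain ⟨f, hf⟩ := H.frame _ hu
  obtain ⟨e, he | he⟩ := hf.cov g (by group)
  · exact hf.ne (e * e) (by rw [map_mul, ← he])
  · refine hf.ne (e * e) ?_
    rw [← hf.mul_mul hu, ← he]

theorem sq_of_pow_two {g : G} : ∀ {k : ℕ}, g ^ 2 ^ k = 1 → g * g = 1
  | 0, h => by rw [pow_zero, pow_one] at h; rw [h, one_mul]
  | k + 1, h => by
    refine H.no_four (sq_of_pow_two (k := k) ?_)
    rw [← pow_two, ← pow_mul, ← pow_succ', h]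

theorem exists_odd [Finite G] (g : G) : ∃ m, Odd m ∧ (g * g) ^ m = 1 := by
  obtain ⟨k, m, hm, e⟩ := Nat.exists_eq_two_pow_mul_odd (orderOf_pos g).ne'
  refine ⟨m, hm, ?_⟩
  have : (g ^ m) ^ 2 ^ k = 1 := by rw [← pow_mul, mul_comm, ← e, pow_orderOf_eq_one]
  rw [(Commute.refl g).mul_pow]
  exact H.sq_of_pow_two this

theorem comm_of_isPGroup {P : Subgroup G} (hP : IsPGroup 2 P) {g g' : G} (hg : g ∈ P)
    (hg' : g' ∈ P) : g * g' = g' * g := by
  have key : ∀ x ∈ P, x⁻¹ = x := fun x hx => by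
    obtain ⟨k, hk⟩ := hP ⟨x, hx⟩
    exact inv_eq_of_mul_eq_one_left (H.sq_of_pow_two (k := k) (congrArg Subtype.val hk))
  rw [← key _ (mul_mem hg hg'), mul_inv_rev, key g hg, key g' hg']

theorem R_ne {u v : G} (hu : Iv u) (h : R u v) : u ≠ v := by
  obtain ⟨f, hf⟩ := H.frame u hu
  obtain ⟨e, -, -, rfl⟩ := (hf.R_iff hu).1 h
  exact (hf.ne e).symm

theorem R_or {u v : G} (hu : Iv u) (hv : Iv v) (hne : u ≠ v) (hc : u * v = v * u) :
    R u v ∨ R u (u * v) := by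
  obtain ⟨f, hf⟩ := H.frame u hu
  obtain ⟨e, h1, h2, rfl | rfl⟩ := hf.cov_iv hu hv hne hc
  · exact Or.inl ((hf.R_iff hu).2 ⟨e, h1, h2, rfl⟩)
  · exact Or.inr ((hf.R_iff hu).2 ⟨e, h1, h2, hu.cancel _⟩)

theorem R_not_both {u v : G} (hu : Iv u) (h : R u v) (h' : R u (u * v)) : False := by
  obtain ⟨f, hf⟩ := H.frame u hu
  obtain ⟨e, -, -, rfl⟩ := (hf.R_iff hu).1 h
  obtain ⟨e', -, -, he'⟩ := (hf.R_iff hu).1 h'
  exact hf.mul_ne _ _ he'

theorem R_mul {u v w : G} (hu : Iv u) (h : R u v) (h' : R u w) (hne : v ≠ w) (hc : v * w = w * v) :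
    R u (v * w) := by
  obtain ⟨f, hf⟩ := H.frame u hu
  have hi := h.1.mul h'.1 hne hc
  obtain ⟨e, -, -, rfl⟩ := (hf.R_iff hu).1 h
  obtain ⟨e', -, -, rfl⟩ := (hf.R_iff hu).1 h'
  rw [← map_mul] at hi ⊢
  exact (hf.R_iff hu).2 ⟨_, (hf.iv.1 hi).1, (hf.iv.1 hi).2, rfl⟩

theorem R_trans {u v u' v' : G} (hu : Iv u) (h : R u v) (hu' : Iv u') (h' : R u' v') :
    ∃ g, g * u * g⁻¹ = u' ∧ g * v * g⁻¹ = v' := by
  obtain ⟨g, rfl⟩ := H.conj u u' hu hu'
  obtain ⟨f, hf⟩ := H.frame _ hu'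
  obtain ⟨e, h1, h2, he⟩ := (hf.R_iff hu').1 (h.conj g)
  obtain ⟨e', h1', h2', rfl⟩ := (hf.R_iff hu').1 h'
  obtain ⟨k, rfl⟩ := e_conj2 e h1 h2
  obtain ⟨k', rfl⟩ := e_conj2 e' h1' h2'
  refine ⟨f (k' * k⁻¹) * g, ?_, ?_⟩
  · rw [show f (k' * k⁻¹) * g * u * (f (k' * k⁻¹) * g)⁻¹ =
      f (k' * k⁻¹) * (g * u * g⁻¹) * (f (k' * k⁻¹))⁻¹ by group, ← hf.comm]; group
  · rw [show f (k' * k⁻¹) * g * v * (f (k' * k⁻¹) * g)⁻¹ =
      f (k' * k⁻¹) * (g * v * g⁻¹) * (f (k' * k⁻¹))⁻¹ by group, he]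
    simp only [map_mul, map_inv]; group

theorem R_asymm {u v : G} (hu : Iv u) (h : R u v) (h' : R v u) : False := by
  have sym : ∀ p q : G, Iv p → R p q → R q p := fun p q hp hq => by
    obtain ⟨g, rfl, rfl⟩ := H.R_trans hu h hp hq
    exact h'.conj g
  have hv := h.1
  have hr := hu.mul hv (H.R_ne hu h) h.2.1
  rcases H.R_or hr hu (fun e => hv.2 (by simpa using e))
    (by rw [mul_assoc, h.2.1]) with h1 | h1
  · exact H.R_not_both hu h (sym _ _ hr h1)
  · rw [h.2.1, hu.cancel'] at h1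
    exact H.R_not_both hv h' (sym _ _ (h.2.1 ▸ hr) h1)

theorem R_next {u v : G} (hu : Iv u) (h : R u v) : R v (u * v) := by
  rw [h.2.1]
  exact (H.R_or h.1 hu (H.R_ne hu h).symm h.2.1.symm).resolve_left (H.R_asymm hu h)

theorem R_prev {u v : G} (hu : Iv u) (h : R u v) : R (u * v) u := by
  have := H.R_next h.1 (H.R_next hu h)
  rwa [← mul_assoc, ← h.2.1, h.1.cancel'] at this

theorem tri_trans {t a x t' a' x' : G} (h : Tri t a x) (h' : Tri t' a' x') :
    ∃ g, g * t * g⁻¹ = t' ∧ g * a * g⁻¹ = a' ∧ g * x * g⁻¹ = x' := by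
  obtain ⟨g, rfl⟩ := H.conj t t' h.ht h'.ht
  obtain ⟨f, hf⟩ := H.frame _ h'.ht
  have key : ∀ {b y : G}, Tri (g * t * g⁻¹) b y → ∃ k, f (k * a0 * k⁻¹) = b ∧ f (k * x0 * k⁻¹) = y := by
    intro b y hb
    obtain ⟨e, h1, h2, rfl⟩ := (hf.R_iff h'.ht).1 hb.hR
    obtain ⟨z, rfl⟩ := hf.odd h'.ht hb.tx (by decide) hb.h3
    obtain ⟨k, rfl, rfl⟩ := e_pair e h1 h2 z (hf.pow_eq_one.1 hb.h3) (fun e => hb.h1 (by simp [e]))
      (hf.inj (by simpa using hb.ax))
    exact ⟨k, rfl, rfl⟩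
  obtain ⟨k, h1, h2⟩ := key (h.conj g)
  obtain ⟨k', rfl, rfl⟩ := key h'
  refine ⟨f (k' * k⁻¹) * g, ?_, ?_, ?_⟩
  · rw [show f (k' * k⁻¹) * g * t * (f (k' * k⁻¹) * g)⁻¹ =
      f (k' * k⁻¹) * (g * t * g⁻¹) * (f (k' * k⁻¹))⁻¹ by group, ← hf.comm]; group
  · rw [show f (k' * k⁻¹) * g * a * (f (k' * k⁻¹) * g)⁻¹ =
      f (k' * k⁻¹) * (g * a * g⁻¹) * (f (k' * k⁻¹))⁻¹ by group, ← h1]
    simp only [map_mul, map_inv]; group
  · rw [show f (k' * k⁻¹) * g * x * (f (k' * k⁻¹) * g)⁻¹ =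
      f (k' * k⁻¹) * (g * x * g⁻¹) * (f (k' * k⁻¹))⁻¹ by group, ← h2]
    simp only [map_mul, map_inv]; group

theorem exists_tri {t x : G} (ht : Iv t) (h3 : x ^ 3 = 1) (h1 : x ≠ 1) (tx : t * x = x * t) :
    ∃ a, Tri t a x := by
  obtain ⟨f, hf⟩ := H.frame _ ht
  obtain ⟨z, rfl⟩ := hf.odd ht tx (by decide) h3
  obtain ⟨a, ha, ha1, hz⟩ := e_inv3 z (hf.pow_eq_one.1 h3) (fun e => h1 (by simp [e]))
  exact ⟨f a, ht, (hf.R_iff ht).2 ⟨a, ha, ha1, rfl⟩, h3, h1, tx, by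
    rw [← map_mul, ← map_mul, hz, map_inv]⟩

theorem cent3 {t x g : G} (ht : Iv t) (h3 : x ^ 3 = 1) (h1 : x ≠ 1) (tx : t * x = x * t)
    (hg : Odd (orderOf g)) (tg : t * g = g * t) (xg : x * g = g * x) :
    g = 1 ∨ g = x ∨ g = x⁻¹ := by
  obtain ⟨f, hf⟩ := H.frame _ ht
  obtain ⟨z, rfl⟩ := hf.odd ht tx (by decide) h3
  obtain ⟨e, rfl⟩ := hf.odd ht tg hg (pow_orderOf_eq_one g)
  rcases e_cent3 z (hf.pow_eq_one.1 h3) (fun e => h1 (by simp [e])) e (hf.comm_iff.1 xg) with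
    rfl | rfl | rfl <;> simp

theorem ord_odd {t g : G} (ht : Iv t) (hg : Odd (orderOf g)) (tg : t * g = g * t) :
    g ^ 3 = 1 ∨ g ^ 5 = 1 := by
  obtain ⟨f, hf⟩ := H.frame _ ht
  obtain ⟨e, rfl⟩ := hf.odd ht tg hg (pow_orderOf_eq_one g)
  rcases e_ord e with h | h | h
  · rw [eq_one_of_odd' (g := f e) (by rw [← map_mul, h, map_one]) hg]; simp
  · exact Or.inl (hf.pow_eq_one.2 h)
  · exact Or.inr (hf.pow_eq_one.2 h)

theorem exists_sylow [Finite G] {u v : G} (hu : Iv u) (hv : Iv v) (hne : u ≠ v)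
    (hc : u * v = v * u) : ∃ P : Sylow 2 G,
      (P : Subgroup G) = centralizer ({u} : Set G) ⊓ centralizer ({v} : Set G) := by
  have hp : IsPGroup 2 (centralizer ({u} : Set G) ⊓ centralizer ({v} : Set G) : Subgroup G) := by
    obtain ⟨f, hf⟩ := H.frame u hu
    exact IsPGroup.of_card (n := 3) (hf.card_inf hu hv hne hc)
  obtain ⟨P, hP⟩ := hp.exists_le_sylow
  have h1 : u ∈ (P : Subgroup G) := hP (by simp [mem_centralizer_iff, hc])
  have h2 : v ∈ (P : Subgroup G) := hP (by simp [mem_centralizer_iff, hc])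
  refine ⟨P, le_antisymm (fun g hg => ?_) hP⟩
  simp only [mem_inf, mem_centralizer_iff, Set.mem_singleton_iff, forall_eq]
  exact ⟨H.comm_of_isPGroup P.isPGroup' h1 hg, H.comm_of_isPGroup P.isPGroup' h2 hg⟩

/-- The elements of odd order of the centralizer of `x` form a normal `2`-complement. -/
theorem exists_K [Finite G] {t x : G} (ht : Iv t) (hx : x * x ≠ 1) (tx : t * x = x * t) :
    ∃ K : Subgroup G, (∀ g, g ∈ K ↔ x * g = g * x ∧ Odd (orderOf g)) ∧
      ∀ g, x * g = g * x → g ∈ K ∨ t * g ∈ K := by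
  set C := centralizer ({x} : Set G) with hC
  have mC : ∀ g, g ∈ C ↔ x * g = g * x := fun g => by simp [hC, mem_centralizer_iff]
  let t' : C := ⟨t, (mC t).2 tx.symm⟩
  have ht' : orderOf t' = 2 := by rw [← Subgroup.orderOf_coe]; exact ht.orderOf_eq
  have hp : IsPGroup 2 (zpowers t') := IsPGroup.of_card (n := 1) (by rw [Nat.card_zpowers, ht']; rfl)
  obtain ⟨P, hP⟩ := hp.exists_le_sylow
  have htP : t' ∈ (P : Subgroup C) := hP (mem_zpowers _)
  have hPe : ∀ g ∈ (P : Subgroup C), g = 1 ∨ g = t' := fun g hg => by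
    by_contra hcon
    push Not at hcon
    have hP' : IsPGroup 2 ((P : Subgroup C).map C.subtype) := P.isPGroup'.map _
    obtain ⟨k, hk⟩ := P.isPGroup' ⟨g, hg⟩
    have hk' : (g : G) ^ 2 ^ k = 1 := congrArg (fun y : P => ((y : C) : G)) hk
    have hgi : Iv (g : G) := ⟨H.sq_of_pow_two hk', fun e => hcon.1 (Subtype.ext e)⟩
    exact hx (H.sq_of_comm ht hgi (fun e => hcon.2 (Subtype.ext e.symm))
      (H.comm_of_isPGroup hP' ⟨t', htP, rfl⟩ ⟨g, hg, rfl⟩) tx ((mC g).1 g.2).symm)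
  have hN : normalizer ((P : Subgroup C) : Set C) ≤ centralizer ((P : Subgroup C) : Set C) := by
    intro n hn g hg
    rcases hPe g hg with rfl | rfl
    · simp
    · rcases hPe _ ((mem_normalizer_iff.1 hn t').1 hg) with h | h
      · exact absurd (congrArg Subtype.val h) (conj_ne_one ht.2 _)
      · exact (mul_inv_eq_iff_eq_mul.1 h).symm
  set N := (MonoidHom.transferSylow P hN).ker
  have hc : IsComplement' N P := MonoidHom.ker_transferSylow_isComplement' P hN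
  have hodd : ¬ 2 ∣ Nat.card N := MonoidHom.not_dvd_card_ker_transferSylow P hN
  have hNo : ∀ g ∈ N, Odd (orderOf g) := fun g hg =>
    Nat.not_even_iff_odd.1 fun h => hodd ((even_iff_two_dvd.1 h).trans (orderOf_dvd_natCard N hg))
  have hdec : ∀ g : C, g ∈ N ∨ t' * g ∈ N := fun g => by
    obtain ⟨⟨n, p⟩, hnp, -⟩ := hc.existsUnique g
    simp only at hnp
    rcases hPe p p.2 with h | h
    · left; rw [← hnp, h, mul_one]; exact n.2
    · right
      rw [← hnp, h, ← mul_assoc]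
      have := (MonoidHom.normal_ker _).conj_mem _ n.2 t'
      rwa [show t'⁻¹ = t' from Subtype.ext ht.inv_eq] at this
  refine ⟨N.map C.subtype, fun g => ⟨?_, ?_⟩, fun g hg => ?_⟩
  · rintro ⟨n, hn, rfl⟩
    exact ⟨(mC _).1 n.2, by simpa using hNo n hn⟩
  · rintro ⟨h1, h2⟩
    let g' : C := ⟨g, (mC g).2 h1⟩
    refine ⟨g', (hdec g').resolve_right fun h => ?_, rfl⟩
    have h3 : g' ^ orderOf g = 1 := Subtype.ext (pow_orderOf_eq_one g)
    let φ := MonoidHom.transferSylow P hN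
    have h4 : φ t' * φ g' = 1 := by rw [← map_mul]; exact h
    have h5 : φ t' * φ t' = 1 := by
      rw [← map_mul, show t' * t' = 1 from Subtype.ext ht.1, map_one]
    have h6 : φ g' = φ t' := mul_left_cancel (h4.trans h5.symm)
    have h7 : φ t' = 1 := eq_one_of_odd h5 h2 (by rw [← h6, ← map_pow, h3, map_one])
    have := hNo t' h7
    rw [ht'] at this
    exact absurd this (by decide)
  · rcases hdec ⟨g, (mC g).2 hg⟩ with h | h
    · exact Or.inl ⟨_, h, rfl⟩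
    · exact Or.inr ⟨_, h, rfl⟩

end Hyp

end Cfsg.Agent.Lib.J1Basic
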