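import Mathlib
import Cfsg.Agent.Lib.J1Basic
import Cfsg.Agent.Lib.J1TC

/-! The centralizer of an element of order three in a group of Janko type. -/

set_option autoImplicit false
set_option linter.unusedSectionVars false

namespace Cfsg.Agent.Lib.J1Local

open Subgroup Cfsg.Agent.Lib.J1E Cfsg.Agent.Lib.J1Basic Cfsg.Agent.Lib.J1TC

variable {G : Type*} [Group G] [Finite G]

/-- `g` is an element of odd order centralizing `x`. -/
def Od (x g : G) : Prop := x * g = g * x ∧ Odd (orderOf g)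

theorem Od.conj {x g : G} (h : Od x g) (k : G) : Od (k * x * k⁻¹) (k * g * k⁻¹) :=
  ⟨conj_comm h.1 k, by rw [J1Basic.orderOf_conj]; exact h.2⟩

theorem cube_inv {x : G} (h : x ^ 3 = 1) : x⁻¹ = x * x :=
  inv_eq_of_mul_eq_one_left (by rw [← h, pow_succ, pow_two])

theorem sq_ne {x : G} (h3 : x ^ 3 = 1) (h1 : x ≠ 1) : x * x ≠ 1 := fun h =>
  h1 (eq_one_of_odd h (by decide) h3)

theorem inv_comm {x g : G} (h : x * g = g * x) : x⁻¹ * g = g * x⁻¹ :=
  (Commute.inv_left (show Commute x g from h)).eq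

theorem comm_inv {x g : G} (h : x * g = g * x) : x * g⁻¹ = g⁻¹ * x :=
  (Commute.inv_right (show Commute x g from h)).eq

theorem comm_mul {x g k : G} (h : x * g = g * x) (h' : x * k = k * x) :
    x * (g * k) = g * k * x := (Commute.mul_right (show Commute x g from h) h').eq

theorem mul_comm' {x g k : G} (h : g * x = x * g) (h' : k * x = x * k) :
    g * k * x = x * (g * k) := (comm_mul h.symm h'.symm).symm

theorem comm_pow {x g : G} (h : x * g = g * x) (n : ℕ) : x * g ^ n = g ^ n * x :=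
  (Commute.pow_right (show Commute x g from h) n).eq

theorem conj_eq_of_comm {v g : G} (hv : Iv v) (h : v * g = g * v) : v * g * v = g := by
  rw [h, hv.cancel']

theorem Od.invol {x g v : G} (hv : Iv v) (hx : v * x * v = x ∨ v * x * v = x⁻¹) (h : Od x g) :
    Od x (v * g * v) := by
  have := h.conj v
  rw [hv.inv_eq] at this
  rcases hx with e | e
  · rwa [e] at this
  · rw [e] at this
    exact ⟨by simpa using inv_comm this.1, this.2⟩

namespace T

variable {t a x : G} (H : Hyp G) (h : Tri t a x)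
include H h

theorem ha : Iv a := h.hR.1
theorem ta : t * a = a * t := h.hR.2.1
theorem ne : t ≠ a := H.R_ne h.ht h.hR
theorem hu : Iv (t * a) := h.ht.mul h.hR.1 (ne H h) h.hR.2.1
theorem txt : t * x * t = x := conj_eq_of_comm h.ht h.tx
theorem uxu : t * a * x * (t * a) = x⁻¹ := by
  rw [show t * a * x * (t * a) = t * (a * (x * t) * a) by group, ← h.tx,
    show t * (a * (t * x) * a) = t * (a * t) * x * a by group, ← ta H h, h.ht.cancel, h.ax]
theorem ne' : t ≠ t * a := fun e => h.hR.1.2 (by simpa using e)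
theorem tu : t * (t * a) = t * a * t := by rw [mul_assoc, ← ta H h]

theorem exK : ∃ K : Subgroup G, (∀ g, g ∈ K ↔ Od x g) ∧ ∀ g, x * g = g * x → g ∈ K ∨ t * g ∈ K :=
  H.exists_K h.ht (sq_ne h.h3 h.h1) h.tx

theorem od_x : Od x x := ⟨rfl, odd_of_pow (by decide) h.h3⟩

theorem cent {g : G} (hg : Od x g) (tg : t * g = g * t) : g = 1 ∨ g = x ∨ g = x⁻¹ :=
  H.cent3 h.ht h.h3 h.h1 h.tx hg.2 tg hg.1

/-- `t` inverts the elements of `O(C(x))` centralized by `a` or by `t a`. -/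
theorem inverts {v y : G} (hv : v = a ∨ v = t * a) (hy : Od x y) (vy : v * y = y * v) :
    t * y * t = y⁻¹ := by
  obtain ⟨K, hK, -⟩ := exK H h
  have hvi : Iv v := by rcases hv with rfl | rfl; exacts [ha H h, hu H h]
  have hne : t ≠ v := by rcases hv with rfl | rfl; exacts [ne H h, ne' H h]
  have htv : t * v = v * t := by rcases hv with rfl | rfl; exacts [ta H h, tu H h]
  have mC : ∀ g, g ∈ centralizer ({v} : Set G) ↔ v * g = g * v := fun g => by
    simp [mem_centralizer_iff]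
  obtain ⟨c, hc, i, -, rfl, h1, h2⟩ := half (K := K ⊓ centralizer {v})
    (fun k hk => ((hK k).1 hk.1).2) h.ht.1 (fun k hk => ⟨(hK _).2 (((hK k).1 hk.1).invol h.ht
      (Or.inl (txt H h))), (mC _).2 (comm_mul (comm_mul htv.symm ((mC k).1 hk.2)) htv.symm)⟩)
    (k := y) ⟨(hK y).2 hy, (mC y).2 vy⟩
  have : c = 1 := eq_one_of_odd' (H.sq_of_comm h.ht hvi hne htv h1 ((mC c).1 hc.2))
    ((hK c).1 hc.1).2
  rw [this, one_mul, h2]

theorem decomp {k : G} (hk : Od x k) : ∃ y c z, Od x y ∧ Od x c ∧ Od x z ∧ a * y = y * a ∧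
    t * c = c * t ∧ t * a * z = z * (t * a) ∧ k = y * c * z := by
  obtain ⟨K, hK, -⟩ := exK H h
  have hKo : ∀ k ∈ K, Odd (orderOf k) := fun k hk => ((hK k).1 hk).2
  obtain ⟨y, hy, i, hi, rfl, h1, h2⟩ := half hKo (ha H h).1
    (fun k hk => (hK _).2 (((hK k).1 hk).invol (ha H h) (Or.inr h.ax))) ((hK k).2 hk)
  obtain ⟨c, hc, z, hz, rfl, h3, h4⟩ := half hKo h.ht.1
    (fun k hk => (hK _).2 (((hK k).1 hk).invol h.ht (Or.inl (txt H h)))) hi
  refine ⟨y, c, z, (hK y).1 hy, (hK c).1 hc, (hK z).1 hz, h1, h3, ?_, (mul_assoc _ _ _).symm⟩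
  have hzx := ((hK z).1 hz).1
  have h5 : a * c * a = c⁻¹ ∧ c * z = z * c := by
    rcases cent H h ((hK c).1 hc) h3 with rfl | rfl | rfl
    · simp [(ha H h).1]
    · exact ⟨h.ax, hzx⟩
    · refine ⟨?_, inv_comm hzx⟩
      rw [inv_inv, ← h.ax, ← mul_assoc, ← mul_assoc, (ha H h).1, one_mul, (ha H h).cancel']
  have h6 : a * z * a = z⁻¹ := by
    have : a * c * a * (a * z * a) = (c * z)⁻¹ := by
      rw [← h2, show a * c * a * (a * z * a) = a * c * (a * a) * z * a by group, (ha H h).1]; group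
    rw [h5.1, h5.2, mul_inv_rev] at this
    exact mul_left_cancel this
  have h7 : t * a * z * (t * a) = z := by
    rw [ta H h, show a * t * z * (a * t) = a * t * z * (a * t) from rfl, ← ta H h,
      show t * a * z * (t * a) = t * (a * z * (t * a)) by group, ta H h,
      show t * (a * z * (a * t)) = t * (a * z * a) * t by group, h6,
      ← h4, show t * (t * z * t) * t = t * t * z * (t * t) by group, h.ht.1]; group
  calc t * a * z = t * a * z * (t * a * (t * a)) := by rw [(hu H h).1, mul_one]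
    _ = z * (t * a) := by rw [← mul_assoc, h7]

theorem next {y : G} (h3 : y ^ 3 = 1) (h1 : y ≠ 1) (xy : x * y = y * x) (ay : a * y = y * a) :
    Tri a (t * a) y := by
  refine ⟨ha H h, H.R_next h.ht h.hR, h3, h1, ay, ?_⟩
  rw [show t * a * y * (t * a) = t * (a * y) * (t * a) by group, ay, ta H h,
    show t * (y * a) * (a * t) = t * y * (a * a) * t by group, (ha H h).1, mul_one]
  exact inverts H h (Or.inl rfl) ⟨xy, odd_of_pow (by decide) h3⟩ ay

theorem prev {z : G} (h3 : z ^ 3 = 1) (h1 : z ≠ 1) (xz : x * z = z * x)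
    (uz : t * a * z = z * (t * a)) : Tri (t * a) t z :=
  ⟨hu H h, H.R_prev h.ht h.hR, h3, h1, uz,
    inverts H h (Or.inr rfl) ⟨xz, odd_of_pow (by decide) h3⟩ uz⟩

/-- The centralizer of `v ∈ {a, t a}` in `O(C(x))` is cyclic. -/
theorem mem_three {v y g : G} (hv : v = a ∨ v = t * a) (h3 : y ^ 3 = 1) (h1 : y ≠ 1)
    (xy : x * y = y * x) (vy : v * y = y * v) (hg : Od x g) (vg : v * g = g * v) :
    g = 1 ∨ g = y ∨ g = y⁻¹ := by
  obtain ⟨K, hK, -⟩ := exK H h
  have hvi : Iv v := by rcases hv with rfl | rfl; exacts [ha H h, hu H h]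
  have hy : Od x y := ⟨xy, odd_of_pow (by decide) h3⟩
  refine H.cent3 hvi h3 h1 vy hg.2 vg ?_
  have e := inverts H h hv ((hK _).1 (mul_mem ((hK y).2 hy) ((hK g).2 hg))) (comm_mul vy vg)
  have : t * (y * g) * t = t * y * t * (t * g * t) := by
    rw [show t * y * t * (t * g * t) = t * y * (t * t) * g * t by group, h.ht.1]; group
  rw [this, inverts H h hv hy vy, inverts H h hv hg vg, ← mul_inv_rev, inv_inj] at e
  exact e.symm

theorem transvection {g k : G} (hg : Od x g) (hk : Od x k) (tg : t * g * t = g⁻¹)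
    (tk : t * k * t = k⁻¹) (hne : g * k ≠ k * g) :
    ∃ k', x * k' = k' * x ∧ k' * g * k'⁻¹ = g * x := by
  obtain ⟨K, hK, -⟩ := exK H h
  obtain ⟨c, hc, i, hi, e, h1, h2⟩ := half (fun k hk => ((hK k).1 hk).2) h.ht.1
    (fun k hk => (hK _).2 (((hK k).1 hk).invol h.ht (Or.inl (txt H h))))
    (mul_mem ((hK g).2 hg) ((hK k).2 hk))
  have hcen : ∀ m, x * m = m * x → c * m = m * c := fun m hm => by
    rcases cent H h ((hK c).1 hc) h1 with rfl | rfl | rfl
    · simp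
    · exact hm
    · exact inv_comm hm
  have e1 : g⁻¹ * k⁻¹ = c * i⁻¹ := by
    rw [← tg, ← tk, ← h2, show t * g * t * (t * k * t) = t * g * (t * t) * k * t by group, h.ht.1,
      mul_one, mul_assoc t g k, e, ← mul_assoc t c i, h1]; group
  have e2 : k⁻¹ * g * k = g * (c * c) := by
    have hi' : i = c⁻¹ * (g * k) := by rw [e]; group
    have e3 : k * g = c⁻¹ * (g * k) * c⁻¹ := by rw [← hi', ← inv_inj]; simpa using e1
    have e4 : g * k = c * (k * g) * c := by rw [e3]; group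
    rw [mul_assoc, e4, hcen (k * g) (comm_mul hk.1 hg.1)]; group
  rcases cent H h ((hK c).1 hc) h1 with rfl | rfl | rfl
  · exact absurd (by rw [← mul_left_cancel_iff (a := k⁻¹), ← mul_assoc, e2]; group) hne
  · refine ⟨k, hk.1, ?_⟩
    rw [← cube_inv h.h3] at e2
    calc k * g * k⁻¹ = k * (g * c⁻¹) * (c * k⁻¹) := by group
      _ = g * c := by rw [← e2, comm_inv hk.1]; group
  · refine ⟨k⁻¹, comm_inv hk.1, ?_⟩
    rw [inv_inv, e2, ← mul_inv_rev, ← cube_inv h.h3, inv_inv]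

theorem exists_c : ∃ c, R t c ∧ c ≠ a ∧ a * c = c * a ∧ R a (a * c) := by
  obtain ⟨f, hf⟩ := H.frame t h.ht
  obtain ⟨p, h1, h2, rfl⟩ := (hf.R_iff h.ht).1 h.hR
  obtain ⟨q, h3, h4, h5, h6⟩ := e_ex p h1 h2
  have hq : R t (f q) := (hf.R_iff h.ht).2 ⟨q, h3, h4, rfl⟩
  have hne : f q ≠ f p := fun e => h5 (hf.inj e)
  have hc := hf.comm_iff.2 h6
  rcases H.R_or (ha H h) hq.1 hne.symm hc with h7 | h7
  · refine ⟨f p * f q, H.R_mul h.ht h.hR hq hne.symm hc, fun e => hq.1.2 (by simpa using e),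
      by rw [mul_assoc, ← hc], ?_⟩
    rwa [(ha H h).cancel]
  · exact ⟨f q, hq, hne, hc, h7⟩

theorem rel_c {c : G} (hc : R t c) (hne : c ≠ a) (ac : a * c = c * a) :
    (a * x * c) ^ 5 = 1 ∧ (x * c) ^ 5 = 1 ∧ x * c ≠ 1 := by
  obtain ⟨f, hf⟩ := H.frame t h.ht
  obtain ⟨p, h1, h2, rfl⟩ := (hf.R_iff h.ht).1 h.hR
  obtain ⟨q, h3, h4, rfl⟩ := (hf.R_iff h.ht).1 hc
  obtain ⟨z, rfl⟩ := hf.odd h.ht h.tx (by decide) h.h3
  obtain ⟨e1, e2, e3⟩ := e_c p h1 h2 q h3 h4 (fun e => hne (by rw [e])) (hf.comm_iff.1 ac) z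
    (hf.pow_eq_one.1 h.h3) (fun e => h.h1 (by simp [e])) (hf.inj (by simpa using h.ax))
  simp only [← map_mul, hf.pow_eq_one, Ne, hf.eq_one]
  exact ⟨e1, e2, e3⟩

end T

/-- Elements of order three of `O(C(x))` centralized by `a`. -/
def M3 (a x : G) : Prop := ∃ y, y ^ 3 = 1 ∧ y ≠ 1 ∧ x * y = y * x ∧ a * y = y * a

theorem M3.conj {a x : G} (h : M3 a x) (g : G) : M3 (g * a * g⁻¹) (g * x * g⁻¹) := by
  obtain ⟨y, h3, h1, xy, ay⟩ := h
  exact ⟨_, conj_pow_eq_one h3 g, conj_ne_one h1 g, conj_comm xy g, conj_comm ay g⟩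

/-- `O(C(x))` is abelian. -/
def Ab (x : G) : Prop := ∀ g k, Od x g → Od x k → g * k = k * g

theorem Ab.conj {x : G} (h : Ab x) (m : G) : Ab (m * x * m⁻¹) := fun g k hg hk => by
  have h1 := hg.conj m⁻¹
  have h2 := hk.conj m⁻¹
  rw [show m⁻¹ * (m * x * m⁻¹) * m⁻¹⁻¹ = x by group] at h1 h2
  have := conj_comm (h _ _ h1 h2) m
  simpa [mul_assoc] using this

section CaseA

variable (H : Hyp G) (hM : ∀ {t a x : G}, Tri t a x → M3 a x)
  (hN : ∀ {t a x : G}, Tri t a x → M3 (t * a) x)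
include H hM hN

theorem ab_of_comm {t a x y z : G} (h : Tri t a x) (y3 : y ^ 3 = 1) (y1 : y ≠ 1)
    (xy : x * y = y * x) (ay : a * y = y * a) (z3 : z ^ 3 = 1) (z1 : z ≠ 1) (xz : x * z = z * x)
    (uz : t * a * z = z * (t * a)) (yz : y * z = z * y) : Ab x := by
  have key : ∀ m, x * m = m * x → y * m = m * y → z * m = m * z → ∀ g, Od x g → g * m = m * g := by
    intro m h1 h2 h3 g hg
    obtain ⟨y', c, z', hy, hc, hz, e1, e2, e3, rfl⟩ := T.decomp H h hg
    refine mul_comm' (mul_comm' ?_ ?_) ?_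
    · rcases T.mem_three H h (Or.inl rfl) y3 y1 xy ay hy e1 with rfl | rfl | rfl
      exacts [by simp, h2, inv_comm h2]
    · rcases T.cent H h hc e2 with rfl | rfl | rfl
      exacts [by simp, h1, inv_comm h1]
    · rcases T.mem_three H h (Or.inr rfl) z3 z1 xz uz hz e3 with rfl | rfl | rfl
      exacts [by simp, h3, inv_comm h3]
  intro g k hg hk
  exact key k hk.1 (key y xy rfl yz.symm k hk).symm (key z xz yz rfl k hk).symm g hg

theorem ab {t a x : G} (h : Tri t a x) : Ab x := by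
  by_contra hab
  have nab : ∀ {t' a' x' : G}, Tri t' a' x' → ¬ Ab x' := fun h' hx => by
    obtain ⟨g, -, -, rfl⟩ := H.tri_trans h' h
    exact hab (hx.conj g)
  obtain ⟨y, y3, y1, xy, ay⟩ := hM h
  obtain ⟨z, z3, z1, xz, uz⟩ := hN h
  have hy : Od x y := ⟨xy, odd_of_pow (by decide) y3⟩
  have hz : Od x z := ⟨xz, odd_of_pow (by decide) z3⟩
  obtain ⟨z₁, h1, h2⟩ := T.transvection H h hy hz (T.inverts H h (Or.inl rfl) hy ay)
    (T.inverts H h (Or.inr rfl) hz uz) fun e => hab (ab_of_comm H hM hN h y3 y1 xy ay z3 z1 xz uz e)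
  have h' := T.next H h y3 y1 xy ay
  obtain ⟨w, w3, w1, yw, uw⟩ := hM h'
  have hw : Od y w := ⟨yw, odd_of_pow (by decide) w3⟩
  have hx : Od y x := ⟨xy.symm, odd_of_pow (by decide) h.h3⟩
  have e : a * (t * a) = t := by rw [← mul_assoc, ← T.ta H h, (T.ha H h).cancel']
  obtain ⟨z₂, h3, h4⟩ := T.transvection H h' hx hw h.ax (T.inverts H h' (Or.inl rfl) hw uw)
    fun e' => nab h' (ab_of_comm H hM hN h' w3 w1 yw uw h.h3 h.h1 xy.symm (by rw [e]; exact h.tx)
      e'.symm)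
  have a1 : z₁ * x * z₁⁻¹ = x := by rw [← h1]; group
  have a2 : z₂ * y * z₂⁻¹ = y := by rw [← h3]; group
  set φ := MulAut.conj (z₁ * z₂)
  have b1 : φ x = x * (y * x) := by
    change z₁ * z₂ * x * (z₁ * z₂)⁻¹ = _
    rw [show z₁ * z₂ * x * (z₁ * z₂)⁻¹ = z₁ * (z₂ * x * z₂⁻¹) * z₁⁻¹ by group, h4, ← h2]
    nth_rewrite 2 [← a1]
    group
  have b2 : φ y = y * x := by
    change z₁ * z₂ * y * (z₁ * z₂)⁻¹ = _
    rw [show z₁ * z₂ * y * (z₁ * z₂)⁻¹ = z₁ * (z₂ * y * z₂⁻¹) * z₁⁻¹ by group, a2, h2]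
  have b3 : (φ * φ) x = x⁻¹ := by
    rw [MulAut.mul_apply, b1, map_mul, map_mul, b1, b2]
    have c : Commute x y := xy
    calc x * (y * x) * (y * x * (x * (y * x))) = x ^ 5 * y ^ 3 := by
          simp only [pow_succ, pow_zero, one_mul, mul_assoc, ← c.eq, c.symm.left_comm]
      _ = x⁻¹ := by rw [y3, mul_one, cube_inv h.h3, show 5 = 3 + 2 from rfl, pow_add, h.h3, one_mul,
          pow_two]
  obtain ⟨m, ⟨k, rfl⟩, hm⟩ := H.exists_odd (z₁ * z₂)
  have b4 : (φ * φ) ^ (2 * k + 1) = 1 := by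
    simp only [φ]
    rw [← map_mul, ← map_pow, hm, map_one]
  generalize φ * φ = ψ at b3 b4
  have b5 : ∀ n : ℕ, (ψ ^ (2 * n)) x = x := fun n => by
    induction n with
    | zero => simp
    | succ n ih =>
      rw [mul_add, mul_one, pow_add, pow_two, MulAut.mul_apply, MulAut.mul_apply, b3,
        map_inv, b3, inv_inv, ih]
  have b6 := congrArg (fun ψ : MulAut G => ψ x) b4
  simp only [pow_succ', MulAut.mul_apply, b5, b3, MulAut.one_apply] at b6
  exact sq_ne h.h3 h.h1 (by nth_rewrite 1 [← b6]; simp)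

theorem caseA {t a x : G} (h : Tri t a x) : False := by
  have hab : ∀ {s r : G}, Iv s → r ^ 3 = 1 → r ≠ 1 → s * r = r * s → Ab r := fun h0 h3 h1 hc => by
    obtain ⟨b, hb⟩ := H.exists_tri h0 h3 h1 hc
    exact ab H hM hN hb
  have ha := T.ha H h
  have ta := T.ta H h
  obtain ⟨c, tc, hca, ac, hR⟩ := T.exists_c H h
  have hac : R t (a * c) := H.R_mul h.ht h.hR tc hca.symm ac
  have tcc : t * c = c * t := tc.2.1
  have hRu : R a (t * a) := H.R_next h.ht h.hR
  have hRq : R a (t * c) := by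
    have := H.R_mul ha hRu hR (fun e => H.R_ne h.ht tc (by
        rw [ta] at e; exact mul_left_cancel e))
      (mul_comm' hac.2.1 (comm_mul rfl ac))
    rwa [mul_assoc, ha.cancel] at this
  obtain ⟨s, hs⟩ : ∃ s, s = t * (a * c) := ⟨_, rfl⟩
  have st : R s t := hs ▸ H.R_prev h.ht hac
  have es : s = a * (t * c) := by rw [hs, ← mul_assoc, ta, mul_assoc]
  have sa : R s a := es ▸ H.R_prev ha hRq
  have hsi : Iv s := hs ▸ h.ht.mul hac.1 (H.R_ne h.ht hac) hac.2.1
  obtain ⟨r, r3, r1, r2, sr⟩ : ∃ r, r ^ 3 = 1 ∧ r * t * r⁻¹ = a ∧ r * a * r⁻¹ = t * a ∧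
      s * r = r * s := by
    obtain ⟨f, hf⟩ := H.frame s hsi
    obtain ⟨p, h1, h2, rfl⟩ := (hf.R_iff hsi).1 st
    obtain ⟨q, h3, h4, rfl⟩ := (hf.R_iff hsi).1 sa
    obtain ⟨r, e1, e2, e3⟩ := e_cyc p h1 h2 q h3 h4 (fun e => T.ne H h (by rw [e]))
      (hf.comm_iff.1 ta)
    exact ⟨f r, hf.pow_eq_one.2 e1, by rw [← e2]; simp, by rw [← map_mul f p, ← e3]; simp,
      hf.comm r⟩
  have rne : r ≠ 1 := fun e => T.ne H h (by simpa [e] using r1)
  have r4 : r * (t * a) * r⁻¹ = t := by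
    rw [show r * (t * a) * r⁻¹ = r * t * r⁻¹ * (r * a * r⁻¹) by group, r1, r2, ← mul_assoc, ← ta,
      ha.cancel']
  obtain ⟨x₂, hx₂⟩ : ∃ s, s = r * x * r⁻¹ := ⟨_, rfl⟩
  obtain ⟨x₃, hx₃⟩ : ∃ s, s = r * x₂ * r⁻¹ := ⟨_, rfl⟩
  have c3 : r * x₃ * r⁻¹ = x := by
    rw [hx₃, hx₂, show r * (r * (r * x * r⁻¹) * r⁻¹) * r⁻¹ = r ^ 3 * x * (r ^ 3)⁻¹ by
      simp [pow_succ, mul_assoc], r3]
    group
  have h₂ : Tri a (t * a) x₂ := by have := h.conj r; rwa [r1, r2, ← hx₂] at this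
  have h₃ : Tri (t * a) t x₃ := by have := h₂.conj r; rwa [r2, r4, ← hx₃] at this
  have habx := hab h.ht h.h3 h.h1 h.tx
  have c12 : x * x₂ = x₂ * x := by
    obtain ⟨y, y3, y1, xy, ay⟩ := hM h
    have hy := T.next H h y3 y1 xy ay
    have hcase : y = x₂ ∨ y = x₂⁻¹ ∨ y = s * x₂ * s ∨ y = (s * x₂ * s)⁻¹ := by
      obtain ⟨f, hf⟩ := H.frame a ha
      obtain ⟨p, h1, h2, ep⟩ := (hf.R_iff ha).1 hRu
      obtain ⟨q, h3, h4, eq⟩ := (hf.R_iff ha).1 hRq
      obtain ⟨y', rfl⟩ := hf.odd ha ay (by decide) y3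
      obtain ⟨z', ez⟩ := hf.odd ha h₂.tx (by decide) h₂.h3
      have e1 := hy.ax
      have e2 := h₂.ax
      have e3 := h₂.h3
      have e4 := h₂.h1
      rw [ep] at e1 e2
      rw [ez] at e2 e3 e4
      have e5 : s * x₂ * s = f (q * z' * q) := by
        rw [es, eq, ez, mul_assoc, ← mul_assoc (f z'), ← hf.comm z', mul_assoc a (f z'), ← map_mul,
          hf.mul_mul ha, mul_assoc]
      rw [e5, ez]
      rcases e_four3 p h1 h2 q h3 h4
        (fun e => hca (mul_left_cancel (a := t) (by rw [ep, eq, e])))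
        (hf.comm_iff.1 (by
          rw [← ep, ← eq]; exact mul_comm' (comm_mul rfl tcc) (comm_mul ta.symm ac)))
        z' (hf.pow_eq_one.1 e3) (fun e => e4 (by simp [e])) (hf.inj (by simpa using e2))
        y' (hf.pow_eq_one.1 y3) (fun e => y1 (by simp [e])) (hf.inj (by simpa using e1)) with
        rfl | rfl | rfl | rfl <;> simp
    have hσ : x * (s * x₂ * s) = s * x₂ * s * x → x * x₂ = x₂ * x := fun e => by
      have σ : s * x₂ * s = s * r * x * (s * r)⁻¹ := by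
        rw [hx₂, mul_inv_rev, hsi.inv_eq]; group
      rw [σ] at e
      have e' := conj_comm e (s * r)⁻¹
      rw [show (s * r)⁻¹ * (s * r * x * (s * r)⁻¹) * (s * r)⁻¹⁻¹ = x by group] at e'
      have o : Odd (orderOf x) := odd_of_pow (by decide) h.h3
      have e2 := conj_comm (habx _ _ ⟨e, by rwa [J1Basic.orderOf_conj]⟩
        ⟨e'.symm, by rwa [J1Basic.orderOf_conj]⟩) (r * (s * r))
      have σ2 : r * (s * r) * (s * r) = 1 := by
        rw [show r * (s * r) * (s * r) = r * (s * (r * s)) * r by group, ← sr, hsi.cancel, ← r3]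
        simp [pow_succ]
      rw [show r * (s * r) * (s * r * x * (s * r)⁻¹) * (r * (s * r))⁻¹ =
          r * (s * r) * (s * r) * x * (r * (s * r) * (s * r))⁻¹ by group, σ2,
        show r * (s * r) * ((s * r)⁻¹ * x * (s * r)⁻¹⁻¹) * (r * (s * r))⁻¹ = x₂ by
          rw [hx₂]; group] at e2
      simpa using e2
    rcases hcase with rfl | rfl | rfl | rfl
    · exact xy
    · simpa using comm_inv xy
    · exact hσ xy
    · exact hσ (by simpa using comm_inv xy)
  have c23 : x₂ * x₃ = x₃ * x₂ := by have := conj_comm c12 r; rwa [← hx₃, ← hx₂] at this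
  have c31 : x₃ * x = x * x₃ := by have := conj_comm c23 r; rwa [c3, ← hx₃] at this
  have C12 : Commute x x₂ := c12
  have C23 : Commute x₂ x₃ := c23
  have C13 : Commute x x₃ := c31.symm
  obtain ⟨w, hw⟩ : ∃ s, s = x * x₂ * x₃ := ⟨_, rfl⟩
  have w3 : w ^ 3 = 1 := by
    rw [hw, (C13.mul_left C23).mul_pow, C12.mul_pow, h.h3, h₂.h3, h₃.h3]; simp
  have rw' : r * w = w * r := by
    rw [← mul_inv_eq_iff_eq_mul, hw, show r * (x * x₂ * x₃) * r⁻¹ =
      r * x * r⁻¹ * (r * x₂ * r⁻¹) * (r * x₃ * r⁻¹) by group, c3, ← hx₃, ← hx₂, mul_assoc, c31,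
      ← mul_assoc, c12]
  have t2 : t * x₂ * t = x₂⁻¹ := T.inverts H h (Or.inl rfl) ⟨c12, odd_of_pow (by decide) h₂.h3⟩ h₂.tx
  have twt : w * (t * w * t) = x * x := by
    have : t * w * t = t * x * t * (t * x₂ * t) * (t * x₃ * t) := by
      rw [show t * x * t * (t * x₂ * t) * (t * x₃ * t) = t * x * (t * t) * x₂ * (t * t) * x₃ * t by
        group, h.ht.1, hw]; group
    rw [this, T.txt H h, t2, h₃.ax, hw]
    calc x * x₂ * x₃ * (x * x₂⁻¹ * x₃⁻¹) = x * x₂ * (x₃ * x) * x₂⁻¹ * x₃⁻¹ := by group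
      _ = x * (x₂ * x) * (x₃ * x₂⁻¹) * x₃⁻¹ := by rw [c31]; group
      _ = x * x := by rw [← c12, C23.symm.inv_right.eq]; group
  have wne : w ≠ 1 := fun e => sq_ne h.h3 h.h1 (by rw [← twt, e]; simp [h.ht.1])
  have habr := hab hsi r3 rne sr
  have ow : Odd (orderOf w) := odd_of_pow (by decide) w3
  have hws : Od r (s * w * s) := Od.invol hsi (Or.inl (conj_eq_of_comm hsi sr)) ⟨rw', ow⟩
  have cw : Commute w (s * w * s) := habr _ _ ⟨rw', ow⟩ hws
  have s3 : (s * w * s) ^ 3 = 1 := by have := conj_pow_eq_one w3 s; rwa [hsi.inv_eq] at this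
  have p3 : (w * (s * w * s)) ^ 3 = 1 := by rw [cw.mul_pow, w3, s3, one_mul]
  have sp : s * (w * (s * w * s)) = w * (s * w * s) * s := by
    rw [mul_assoc w, hsi.cancel', cw.eq, show s * (s * w * s * w) = s * s * w * (s * w) by group,
      hsi.1, one_mul]
  -- `w` is not centralized by an involution
  have fin : ∀ g, g * r * g⁻¹ = w ∨ g * r⁻¹ * g⁻¹ = w → False := fun g hg => by
    have habw : Ab w := by
      rcases hg with e | e
      · exact e ▸ habr.conj g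
      · exact e ▸ (hab hsi (by rw [inv_pow, r3, inv_one]) (inv_ne_one.2 rne) (comm_inv sr)).conj g
    have := habw r x ⟨rw'.symm, odd_of_pow (by decide) r3⟩
      ⟨hw ▸ mul_comm' (mul_comm' rfl c12.symm) c31, odd_of_pow (by decide) h.h3⟩
    have e : x₂ = x := by rw [hx₂, this]; group
    rw [e, T.txt H h] at t2
    exact sq_ne h.h3 h.h1 (by nth_rewrite 1 [t2]; simp)
  obtain ⟨q, hq⟩ : ∃ s, s = x * x₂⁻¹ := ⟨_, rfl⟩
  have qw : q * w * q⁻¹ = w := by
    have : Commute q w := hq ▸ hw ▸ (((Commute.refl x).mul_right C12).mul_right C13).mul_left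
      ((C12.symm.mul_right (Commute.refl x₂)).mul_right C23).inv_left
    rw [this.eq]; group
  have qr : q * r * q⁻¹ = w * r := by
    have : r * q⁻¹ * r⁻¹ = x₃ * x₂⁻¹ := by rw [hq, hx₃, hx₂]; group
    rw [show q * r * q⁻¹ = q * (r * q⁻¹ * r⁻¹) * r by group, this, hq, hw, mul_left_inj,
      C23.symm.inv_right.eq, show x * x₂⁻¹ * (x₂⁻¹ * x₃) = x * (x₂ * x₂)⁻¹ * x₃ by group,
      ← cube_inv h₂.h3, inv_inv]
  have cwr : Commute w r := rw'.symm
  rcases H.cent3 hsi r3 rne sr (odd_of_pow (by decide) p3) sp (comm_mul rw' hws.1) with e | e | e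
  · have e1 : s * w * s = w⁻¹ := eq_inv_of_mul_eq_one_right e
    have stc : s * t = t * s := st.2.1
    have e2 : s * (x * x) * s = (x * x)⁻¹ := by
      have cc : Commute w (t * w * t) := by
        have : t * w * t = w⁻¹ * (x * x) := by rw [← twt]; group
        rw [this]
        have cx : Commute w x := hw ▸ mul_comm' (mul_comm' rfl c12.symm) c31
        exact (Commute.refl w).inv_right.mul_right (cx.mul_right cx)
      rw [← twt, cc.eq, mul_inv_rev, ← e1]
      have : (t * w * t)⁻¹ = s * (t * w * t) * s := by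
        rw [show s * (t * w * t) * s = s * t * w * (t * s) by group, stc, ← stc,
          show s * t * w * (s * t) = s * t * w * (s * t) from rfl]
        rw [stc, show t * s * w * (t * s) = t * s * w * (t * s) from rfl, ← stc]
        rw [show s * t * w * (s * t) = (s * t) * w * s * t by group, stc,
          show t * s * w * s * t = t * (s * w * s) * t by group, e1]
        simp only [mul_inv_rev, h.ht.inv_eq, mul_assoc]
      rw [this, ← cc.eq, show s * w * s * (s * (t * w * t) * s) = s * w * (s * s) * (t * w * t) * s by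
        group, hsi.1]; group
    rw [← cube_inv h.h3, inv_inv] at e2
    have e3 : t * c * x = x * (t * c) := by
      have e4 : a * x * a = x⁻¹ := h.ax
      rw [← e4, es] at e2
      have e5 : a * (t * c) * (a * x * a) * (a * (t * c)) = t * c * x * (t * c) := by
        rw [hRq.2.1, show t * c * a * (a * x * a) * (t * c * a) =
          t * c * (a * a) * x * (a * (t * c)) * a by group, hRq.2.1, ha.1, mul_assoc _ _ a,
          ha.cancel']; group
      rw [e5] at e2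
      calc t * c * x = t * c * x * (t * c * (t * c)) := by rw [hRq.1.1, mul_one]
        _ = x * (t * c) := by rw [← mul_assoc, e2]
    exact sq_ne h.h3 h.h1 (H.sq_of_comm h.ht hRq.1 (fun e => tc.1.2 (by simpa using e))
      (comm_mul rfl tcc) h.tx e3)
  · refine fin (s * (q * q)) (Or.inl ?_)
    have e1 : s * w * s = w⁻¹ * r := by rw [← e]; group
    rw [show s * (q * q) * r * (s * (q * q))⁻¹ = s * (q * (q * r * q⁻¹) * q⁻¹) * s⁻¹ by group, qr,
      show q * (w * r) * q⁻¹ = q * w * q⁻¹ * (q * r * q⁻¹) by group, qw, qr, ← mul_assoc w,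
      ← cube_inv w3, ← e1, hsi.inv_eq, ← mul_assoc, ← mul_assoc, hsi.1, one_mul, hsi.cancel']
  · refine fin (s * q) (Or.inr ?_)
    have e1 : s * w * s = w⁻¹ * r⁻¹ := by rw [← e]; group
    rw [show s * q * r⁻¹ * (s * q)⁻¹ = s * (q * r * q⁻¹)⁻¹ * s⁻¹ by group, qr, cwr.eq, mul_inv_rev,
      ← e1, hsi.inv_eq, ← mul_assoc, ← mul_assoc, hsi.1, one_mul, hsi.cancel']

end CaseA

theorem exists_d (H : Hyp G) {u p q y : G} (hu : Iv u) (hp : R u p) (hq : R u q) (hne : q ≠ p)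
    (pq : p * q = q * p) (y5 : y ^ 5 = 1) (y1 : y ≠ 1) (uy : u * y = y * u)
    (py : p * y * p = y⁻¹) : ∃ i : ℕ, (q * (p * y ^ i)) ^ 3 = 1 ∧ (q * (p * y ^ i) * p) ^ 5 = 1 ∧
      p * y ^ i * p ≠ p * (p * y ^ i) ∧ q * (p * y ^ i) ≠ 1 := by
  obtain ⟨f, hf⟩ := H.frame u hu
  obtain ⟨p, h1, h2, rfl⟩ := (hf.R_iff hu).1 hp
  obtain ⟨q, h3, h4, rfl⟩ := (hf.R_iff hu).1 hq
  obtain ⟨z, rfl⟩ := hf.odd hu uy (by decide) y5
  obtain ⟨i, e1, e2, e3, e4⟩ := e_d5 p h1 h2 q h3 h4 (fun e => hne (by rw [e])) (hf.comm_iff.1 pq) z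
    (hf.pow_eq_one.1 y5) (fun e => y1 (by simp [e])) (hf.inj (by simpa using py))
  refine ⟨i, ?_⟩
  simp only [← map_pow, ← map_mul, Ne, hf.eq_one, hf.inj.eq_iff]
  exact ⟨e1, e2, e3, e4⟩

theorem conj_pow_inv {t y : G} (ht : Iv t) (h : t * y * t = y⁻¹) (i : ℕ) :
    t * y ^ i * t = (y ^ i)⁻¹ := by
  have := conj_pow (a := t) (b := y) (i := i)
  rw [ht.inv_eq] at this
  rw [← this, h, inv_pow]

theorem caseC (H : Hyp G) {t a x y : G} (h : Tri t a x) (y5 : y ^ 5 = 1) (y1 : y ≠ 1)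
    (xy : x * y = y * x) (ay : a * y = y * a) :
    ∃ c d, Rel a (a * x) c d t ∧ R t c ∧ c ≠ a ∧ R a (a * c) := by
  have ha := T.ha H h
  have ta := T.ta H h
  obtain ⟨c, tc, hca, ac, hR⟩ := T.exists_c H h
  obtain ⟨r1, r2, -⟩ := T.rel_c H h tc hca ac
  have ty := T.inverts H h (Or.inl rfl) ⟨xy, odd_of_pow (by decide) y5⟩ ay
  have tcc : t * c = c * t := tc.2.1
  obtain ⟨i, e1, e2, -, -⟩ := exists_d H ha (H.R_next h.ht h.hR) hR
    (fun e => H.R_ne h.ht tc (by rw [ta] at e; exact (mul_left_cancel e).symm))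
    (mul_comm' (comm_mul ta tcc) (comm_mul rfl ac)) y5 y1 ay (by
      rw [show t * a * y * (t * a) = t * (a * y) * (t * a) by group, ay, ta,
        show t * (y * a) * (a * t) = t * y * (a * a) * t by group, ha.1, mul_one, ty])
  have ayi := comm_pow ay i
  have ad : a * (t * y ^ i) = t * y ^ i * a := comm_mul ta.symm ayi
  have e3 : a * c * (t * a * y ^ i) = c * (t * y ^ i) := by
    rw [mul_assoc t, ayi, ← mul_assoc t, ← ad, ac, mul_assoc c, ha.cancel]
  rw [e3] at e1 e2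
  have tyi := conj_pow_inv h.ht ty i
  refine ⟨c, t * y ^ i, ⟨ha.1, ?_, tc.1.1, ?_, h.ht.1, ?_, r1, ac, ?_, e1, ad, ?_, ta.symm, ?_,
    tcc.symm, ?_, ?_⟩, tc, hca, hR⟩
  · rw [← mul_assoc, h.ax, inv_mul_cancel]
  · rw [← mul_assoc, tyi, inv_mul_cancel]
  · rw [ha.cancel, h.h3]
  · rwa [ha.cancel]
  · exact mul_comm' ad (comm_mul h.tx.symm (comm_pow xy i))
  · exact mul_comm' ta.symm h.tx.symm
  · rw [tyi, inv_pow, ← pow_mul, mul_comm, pow_mul, y5, one_pow, inv_one]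
  · have cm : Commute (c * (t * y ^ i) * t) a := mul_comm' (mul_comm' ac.symm ad.symm) ta
    rw [← mul_assoc, cm.mul_pow, mul_eq_one_iff_eq_inv] at e2
    rw [e2, show 5 = 2 * 2 + 1 from rfl, pow_succ, pow_mul, pow_two a, ha.1, one_pow, one_mul,
      ha.inv_eq]

theorem caseD (H : Hyp G) (hM : ∀ {t a x y : G}, Tri t a x → Od x y → a * y = y * a → y = 1)
    {t a x z : G} (h : Tri t a x) (z5 : z ^ 5 = 1) (z1 : z ≠ 1) (xz : x * z = z * x)
    (uz : t * a * z = z * (t * a)) : False := by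
  have ha := T.ha H h
  have ta := T.ta H h
  have hu := T.hu H h
  have hut : R (t * a) t := H.R_prev h.ht h.hR
  obtain ⟨c, tc, hca, ac, hR⟩ : ∃ c, R t c ∧ c ≠ a ∧ a * c = c * a ∧ R (t * a) (t * c) := by
    obtain ⟨c, tc, hca, ac, -⟩ := T.exists_c H h
    rcases H.R_or hu tc.1 (fun e => H.R_not_both h.ht h.hR (e ▸ tc)) (mul_comm' tc.2.1 ac) with
      h1 | h1
    · exact ⟨c, tc, hca, ac, H.R_mul hu hut h1 (H.R_ne h.ht tc) tc.2.1⟩
    · exact ⟨a * c, H.R_mul h.ht h.hR tc hca.symm ac, fun e => tc.1.2 (by simpa using e),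
        by rw [mul_assoc, ← ac], by rwa [← mul_assoc]⟩
  obtain ⟨r1, r2, -⟩ := T.rel_c H h tc hca ac
  have tz := T.inverts H h (Or.inr rfl) ⟨xz, odd_of_pow (by decide) z5⟩ uz
  have tcc : t * c = c * t := tc.2.1
  obtain ⟨i, e1, e2, e3, e4⟩ := exists_d H hu hut hR (fun e => tc.1.2 (by simpa using e))
    (comm_mul rfl tcc) z5 z1 uz tz
  have tzi := conj_pow_inv h.ht tz i
  obtain ⟨d, hd⟩ : ∃ d, d = t * z ^ i := ⟨_, rfl⟩
  rw [← hd] at e1 e2 e3 e4 tzi
  have dd : d * d = 1 := by rw [hd, ← mul_assoc, ← hd, tzi, inv_mul_cancel]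
  obtain ⟨u, hu'⟩ : ∃ u, u = t * a := ⟨_, rfl⟩
  have uxu := T.uxu H h
  have ut := (T.tu H h).symm
  rw [← hu'] at hu hut hR uz uxu ut
  have ud : u * d = d * u := hd ▸ comm_mul ut (comm_pow uz i)
  have xd : x * d = d * x := hd ▸ comm_mul h.tx.symm (comm_pow xz i)
  have wd : u * x * d = d * (u * x) := mul_comm' ud xd
  have ww : u * x * (u * x) = 1 := by rw [← mul_assoc, uxu, inv_mul_cancel]
  have wc : (u * x * (t * c)) ^ 5 = 1 := by
    rw [hu', mul_assoc (t * a), ← mul_assoc x, ← h.tx, ta,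
      show a * t * (t * x * c) = a * (t * t) * x * c by group, h.ht.1, mul_one, r1]
  obtain ⟨ζ1, ζ2, ζ3⟩ := h3 ww hR.1.1 dd wc e1 wd
  have ζ4 : Commute ((u * x * (t * c) * d) ^ 5) (u * x) := by
    have c1 : Commute ((u * x * (t * c) * d) ^ 5) (u * x * (t * c) * d) :=
      (Commute.refl _).pow_left 5
    have c2 : Commute ((u * x * (t * c) * d) ^ 5) (t * c) := ζ2
    have c3 : Commute ((u * x * (t * c) * d) ^ 5) d := ζ3
    simpa [mul_assoc] using (c1.mul_right c3.inv_right).mul_right c2.inv_right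
  have hζ : (u * x * (t * c) * d) ^ 5 = 1 := by
    generalize (u * x * (t * c) * d) ^ 5 = ζ at ζ1 ζ2 ζ3 ζ4
    have h' : Tri u (t * c) (t * c * d) := ⟨hu, hR, e1, e4, comm_mul hR.2.1 ud, by
      rw [hR.1.cancel, mul_inv_rev, hR.1.inv_eq, inv_eq_of_mul_eq_one_left dd]⟩
    obtain ⟨K, hK, hK'⟩ := T.exK H h'
    rcases hK' ζ (comm_mul ζ2 ζ3).symm with h1 | h1
    · exact eq_one_of_odd' ζ1 ((hK _).1 h1).2
    · have h2 := hM h' ((hK _).1 h1) (comm_mul hR.2.1.symm ζ2.symm)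
      have h3 : ζ = u := by rw [← hu.inv_eq]; exact eq_inv_of_mul_eq_one_right h2
      have h4 := ζ4.eq
      rw [h3, hu.cancel, uxu] at h4
      exact absurd (by nth_rewrite 1 [h4]; simp) (sq_ne h.h3 h.h1)
  refine e3 (collapse hu.1 ww hR.1.1 dd h.ht.1 (by rw [hu.cancel, h.h3]) wc hR.2.1 ?_ e1 ud wd hζ ut
    (mul_comm' ut h.tx.symm) (mul_comm' rfl tcc.symm) ?_ e2)
  · have cm : Commute t (x * c) := comm_mul h.tx tcc
    rw [hu.cancel, ← mul_assoc, ← h.tx, mul_assoc, cm.mul_pow, r2, mul_one,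
      show 5 = 2 * 2 + 1 from rfl, pow_succ, pow_mul, pow_two t, h.ht.1, one_pow, one_mul]
  · rw [tzi, inv_pow, ← pow_mul, mul_comm, pow_mul, z5, one_pow, inv_one]

/-- Either the five involutions of the presentation exist, or an element of order three that is
centralized by an involution has a centralizer of order six. -/
theorem dichotomy (H : Hyp G) {t₀ : G} (h₀ : Iv t₀) :
    (∃ t a x c d : G, Tri t a x ∧ Rel a (a * x) c d t ∧ R t c ∧ c ≠ a ∧ R a (a * c)) ∨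
    (∀ t x : G, Iv t → x ^ 3 = 1 → x ≠ 1 → t * x = x * t → ∀ g, Od x g →
      g = 1 ∨ g = x ∨ g = x⁻¹) := by
  by_cases hM : ∃ t a x y : G, Tri t a x ∧ Od x y ∧ a * y = y * a ∧ y ≠ 1
  · obtain ⟨t, a, x, y, h, hy, ay, y1⟩ := hM
    rcases H.ord_odd (T.ha H h) hy.2 ay with y3 | y5
    · refine (caseA H (fun h' => ?_) (fun h' => ?_) h).elim
      · obtain ⟨g, -, rfl, rfl⟩ := H.tri_trans h h'
        exact M3.conj ⟨y, y3, y1, hy.1, ay⟩ g
      · obtain ⟨g, rfl, e, rfl⟩ := H.tri_trans (T.next H h y3 y1 hy.1 ay) h'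
        have : M3 (a * (t * a)) y := ⟨x, h.h3, h.h1, hy.1.symm, by
          rw [← mul_assoc, ← T.ta H h, (T.ha H h).cancel']; exact h.tx⟩
        have := this.conj g
        rwa [show g * (a * (t * a)) * g⁻¹ = g * a * g⁻¹ * (g * (t * a) * g⁻¹) by group, e] at this
    · obtain ⟨c, d, h1⟩ := caseC H h y5 y1 hy.1 ay
      exact Or.inl ⟨t, a, x, c, d, h, h1⟩
  · have hM' : ∀ {t a x y : G}, Tri t a x → Od x y → a * y = y * a → y = 1 := fun h hy ay => by
      by_contra y1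
      exact hM ⟨_, _, _, _, h, hy, ay, y1⟩
    refine Or.inr fun t x ht h3 h1 tx g hg => ?_
    obtain ⟨a, h⟩ := H.exists_tri ht h3 h1 tx
    obtain ⟨y, c, z, hy, hc, hz, e1, e2, e3, rfl⟩ := T.decomp H h hg
    have z1 : z = 1 := by
      by_contra z1
      rcases H.ord_odd (T.hu H h) hz.2 e3 with z3 | z5
      · exact h1 (hM' (T.prev H h z3 z1 hz.1 e3) ⟨hz.1.symm, odd_of_pow (by decide) h3⟩ tx)
      · exact caseD H hM' h z5 z1 hz.1 e3
    rw [hM' h hy e1, z1, one_mul, mul_one]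
    exact T.cent H h hc e2

end Cfsg.Agent.Lib.J1Local
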