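import Mathlib
import Cfsg.Agent.Lib.J1Basic
import Cfsg.Agent.Lib.SmallRecog

/-! The Sylow 2-normalizer in a group of Janko type. -/

set_option autoImplicit false
set_option linter.unusedSectionVars false
set_option linter.style.haveILetI false

namespace Cfsg.Agent.Lib.J1Sylow

open Subgroup Cfsg.Agent.Lib.J1E Cfsg.Agent.Lib.J1Basic

variable {G : Type*} [Group G] [Finite G]

theorem card_eq_ncard_mul (N : Subgroup G) (t : G) :
    Nat.card N = {g | ∃ n ∈ N, n * t * n⁻¹ = g}.ncard *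
      Nat.card (N ⊓ centralizer ({t} : Set G) : Subgroup G) := by
  letI : MulAction N G := MulAction.compHom G ((MulAut.conj : G →* MulAut G).comp N.subtype)
  have h1 : MulAction.stabilizer N t = (centralizer ({t} : Set G)).subgroupOf N := by
    ext n
    rw [MulAction.mem_stabilizer_iff, mem_subgroupOf, mem_centralizer_iff]
    change (n : G) * t * (n : G)⁻¹ = t ↔ _
    rw [mul_inv_eq_iff_eq_mul]
    simp [eq_comm]
  have h2 : MulAction.orbit N t = {g | ∃ n ∈ N, n * t * n⁻¹ = g} := by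
    ext g
    exact ⟨fun ⟨n, hn⟩ => ⟨n, n.2, hn⟩, fun ⟨n, hn, e⟩ => ⟨⟨n, hn⟩, e⟩⟩
  rw [← h2, ← MulAction.index_stabilizer, ← (MulAction.stabilizer N t).index_mul_card, h1,
    ← inf_subgroupOf_left, Nat.card_congr (subgroupOfEquivOfLe inf_le_left).toEquiv]

theorem card_dvd_factorial [IsSimpleGroup G] {M : Subgroup G} (hM : M ≠ ⊤) :
    Nat.card G ∣ M.index.factorial := by
  have h : M.normalCore = ⊥ := (M.normalCore_normal.eq_bot_or_eq_top).resolve_right fun e =>
    hM (top_le_iff.1 (e ▸ M.normalCore_le))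
  obtain ⟨f, hf⟩ := SmallRecog.exists_perm_embedding M h rfl
  have := card_dvd_of_injective f hf
  rwa [Nat.card_perm, Nat.card_fin] at this

theorem mem_sylow_of_normalizer (P : Sylow 2 G) {s : G} (hs : s * s = 1)
    (hN : s ∈ normalizer ((P : Subgroup G) : Set G)) : s ∈ (P : Subgroup G) := by
  have hp : IsPGroup 2 (zpowers s) := by
    rintro ⟨_, k, rfl⟩
    refine ⟨1, Subtype.ext ?_⟩
    change (s ^ k) ^ 2 ^ 1 = 1
    rw [pow_one, ← zpow_natCast, ← zpow_mul, mul_comm, zpow_mul, zpow_natCast, pow_two, hs, one_zpow]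
  have := hp.inf_normalizer_sylow P
  exact (this ▸ (⟨mem_zpowers s, hN⟩ : s ∈ zpowers s ⊓ _) : s ∈ zpowers s ⊓ (P : Subgroup G)).2

theorem ncard_iv_of_card {S : Subgroup G} (h8 : Nat.card S = 8) (h2 : ∀ s ∈ S, s * s = 1) :
    {s | s ∈ S ∧ Iv s}.ncard = 7 := by
  have : {s | s ∈ S ∧ Iv s} = (S : Set G) \ {1} := by
    ext s
    exact ⟨fun ⟨h, h'⟩ => ⟨h, h'.2⟩, fun ⟨h, h'⟩ => ⟨h, h2 s h, h'⟩⟩
  rw [this, Set.ncard_sdiff_singleton_of_mem S.one_mem, ← Nat.card_coe_set_eq]
  change Nat.card S - 1 = 7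
  rw [h8]

theorem mem_cc {u v g : G} :
    g ∈ centralizer ({u} : Set G) ⊓ centralizer ({v} : Set G) ↔ u * g = g * u ∧ v * g = g * v := by
  simp [mem_centralizer_iff]

theorem comm_of_sq {S : Subgroup G} (h2 : ∀ s ∈ S, s * s = 1) {g k : G} (hg : g ∈ S) (hk : k ∈ S) :
    g * k = k * g := by
  have key : ∀ x ∈ S, x⁻¹ = x := fun x hx => inv_eq_of_mul_eq_one_left (h2 x hx)
  rw [← key _ (mul_mem hg hk), mul_inv_rev, key g hg, key k hk]

/-- The hypothesis from one centralizer. -/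
theorem hyp [IsSimpleGroup G] (S₀ : Sylow 2 G) (h8 : Nat.card S₀ = 8) {t : G} (ht : Iv t)
    {f : E →* G} (hf : Frame t f) : Hyp G := by
  have ha : Iv (f a0) := hf.iv.2 ⟨a0_sq, a0_ne⟩
  have hne : t ≠ f a0 := (hf.ne _).symm
  have hc := hf.card_inf ht ha hne (hf.comm _)
  obtain ⟨P, hP⟩ := (IsPGroup.of_card (p := 2) (n := 3) hc).exists_le_sylow
  have hP8 : Nat.card P = 8 := by rw [P.card_eq_multiplicity, ← S₀.card_eq_multiplicity, h8]
  have hPe := (eq_of_le_of_card_ge hP (by rw [hc]; exact hP8.le)).symm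
  have h2 : ∀ s ∈ (P : Subgroup G), s * s = 1 := fun s hs => by
    rw [hPe, mem_cc] at hs
    exact hf.sq_of_comm ht ha hne (hf.comm _) hs.1 hs.2
  haveI : IsMulCommutative (P : Subgroup G) := ⟨⟨fun a b => Subtype.ext (comm_of_sq h2 a.2 b.2)⟩⟩
  have htP : t ∈ (P : Subgroup G) := by rw [hPe, mem_cc]; exact ⟨rfl, (hf.comm _).symm⟩
  set N := normalizer ((P : Subgroup G) : Set G) with hN
  have horb : {g | ∃ n ∈ N, n * t * n⁻¹ = g} = {g | t * g = g * t ∧ (f a0 * g = g * f a0 ∧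
      IsConj t g)} := by
    ext g
    constructor
    · rintro ⟨n, hn, rfl⟩
      have := (mem_normalizer_iff.1 hn t).1 htP
      rw [hPe, mem_cc] at this
      exact ⟨this.1, this.2, isConj_iff.2 ⟨n, rfl⟩⟩
    · rintro ⟨h1, h3, h4⟩
      obtain ⟨k, rfl⟩ := isConj_iff.1 h4
      obtain ⟨n, hn, e⟩ := P.conj_eq_normalizer_conj_of_mem t k⁻¹ htP
        (show _ ∈ (P : Subgroup G) by rw [hPe, mem_cc, inv_inv]; exact ⟨h1, h3⟩)
      exact ⟨n⁻¹, inv_mem hn, by simpa using e.symm⟩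
  have hodd : ¬ 2 ∣ {g | ∃ n ∈ N, n * t * n⁻¹ = g}.ncard := fun h => by
    have h1 : 8 ∣ Nat.card (N ⊓ centralizer ({t} : Set G) : Subgroup G) := by
      rw [← hP8]
      exact card_dvd_of_le (le_inf le_normalizer (hPe ▸ inf_le_left))
    have h3 : 2 * 8 ∣ Nat.card G :=
      (card_eq_ncard_mul N t ▸ mul_dvd_mul h h1).trans (card_subgroup_dvd_card N)
    rw [← (P : Subgroup G).index_mul_card, hP8] at h3
    exact P.not_dvd_index (Nat.dvd_of_mul_dvd_mul_right (by decide) h3)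
  have c1 : ∀ e, e * e = 1 → e ≠ 1 → IsConj (f a0) (f e) := fun e h1 h3 => by
    obtain ⟨g, rfl⟩ := e_conj2 e h1 h3
    exact isConj_iff.2 ⟨f g, by simp⟩
  have c2 : ∀ e, e * e = 1 → e ≠ 1 → IsConj (t * f a0) (t * f e) := fun e h1 h3 => by
    obtain ⟨g, rfl⟩ := e_conj2 e h1 h3
    refine isConj_iff.2 ⟨f g, ?_⟩
    rw [← mul_assoc, ← hf.comm]; simp [mul_assoc]
  have n3 : {e : E | a0 * e = e * a0 ∧ e ≠ 1}.ncard = 3 := by rw [ncard_eq]; decide +kernel
  have n1 : {e : E | a0 * e = e * a0 ∧ e = 1}.ncard = 1 := by rw [ncard_eq]; decide +kernel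
  have n4 : {e : E | a0 * e = e * a0}.ncard = 4 := n_cent a0_sq a0_ne
  have sq : ∀ e, a0 * e = e * a0 → e * e = 1 := e_cent2 a0 a0_sq a0_ne
  have nt : ¬ IsConj t 1 := fun h => ht.2 (isConj_one_left.1 h)
  have A1 : IsConj t (f a0) → {e | f a0 * f e = f e * f a0 ∧ IsConj t (f e)}.ncard = 3 := fun h => by
    rw [← n3]; congr 1; ext e
    simp only [Set.mem_ofPred_eq, hf.comm_iff]
    exact and_congr_right fun he => ⟨fun h1 h3 => nt (by simpa [h3] using h1),
      fun h1 => h.trans (c1 e (sq e he) h1)⟩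
  have A0 : ¬ IsConj t (f a0) → {e | f a0 * f e = f e * f a0 ∧ IsConj t (f e)} = ∅ := fun h => by
    refine Set.eq_empty_of_forall_notMem fun e he => h (he.2.trans (c1 e (sq e (hf.comm_iff.1 he.1))
      fun h3 => nt (by simpa [h3] using he.2)).symm)
  have B1 : IsConj t (t * f a0) →
      {e | f a0 * (t * f e) = t * f e * f a0 ∧ IsConj t (t * f e)}.ncard = 4 := fun h => by
    rw [← n4]; congr 1; ext e
    simp only [Set.mem_ofPred_eq, hf.comm_mul_right (hf.comm a0), hf.comm_iff]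
    refine and_iff_left_of_imp fun he => ?_
    by_cases h1 : e = 1
    · rw [h1, map_one, mul_one]
    · exact h.trans (c2 e (sq e he) h1)
  have B0 : ¬ IsConj t (t * f a0) →
      {e | f a0 * (t * f e) = t * f e * f a0 ∧ IsConj t (t * f e)} =
        {e : E | a0 * e = e * a0 ∧ e = 1} := fun h => by
    ext e
    simp only [Set.mem_ofPred_eq, hf.comm_mul_right (hf.comm a0), hf.comm_iff]
    refine and_congr_right fun he => ⟨fun h1 => ?_, fun h1 => by rw [h1, map_one, mul_one]⟩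
    by_contra h3
    exact h (h1.trans (c2 e (sq e he) h3).symm)
  rw [horb, hf.ncard] at hodd
  have hall : IsConj t (f a0) ∧ IsConj t (t * f a0) := by
    by_cases h1 : IsConj t (f a0) <;> by_cases h3 : IsConj t (t * f a0)
    · exact ⟨h1, h3⟩
    · rw [A1 h1, B0 h3, n1] at hodd; exact absurd (by decide) hodd
    · rw [A0 h1, B1 h3] at hodd; exact absurd (by simp) hodd
    · exfalso
      have key : ∀ (k : ℕ) (g₀ : G), g₀⁻¹ * t ^ k * g₀ ∈ (P : Subgroup G) →
          g₀⁻¹ * t ^ k * g₀ = t ^ k := by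
        intro k g hg
        rcases Nat.even_or_odd' k with ⟨m, rfl | rfl⟩
        · rw [pow_mul, pow_two, ht.1, one_pow]; group
        · rw [pow_succ, pow_mul, pow_two, ht.1, one_pow, one_mul] at hg ⊢
          rw [hPe, mem_cc] at hg
          have hcj : IsConj t (g⁻¹ * t * g) := isConj_iff.2 ⟨g⁻¹, by simp⟩
          obtain ⟨e, he | he⟩ := hf.cov _ hg.1
          · have : e ∈ (∅ : Set E) := A0 h1 ▸ ⟨he ▸ hg.2, he ▸ hcj⟩
            exact this.elim
          · have : e ∈ {e : E | a0 * e = e * a0 ∧ e = 1} := B0 h3 ▸ ⟨he ▸ hg.2, he ▸ hcj⟩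
            rw [he, this.2, map_one, mul_one]
      letI : CommGroup (P : Subgroup G) := IsMulCommutative.instCommGroup
      have htr := MonoidHom.transfer_eq_pow (MonoidHom.id (P : Subgroup G)) t key
      rcases (MonoidHom.normal_ker (MonoidHom.transfer (MonoidHom.id (P : Subgroup G)))).eq_bot_or_eq_top
        with h | h
      · have := card_dvd_of_injective _ ((MonoidHom.ker_eq_bot_iff _).1 h)
        have h4 := (hf.card_centralizer ▸ card_subgroup_dvd_card _).trans (hP8 ▸ this)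
        exact absurd h4 (by decide)
      · have h4 : MonoidHom.transfer (MonoidHom.id (P : Subgroup G)) t = 1 := by
          rw [← MonoidHom.mem_ker, h]; trivial
        rw [htr] at h4
        exact ht.2 (eq_one_of_odd ht.1 (Nat.not_even_iff_odd.1 fun h =>
          P.not_dvd_index (even_iff_two_dvd.1 h)) (congrArg Subtype.val h4))
  have hcj : ∀ v : G, Iv v → IsConj t v := fun v hv => by
    obtain ⟨Q, hQ⟩ := (IsPGroup.of_card (p := 2) (n := 1) (G := zpowers v)
      (by rw [Nat.card_zpowers, hv.orderOf_eq]; rfl)).exists_le_sylow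
    obtain ⟨g, rfl⟩ := MulAction.exists_smul_eq G P Q
    have h1 : g⁻¹ * v * g ∈ (P : Subgroup G) := by
      have := hQ (mem_zpowers v)
      rw [Sylow.coe_subgroup_smul, mem_pointwise_smul_iff_inv_smul_mem] at this
      simpa using this
    have hv' : Iv (g⁻¹ * v * g) := by simpa using hv.conj g⁻¹
    refine IsConj.trans ?_ (isConj_iff.2 ⟨g, by group⟩ : IsConj (g⁻¹ * v * g) v)
    rw [hPe, mem_cc] at h1
    by_cases h3 : t = g⁻¹ * v * g
    · exact h3 ▸ IsConj.refl t
    · obtain ⟨e, h4, h5, he | he⟩ := hf.cov_iv ht hv' h3 h1.1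
      · exact he ▸ hall.1.trans (c1 e h4 h5)
      · exact he ▸ hall.2.trans (c2 e h4 h5)
  refine ⟨fun u hu => ?_, fun u v hu hv => isConj_iff.1 ((hcj u hu).symm.trans (hcj v hv))⟩
  obtain ⟨g, rfl⟩ := isConj_iff.1 (hcj u hu)
  exact ⟨_, hf.conj g⟩

section Norm

variable (H : Hyp G) {t a : G} (ht : Iv t) (hR : R t a) {P : Sylow 2 G}
  (hP : (P : Subgroup G) = centralizer ({t} : Set G) ⊓ centralizer ({a} : Set G))
include H ht hR hP

theorem sq_P {s : G} (hs : s ∈ (P : Subgroup G)) : s * s = 1 := by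
  rw [hP, mem_cc] at hs
  exact H.sq_of_comm ht hR.1 (H.R_ne ht hR) hR.2.1 hs.1 hs.2

theorem card_P : Nat.card (P : Subgroup G) = 8 := by
  obtain ⟨f, hf⟩ := H.frame t ht
  rw [hP, hf.card_inf ht hR.1 (H.R_ne ht hR) hR.2.1]

theorem t_mem : t ∈ (P : Subgroup G) := by rw [hP, mem_cc]; exact ⟨rfl, hR.2.1.symm⟩

theorem a_mem : a ∈ (P : Subgroup G) := by rw [hP, mem_cc]; exact ⟨hR.2.1, rfl⟩

theorem card_N : Nat.card (normalizer ((P : Subgroup G) : Set G)) = 168 := by
  have h2 : ∀ s ∈ (P : Subgroup G), s * s = 1 := fun s hs => sq_P H ht hR hP hs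
  haveI : IsMulCommutative (P : Subgroup G) := ⟨⟨fun a b => Subtype.ext (comm_of_sq h2 a.2 b.2)⟩⟩
  set N := normalizer ((P : Subgroup G) : Set G) with hN
  have horb : {g | ∃ n ∈ N, n * t * n⁻¹ = g} = {s | s ∈ (P : Subgroup G) ∧ Iv s} := by
    ext g
    constructor
    · rintro ⟨n, hn, rfl⟩
      exact ⟨(mem_normalizer_iff.1 hn t).1 (t_mem H ht hR hP), ht.conj n⟩
    · rintro ⟨h1, h3⟩
      obtain ⟨k, rfl⟩ := H.conj t g ht h3
      obtain ⟨n, hn, e⟩ := P.conj_eq_normalizer_conj_of_mem t k⁻¹ (t_mem H ht hR hP)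
        (by rwa [inv_inv])
      exact ⟨n⁻¹, inv_mem hn, by simpa using e.symm⟩
  rw [card_eq_ncard_mul N t, horb, ncard_iv_of_card (card_P H ht hR hP) h2]
  obtain ⟨f, hf⟩ := H.frame t ht
  obtain ⟨p, h1, h3, rfl⟩ := (hf.R_iff ht).1 hR
  have key : ∀ g, t * g = g * t → (g ∈ N ↔ f p * (g * f p * g⁻¹) = g * f p * g⁻¹ * f p) := by
    intro g hg
    constructor
    · intro h
      have := (mem_normalizer_iff.1 h _).1 (a_mem H ht hR hP)
      rw [hP, mem_cc] at this
      exact this.2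
    · intro h
      have hg' : g * t * g⁻¹ = t := by rw [← hg]; group
      have hb : g * f p * g⁻¹ ∈ (P : Subgroup G) := by
        rw [hP, mem_cc]
        exact ⟨by have := conj_comm (hf.comm p) g; rwa [hg'] at this, h⟩
      refine inv_mem_iff.1 (mem_normalizer_fintype fun s hs => ?_)
      rw [SetLike.mem_coe, hP, mem_cc]
      have e1 := conj_comm (comm_of_sq h2 (t_mem H ht hR hP) hs) g⁻¹
      have e2 := conj_comm (comm_of_sq h2 hb hs) g⁻¹
      rw [show g⁻¹ * t * g⁻¹⁻¹ = t by nth_rewrite 1 [← hg']; group] at e1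
      rw [show g⁻¹ * (g * f p * g⁻¹) * g⁻¹⁻¹ = f p by group] at e2
      exact ⟨e1, e2⟩
  have := hf.ncard fun g => f p * (g * f p * g⁻¹) = g * f p * g⁻¹ * f p
  have e1 : ∀ e, t * f e * f p * (t * f e)⁻¹ = f (e * p * e⁻¹) := fun e => by
    rw [mul_inv_rev, ht.inv_eq, ← map_inv, ← hf.comm, mul_assoc t, ← map_mul, hf.mul_mul ht]
  have e2 : ∀ e, f e * f p * (f e)⁻¹ = f (e * p * e⁻¹) := fun e => by simp
  simp only [e1, e2, hf.comm_iff, n_norm h1 h3] at this
  rw [show 168 = 7 * (12 + 12) from rfl, ← this, ← Nat.card_coe_set_eq]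
  congr 1
  refine Nat.card_congr (Equiv.subtypeEquivRight fun g => ?_)
  simp only [mem_inf, mem_centralizer_iff, Set.mem_singleton_iff, forall_eq, Set.mem_ofPred_eq]
  exact ⟨fun h => ⟨h.2, (key g h.2).1 h.1⟩, fun h => ⟨(key g h.1).2 h.2, h.1⟩⟩

theorem exists_fixed {x : G} (hx : x ∈ normalizer ((P : Subgroup G) : Set G)) (h3 : x ^ 3 = 1) :
    ∃ s ∈ (P : Subgroup G), Iv s ∧ s * x = x * s := by
  by_contra hcon
  let x' : normalizer ((P : Subgroup G) : Set G) := ⟨x, hx⟩
  have hp : IsPGroup 3 (zpowers x') := by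
    rintro ⟨_, k, rfl⟩
    refine ⟨1, Subtype.ext ?_⟩
    change (x' ^ k) ^ 3 ^ 1 = 1
    rw [pow_one, ← zpow_natCast, ← zpow_mul, mul_comm, zpow_mul, zpow_natCast,
      show x' ^ 3 = 1 from Subtype.ext h3, one_zpow]
  haveI : Fact (Nat.Prime 3) := ⟨by decide⟩
  have h1 := hp.card_modEq_card_fixedPoints (P : Subgroup G)
  have h2 : MulAction.fixedPoints (zpowers x') (P : Subgroup G) = {1} := by
    ext s
    simp only [Set.mem_singleton_iff]
    constructor
    · intro hs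
      by_contra hs1
      have := congrArg Subtype.val (hs ⟨x', mem_zpowers _⟩)
      exact hcon ⟨s, s.2, ⟨sq_P H ht hR hP s.2, fun e => hs1 (Subtype.ext e)⟩,
        (mul_inv_eq_iff_eq_mul.1 this).symm⟩
    · rintro rfl g
      exact smul_one g
  rw [h2, card_P H ht hR hP] at h1
  simp at h1
  exact absurd h1 (by decide)

/-- Elements of order 7 and 3 of the normalizer. -/
theorem exists_three {w : G} (hw : w ∈ normalizer ((P : Subgroup G) : Set G))
    (h7 : orderOf w = 7) : ∃ x ∈ normalizer ((P : Subgroup G) : Set G), orderOf x = 3 ∧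
      x ∈ normalizer (zpowers w : Set G) := by
  set N := normalizer ((P : Subgroup G) : Set G)
  haveI : Fact (Nat.Prime 7) := ⟨by decide⟩
  haveI : Fact (Nat.Prime 3) := ⟨by decide⟩
  have hN : Nat.card N = 168 := card_N H ht hR hP
  let w' : N := ⟨w, hw⟩
  have hw' : Nat.card (zpowers w') = 7 := by rw [Nat.card_zpowers, ← Subgroup.orderOf_coe]; exact h7
  let W : Sylow 7 N := Sylow.ofCard (zpowers w') (by
    rw [hw', hN, show 168 = 7 ^ 1 * 24 from rfl, Nat.factorization_mul (by decide) (by decide),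
      Nat.Prime.factorization_pow (by decide)]
    simp [Nat.factorization_eq_zero_of_not_dvd (show ¬ 7 ∣ 24 by decide)])
  have h1 := card_sylow_modEq_one 7 N
  have h2 := W.card_dvd_index
  have h3 : (W : Subgroup N).index = 24 := by
    have := (W : Subgroup N).card_mul_index
    rw [hN, show Nat.card (W : Subgroup N) = 7 from hw'] at this
    omega
  have h4 := (normalizer ((W : Subgroup N) : Set N)).card_mul_index
  rw [h3] at h2
  rw [show (normalizer ((W : Subgroup N) : Set N)).index = Nat.card (Sylow 7 N) from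
    W.card_eq_index_normalizer.symm, hN] at h4
  have h5 : 3 ∣ Nat.card (normalizer ((W : Subgroup N) : Set N)) := by
    have := Nat.le_of_dvd (by decide) h2
    generalize Nat.card (Sylow 7 N) = n at *
    unfold Nat.ModEq at h1
    interval_cases n <;> omega
  obtain ⟨x, hx⟩ := exists_prime_orderOf_dvd_card' 3 h5
  refine ⟨x, x.1.2, by simpa using hx, mem_normalizer_fintype fun s hs => ?_⟩
  obtain ⟨k, rfl⟩ := hs
  obtain ⟨m, hm⟩ : x * w' ^ k * x.1⁻¹ ∈ zpowers w' := (mem_normalizer_iff.1 x.2 _).1 ⟨k, rfl⟩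
  exact ⟨m, by simpa using congrArg Subtype.val hm⟩

end Norm

end Cfsg.Agent.Lib.J1Sylow
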