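import Mathlib
import Cfsg.Agent.Lib.J1Sylow
import Cfsg.Agent.Lib.J1Local
import Cfsg.Agent.Lib.DicksonCount
import Cfsg.Agent.Lib.CDLattice

/-! Counting involutions in the cosets of the Sylow 2-normalizer: in a simple group of Janko type
the centralizer of an element of order three does not have order six. -/

set_option autoImplicit false
set_option linter.unusedSectionVars false
set_option linter.style.haveILetI false

namespace Cfsg.Agent.Lib.J1Count

open Subgroup Cfsg.Agent.Lib.J1E Cfsg.Agent.Lib.J1Basic Cfsg.Agent.Lib.J1Sylow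
  Cfsg.Agent.Lib.J1Local

variable {G : Type*} [Group G] [Finite G]

theorem card_eq_iv (H : Hyp G) {t : G} (ht : Iv t) : Nat.card G = {u : G | Iv u}.ncard * 120 := by
  obtain ⟨f, hf⟩ := H.frame t ht
  have := card_eq_ncard_mul ⊤ t
  rw [top_inf_eq, hf.card_centralizer, card_top] at this
  rw [this]
  congr 2
  ext u
  exact ⟨fun ⟨n, _, e⟩ => e ▸ ht.conj n, fun h => (H.conj t u ht h).imp fun _ e => ⟨trivial, e⟩⟩

theorem orderOf_dvd (H : Hyp G) {t g : G} (ht : Iv t) (h : t * g = g * t) : orderOf g ∣ 120 := by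
  obtain ⟨f, hf⟩ := H.frame t ht
  rw [← hf.card_centralizer]
  exact orderOf_dvd_natCard _ (by simpa [mem_centralizer_iff] using h)

theorem isPGroup_zpowers {p : ℕ} {x : G} (h : x ^ p = 1) : IsPGroup p (zpowers x) := by
  rintro ⟨_, k, rfl⟩
  refine ⟨1, Subtype.ext ?_⟩
  change (x ^ k) ^ p ^ 1 = 1
  rw [pow_one, ← zpow_natCast, ← zpow_mul, mul_comm, zpow_mul, zpow_natCast, h, one_zpow]

/-- The Sylow subgroup generated by an element of prime order. -/
theorem exists_sylow_zpowers {p : ℕ} [hp : Fact p.Prime] {w : G} (hw : orderOf w = p) {m : ℕ}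
    (hG : Nat.card G = p * m) (hm : ¬ p ∣ m) :
    (normalizer (zpowers w : Set G)).index ≡ 1 [MOD p] := by
  have hm0 : m ≠ 0 := fun e => hm (e ▸ dvd_zero p)
  let W : Sylow p G := Sylow.ofCard (zpowers w) (by
    rw [Nat.card_zpowers, hw, hG, Nat.factorization_mul hp.out.ne_zero hm0, Finsupp.add_apply,
      hp.out.factorization_self, Nat.factorization_eq_zero_of_not_dvd hm, add_zero, pow_one])
  have h1 := card_sylow_modEq_one p G
  rwa [W.card_eq_index_normalizer] at h1

theorem normalizer_ne_top [IsSimpleGroup G] {w : G} (h1 : w ≠ 1) (h2 : orderOf w ≠ Nat.card G) :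
    normalizer (zpowers w : Set G) ≠ ⊤ := fun h => by
  rcases (normalizer_eq_top_iff.1 h).eq_bot_or_eq_top with e | e
  · exact h1 (zpowers_eq_bot.1 e)
  · exact h2 (by rw [← Nat.card_zpowers, e, card_top])

/-- An involution normalizing a group of prime order centralizes or inverts it. -/
theorem comm_or_inv {p : ℕ} [hp : Fact p.Prime] {w u : G} (hw : orderOf w = p) (hu : u * u = 1)
    (hn : u ∈ normalizer (zpowers w : Set G)) : u * w = w * u ∨ u * w * u = w⁻¹ := by
  have hu' : u⁻¹ = u := inv_eq_of_mul_eq_one_left hu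
  obtain ⟨k, hk⟩ := (mem_normalizer_iff.1 hn w).1 (mem_zpowers w)
  simp only at hk
  have h1 : w ^ (k * k) = w ^ (1 : ℤ) := by
    rw [zpow_mul, hk, conj_zpow, hk, hu', zpow_one,
      show u * (u * w * u) * u = u * u * w * (u * u) by group, hu]; group
  rw [zpow_eq_zpow_iff_modEq, hw] at h1
  have h2 : (p : ℤ) ∣ (k - 1) * (k + 1) := by
    rw [show (k - 1) * (k + 1) = k * k - 1 by ring]; exact h1.symm.dvd
  rcases (Nat.prime_iff_prime_int.1 hp.out).dvd_or_dvd h2 with h | h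
  · left
    have : w ^ k = w ^ (1 : ℤ) := by
      rw [zpow_eq_zpow_iff_modEq, hw]; exact (Int.modEq_iff_dvd.2 h).symm
    rw [this, zpow_one] at hk
    exact mul_inv_eq_iff_eq_mul.1 hk.symm
  · right
    have : w ^ k = w ^ (-1 : ℤ) := by
      rw [zpow_eq_zpow_iff_modEq, hw]
      exact (Int.modEq_iff_dvd.2 (by simpa using h)).symm
    rw [this, zpow_neg_one, hu'] at hk
    exact hk.symm

section B

variable (H : Hyp G) (hB : ∀ t x : G, Iv t → x ^ 3 = 1 → x ≠ 1 → t * x = x * t → ∀ g, Od x g →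
  g = 1 ∨ g = x ∨ g = x⁻¹)
include H hB

theorem uniq_iv {s x g : G} (hs : Iv s) (h3 : x ^ 3 = 1) (h1 : x ≠ 1) (sx : s * x = x * s)
    (hg : Iv g) (xg : x * g = g * x) : g = s := by
  obtain ⟨K, hK, hK'⟩ := H.exists_K hs (sq_ne h3 h1) sx
  rcases hK' g xg with h | h
  · exact absurd (eq_one_of_odd' hg.1 ((hK g).1 h).2) hg.2
  · have e : g = s * (s * g) := (hs.cancel g).symm
    rcases hB s x hs h3 h1 sx _ ((hK _).1 h) with h' | h' | h'
    · rw [e, h', mul_one]
    · have := hg.1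
      rw [e, h', mul_assoc, ← mul_assoc x, ← sx, mul_assoc, hs.cancel] at this
      exact absurd this (sq_ne h3 h1)
    · have := hg.1
      rw [e, h', mul_assoc, ← mul_assoc x⁻¹, ← comm_inv sx, mul_assoc, hs.cancel, ← mul_inv_rev,
        inv_eq_one] at this
      exact absurd this (sq_ne h3 h1)

theorem mem_of_three {s x : G} (hs : Iv s) (h3 : x ^ 3 = 1) (h1 : x ≠ 1) (sx : s * x = x * s)
    {Q : Subgroup G} (hQ : IsPGroup 3 Q) (hx : x ∈ Q) {g : G} (hg : g ∈ Q) : g = 1 ∨ g = x ∨ g = x⁻¹ := by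
  haveI : Fact (Nat.Prime 3) := ⟨by decide⟩
  have ho : ∀ g ∈ Q, Odd (orderOf g) := fun g hg => by
    obtain ⟨k, hk⟩ := hQ ⟨g, hg⟩
    exact odd_of_pow (Odd.pow (by decide)) (congrArg Subtype.val hk)
  haveI : Nontrivial Q := ⟨⟨⟨x, hx⟩, 1, fun e => h1 (congrArg Subtype.val e)⟩⟩
  haveI := hQ.center_nontrivial
  obtain ⟨z, hz⟩ := exists_ne (1 : center Q)
  have hc : ∀ g ∈ Q, g * (z : Q) = (z : Q) * g := fun g hg =>
    congrArg Subtype.val (mem_center_iff.1 z.2 ⟨g, hg⟩)
  refine hB s x hs h3 h1 sx g ⟨?_, ho g hg⟩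
  rcases hB s x hs h3 h1 sx _ ⟨hc x hx, ho _ z.1.2⟩ with e | e | e
  · exact absurd (Subtype.ext (Subtype.ext e)) hz
  · rw [← e]; exact (hc g hg).symm
  · have := inv_comm (hc g hg).symm
    rwa [e, inv_inv] at this

theorem conj3 {s x x' : G} (hs : Iv s) (h3 : x ^ 3 = 1) (h1 : x ≠ 1) (sx : s * x = x * s)
    (h3' : x' ^ 3 = 1) (h1' : x' ≠ 1) {M : Subgroup G} (hx : x ∈ M) (hx' : x' ∈ M) :
    ∃ m ∈ M, m * x' * m⁻¹ = x ∨ m * x' * m⁻¹ = x⁻¹ := by
  haveI : Fact (Nat.Prime 3) := ⟨by decide⟩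
  obtain ⟨Q, hQ⟩ := (isPGroup_zpowers (x := (⟨x, hx⟩ : M)) (Subtype.ext h3)).exists_le_sylow
  obtain ⟨Q', hQ'⟩ := (isPGroup_zpowers (x := (⟨x', hx'⟩ : M)) (Subtype.ext h3')).exists_le_sylow
  obtain ⟨m, rfl⟩ := MulAction.exists_smul_eq M Q' Q
  have h : m * ⟨x', hx'⟩ * m⁻¹ ∈ ((m • Q' : Sylow 3 M) : Subgroup M) := by
    rw [Sylow.coe_subgroup_smul]
    exact smul_mem_pointwise_smul _ _ _ (hQ' (mem_zpowers _))
  exact ⟨m, m.2, (mem_of_three H hB hs h3 h1 sx ((m • Q').isPGroup'.map M.subtype)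
    ⟨_, hQ (mem_zpowers _), rfl⟩ ⟨_, h, rfl⟩).resolve_left (conj_ne_one h1' _)⟩

variable {t a : G} (ht : Iv t) (hR : R t a) {P : Sylow 2 G}
  (hP : (P : Subgroup G) = centralizer ({t} : Set G) ⊓ centralizer ({a} : Set G))
include ht hR hP

theorem not_norm {w u : G} (hw : w ∈ normalizer ((P : Subgroup G) : Set G)) (h7 : orderOf w = 7)
    (hu : Iv u) (hn : u ∈ normalizer (zpowers w : Set G)) : False := by
  haveI : Fact (Nat.Prime 7) := ⟨by decide⟩
  have nc : ∀ v, Iv v → v * w ≠ w * v := fun v hv e => absurd (h7 ▸ orderOf_dvd H hv e) (by decide)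
  obtain ⟨x, hx, x3, xn⟩ := exists_three H ht hR hP hw h7
  have h3 : x ^ 3 = 1 := x3 ▸ pow_orderOf_eq_one x
  have h1 : x ≠ 1 := fun e => by simp [e] at x3
  obtain ⟨s, hsP, hs, sx⟩ := exists_fixed H ht hR hP hx h3
  set M := normalizer (zpowers w : Set G)
  let φ := (zpowers w).normalizerMonoidHom
  have ker : ∀ g : M, φ g = 1 → (g : G) * w = w * g := fun g hg => by
    have : g ∈ φ.ker := hg
    rw [normalizerMonoidHom_ker, mem_subgroupOf, mem_centralizer_iff] at this
    exact (this w (mem_zpowers w)).symm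
  have o2 : orderOf (φ ⟨u, hn⟩) = 2 := orderOf_eq_prime
    (by rw [← map_pow, show (⟨u, hn⟩ : M) ^ 2 = 1 from Subtype.ext (by simpa [pow_two] using hu.1),
      map_one]) fun e => nc u hu (ker _ e)
  haveI : Fact (Nat.Prime 3) := ⟨by decide⟩
  have o3 : orderOf (φ ⟨x, xn⟩) = 3 := orderOf_eq_prime
    (by rw [← map_pow, show (⟨x, xn⟩ : M) ^ 3 = 1 from Subtype.ext h3, map_one]) fun e => by
      rcases hB s x hs h3 h1 sx w ⟨ker _ e, by rw [h7]; decide⟩ with e | e | e
      · simp [e] at h7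
      · rw [e, x3] at h7; exact absurd h7 (by decide)
      · rw [e, orderOf_inv, x3] at h7; exact absurd h7 (by decide)
  have cm : Commute (φ ⟨u, hn⟩) (φ ⟨x, xn⟩) :=
    (IsCyclic.mulAutMulEquiv (zpowers w)).injective (by rw [map_mul, map_mul, mul_comm])
  have o6 : 6 ∣ orderOf (u * x) := by
    have := orderOf_map_dvd φ (⟨u, hn⟩ * ⟨x, xn⟩)
    rw [map_mul, cm.orderOf_mul_eq_mul_orderOf_of_coprime (by rw [o2, o3]; decide), o2, o3,
      ← Subgroup.orderOf_coe] at this
    exact this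
  have hg : u * x ∈ M := mul_mem hn xn
  have hu' := iv_of_orderOf (orderOf_pow_orderOf_div (orderOf_pos (u * x)).ne'
    (Dvd.dvd.trans (by decide : 2 ∣ 6) o6))
  have hx' := orderOf_pow_orderOf_div (orderOf_pos (u * x)).ne'
    (Dvd.dvd.trans (by decide : 3 ∣ 6) o6)
  obtain ⟨m, hm, e⟩ := conj3 H hB hs h3 h1 sx (hx' ▸ pow_orderOf_eq_one _)
    (fun e => by simp [e] at hx') xn (pow_mem hg _)
  have c := conj_comm (Commute.pow_pow (Commute.refl (u * x)) (orderOf (u * x) / 3)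
    (orderOf (u * x) / 2)).eq m
  have e2 : m * (u * x) ^ (orderOf (u * x) / 2) * m⁻¹ = s := by
    refine uniq_iv H hB hs h3 h1 sx (hu'.conj m) ?_
    rcases e with e | e
    · rwa [e] at c
    · rw [e] at c; simpa using inv_comm c
  have hsM : s ∈ M := e2 ▸ mul_mem (mul_mem hm (pow_mem hg _)) (inv_mem hm)
  have e3 := (comm_or_inv h7 hs.1 hsM).resolve_left (nc s hs)
  have e4 := sq_P H ht hR hP (mul_mem hsP ((mem_normalizer_iff.1 hw s).1 hsP))
  rw [show s * (w * s * w⁻¹) = s * w * s * w⁻¹ by group, e3] at e4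
  have e5 : w ^ 4 = 1 := by rw [← inv_eq_one, ← e4]; group
  exact absurd (h7 ▸ orderOf_dvd_of_pow_eq_one e5) (by decide)

theorem free {u h : G} (hu : Iv u) (hc : ¬ ∃ s ∈ (P : Subgroup G), Iv s ∧ s * u = u * s)
    (hh : h ∈ normalizer ((P : Subgroup G) : Set G))
    (hh' : u * h * u ∈ normalizer ((P : Subgroup G) : Set G)) : h = 1 := by
  set N := normalizer ((P : Subgroup G) : Set G)
  let D : Subgroup G := N ⊓ N.comap (MulAut.conj u).toMonoidHom
  have mD : ∀ g, g ∈ D ↔ g ∈ N ∧ u * g * u ∈ N := fun g => by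
    simp [D, mem_inf, mem_comap, hu.inv_eq]
  have iD : ∀ g ∈ D, u * g * u ∈ D := fun g hg => (mD _).2 ⟨((mD g).1 hg).2, by
    rw [← mul_assoc, ← mul_assoc, hu.1, one_mul, hu.cancel']; exact ((mD g).1 hg).1⟩
  have hD : Nat.card D ∣ 168 := card_N H ht hR hP ▸ card_dvd_of_le inf_le_left
  have ou : ∀ g, orderOf (u * g * u) = orderOf g := fun g => by
    have := J1Basic.orderOf_conj u g; rwa [hu.inv_eq] at this
  have h2 : ¬ 2 ∣ Nat.card D := fun h2 => by
    obtain ⟨s, hs⟩ := exists_prime_orderOf_dvd_card' 2 h2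
    have hsi : Iv (s : G) := iv_of_orderOf (by simpa using hs)
    have hsi' : Iv (u * s * u) := iv_of_orderOf (by rw [ou]; simpa using hs)
    have m1 := mem_sylow_of_normalizer P hsi.1 s.2.1
    have m2 := mem_sylow_of_normalizer P hsi'.1 (iD _ s.2).1
    by_cases e : (s : G) = u * s * u
    · exact hc ⟨s, m1, hsi, by nth_rewrite 1 [e]; rw [hu.cancel']⟩
    · have c := comm_of_sq (fun s hs => sq_P H ht hR hP hs) m1 m2
      refine hc ⟨_, mul_mem m1 m2, hsi.mul hsi' e c, ?_⟩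
      rw [mul_assoc, hu.cancel', c, show u * (u * s * u * s) = u * u * s * (u * s) by group, hu.1,
        one_mul]
  have h7 : ¬ 7 ∣ Nat.card D := fun h7 => by
    haveI : Fact (Nat.Prime 7) := ⟨by decide⟩
    obtain ⟨w, hw⟩ := exists_prime_orderOf_dvd_card' 7 h7
    have hw7 : orderOf (w : G) = 7 := by simpa using hw
    have c1 : Nat.card (zpowers (w : G)) = 7 := by rw [Nat.card_zpowers, hw7]
    have c2 : Nat.card (zpowers (u * w * u)) = 7 := by rw [Nat.card_zpowers, ou, hw7]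
    have h3 := CDLattice.card_mul_card_le (zpowers_le.2 w.2) (zpowers_le.2 (iD _ w.2))
    have h4 : Nat.card (zpowers (w : G) ⊓ zpowers (u * w * u) : Subgroup G) ∣ 7 :=
      c2 ▸ card_dvd_of_le inf_le_right
    have h5 : Nat.card D ≤ 21 := Nat.le_of_dvd (by decide)
      ((Nat.Coprime.pow_right 3 ((Nat.Prime.coprime_iff_not_dvd Nat.prime_two).2 h2).symm).dvd_of_dvd_mul_left
        hD)
    rcases (Nat.dvd_prime (by decide)).1 h4 with h6 | h6
    · rw [c1, c2, h6] at h3; omega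
    · have h8 := eq_of_le_of_card_ge (inf_le_right : zpowers (w : G) ⊓ zpowers (u * w * u) ≤ _)
        (by rw [c2, h6])
      refine not_norm H hB ht hR hP w.2.1 hw7 hu (mem_normalizer_fintype fun s hs => ?_)
      obtain ⟨k, rfl⟩ := hs
      rw [← conj_zpow, hu.inv_eq]
      exact zpow_mem (mem_inf.1 (h8.ge (mem_zpowers _))).1 k
  by_contra h1
  have hhD : h ∈ D := (mD h).2 ⟨hh, hh'⟩
  have h3 : Nat.card D ∣ 3 := by
    have := (Nat.Coprime.pow_right 3 ((Nat.Prime.coprime_iff_not_dvd Nat.prime_two).2 h2).symm).dvd_of_dvd_mul_left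
      (show Nat.card D ∣ 2 ^ 3 * (7 * 3) from hD)
    exact ((Nat.Prime.coprime_iff_not_dvd (by decide)).2 h7).symm.dvd_of_dvd_mul_left this
  haveI : Fact (Nat.Prime 3) := ⟨by decide⟩
  have hp : IsPGroup 3 D := IsPGroup.iff_card.2 ((Nat.dvd_prime (by decide)).1 h3 |>.elim
    (fun e => ⟨0, e⟩) fun e => ⟨1, e⟩)
  have x3 : h ^ 3 = 1 := orderOf_dvd_iff_pow_eq_one.1 ((orderOf_dvd_natCard _ hhD).trans h3)
  obtain ⟨s, hsP, hs, sx⟩ := exists_fixed H ht hR hP hh x3
  have c := conj_comm sx u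
  have hs' := hs.conj u
  rw [hu.inv_eq] at c hs'
  have e : u * s * u = s := by
    refine uniq_iv H hB hs x3 h1 sx hs' ?_
    rcases mem_of_three H hB hs x3 h1 sx hp hhD (iD h hhD) with e | e | e
    · have := ou h; rw [e, orderOf_one, eq_comm, orderOf_eq_one_iff] at this; exact absurd this h1
    · rw [e] at c; exact c.symm
    · rw [e] at c; simpa using inv_comm c.symm
  exact hc ⟨s, hsP, hs, by nth_rewrite 1 [← e]; rw [hu.cancel']⟩

theorem card_cases : Nat.card G = 21000 ∨ Nat.card G = 41160 ∨ Nat.card G = 61320 := by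
  classical
  set N := normalizer ((P : Subgroup G) : Set G) with hN
  have h2 : ∀ s ∈ (P : Subgroup G), s * s = 1 := fun s hs => sq_P H ht hR hP hs
  have h7 := ncard_iv_of_card (card_P H ht hR hP) h2
  let JA : Set G := {u | Iv u ∧ u ∉ (P : Subgroup G) ∧ ∃ s ∈ (P : Subgroup G), Iv s ∧ s * u = u * s}
  let JB : Set G := {u | Iv u ∧ ¬ ∃ s ∈ (P : Subgroup G), Iv s ∧ s * u = u * s}
  have hJ : {u : G | Iv u}.ncard = 7 + JA.ncard + JB.ncard := by
    rw [← h7, ← Set.ncard_union_eq (Set.disjoint_left.2 fun u h h' => h'.2.1 h.1),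
      ← Set.ncard_union_eq (Set.disjoint_left.2 ?_)]
    · congr 1
      ext u
      constructor
      · intro hu
        by_cases h : ∃ s ∈ (P : Subgroup G), Iv s ∧ s * u = u * s
        · by_cases h' : u ∈ (P : Subgroup G)
          · exact Or.inl (Or.inl ⟨h', hu⟩)
          · exact Or.inl (Or.inr ⟨hu, h', h⟩)
        · exact Or.inr ⟨hu, h⟩
      · rintro ((h | h) | h)
        exacts [h.2, h.1, h.1]
    · rintro u (h | h) h'
      · exact h'.2 ⟨u, h.1, h.2, rfl⟩
      · exact h'.2 h.2.2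
  have hA : JA.ncard = 168 := by
    haveI := Fintype.ofFinite G
    have e : JA = ((Finset.univ.filter fun s => s ∈ (P : Subgroup G) ∧ Iv s).biUnion fun s =>
        Finset.univ.filter fun u => s * u = u * s ∧ Iv u ∧ u ∉ (P : Subgroup G)) := by
      ext u
      simp only [JA, Set.mem_ofPred_eq, Finset.coe_biUnion, Finset.coe_filter, Finset.mem_univ,
        true_and, Set.mem_iUnion]
      exact ⟨fun ⟨h1, h3, s, h4, h5, h6⟩ => ⟨s, ⟨h4, h5⟩, h6, h1, h3⟩,
        fun ⟨s, ⟨h4, h5⟩, h6, h1, h3⟩ => ⟨h1, h3, s, h4, h5, h6⟩⟩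
    rw [e, Set.ncard_coe_finset, Finset.card_biUnion, Finset.sum_const_nat (m := 24)]
    · rw [← Set.ncard_coe_finset, Finset.coe_filter]
      simp only [Finset.mem_univ, true_and, h7]
    · intro s hs
      simp only [Finset.mem_filter, Finset.mem_univ, true_and] at hs
      obtain ⟨f, hf⟩ := H.frame s hs.2
      have e1 := Set.ncard_sdiff (s := {s | s ∈ (P : Subgroup G) ∧ Iv s})
        (t := {g | s * g = g * s ∧ Iv g}) fun g hg => ⟨comm_of_sq h2 hs.1 hg.1, hg.2⟩
      rw [h7, hf.ncard_iv hs.2] at e1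
      rw [← Set.ncard_coe_finset, show 24 = 31 - 7 from rfl, ← e1]
      congr 1
      ext u
      simp only [Finset.coe_filter, Finset.mem_univ, true_and, Set.mem_ofPred_eq, Set.mem_sdiff]
      tauto
    · intro s hs s' hs' hne
      simp only [Finset.coe_filter, Finset.mem_univ, true_and, Set.mem_ofPred_eq] at hs hs'
      rw [Function.onFun, Finset.disjoint_left]
      intro u h1 h3
      simp only [Finset.mem_filter, Finset.mem_univ, true_and] at h1 h3
      obtain ⟨f, hf⟩ := H.frame s hs.2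
      have e1 := eq_of_le_of_card_ge (H := (P : Subgroup G))
        (K := centralizer ({s} : Set G) ⊓ centralizer ({s'} : Set G))
        (fun g hg => mem_cc.2 ⟨comm_of_sq h2 hs.1 hg, comm_of_sq h2 hs'.1 hg⟩)
        (by rw [hf.card_inf hs.2 hs'.2 hne (comm_of_sq h2 hs.1 hs'.1), card_P H ht hR hP])
      exact h1.2.2 (e1 ▸ mem_cc.2 ⟨h1.1, h3.1⟩)
  have hB1 : 168 ∣ JB.ncard := by
    letI : MulAction G G := MulAction.compHom G (MulAut.conj : G →* MulAut G)
    rw [← card_N H ht hR hP]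
    refine DicksonCount.card_dvd_of_free N JB (fun q hq u hu => ⟨hu.1.conj q, ?_⟩) fun q hq u hu e => ?_
    · rintro ⟨s, h1, h3, h4⟩
      refine hu.2 ⟨q⁻¹ * s * q⁻¹⁻¹, (mem_normalizer_iff.1 (inv_mem hq) s).1 h1, h3.conj _, ?_⟩
      have := conj_comm (show s * (q * u * q⁻¹) = q * u * q⁻¹ * s from h4) q⁻¹
      rwa [show q⁻¹ * (q * u * q⁻¹) * q⁻¹⁻¹ = u by group] at this
    · refine free H hB ht hR hP hu.1 hu.2 hq ?_
      rwa [← mul_inv_eq_iff_eq_mul.1 (show q * u * q⁻¹ = u from e), hu.1.cancel']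
  have hB2 : JB.ncard + 1 ≤ N.index := by
    have h1 : (1 : G) ∉ JB := fun h => h.1.2 rfl
    rw [← Set.ncard_insert_of_notMem h1, index, ← Set.ncard_univ]
    refine Set.ncard_le_ncard_of_injOn (fun g => (g : G ⧸ N)) (fun _ _ => trivial) ?_
    have nn : ∀ u ∈ JB, u ∉ N := fun u hu h =>
      hu.2 ⟨u, mem_sylow_of_normalizer P hu.1.1 h, hu.1, rfl⟩
    rintro u (rfl | hu) v (rfl | hv) e
    · rfl
    · exact absurd (by simpa using QuotientGroup.eq.1 e) (nn v hv)
    · exact absurd (by simpa using QuotientGroup.eq.1 e) (nn u hu)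
    · have h3 := QuotientGroup.eq.1 e
      rw [hu.1.inv_eq] at h3
      have := free H hB ht hR hP hu.1 hu.2 h3 (by
        rw [hu.1.cancel]
        have := inv_mem h3
        rwa [mul_inv_rev, hu.1.inv_eq, hv.1.inv_eq] at this)
      rw [← hv.1.inv_eq]; exact eq_inv_of_mul_eq_one_left this
  have e1 := card_eq_iv H ht
  have e2 := N.card_mul_index
  rw [card_N H ht hR hP] at e2
  obtain ⟨k, hk⟩ := hB1
  rw [hJ, hA, hk] at e1
  rw [hk] at hB2
  have : k = 0 ∨ k = 1 ∨ k = 2 := by omega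
  omega

theorem caseB [IsSimpleGroup G] : False := by
  haveI : Fact (Nat.Prime 7) := ⟨by decide⟩
  haveI : Fact (Nat.Prime 3) := ⟨by decide⟩
  haveI : Fact (Nat.Prime 5) := ⟨by decide⟩
  haveI : Fact (Nat.Prime 73) := ⟨by norm_num⟩
  rcases card_cases H hB ht hR hP with h | h | h
  · obtain ⟨w, hw⟩ := exists_prime_orderOf_dvd_card' (G := normalizer ((P : Subgroup G) : Set G)) 7
      (by rw [card_N H ht hR hP]; decide)
    have hw7 : orderOf (w : G) = 7 := by simpa using hw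
    have h1 := exists_sylow_zpowers hw7 (m := 3000) h (by decide)
    have h2 := card_dvd_factorial (normalizer_ne_top (w := (w : G)) (fun e => by simp [e] at hw7)
      (by rw [hw7, h]; decide))
    set M := normalizer (zpowers (w : G) : Set G)
    have h3 := M.card_mul_index
    have h4 : ¬ 2 ∣ Nat.card M := fun h4 => by
      obtain ⟨u, hu⟩ := exists_prime_orderOf_dvd_card' 2 h4
      exact not_norm H hB ht hR hP w.2 hw7 (iv_of_orderOf (by simpa using hu)) u.2
    obtain ⟨x, -, x3, xn⟩ := exists_three H ht hR hP w.2 hw7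
    have h5 : 21 ∣ Nat.card M := Nat.Coprime.mul_dvd_of_dvd_of_dvd (show Nat.Coprime 3 7 by decide)
      (x3 ▸ orderOf_dvd_natCard M xn) (hw7 ▸ orderOf_dvd_natCard M (le_normalizer (mem_zpowers _)))
    obtain ⟨c, hc⟩ := h5
    rw [hc] at h3 h4
    rw [h] at h2 h3
    have h6 : M.index ∣ 1000 := Dvd.intro_left c (by nlinarith)
    have h8 : M.index = 8 := by
      have : ∀ n ∈ Nat.divisors 1000, n ≡ 1 [MOD 7] → ¬ 2 ∣ 21000 / n → n = 8 := by decide +kernel
      refine this _ (Nat.mem_divisors.2 ⟨h6, by decide⟩) h1 ?_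
      rwa [← h3, Nat.mul_div_cancel _ (Nat.pos_of_dvd_of_pos h6 (by decide))]
    rw [h8] at h2
    exact absurd h2 (by decide)
  · obtain ⟨f, hf⟩ := H.frame t ht
    obtain ⟨y, b, y5, y1, b2, b1, hb⟩ := e_five
    have hy5 : orderOf (f y) = 5 := orderOf_eq_prime (hf.pow_eq_one.2 y5) (mt hf.eq_one.1 y1)
    have h1 := exists_sylow_zpowers hy5 (m := 8232) h (by decide)
    have h2 := card_dvd_factorial (normalizer_ne_top (w := f y) (mt hf.eq_one.1 y1)
      (by rw [hy5, h]; decide))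
    set M := normalizer (zpowers (f y) : Set G)
    have h3 := M.card_mul_index
    have h4 : ¬ 3 ∣ Nat.card M := fun h4 => by
      obtain ⟨x, hx⟩ := exists_prime_orderOf_dvd_card' 3 h4
      let φ := (zpowers (f y)).normalizerMonoidHom
      have e1 : orderOf (φ x) ∣ 4 := by
        have := orderOf_dvd_natCard (φ x)
        rwa [IsCyclic.card_mulAut, Nat.card_zpowers, hy5] at this
      have e2 : φ x = 1 := orderOf_eq_one_iff.1 (Nat.eq_one_of_dvd_coprimes
        (show Nat.Coprime 3 4 by decide) (hx ▸ orderOf_map_dvd φ x) e1)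
      have e3 : x ∈ φ.ker := e2
      rw [normalizerMonoidHom_ker, mem_subgroupOf, mem_centralizer_iff] at e3
      have hx3 : orderOf (x : G) = 3 := by simpa using hx
      obtain ⟨m, -, e⟩ := conj3 H hB ht (hf.pow_eq_one.2 x0_cube) (mt hf.eq_one.1 x0_ne) (hf.comm _)
        (hx3 ▸ pow_orderOf_eq_one (x : G)) (fun e => by simp [e] at hx3) (mem_top _) (mem_top _)
      have c := conj_comm (e3 _ (mem_zpowers _)).symm m
      have c' : f x0 * (m * f y * m⁻¹) = m * f y * m⁻¹ * f x0 := by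
        rcases e with e | e
        · rwa [e] at c
        · rw [e] at c; simpa using inv_comm c
      have o5 := (J1Basic.orderOf_conj m (f y)).trans hy5
      have o3 : orderOf (f x0) = 3 :=
        orderOf_eq_prime (hf.pow_eq_one.2 x0_cube) (mt hf.eq_one.1 x0_ne)
      rcases hB t _ ht (hf.pow_eq_one.2 x0_cube) (mt hf.eq_one.1 x0_ne) (hf.comm _) _
        ⟨c', by rw [o5]; decide⟩ with e | e | e
      · simp [e] at o5
      · rw [e, o3] at o5; exact absurd o5 (by decide)
      · rw [e, orderOf_inv, o3] at o5; exact absurd o5 (by decide)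
    have h5 : ¬ 8 ∣ Nat.card M := fun h5 => by
      obtain ⟨Q, hQ⟩ := Sylow.exists_subgroup_card_pow_prime (G := M) 2 (n := 3) h5
      set Q' := Q.map M.subtype
      have hQ' : Nat.card Q' = 8 := by rw [card_map_of_injective M.subtype_injective, hQ]; rfl
      have hp : IsPGroup 2 Q' := IsPGroup.of_card (n := 3) hQ'
      have sq : ∀ s ∈ Q', s * s = 1 := fun s hs => by
        obtain ⟨k, hk⟩ := hp ⟨s, hs⟩
        exact H.sq_of_pow_two (congrArg Subtype.val hk)
      have hi : ∀ s ∈ Q', s * f y = f y * s ∨ s * f y * s = (f y)⁻¹ := fun s hs =>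
        comm_or_inv hy5 (sq s hs) (map_subtype_le Q hs)
      have uq : ∀ s ∈ Q', ∀ s' ∈ Q', s * f y = f y * s → s' * f y = f y * s' → s ≠ 1 → s' ≠ 1 →
          s = s' := fun s hs s' hs' c c' n n' => by
        by_contra hne
        have := H.sq_of_comm ⟨sq s hs, n⟩ ⟨sq s' hs', n'⟩ hne (comm_of_sq sq hs hs') c c'
        rw [← pow_two] at this
        exact absurd (hy5 ▸ orderOf_dvd_of_pow_eq_one this) (by decide)
      have mu : ∀ s ∈ Q', ∀ s' ∈ Q', s * f y * s = (f y)⁻¹ → s' * f y * s' = (f y)⁻¹ →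
          s * s' * f y = f y * (s * s') := fun s hs s' hs' c c' => by
        have c1 : s' * f y = (f y)⁻¹ * s' := by rw [← c', mul_assoc _ s', sq s' hs', mul_one]
        have c2 : s * (f y)⁻¹ = f y * s := by rw [← c, ← mul_assoc, ← mul_assoc, sq s hs, one_mul]
        rw [mul_assoc, c1, ← mul_assoc, c2, mul_assoc]
      let T : Set G := {s | s ∈ Q' ∧ s * f y = f y * s}
      have hT : T.ncard ≤ 2 := by
        by_cases e : ∃ s ∈ T, s ≠ 1
        · obtain ⟨s, hs, n⟩ := e
          refine (Set.ncard_le_ncard (t := {1, s}) fun s' hs' => ?_).trans (Set.ncard_pair n.symm).le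
          by_cases n' : s' = 1
          · exact Or.inl n'
          · exact Or.inr (uq _ hs'.1 _ hs.1 hs'.2 hs.2 n' n)
        · push Not at e
          exact (Set.ncard_le_ncard (t := {1}) e).trans (by simp)
      have hT' : ((Q' : Set G) \ T).ncard ≤ T.ncard := by
        by_cases e : ∃ s, s ∈ (Q' : Set G) \ T
        · obtain ⟨s, hs⟩ := e
          refine Set.ncard_le_ncard_of_injOn (fun g => s * g) (fun g hg => ⟨mul_mem hs.1 hg.1,
            mu s hs.1 g hg.1 ((hi s hs.1).resolve_left fun c => hs.2 ⟨hs.1, c⟩)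
              ((hi g hg.1).resolve_left fun c => hg.2 ⟨hg.1, c⟩)⟩) fun _ _ _ _ e => mul_left_cancel e
        · rw [Set.eq_empty_of_forall_notMem (not_exists.1 e)]; simp
      rw [Set.ncard_sdiff (fun s hs => hs.1), ← Nat.card_coe_set_eq] at hT'
      change Nat.card Q' - _ ≤ _ at hT'
      omega
    rw [h] at h2 h3
    have h6 : M.index ∣ 41160 := Dvd.intro_left _ h3
    have h8 : ∀ n ∈ Nat.divisors 41160, n ≡ 1 [MOD 5] → ¬ 3 ∣ 41160 / n → ¬ 8 ∣ 41160 / n →
        4 ∣ 41160 / n → n = 6 := by decide +kernel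
    have h9 : 41160 / M.index = Nat.card M := by
      rw [← h3, Nat.mul_div_cancel _ (Nat.pos_of_dvd_of_pos h6 (by decide))]
    have hb' : Iv (f b) := hf.iv.2 ⟨b2, b1⟩
    have h10 : 4 ∣ Nat.card M := by
      have m1 : t ∈ M := centralizer_le_normalizer _ (by
        rintro _ ⟨k, rfl⟩; exact ((hf.commute y).zpow_right k).eq.symm)
      have m2 : f b ∈ M := mem_normalizer_fintype fun s hs => by
        obtain ⟨k, rfl⟩ := hs
        rw [← conj_zpow, hb'.inv_eq, ← map_mul, ← map_mul, hb, map_inv]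
        exact zpow_mem (inv_mem (mem_zpowers _)) k
      obtain ⟨Q, hQ⟩ := H.exists_sylow ht hb' (hf.ne _).symm (hf.comm _)
      have hp : IsPGroup 2 (M ⊓ Q : Subgroup G) := Q.isPGroup'.to_le inf_le_right
      obtain ⟨k, hk⟩ := hp.exists_card_eq
      have h11 : 3 ≤ Nat.card (M ⊓ Q : Subgroup G) := by
        rw [← Set.ncard_eq_three.2 ⟨1, t, f b, ht.2.symm, hb'.2.symm, (hf.ne _).symm, rfl⟩]
        refine Set.ncard_le_ncard (t := ((M ⊓ Q : Subgroup G) : Set G)) ?_
        rintro _ (rfl | rfl | rfl)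
        · exact one_mem _
        · exact ⟨m1, hQ ▸ mem_cc.2 ⟨rfl, (hf.comm _).symm⟩⟩
        · exact ⟨m2, hQ ▸ mem_cc.2 ⟨hf.comm _, rfl⟩⟩
      refine Dvd.dvd.trans ?_ (card_dvd_of_le (inf_le_left : M ⊓ Q ≤ M))
      rw [hk] at h11 ⊢
      rcases k with _ | _ | k
      · omega
      · omega
      · exact ⟨2 ^ k, by ring⟩
    rw [h8 _ (Nat.mem_divisors.2 ⟨h6, by decide⟩) h1 (h9 ▸ h4) (h9 ▸ h5) (h9 ▸ h10)] at h2
    exact absurd h2 (by decide)
  · obtain ⟨w, hw⟩ := exists_prime_orderOf_dvd_card' (G := G) 73 (by rw [h]; decide)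
    have h1 := exists_sylow_zpowers hw (m := 840) h (by decide)
    have h2 := normalizer_ne_top (w := w) (fun e => by simp [e] at hw) (by rw [hw, h]; decide)
    have h3 : (normalizer (zpowers w : Set G)).index ∣ 840 := by
      have := (zpowers w).card_mul_index
      rw [Nat.card_zpowers, hw, h] at this
      exact (show (zpowers w).index = 840 by omega) ▸ index_dvd_of_le le_normalizer
    have : ∀ n ∈ Nat.divisors 840, n ≡ 1 [MOD 73] → n = 1 := by decide +kernel
    exact h2 (index_eq_one.1 (this _ (Nat.mem_divisors.2 ⟨h3, by decide⟩) h1))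

end B

end Cfsg.Agent.Lib.J1Count
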