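import Mathlib
import Cfsg.Agent.Lib.J1Count
import Cfsg.Agent.Lib.J1Mat
import Cfsg.Agent.Lib.Hall

/-! A simple group of Janko type that contains the five involutions of the presentation is `J₁`. -/

set_option autoImplicit false
set_option linter.unusedSectionVars false
set_option linter.style.haveILetI false

namespace Cfsg.Agent.Lib.J1Final

open Subgroup Cfsg.Agent.Lib.J1E Cfsg.Agent.Lib.J1Basic Cfsg.Agent.Lib.J1Sylow
  Cfsg.Agent.Lib.J1Local Cfsg.Agent.Lib.J1Count Cfsg.Agent.Lib.J1TC Cfsg.Spor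

section General

variable {X : Type*} [Group X] [Finite X]

theorem index_eq_card_sylow {p : ℕ} [hp : Fact p.Prime] {w : X} (hw : orderOf w = p) {m : ℕ}
    (hG : Nat.card X = p * m) (hm : ¬ p ∣ m) :
    (normalizer (zpowers w : Set X)).index = Nat.card (Sylow p X) := by
  have hm0 : m ≠ 0 := fun e => hm (e ▸ dvd_zero p)
  let W : Sylow p X := Sylow.ofCard (zpowers w) (by
    rw [Nat.card_zpowers, hw, hG, Nat.factorization_mul hp.out.ne_zero hm0, Finsupp.add_apply,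
      hp.out.factorization_self, Nat.factorization_eq_zero_of_not_dvd hm, add_zero, pow_one])
  exact W.card_eq_index_normalizer.symm

theorem comm_of_sylow {q m : ℕ} [hq : Fact q.Prime] (h : Nat.card X = q * m) (hm : ¬ q ∣ m)
    (h1 : ∀ n, n ∣ m → n ≡ 1 [MOD q] → n = 1) {a b : X} (ha : a ^ q = 1) (hb : b ^ q = 1) :
    a * b = b * a := by
  obtain ⟨A, hA⟩ := (isPGroup_zpowers ha).exists_le_sylow
  obtain ⟨B, hB⟩ := (isPGroup_zpowers hb).exists_le_sylow
  have hm0 : m ≠ 0 := fun e => hm (e ▸ dvd_zero q)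
  have hc : Nat.card A = q := by
    rw [A.card_eq_multiplicity, h, Nat.factorization_mul hq.out.ne_zero hm0, Finsupp.add_apply,
      hq.out.factorization_self, Nat.factorization_eq_zero_of_not_dvd hm, add_zero, pow_one]
  have hi : (A : Subgroup X).index = m := by
    have := (A : Subgroup X).card_mul_index
    rw [hc, h] at this
    exact Nat.eq_of_mul_eq_mul_left hq.out.pos this
  have h2 := h1 _ (hi ▸ A.card_dvd_index) (card_sylow_modEq_one q X)
  haveI := (Nat.card_eq_one_iff_unique.1 h2).1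
  obtain rfl : A = B := Subsingleton.elim _ _
  haveI : IsCyclic (A : Subgroup X) := isCyclic_of_prime_card hc
  exact congrArg Subtype.val
    (IsCyclic.isMulCommutative.is_comm.comm (⟨a, hA (mem_zpowers a)⟩ : (A : Subgroup X))
      ⟨b, hB (mem_zpowers b)⟩)

theorem mem_of_normal {q m : ℕ} (hq : q.Prime) (h : Nat.card X ∣ q * m) (hm : ¬ q ∣ m)
    (N : Subgroup X) [N.Normal] (hN : q ∣ Nat.card N) {w : X} (hw : w ^ q = 1) : w ∈ N := by
  obtain ⟨c, hc⟩ := hN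
  have h1 : N.index ∣ m := by
    rw [← N.card_mul_index, hc, mul_assoc] at h
    exact (Dvd.intro_left c rfl).trans (Nat.dvd_of_mul_dvd_mul_left hq.pos h)
  have h2 : orderOf (w : X ⧸ N) ∣ q := orderOf_dvd_of_pow_eq_one (by
    rw [← QuotientGroup.mk_pow, hw, QuotientGroup.mk_one])
  rcases (Nat.dvd_prime hq).1 h2 with e | e
  · exact (QuotientGroup.eq_one_iff w).1 (orderOf_eq_one_iff.1 e)
  · exact absurd ((e ▸ orderOf_dvd_natCard (w : X ⧸ N)).trans h1) hm

theorem no_simple [IsSimpleGroup X] (hX : Nat.card X = 175560)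
    (h : ∀ k ∈ [3, 11, 19], ∃ w x : X, orderOf w = 7 ∧ orderOf x = k ∧
      x ∈ normalizer (zpowers w : Set X)) : False := by
  haveI : Fact (Nat.Prime 7) := ⟨by decide⟩
  have key : ∀ k ∈ [3, 11, 19], 7 * k * Nat.card (Sylow 7 X) ∣ 175560 := fun k hk => by
    have hc : ∀ k ∈ [3, 11, 19], Nat.Coprime 7 k := by decide
    obtain ⟨w, x, hw, hx, hn⟩ := h k hk
    rw [← index_eq_card_sylow hw (m := 25080) hX (by decide), ← hX,
      ← (normalizer (zpowers w : Set X)).card_mul_index]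
    refine mul_dvd_mul_right (Nat.Coprime.mul_dvd_of_dvd_of_dvd (hc k hk)
      (hw ▸ orderOf_dvd_natCard _ (le_normalizer (mem_zpowers _))) (hx ▸ orderOf_dvd_natCard _ hn)) _
  have h1 : Nat.card (Sylow 7 X) ∣ 8360 :=
    Nat.dvd_of_mul_dvd_mul_left (k := 21) (by decide) (key 3 (by simp))
  have h2 : Nat.card (Sylow 7 X) ∣ 2280 :=
    Nat.dvd_of_mul_dvd_mul_left (k := 77) (by decide) (key 11 (by simp))
  have h3 : Nat.card (Sylow 7 X) ∣ 1320 :=
    Nat.dvd_of_mul_dvd_mul_left (k := 133) (by decide) (key 19 (by simp))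
  have h4 : Nat.card (Sylow 7 X) ∣ 40 := Nat.dvd_gcd h1 (Nat.dvd_gcd h2 h3)
  have h5 : ∀ n ∈ Nat.divisors 40, n ≡ 1 [MOD 7] → n = 1 ∨ n = 8 := by decide +kernel
  obtain ⟨w, -, hw, -⟩ := h 3 (by simp)
  have h6 := normalizer_ne_top (w := w) (fun e => by simp [e] at hw) (by rw [hw, hX]; decide)
  have h7 := card_dvd_factorial h6
  have h8 := index_eq_card_sylow hw (m := 25080) hX (by decide)
  rcases h5 _ (Nat.mem_divisors.2 ⟨h4, by decide⟩) (card_sylow_modEq_one 7 X) with e | e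
  · exact h6 (index_eq_one.1 (h8.trans e))
  · rw [h8, e, hX] at h7
    exact absurd h7 (by decide)

theorem exists_norm {k : ℕ} (hk : k = 11 ∨ k = 19) (hX : Nat.card X = 7 * k) :
    ∃ w x : X, orderOf w = 7 ∧ orderOf x = k ∧ x ∈ normalizer (zpowers w : Set X) := by
  haveI : Fact (Nat.Prime 7) := ⟨by decide⟩
  haveI : Fact (Nat.Prime k) := ⟨by rcases hk with rfl | rfl <;> decide⟩
  obtain ⟨w, hw⟩ := exists_prime_orderOf_dvd_card' (G := X) 7 (hX ▸ dvd_mul_right _ _)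
  obtain ⟨x, hx⟩ := exists_prime_orderOf_dvd_card' (G := X) k (hX ▸ dvd_mul_left _ _)
  have h1 := exists_sylow_zpowers hw hX (by rcases hk with rfl | rfl <;> decide)
  have h2 : (normalizer (zpowers w : Set X)).index ∣ k := by
    have := (zpowers w).card_mul_index
    rw [Nat.card_zpowers, hw, hX] at this
    exact (show (zpowers w).index = k by omega) ▸ index_dvd_of_le le_normalizer
  rcases (Nat.dvd_prime Fact.out).1 h2 with e | e
  · exact ⟨w, x, hw, hx, by rw [index_eq_one.1 e]; trivial⟩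
  · rw [e] at h1
    rcases hk with rfl | rfl <;> exact absurd h1 (by decide)

theorem exists_norm_map {Y : Type*} [Group Y] (f : X →* Y) (hf : Function.Injective f) {w x : X}
    (h : x ∈ normalizer (zpowers w : Set X)) : f x ∈ normalizer (zpowers (f w) : Set Y) := by
  rw [← MonoidHom.map_zpowers]
  exact le_normalizer_map f ⟨x, h, rfl⟩

end General

theorem finite_J1 : Finite J1 := inferInstance

theorem normal_J1 (hc : Nat.card J1 ∣ 175560) (N : Subgroup J1) [hN : N.Normal]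
    (h : Nat.card N ∣ 1463) : N = ⊥ := by
  have key : ∀ q m : ℕ, q.Prime → 175560 = q * m → ¬ q ∣ m → (∃ w g : J1, w ^ q = 1 ∧
      w * (g * w * g⁻¹) ≠ g * w * g⁻¹ * w) → ∀ c, Nat.card N = q * c → ¬ q ∣ c →
      (∀ n, n ∣ c → n ≡ 1 [MOD q] → n = 1) → False := by
    rintro q m hq e hm ⟨w, g, hw, hne⟩ c hc' h1 h2
    haveI := Fact.mk hq
    have hwN := mem_of_normal hq (e ▸ hc) hm N (hc' ▸ dvd_mul_right _ _) hw
    exact hne (congrArg Subtype.val (comm_of_sylow hc' h1 h2 (a := ⟨w, hwN⟩)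
      (b := ⟨_, hN.conj_mem w hwN g⟩) (Subtype.ext hw) (Subtype.ext (conj_pow_eq_one hw g))))
  have dv : ∀ q c : ℕ, (∀ n ∈ Nat.divisors c, n ≡ 1 [MOD q] → n = 1) → c ≠ 0 →
      ∀ n, n ∣ c → n ≡ 1 [MOD q] → n = 1 := fun q c h h0 n hn => h n (Nat.mem_divisors.2 ⟨hn, h0⟩)
  have k7 := key 7 25080 (by decide) rfl (by decide) J1Mat.ex7
  have k11 := key 11 15960 (by decide) rfl (by decide) J1Mat.ex11
  have k19 := key 19 9240 (by decide) rfl (by decide) J1Mat.ex19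
  have : ∀ n ∈ Nat.divisors 1463, n = 1 ∨ n = 7 * 1 ∨ n = 7 * 11 ∨ n = 7 * 19 ∨ n = 7 * 209 ∨
    n = 11 * 1 ∨ n = 11 * 19 ∨ n = 19 * 1 := by decide +kernel
  rcases this _ (Nat.mem_divisors.2 ⟨h, by decide⟩) with e | e | e | e | e | e | e | e
  · exact eq_bot_of_card_eq N e
  all_goals first
    | exact (k7 _ e (by decide) (dv _ _ (by decide +kernel) (by decide))).elim
    | exact (k11 _ e (by decide) (dv _ _ (by decide +kernel) (by decide))).elim
    | exact (k19 _ e (by decide) (dv _ _ (by decide +kernel) (by decide))).elim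

variable {G : Type*} [Group G] [Finite G]

theorem inv_of_fpf {K : Subgroup G} (hK : ∀ k ∈ K, Odd (orderOf k)) {v : G} (hv : v * v = 1)
    (hn : ∀ k ∈ K, v * k * v ∈ K) (h : ∀ k ∈ K, v * k = k * v → k = 1) {k : G} (hk : k ∈ K) :
    v * k * v = k⁻¹ := by
  obtain ⟨c, hc, i, -, rfl, h1, h2⟩ := half hK hv hn hk
  rw [h c hc h1, one_mul, h2]

theorem eq_one_of_three {K : Subgroup G} (hK : ∀ k ∈ K, Odd (orderOf k)) {p q : G} (hp : Iv p)
    (hq : Iv q) (hpq : Iv (p * q)) (c : p * q = q * p) (np : ∀ k ∈ K, p * k * p ∈ K)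
    (nq : ∀ k ∈ K, q * k * q ∈ K) (h : ∀ v, v = p ∨ v = q ∨ v = p * q → ∀ k ∈ K,
      v * k = k * v → k = 1) {k : G} (hk : k ∈ K) : k = 1 := by
  have e : ∀ k, p * q * k * (p * q) = p * (q * k * q) * p := fun k => by
    nth_rewrite 2 [c]; group
  have h1 := inv_of_fpf hK hpq.1 (fun k hk => e k ▸ np _ (nq k hk)) (h _ (by simp)) hk
  rw [e, inv_of_fpf hK hq.1 nq (h _ (by simp)) hk,
    inv_of_fpf hK hp.1 np (h _ (by simp)) (inv_mem hk), inv_inv] at h1
  exact eq_one_of_odd' (by nth_rewrite 1 [h1]; simp) (hK k hk)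

section Main

variable (H : Hyp G) {t a x c d : G} (h : Tri t a x) (hr : Rel a (a * x) c d t) (tc : R t c)
  (hca : c ≠ a) (hR : R a (a * c)) {L : Subgroup G}
  (hL : L = closure ({a, a * x, c, d, t} : Set G))
include H h hr tc hca hR hL

theorem gens : a ∈ L ∧ a * x ∈ L ∧ c ∈ L ∧ d ∈ L ∧ t ∈ L := by
  rw [hL]
  refine ⟨?_, ?_, ?_, ?_, ?_⟩ <;> exact subset_closure (by simp)

theorem cent_t {g : G} (hg : t * g = g * t) : g ∈ L := by
  obtain ⟨ma, mb, mc, -, mt'⟩ := gens H h hr tc hca hR hL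
  have mx : x ∈ L := by simpa using mul_mem (inv_mem ma) mb
  obtain ⟨-, r2, r3⟩ := T.rel_c H h tc hca hr.ac
  obtain ⟨f, hf⟩ := H.frame t h.ht
  have top : L.comap f = ⊤ := by
    haveI := simple_E
    haveI : Fact (Nat.Prime 3) := ⟨by decide⟩
    haveI : Fact (Nat.Prime 5) := ⟨by decide⟩
    obtain ⟨p, h1, h2, rfl⟩ := (hf.R_iff h.ht).1 h.hR
    obtain ⟨q, h3, h4, rfl⟩ := (hf.R_iff h.ht).1 tc
    obtain ⟨z, rfl⟩ := hf.odd h.ht h.tx (by decide) h.h3
    rw [← map_mul] at r2 r3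
    have o2 : orderOf p = 2 := Iv.orderOf_eq ⟨h1, h2⟩
    have o3 : orderOf z = 3 := orderOf_eq_prime (hf.pow_eq_one.1 h.h3) (mt hf.eq_one.2 h.h1)
    have o5 : orderOf (z * q) = 5 := orderOf_eq_prime (hf.pow_eq_one.1 r2) (mt hf.eq_one.2 r3)
    have d30 : 2 * 3 * 5 ∣ Nat.card (L.comap f) :=
      Nat.Coprime.mul_dvd_of_dvd_of_dvd (by decide) (Nat.Coprime.mul_dvd_of_dvd_of_dvd (by decide)
        (o2 ▸ orderOf_dvd_natCard _ ma) (o3 ▸ orderOf_dvd_natCard _ mx))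
        (o5 ▸ orderOf_dvd_natCard _ (mul_mem (show z ∈ L.comap f from mx) mc))
    have e := (L.comap f).card_mul_index
    obtain ⟨k, hk⟩ := d30
    rw [card_E, hk] at e
    have h5 : (L.comap f).index ∣ 2 := Dvd.intro_left k (by nlinarith)
    rcases (Nat.dvd_prime Nat.prime_two).1 h5 with e' | e'
    · exact index_eq_one.1 e'
    · refine (normal_of_index_eq_two e').eq_bot_or_eq_top.resolve_left fun e2 => ?_
      rw [e2, card_bot] at hk
      omega
  have hm : ∀ e, f e ∈ L := fun e => (top ▸ mem_top e : e ∈ L.comap f)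
  obtain ⟨e, rfl | rfl⟩ := hf.cov g hg
  · exact hm e
  · exact mul_mem mt' (hm e)

theorem cent_of_conj {v g : G} (hv : ∃ l ∈ L, l * t * l⁻¹ = v) (hg : v * g = g * v) : g ∈ L := by
  obtain ⟨l, hl, rfl⟩ := hv
  have := conj_comm hg l⁻¹
  rw [show l⁻¹ * (l * t * l⁻¹) * l⁻¹⁻¹ = t by group] at this
  simpa [mul_assoc] using mul_mem (mul_mem hl (cent_t H h hr tc hca hR hL this)) (inv_mem hl)

theorem conj_t {v : G} (hv : Iv v) (hvL : v ∈ L) : ∃ l ∈ L, l * t * l⁻¹ = v := by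
  obtain ⟨ma, mb, mc, md, mt'⟩ := gens H h hr tc hca hR hL
  have ha := T.ha H h
  have tr : ∀ {u u' : G}, (∃ l ∈ L, l * t * l⁻¹ = u) → (∃ l ∈ L, l * u * l⁻¹ = u') →
      ∃ l ∈ L, l * t * l⁻¹ = u' := by
    rintro _ _ ⟨l, hl, rfl⟩ ⟨l', hl', rfl⟩
    exact ⟨l' * l, mul_mem hl' hl, by group⟩
  have od : ∀ {p q : G} {n : ℕ}, p ∈ L → q ∈ L → p * p = 1 → q * q = 1 → Odd n → (p * q) ^ n = 1 →
      ∃ l ∈ L, l * q * l⁻¹ = p := fun mp mq hp hq hn e => by
    obtain ⟨m, hm⟩ := exists_conj_of_odd hp hq hn e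
    refine ⟨_, pow_mem (mul_mem mp mq) m, ?_⟩
    generalize (_ * _ : G) ^ m = l at hm
    rw [← hm]; group
  have cc : ∃ l ∈ L, l * t * l⁻¹ = c :=
    tr (od md mt' hr.hd hr.he (by decide) hr.de) (od mc md hr.hc hr.hd (by decide) hr.cd)
  have RR : ∀ {u p q : G}, Iv u → (∃ l ∈ L, l * t * l⁻¹ = u) → R u p → R u q →
      ∃ l ∈ L, l * p * l⁻¹ = q ∧ u * l = l * u := fun {u p q} hu hc hp hq => by
    obtain ⟨g, e1, e2⟩ := H.R_trans hu hp hu hq
    have := (mul_inv_eq_iff_eq_mul.1 e1).symm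
    exact ⟨g, cent_of_conj H h hr tc hca hR hL hc this, e2, this⟩
  have tt : ∃ l ∈ L, l * t * l⁻¹ = t := ⟨1, one_mem _, by group⟩
  have c1 : ∀ {p : G}, R t p → ∃ l ∈ L, l * t * l⁻¹ = p := fun hp => by
    obtain ⟨l, hl, e, -⟩ := RR h.ht tt tc hp
    exact tr cc ⟨l, hl, e⟩
  have c2 : ∃ l ∈ L, l * t * l⁻¹ = t * a := by
    obtain ⟨l, hl, e, -⟩ := RR ha (c1 h.hR) hR (H.R_next h.ht h.hR)
    exact tr (c1 (H.R_mul h.ht h.hR tc hca.symm hr.ac)) ⟨l, hl, e⟩
  have c3 : ∀ {p : G}, Iv p → t * p = p * t → ∃ l ∈ L, l * t * l⁻¹ = p := fun {p} hp tp => by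
    by_cases e : t = p
    · exact e ▸ tt
    rcases H.R_or h.ht hp e tp with h1 | h1
    · exact c1 h1
    · obtain ⟨l, hl, e, e'⟩ := RR h.ht tt h.hR h1
      refine tr c2 ⟨l, hl, ?_⟩
      rw [← mul_assoc, ← e', mul_assoc t, mul_assoc t, e, h.ht.cancel]
  obtain ⟨Q, hQ⟩ := (isPGroup_zpowers (p := 2) (x := (⟨t, mt'⟩ : L))
    (Subtype.ext (by simpa [pow_two] using h.ht.1))).exists_le_sylow
  obtain ⟨Q', hQ'⟩ := (isPGroup_zpowers (p := 2) (x := (⟨v, hvL⟩ : L))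
    (Subtype.ext (by simpa [pow_two] using hv.1))).exists_le_sylow
  obtain ⟨m, rfl⟩ := MulAction.exists_smul_eq L Q' Q
  have h1 : m * ⟨v, hvL⟩ * m⁻¹ ∈ ((m • Q' : Sylow 2 L) : Subgroup L) := by
    rw [Sylow.coe_subgroup_smul]
    exact smul_mem_pointwise_smul _ _ _ (hQ' (mem_zpowers _))
  refine tr (c3 (hv.conj m) (H.comm_of_isPGroup ((m • Q').isPGroup'.map L.subtype)
    ⟨_, hQ (mem_zpowers _), rfl⟩ ⟨_, h1, rfl⟩)) ⟨m⁻¹, inv_mem m.2, by group⟩

theorem cent_iv {v g : G} (hv : Iv v) (hvL : v ∈ L) (hg : v * g = g * v) : g ∈ L :=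
  cent_of_conj H h hr tc hca hR hL (conj_t H h hr tc hca hR hL hv hvL) hg

theorem normal_cases {M : Subgroup G} (hM : M ≤ L) (hn : ∀ l ∈ L, ∀ m ∈ M, l * m * l⁻¹ ∈ M) :
    M = ⊥ ∨ M = L := by
  obtain ⟨ma, mb, mc, md, mt'⟩ := gens H h hr tc hca hR hL
  have ha := T.ha H h
  have ta := T.ta H h
  by_cases h2 : 2 ∣ Nat.card M
  · right
    obtain ⟨s, hs⟩ := exists_prime_orderOf_dvd_card' 2 h2
    obtain ⟨l, hl, e⟩ := conj_t H h hr tc hca hR hL (iv_of_orderOf (by simpa using hs)) (hM s.2)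
    have h1 : t ∈ M := by simpa [← e, mul_assoc] using hn _ (inv_mem hl) _ s.2
    have h3 : ∀ v ∈ L, v * v = 1 → v ∈ M := fun v hv h4 => by
      by_cases h5 : v = 1
      · exact h5 ▸ one_mem _
      · obtain ⟨l, hl, rfl⟩ := conj_t H h hr tc hca hR hL ⟨h4, h5⟩ hv
        exact hn l hl t h1
    refine le_antisymm hM (hL.le.trans ((closure_le _).2 ?_))
    rintro _ (rfl | rfl | rfl | rfl | rfl)
    exacts [h3 _ ma hr.ha, h3 _ mb hr.hb, h3 _ mc hr.hc, h3 _ md hr.hd, h1]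
  · left
    have ho : ∀ k ∈ M, Odd (orderOf k) := fun k hk => Nat.not_even_iff_odd.1 fun e =>
      h2 ((even_iff_two_dvd.1 e).trans (orderOf_dvd_natCard M hk))
    have hn' : ∀ v ∈ L, Iv v → ∀ k ∈ M, v * k * v ∈ M := fun v hv hi k hk => by
      have := hn v hv k hk; rwa [hi.inv_eq] at this
    have key : ∀ {u p q : G}, Iv u → Iv p → Iv q → p ∈ L → q ∈ L → p ≠ q → p * q = q * p → u ≠ p →
        u ≠ q → u ≠ p * q → u * p = p * u → u * q = q * u → ∀ k ∈ M, u * k = k * u → k = 1 := by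
      intro u p q hu hp hq mp mq ne c n1 n2 n3 c1 c2 k hk uk
      have mC : ∀ g, g ∈ centralizer ({u} : Set G) ↔ u * g = g * u := fun g => by
        simp [mem_centralizer_iff]
      refine eq_one_of_three (K := M ⊓ centralizer {u}) (fun k hk => ho k hk.1) hp hq
        (hp.mul hq ne c) c
        (fun k hk => ⟨hn' p mp hp k hk.1, (mC _).2 (comm_mul (comm_mul c1 ((mC k).1 hk.2)) c1)⟩)
        (fun k hk => ⟨hn' q mq hq k hk.1, (mC _).2 (comm_mul (comm_mul c2 ((mC k).1 hk.2)) c2)⟩)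
        (fun v hv k hk vk => eq_one_of_odd' ?_ (ho k hk.1)) ⟨hk, (mC k).2 uk⟩
      rcases hv with rfl | rfl | rfl
      · exact H.sq_of_comm hu hp n1 c1 ((mC k).1 hk.2) vk
      · exact H.sq_of_comm hu hq n2 c2 ((mC k).1 hk.2) vk
      · exact H.sq_of_comm hu (hp.mul hq ne c) n3 (comm_mul c1 c2) ((mC k).1 hk.2) vk
    have hac := H.R_mul h.ht h.hR tc hca.symm hr.ac
    have ntc := H.R_ne h.ht tc
    rw [eq_bot_iff]
    intro k hk
    refine eq_one_of_three ho h.ht ha (T.hu H h) ta (hn' t mt' h.ht) (hn' a ma ha) ?_ hk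
    rintro v (rfl | rfl | rfl)
    · exact key h.ht ha tc.1 ma mc hca.symm hr.ac (T.ne H h) ntc (H.R_ne h.ht hac) ta tc.2.1
    · exact key ha h.ht tc.1 mt' mc ntc tc.2.1 (T.ne H h).symm hca.symm
        (fun e => H.R_not_both h.ht tc (e ▸ h.hR)) ta.symm hr.ac
    · exact key (T.hu H h) h.ht tc.1 mt' mc ntc tc.2.1 (T.ne' H h).symm
        (fun e => H.R_not_both h.ht h.hR (e ▸ tc)) (fun e => hca (mul_left_cancel e).symm)
        (T.tu H h).symm (mul_comm' tc.2.1 hr.ac)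

theorem simple_L : IsSimpleGroup L := by
  have mt' := (gens H h hr tc hca hR hL).2.2.2.2
  haveI : Nontrivial L := ⟨⟨⟨t, mt'⟩, 1, fun e => h.ht.2 (congrArg Subtype.val e)⟩⟩
  refine ⟨fun N hN => ?_⟩
  rcases normal_cases H h hr tc hca hR hL (map_subtype_le N) (by
    rintro l hl _ ⟨m, hm, rfl⟩
    exact ⟨_, hN.conj_mem m hm ⟨l, hl⟩, rfl⟩) with e | e
  · exact Or.inl ((map_eq_bot_iff_of_injective N L.subtype_injective).1 e)
  · right
    apply map_injective L.subtype_injective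
    rw [e, ← MonoidHom.range_eq_map, range_subtype]

theorem equiv_L : Nonempty (L ≃* J1) ∧ Nat.card L = 175560 := by
  obtain ⟨hfin, hc⟩ := (hr.prod J1Mat.rel).card_le
  set Γ := closure ({(a, J1Mat.ja), (a * x, J1Mat.jb), (c, J1Mat.jc), (d, J1Mat.jd),
    (t, J1Mat.je)} : Set (G × J1)) with hΓ
  let π₁ : Γ →* G := (MonoidHom.fst G J1).comp Γ.subtype
  let π₂ : Γ →* J1 := (MonoidHom.snd G J1).comp Γ.subtype
  have r1 : π₁.range = L := by
    rw [← MonoidHom.map_range, range_subtype, hΓ, MonoidHom.map_closure, hL]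
    simp [Set.image_insert_eq]
  have r2 : π₂.range = ⊤ := by
    rw [← MonoidHom.map_range, range_subtype, hΓ, MonoidHom.map_closure, ← J1Mat.closure_eq]
    simp [Set.image_insert_eq]
  have s2 := MonoidHom.range_eq_top.1 r2
  have d1 : 120 ∣ Nat.card L := by
    obtain ⟨f, hf⟩ := H.frame t h.ht
    rw [← hf.card_centralizer]
    exact card_dvd_of_le fun g hg => cent_t H h hr tc hca hR hL (by simpa [mem_centralizer_iff] using hg)
  have dq : ∀ q : ℕ, q.Prime → (∃ w g : J1, w ^ q = 1 ∧ w * (g * w * g⁻¹) ≠ g * w * g⁻¹ * w) →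
      q ∣ Nat.card J1 := by
    rintro q hq ⟨w, g, h1, h2⟩
    haveI := Fact.mk hq
    exact orderOf_eq_prime h1 (fun e => h2 (by simp [e])) ▸ orderOf_dvd_natCard w
  have d2 : 7 * 11 * 19 ∣ Nat.card J1 :=
    Nat.Coprime.mul_dvd_of_dvd_of_dvd (by decide) (Nat.Coprime.mul_dvd_of_dvd_of_dvd (by decide)
      (dq 7 (by decide) J1Mat.ex7) (dq 11 (by decide) J1Mat.ex11)) (dq 19 (by decide) J1Mat.ex19)
  have k1 : Nat.card π₁.ker * Nat.card L = Nat.card Γ := by
    rw [← r1, ← index_ker, card_mul_index]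
  have d3 : Nat.card J1 ∣ Nat.card Γ := card_dvd_of_surjective π₂ s2
  have d4 : 120 * (7 * 11 * 19) ∣ Nat.card Γ := Nat.Coprime.mul_dvd_of_dvd_of_dvd (by decide)
    (d1.trans (Dvd.intro_left _ k1)) (d2.trans d3)
  have cΓ : Nat.card Γ = 175560 := le_antisymm hc (Nat.le_of_dvd Nat.card_pos d4)
  have i1 : π₁.ker = ⊥ := by
    haveI : (π₁.ker.map π₂).Normal := Normal.map inferInstance π₂ s2
    have h1 := normal_J1 (cΓ ▸ d3) (π₁.ker.map π₂) ((card_map_dvd _ _).trans (by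
      obtain ⟨m, hm⟩ := d1
      rw [hm, cΓ] at k1
      exact Dvd.intro m (by nlinarith)))
    rw [eq_bot_iff]
    intro g hg
    have : π₂ g ∈ π₁.ker.map π₂ := ⟨g, hg, rfl⟩
    rw [h1] at this
    exact Subtype.ext (Prod.ext hg this)
  let e₁ : Γ ≃* L := (MonoidHom.ofInjective ((MonoidHom.ker_eq_bot_iff _).1 i1)).trans
    (MulEquiv.subgroupCongr r1)
  haveI := simple_L H h hr tc hca hR hL
  haveI : IsSimpleGroup Γ := e₁.isSimpleGroup
  have i2 : π₂.ker = ⊥ := (MonoidHom.normal_ker π₂).eq_bot_or_eq_top.resolve_right fun e => by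
    have := index_ker π₂
    rw [e, index_top, r2, card_top] at this
    rw [← this] at d2
    exact absurd d2 (by decide)
  exact ⟨⟨e₁.symm.trans (MulEquiv.ofBijective π₂ ⟨(MonoidHom.ker_eq_bot_iff _).1 i2, s2⟩)⟩,
    by rw [← Nat.card_congr e₁.toEquiv, cΓ]⟩

theorem odd_mul {s j : G} (hs : Iv s) (hsL : s ∈ L) (hj : Iv j) (hjL : j ∉ L) :
    ∃ m, Odd m ∧ (s * j) ^ m = 1 := by
  obtain ⟨m, hm, e⟩ := H.exists_odd (s * j)
  refine ⟨m, hm, ?_⟩
  by_contra hne
  have hz : Iv ((s * j) ^ m) := ⟨by rw [← (Commute.refl _).mul_pow, e], hne⟩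
  have h1 : s * (s * j) ^ m * s = (s * j) ^ m := by
    rw [conj_pow_inv hs (by rw [hs.cancel, mul_inv_rev, hs.inv_eq, hj.inv_eq]), hz.inv_eq]
  have h2 : j * (s * j) ^ m * j = (s * j) ^ m := by
    rw [conj_pow_inv hj (by rw [mul_assoc, hj.cancel', mul_inv_rev, hs.inv_eq, hj.inv_eq]), hz.inv_eq]
  refine hjL (cent_iv H h hr tc hca hR hL hz (cent_iv H h hr tc hca hR hL hs hsL ?_) ?_)
  · nth_rewrite 2 [← h1]; rw [hs.cancel']
  · nth_rewrite 1 [← h2]; rw [hj.cancel']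

theorem eq_of_comm {u v : G} (hu : Iv u) (hv : Iv v) (huL : u ∉ L) (hc : t * (u * v) = u * v * t) :
    u = v := by
  obtain ⟨m, ⟨k, rfl⟩, e⟩ := odd_mul H h hr tc hca hR hL h.ht (gens H h hr tc hca hR hL).2.2.2.2 hu huL
  have h1 : t * u * (u * v) = (u * v)⁻¹ * (t * u) := by
    rw [← mul_assoc (u * v)⁻¹, ← comm_inv hc, mul_inv_rev, hu.inv_eq, hv.inv_eq, mul_assoc,
      hu.cancel, mul_assoc, hu.cancel']
  have h2 : t * u * (u * v)⁻¹ = u * v * (t * u) := by
    have := congrArg (·⁻¹) h1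
    simp only [mul_inv_rev (t * u), mul_inv_rev _ (t * u), inv_inv] at this
    rw [← mul_inv_eq_iff_eq_mul, mul_assoc, this]; group
  have h3 : Commute ((t * u) ^ 2) (u * v) := by
    change _ = _
    rw [pow_two, mul_assoc, h1, ← mul_assoc, h2, mul_assoc]
  have h4 := (h3.pow_left k).eq
  have h5 : ((t * u) ^ 2) ^ k = (t * u)⁻¹ := by
    rw [eq_inv_iff_mul_eq_one, ← pow_mul, ← pow_succ, e]
  rw [h5] at h4
  have h6 : (u * v)⁻¹ = u * v := by
    have := inv_comm h4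
    rw [inv_inv, h1] at this
    exact mul_right_cancel this
  by_contra hne
  have hi : Iv (u * v) := ⟨by nth_rewrite 1 [← h6]; simp, fun e => hne (by
    rw [← hv.inv_eq]; exact eq_inv_of_mul_eq_one_left e)⟩
  refine huL (cent_iv H h hr tc hca hR hL hi (cent_t H h hr tc hca hR hL hc) ?_)
  nth_rewrite 2 [← h6]
  rw [mul_inv_rev, hu.inv_eq, hv.inv_eq, mul_assoc]

theorem eq_top [IsSimpleGroup G] : L = ⊤ := by
  classical
  by_contra hne
  have mt' := (gens H h hr tc hca hR hL).2.2.2.2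
  obtain ⟨j, hj, hjL⟩ : ∃ j, Iv j ∧ j ∉ L := by
    by_contra hcon
    push Not at hcon
    rcases (normalClosure_normal (s := {t})).eq_bot_or_eq_top with e | e
    · exact h.ht.2 (by simpa [e] using subset_normalClosure (s := {t}) rfl)
    · refine hne (top_le_iff.1 (e.ge.trans ((closure_le _).2 fun g hg => ?_)))
      obtain ⟨_, rfl, h1⟩ := Group.mem_conjugatesOfSet_iff.1 hg
      obtain ⟨k, rfl⟩ := isConj_iff.1 h1
      exact hcon _ (h.ht.conj k)
  have cL := (equiv_L H h hr tc hca hR hL).2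
  have hI : {g | ∃ n ∈ L, n * t * n⁻¹ = g}.ncard = 1463 := by
    have := card_eq_ncard_mul L t
    obtain ⟨f, hf⟩ := H.frame t h.ht
    rw [inf_eq_right.2 fun g hg => cent_t H h hr tc hca hR hL
      (by simpa [mem_centralizer_iff] using hg), hf.card_centralizer, cL] at this
    omega
  have hJ : {u : G | Iv u}.ncard = L.index * 1463 := by
    have h1 := card_eq_iv H h.ht
    rw [← L.card_mul_index, cL] at h1
    omega
  have inj : ∀ u₀ : G, Iv u₀ → u₀ ∉ L → Set.InjOn (fun u => u₀ * u * t * (u₀ * u)⁻¹)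
      {u : G | Iv u ∧ (u : G ⧸ L) = (u₀ : G ⧸ L)} := fun u₀ h0 h1 u hu v hv e => by
    refine eq_of_comm H h hr tc hca hR hL hu.1 hv.1 (fun h2 => h1 ?_) ?_
    · simpa using mul_mem h2 (QuotientGroup.eq.1 hu.2)
    · have e' : u * t * u⁻¹ = v * t * v⁻¹ := by
        simp only at e
        rw [← mul_left_cancel_iff (a := u₀), ← mul_right_cancel_iff (a := u₀⁻¹)]
        simpa [mul_assoc] using e
      rw [hu.1.inv_eq, hv.1.inv_eq] at e'
      calc t * (u * v) = u * (u * t * u) * v := by rw [← mul_assoc, ← mul_assoc, ← mul_assoc, hu.1.1, one_mul]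
        _ = u * v * t := by rw [e', mul_assoc, hv.1.cancel', mul_assoc]
  have mem : ∀ u₀ : G, Iv u₀ → ∀ u ∈ {u : G | Iv u ∧ (u : G ⧸ L) = (u₀ : G ⧸ L)}, u₀ * u ∈ L := fun u₀ h0 u hu => by
    have := QuotientGroup.eq.1 hu.2.symm
    rwa [h0.inv_eq] at this
  have le : ∀ q : G ⧸ L, {u : G | Iv u ∧ (u : G ⧸ L) = q}.ncard ≤ 1463 := fun q => by
    by_cases e : ∃ u₀ : G, Iv u₀ ∧ (u₀ : G ⧸ L) = q
    · obtain ⟨u₀, h0, rfl⟩ := e
      rw [← hI]
      by_cases h1 : u₀ ∈ L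
      · exact Set.ncard_le_ncard fun u hu => conj_t H h hr tc hca hR hL hu.1
          (by simpa using mul_mem (inv_mem h1) (mem u₀ h0 u hu))
      · exact Set.ncard_le_ncard_of_injOn _ (fun u hu => ⟨_, mem u₀ h0 u hu, rfl⟩) (inj u₀ h0 h1)
    · have : {u : G | Iv u ∧ (u : G ⧸ L) = q} = ∅ :=
        Set.eq_empty_of_forall_notMem fun u hu => e ⟨u, hu⟩
      rw [this]; simp
  have eq : {u : G | Iv u ∧ (u : G ⧸ L) = (j : G ⧸ L)}.ncard = 1463 := by
    refine le_antisymm (le _) (not_lt.1 fun hlt => ?_)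
    haveI := Fintype.ofFinite G
    haveI := Fintype.ofFinite (G ⧸ L)
    have h1 := Finset.card_eq_sum_card_fiberwise (f := fun u : G => (u : G ⧸ L))
      (s := Finset.univ.filter Iv) (t := Finset.univ) (fun _ _ => Finset.mem_univ _)
    have h2 : ∀ q : G ⧸ L, ((Finset.univ.filter Iv).filter fun u : G => (u : G ⧸ L) = q).card =
        {u : G | Iv u ∧ (u : G ⧸ L) = q}.ncard := fun q => by
      rw [← Set.ncard_coe_finset]; congr 1; ext u; simp
    simp only [h2] at h1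
    have h3 := Finset.sum_lt_sum (s := Finset.univ) (fun q _ => le q) ⟨(j : G ⧸ L), Finset.mem_univ _, hlt⟩
    rw [← h1, Finset.sum_const, Finset.card_univ, smul_eq_mul, ← Nat.card_eq_fintype_card,
      ← Set.ncard_coe_finset] at h3
    refine h3.ne (Eq.trans ?_ hJ)
    congr 1; ext u; simp
  let D : Subgroup G := L ⊓ L.comap (MulAut.conj j).toMonoidHom
  have mD : ∀ g, g ∈ D ↔ g ∈ L ∧ j * g * j ∈ L := fun g => by
    simp [D, mem_inf, mem_comap, hj.inv_eq]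
  have d1 : 1463 ∣ Nat.card D := by
    rw [card_eq_ncard_mul D t]
    refine Dvd.dvd.mul_right (dvd_of_eq (le_antisymm ?_ ?_)) _
    · rw [← eq]
      refine Set.ncard_le_ncard_of_injOn _ (fun u hu => ⟨_, (mD _).2 ⟨mem j hj u hu, ?_⟩, rfl⟩)
        (inj j hj hjL)
      have := inv_mem (mem j hj u hu)
      rwa [hj.cancel, ← hu.1.inv_eq, ← hj.inv_eq, ← mul_inv_rev]
    · rw [← hI]
      exact Set.ncard_le_ncard fun g ⟨n, hn, e⟩ => ⟨n, hn.1, e⟩
  have d2 : ¬ 2 ∣ Nat.card D := fun h2 => by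
    obtain ⟨s, hs⟩ := exists_prime_orderOf_dvd_card' 2 h2
    have hsi : Iv (s : G) := iv_of_orderOf (by simpa using hs)
    obtain ⟨m, ⟨k, rfl⟩, e⟩ := odd_mul H h hr tc hca hR hL hsi s.2.1 hj hjL
    have h1 : (s * j : G) ^ 2 ∈ L := by
      rw [pow_two, show (s : G) * j * (s * j) = s * (j * s * j) by group]
      exact mul_mem s.2.1 ((mD _).1 s.2).2
    have h3 : (s * j : G) = (((s * j : G) ^ 2) ^ k)⁻¹ := by
      rw [eq_inv_iff_mul_eq_one, ← pow_mul, ← pow_succ', e]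
    have h4 : (s * j : G) ∈ L := h3 ▸ inv_mem (pow_mem h1 k)
    exact hjL (by simpa using mul_mem (inv_mem ((mD _).1 s.2).1) h4)
  have d3 : Nat.card D ∣ 21945 :=
    (Nat.Coprime.pow_right 3 ((Nat.Prime.coprime_iff_not_dvd Nat.prime_two).2 d2).symm).dvd_of_dvd_mul_left
      (show Nat.card D ∣ 2 ^ 3 * 21945 from (card_dvd_of_le (inf_le_left : D ≤ L)).trans (by rw [cL]))
  haveI : IsZGroup D := IsZGroup.of_squarefree (Squarefree.squarefree_of_dvd d3 (by
    rw [show 21945 = 3 * 5 * 7 * 11 * 19 from rfl]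
    simp only [Nat.squarefree_mul_iff]
    refine ⟨by decide, ⟨by decide, ⟨by decide, ⟨by decide, ?_, ?_⟩, ?_⟩, ?_⟩, ?_⟩ <;>
      exact (Nat.Prime.prime (by decide)).squarefree))
  haveI := simple_L H h hr tc hca hR hL
  have hall : ∀ k m : ℕ, k = 11 ∨ k = 19 → 1463 = 7 * k * m → (7 * k).Coprime (m * 15) →
      ∃ w x : L, orderOf w = 7 ∧ orderOf x = k ∧ x ∈ normalizer (zpowers w : Set L) := by
    intro k m hk e hc
    obtain ⟨n, hn⟩ := d1
    have h1 : n ∣ 15 := Nat.dvd_of_mul_dvd_mul_left (k := 1463) (by decide) (hn ▸ d3)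
    obtain ⟨Y, hY, -⟩ := Hall.exists_card_eq_of_coprime (G := D) (m := 7 * k) (n := m * n)
      (hc.coprime_dvd_right (mul_dvd_mul_left m h1)) (by rw [hn, e, mul_assoc])
    obtain ⟨w, y, h2, h3, h4⟩ := exists_norm hk hY
    let φ : Y →* L := (inclusion (inf_le_left : D ≤ L)).comp Y.subtype
    have hφ : Function.Injective φ := (inclusion_injective (inf_le_left : D ≤ L)).comp Y.subtype_injective
    exact ⟨φ w, φ y, by rw [orderOf_injective φ hφ, h2], by rw [orderOf_injective φ hφ, h3],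
      exists_norm_map φ hφ h4⟩
  refine no_simple cL fun k hk => ?_
  simp only [List.mem_cons, List.not_mem_nil, or_false] at hk
  rcases hk with rfl | rfl | rfl
  · haveI : Fact (Nat.Prime 7) := ⟨by decide⟩
    obtain ⟨P, hP⟩ := H.exists_sylow h.ht (T.ha H h) (T.ne H h) (T.ta H h)
    have hN : normalizer ((P : Subgroup G) : Set G) ≤ L := fun n hn => by
      have h1 := (mem_normalizer_iff.1 hn t).1 (t_mem H h.ht h.hR hP)
      rw [hP, mem_cc] at h1
      obtain ⟨l, hl, e⟩ := conj_t H h hr tc hca hR hL (h.ht.conj n) (cent_t H h hr tc hca hR hL h1.1)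
      have := cent_t H h hr tc hca hR hL (g := l⁻¹ * n) (by
        rw [← mul_left_cancel_iff (a := l), ← mul_right_cancel_iff (a := n⁻¹)]
        simpa [mul_assoc] using e)
      simpa using mul_mem hl this
    obtain ⟨w, hw⟩ := exists_prime_orderOf_dvd_card' (G := normalizer ((P : Subgroup G) : Set G)) 7
      (by rw [card_N H h.ht h.hR hP]; decide)
    have hw7 : orderOf (w : G) = 7 := by simpa using hw
    obtain ⟨y, hy, y3, yn⟩ := exists_three H h.ht h.hR hP w.2 hw7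
    refine ⟨⟨w, hN w.2⟩, ⟨y, hN hy⟩, by simpa using hw7, by simpa using y3,
      mem_normalizer_fintype fun s hs => ?_⟩
    obtain ⟨k, rfl⟩ := hs
    obtain ⟨m, hm⟩ := (mem_normalizer_iff.1 yn _).1 (⟨k, rfl⟩ : (w : G) ^ k ∈ zpowers (w : G))
    exact ⟨m, Subtype.ext (by simpa using hm)⟩
  · exact hall 11 19 (Or.inl rfl) rfl (by decide)
  · exact hall 19 11 (Or.inr rfl) rfl (by decide)

end Main

/-- A finite simple group with one class of involutions whose centralizers are `ℤ/2 × A₅` is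
`J₁`. -/
theorem isoJ1 [IsSimpleGroup G] (H : Hyp G) {t₀ : G} (h₀ : Iv t₀) : IsoJ1 G := by
  rcases dichotomy H h₀ with ⟨t, a, x, c, d, h, hr, tc, hca, hR⟩ | hB
  · obtain ⟨e⟩ := (equiv_L H h hr tc hca hR rfl).1
    exact ⟨(topEquiv.symm.trans (MulEquiv.subgroupCongr (eq_top H h hr tc hca hR rfl).symm)).trans e⟩
  · obtain ⟨f, hf⟩ := H.frame t₀ h₀
    have hR : R t₀ (f a0) := (hf.R_iff h₀).2 ⟨a0, a0_sq, a0_ne, rfl⟩
    obtain ⟨P, hP⟩ := H.exists_sylow h₀ hR.1 (H.R_ne h₀ hR) hR.2.1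
    exact (caseB H hB h₀ hR hP).elim

end Cfsg.Agent.Lib.J1Final
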