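import Cfsg.Agent.Lib.J4R
import Cfsg.Agent.Lib.J4D

/-! The presented fourth Janko group: index of the subgroup `2¹¹:M₂₄`, order and simplicity. -/

set_option autoImplicit false
set_option maxRecDepth 100000

namespace Cfsg.Agent.Lib.J4A

open Cfsg.Agent.Lib.PermNet Cfsg.Agent.Lib.Words Cfsg.Agent.Lib.PermGroup Cfsg.Agent.Lib.J4Base Cfsg.Agent.Lib.DCE Cfsg.Agent.Lib.J4R0 Cfsg.Agent.Lib.J4A0

theorem hR : ∀ w ∈ J4D.RR, wval F w = 1 := J4R.hRR

theorem htop : gp F (sing 9) = ⊤ := (gp_subst y FW _).trans (gp_top (by decide +kernel))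

theorem hub : Nat.card (WW F J4D.nets 8) ≠ 0 ∧ Nat.card (WW F J4D.nets 8) ≤ 501397585920 :=
  J4TC.card_le _ (rels_pair J4R.hKH J4D.hK1)

theorem main : (gp F (sing 8)).index = 173067389 ∧ Nat.card Spor.J4 = 173067389 * 501397585920 ∧
    Function.Injective phi :=
  have := J4D.ok.final F hR htop hub phi (wval y RepJ4.g) (q := 37)
    (by norm_num) (by decide) (by decide) (by rw [phi_wval _ (by decide +kernel)]; exact RepJ4.g_pow)
    (by rw [phi_wval _ (by decide +kernel)]; exact RepJ4.g_ne)
  ⟨this.1, this.2.2.1, this.2.2.2.1⟩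

theorem card_eq : Nat.card Spor.J4 = 86775571046077562880 := main.2.1

theorem gp_eq : gp F (sing 8) = gp y [[0], [2], FW.getD 7 []] := by
  refine (gp_subst y FW _).trans (le_antisymm (gp_le.2 fun w hw => ?_) (gp_mono (by decide +kernel)))
  rcases Bool.or_eq_true _ _ ▸ List.all_eq_true.1 (by decide +kernel :
    ((sing 8).map (subst FW)).all (fun w => lettersIn [[0], [2], FW.getD 7 []] [w] ||
      [[0], [2], FW.getD 7 []].contains w) = true) w hw with h | h
  · exact mem_gp_of_lettersIn h _ List.mem_cons_self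
  · exact mem_gp (List.contains_iff_mem.1 h)

theorem simple : IsSimpleGroup Spor.J4 := by
  have : Finite Spor.J4 := Nat.finite_of_card_ne_zero (by rw [card_eq]; norm_num)
  obtain ⟨-, h1, h2, h3, -⟩ := J4D.ok.main F hR htop hub fun _ ht => by
    have e : gp F (sing 8) = ⊤ := by
      rw [eq_top_iff, ← htop]
      refine gp_le.2 fun w hw => ?_
      obtain ⟨i, hi, rfl⟩ := List.mem_map.1 hw
      rw [wval_single]
      rcases Nat.lt_succ_iff_lt_or_eq.1 (List.mem_range.1 hi) with hi | rfl
      exacts [mem_sing F hi, ht]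
    have := main.1
    rw [e, Subgroup.index_top] at this
    omega
  exact simple_of_kill hK h1 h3 (q := 37) (by norm_num) (by rw [h2]; decide)
    [] [RepJ4.g] (sing 3) (gp_top (by decide +kernel))
    (fun w hw => by
      rw [List.mem_singleton.1 hw]
      exact main.2.2 (by rw [map_pow, phi_wval _ (by decide +kernel), map_one]; exact RepJ4.g_pow))
    [([0, 2], 2, [([], 24), ([5], 24), ([], 15)], 23, [([], 4)]),
    ([2], 2, [([1], 26), ([1, 1], 26), ([], 1)], 3, [([], 2)]),
    ([0], 1, [([0], 29), ([], 26)], 0, []),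
    ([4], 1, [([], 27), ([], 24)], 0, [])]
    (by decide +kernel)

end Cfsg.Agent.Lib.J4A
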