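import Cfsg.Agent.Lib.J4Base
import Cfsg.Agent.Lib.M24TC
import Cfsg.Agent.Lib.RepJ4

/-! The presented fourth Janko group: a matrix representation, and the subgroup `M₂₄`. -/

set_option autoImplicit false

namespace Cfsg.Agent.Lib.J4A0

open Cfsg.Agent.Lib.PermNet Cfsg.Agent.Lib.Words Cfsg.Agent.Lib.PermGroup Cfsg.Agent.Lib.J4Base

theorem exists_phi : ∃ φ : Spor.J4 →* _, ∀ i < 3, φ (y i) = RepJ4.f i :=
  exists_hom RepJ4.f (derive [] RepJ4.rels K (by decide +kernel))

noncomputable def phi := exists_phi.choose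

theorem phi_wval (w : List ℕ) (hw : w.all (fun l => decide (l < 2 * 3)) = true) :
    phi (wval y w) = wval RepJ4.f w := by
  rw [map_wval]; exact wval_congr exists_phi.choose_spec (by simpa using hw)

theorem hK7 : ∀ w ∈ M24Ord.K, wval y w = 1 := derive [] hK _ (by decide +kernel)

theorem x_ne : y 0 ≠ 1 := fun h =>
  MatRep.ne_one RepJ4.ok RepJ4.hinv [0] 1 0 (by decide +kernel)
    ((phi_wval [0] (by decide)).symm.trans (by rw [show wval y [0] = y 0 from wval_single y 0, h, map_one]))

theorem equiv : Nonempty (gp y [[0], [2]] ≃* M24) :=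
  M24Ord.nonempty_equiv hK7 (fun z => M24TC.card_le z) x_ne

end Cfsg.Agent.Lib.J4A0
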