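import Cfsg.Agent.Lib.J4Fq
import Cfsg.Agent.Lib.ThCl
import Cfsg.Agent.S1666

/-! Coordinates for an extraspecial group of order `2 ^ 13` and plus type. -/

set_option autoImplicit false
set_option maxRecDepth 100000

namespace Cfsg.Agent.Lib.J4Q

open Subgroup Cfsg.Agent.Lib.PermNet Cfsg.Agent.Lib.DCE Cfsg.Agent.Lib.J4Defs Cfsg.Agent.S3085
  Cfsg.Agent.Lib.SuzG1
open Cfsg.Agent.Lib.ThQ (pairE)
open Cfsg.Agent.Lib.ThCl (Md)
open scoped commutatorElement

theorem allD {p : ℕ → Prop} [DecidablePred p] {N : ℕ} (h : allR (fun b => decide (p b)) 0 N = true) :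
    ∀ b < N, p b := fun b hb => of_decide_eq_true (allR_all h b b.zero_le (by omega))

/-- The bilinear form. -/
noncomputable def be (a b : ℕ) : ℕ := par (a >>> 1 &&& b)

theorem qm_eq (a b : ℕ) : qm a b = a ^^^ b ^^^ be a b <<< 12 := rfl

theorem par_eq (m : ℕ) : par m = (m ^^^ m >>> 4 ^^^ m >>> 8 ^^^ (m ^^^ m >>> 4 ^^^ m >>> 8) >>> 2) &&& 1 := rfl

theorem par_xor (a b : ℕ) : par (a ^^^ b) = par a ^^^ par b := by
  simp only [par_eq, Nat.shiftRight_xor_distrib, ← Nat.and_xor_distrib_right]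
  congr 1
  ac_rfl

theorem be_xl (a b c : ℕ) : be (a ^^^ b) c = be a c ^^^ be b c := by
  rw [be, Nat.shiftRight_xor_distrib, Nat.and_xor_distrib_right, par_xor]; rfl

theorem be_xr (a b c : ℕ) : be a (b ^^^ c) = be a b ^^^ be a c := by
  rw [be, Nat.and_xor_distrib_left, par_xor]; rfl

theorem be_or (a b : ℕ) : be a b = 0 ∨ be a b = 1 := by
  have : be a b ≤ 1 := Nat.and_le_right
  omega

theorem be_top : ∀ a < 8192, be 0 a = 0 ∧ be 4096 a = 0 ∧ be a 0 = 0 ∧ be a 4096 = 0 := allD (by decide +kernel)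

theorem be_zl (a b : ℕ) {c : ℕ} (hc : c < 8192) : be (be a b <<< 12) c = 0 := by
  rcases be_or a b with e | e <;> rw [e]
  exacts [(be_top c hc).1, (be_top c hc).2.1]

theorem be_zr (a b : ℕ) {c : ℕ} (hc : c < 8192) : be c (be a b <<< 12) = 0 := by
  rcases be_or a b with e | e <;> rw [e]
  exacts [(be_top c hc).2.2.1, (be_top c hc).2.2.2]

theorem qm_assoc {a c : ℕ} (ha : a < 8192) (b : ℕ) (hc : c < 8192) : qm (qm a b) c = qm a (qm b c) := by
  simp only [qm_eq, be_xl, be_xr, be_zl _ _ hc, be_zr _ _ ha, Nat.xor_zero, Nat.shiftLeft_xor_distrib]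
  ac_rfl

theorem com_ok {a b : ℕ} (ha : a < 8192) (hb : b < 8192) :
    qm a b = qm (qm a a ^^^ qm b b ^^^ qm (a ^^^ b) (a ^^^ b)) (qm b a) := by
  have := qm_lt hb ha
  rw [qm_eq _ (qm b a)]
  simp only [qm_eq a a, qm_eq b b, qm_eq (a ^^^ b), Nat.xor_self, Nat.zero_xor]
  rw [be_xl (_ ^^^ _) (_ <<< 12), be_xl (_ <<< 12), be_zl _ _ this, be_zl _ _ this, be_zl _ _ this]
  simp only [qm_eq, be_xl, be_xr, Nat.shiftLeft_xor_distrib, Nat.xor_self]
  refine Nat.eq_of_testBit_eq fun i => ?_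
  simp only [Nat.testBit_xor, Nat.zero_shiftLeft, Nat.zero_testBit]
  generalize a.testBit i = x1, b.testBit i = x2, (be a a <<< 12).testBit i = x3, (be b b <<< 12).testBit i = x4,
    (be a b <<< 12).testBit i = x5, (be b a <<< 12).testBit i = x6
  revert x1 x2 x3 x4 x5 x6
  decide

theorem ins_ok : ∀ b < 8192, ∀ i < 12, (b / 4096 + (if i % 2 = 1 then b / 2 ^ (i - 1) % 2 else 0)) % 2 =
    qm (2 ^ i) b / 4096 := fun b hb i hi => by
  have := allR_all (by decide +kernel : allR (fun i => forceB (Nat.pow 2 i) fun e =>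
    forceB (Nat.mod i 2) fun o => forceB (Nat.pow 2 (Nat.sub i 1)) fun d => allR (fun b => Nat.beq
      (Nat.mod (Nat.add (Nat.div b 4096) (Nat.mul o (Nat.mod (Nat.div b d) 2))) 2) (Nat.div (qm e b) 4096)) 0 8192)
      0 12 = true) i i.zero_le (by omega)
  rw [forceB_eq, forceB_eq, forceB_eq] at this
  replace this := beq_eq (allR_all this b b.zero_le (by omega))
  refine Eq.trans ?_ this
  change _ = (b / 4096 + i % 2 * (b / 2 ^ (i - 1) % 2)) % 2
  rcases Nat.mod_two_eq_zero_or_one i with e | e <;> simp [e]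

theorem top_ok : ∀ b < 8192, (1 + b / 4096) % 2 = qm 4096 b / 4096 ∧ qm 0 b = b ∧
    (b = 0 ∨ (b &&& (b - 1) < b ∧ qm (b ^^^ (b &&& (b - 1))) (b &&& (b - 1)) = b)) :=
  allD (by decide +kernel)

theorem low_ok : ∀ b < 8192, b = 0 ∨ b = 4096 ∨ ∃ i < 12, 2 ^ i = b ^^^ (b &&& (b - 1)) := fun b hb => by
  have := allD (p := fun b => b = 0 ∨ b = 4096 ∨ ((b ^^^ (b &&& (b - 1))).log2 < 12 ∧
    2 ^ (b ^^^ (b &&& (b - 1))).log2 = b ^^^ (b &&& (b - 1)))) (N := 8192) (by decide +kernel) b hb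
  exact this.imp_right (Or.imp_right fun h => ⟨_, h⟩)

theorem anti_ok : ∀ b < 8192, b = 0 ∨ b = 4096 ∨ ∃ i < 12, qm b (2 ^ i) = qm 4096 (qm (2 ^ i) b) := fun b hb => by
  have := allD (p := fun b => b = 0 ∨ b = 4096 ∨ (((b % 4096).log2 ^^^ 1) < 12 ∧
    qm b (2 ^ ((b % 4096).log2 ^^^ 1)) = qm 4096 (qm (2 ^ ((b % 4096).log2 ^^^ 1)) b))) (N := 8192)
    (by decide +kernel) b hb
  exact this.imp_right (Or.imp_right fun h => ⟨_, h⟩)

theorem inv_ok : ∀ a < 8192, qm (qm a (qm a a)) a = 0 ∧ qm a (qm a (qm a a)) = 0 ∧ qm a 0 = a :=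
  allD (by decide +kernel)

theorem qm_mod (a b : ℕ) : qm a b % 4096 = a % 4096 ^^^ b % 4096 := by
  change (a ^^^ b ^^^ par _ <<< 12) % 2 ^ 12 = _
  rw [Nat.xor_mod_two_pow, Nat.xor_mod_two_pow, Nat.shiftLeft_eq, Nat.mul_mod_left, Nat.xor_zero]

theorem top : ∀ a < 8192, (a = a % 4096 ∨ a = qm 4096 (a % 4096)) ∧ qm a a = qm (a % 4096) (a % 4096) ∧
    (qm a a = 0 ∨ qm a a = 4096) := allD (by decide +kernel)

theorem lt_of_fix {g : Equiv.Perm ℕ} (h : ∀ p, 4096 ≤ p → g p = p) {p : ℕ} (hp : p < 4096) :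
    g p < 4096 := by
  by_contra hn
  have := g.injective (h _ (Nat.le_of_not_lt hn))
  omega

theorem xl {a b : ℕ} (ha : a < 4096) (hb : b < 4096) : a ^^^ b < 4096 :=
  Nat.xor_lt_two_pow (n := 12) ha hb

/-- The isometries of the space of codes below `4096`. -/
def OV : Subgroup (Equiv.Perm ℕ) where
  carrier := {g | (∀ p, 4096 ≤ p → g p = p) ∧ ∀ a < 4096, qm (g a) (g a) = qm a a ∧
    ∀ b < 4096, g (a ^^^ b) = g a ^^^ g b}
  one_mem' := ⟨fun _ _ => rfl, fun _ _ => ⟨rfl, fun _ _ => rfl⟩⟩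
  mul_mem' := fun {g k} hg hk => ⟨fun p hp => by rw [Equiv.Perm.mul_apply, hk.1 p hp, hg.1 p hp],
    fun a ha => ⟨((hg.2 _ (lt_of_fix hk.1 ha)).1).trans (hk.2 a ha).1, fun b hb => by
      simp only [Equiv.Perm.mul_apply]
      rw [(hk.2 a ha).2 b hb, (hg.2 _ (lt_of_fix hk.1 ha)).2 _ (lt_of_fix hk.1 hb)]⟩⟩
  inv_mem' := fun {g} hg => by
    have h : ∀ p, 4096 ≤ p → g⁻¹ p = p := fun p hp => by rw [Equiv.Perm.inv_eq_iff_eq, hg.1 p hp]
    refine ⟨h, fun a ha => ⟨by simpa using (hg.2 _ (lt_of_fix h ha)).1.symm, fun b hb => ?_⟩⟩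
    rw [Equiv.Perm.inv_eq_iff_eq, (hg.2 _ (lt_of_fix h ha)).2 _ (lt_of_fix h hb)]
    simp

theorem zero {g : Equiv.Perm ℕ} (h : g ∈ OV) : g 0 = 0 := by
  simpa using (h.2 0 (by decide)).2 0 (by decide)

instance : Finite OV := Finite.of_injective
  (fun g : OV => fun p : Fin 4096 => (⟨g.1 p, lt_of_fix g.2.1 p.2⟩ : Fin 4096)) fun a b e =>
    Subtype.ext (Equiv.ext fun p => by
      by_cases hp : p < 4096
      · exact congrArg Fin.val (congrFun e ⟨p, hp⟩)
      · rw [a.2.1 p (by omega), b.2.1 p (by omega)])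

/-- Induction along the binary expansion. -/
theorem ind {p : ℕ → Prop} (h0 : p 0) (h : ∀ i < 12, ∀ m < 4096, qm (2 ^ i) m = 2 ^ i ^^^ m → p m →
    p (2 ^ i ^^^ m)) : ∀ m < 4096, p m := fun m => by
  induction m using Nat.strong_induction_on with | _ m ih => ?_
  intro hm
  rcases (allD (by decide +kernel) : ∀ m < 4096, m = 0 ∨ ∃ i < 12, 2 ^ i ^^^ m < m ∧
    2 ^ i ^^^ (2 ^ i ^^^ m) = m ∧ qm (2 ^ i) (2 ^ i ^^^ m) = m) m hm with rfl | ⟨i, hi, h1, h2, h3⟩
  · exact h0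
  · exact h2 ▸ h i hi _ (by omega) (h3.trans h2.symm) (ih _ h1 (by omega))

variable {G : Type*} [Group G] {z : G} {Q : Subgroup G} {q n : ℕ → G}

/-- A hyperbolic basis. -/
def Bas (z : G) (q : ℕ → G) : Prop := ∀ i < 12, q i * q i = 1 ∧ ∀ j < i,
  q i * q j = z ^ (if i = j + 1 ∧ j % 2 = 0 then 1 else 0) * (q j * q i)

/-- The product of the generators given by the binary digits. -/
def P (q : ℕ → G) : ℕ → ℕ → ℕ → G
  | 0, _, _ => 1
  | k + 1, i, m => q i ^ (m % 2) * P q k (i + 1) (m / 2)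

theorem P_mod (k i m : ℕ) : P q k i (m % 2 ^ k) = P q k i m := by
  induction k generalizing i m with
  | zero => rfl
  | succ k ih =>
    rw [P, P, Nat.mod_mod_of_dvd _ (dvd_pow_self 2 (by omega)), pow_succ', Nat.mod_mul_right_div_self, ih]

theorem P_mul (h : Bas z q) (hz : ∀ i < 12, q i * z = z * q i) (k s d m : ℕ) (hd : d < k) (hk : s + k ≤ 12) :
    q (s + d) * P q k s m = z ^ (if (s + d) % 2 = 1 ∧ 0 < d then m / 2 ^ (d - 1) % 2 else 0) *
      P q k s (2 ^ d ^^^ m) := by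
  induction k generalizing s d m with
  | zero => omega
  | succ k ih =>
    obtain _ | d := d
    · rw [P, P, Nat.xor_div_two, Nat.xor_mod_two_eq]
      rcases Nat.mod_two_eq_zero_or_one m with e | e
      · simp [e, Nat.add_mod]
      · simp [e, Nat.add_mod, ← mul_assoc, (h s (by omega)).1]
    have := ih (s + 1) d (m / 2) (by omega) (by omega)
    rw [show s + 1 + d = s + (d + 1) by omega] at this
    rw [P, P, Nat.xor_div_two, Nat.xor_mod_two_eq, pow_succ, Nat.mul_div_cancel _ two_pos,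
      Nat.mul_add_mod_self_right]
    have c := (Commute.pow_right (hz s (by omega)))
    rcases Nat.mod_two_eq_zero_or_one m with e | e
    · rw [e, pow_zero, one_mul, one_mul, this]
      obtain _ | d := d <;> simp [e, Nat.div_div_eq_div_mul, pow_succ']
    · rw [e, pow_one, ← mul_assoc, (h _ (by omega)).2 s (by omega), mul_assoc, mul_assoc, this, ← mul_assoc (q s),
        (c _).eq, ← mul_assoc, ← mul_assoc, ← pow_add, mul_assoc]
      congr 2
      obtain _ | d := d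
      · simp [e]; split_ifs <;> omega
      · simp [Nat.div_div_eq_div_mul, pow_succ']

theorem basis1 (zz : z * z = 1) (hz : ∀ i < 12, q i * z = z * q i) (hb : Bas z q) :
    ∃ n : ℕ → G, (∀ a < 8192, ∀ b < 8192, n a * n b = n (qm a b)) ∧ n 0 = 1 ∧ n 4096 = z ∧
      (∀ i < 12, n (2 ^ i) = q i) ∧ ∀ K : Subgroup G, z ∈ K → (∀ i < 12, q i ∈ K) → ∀ a, n a ∈ K := by
  have hm : ∀ k, z ^ (k % 2) = z ^ k := fun k => (pow_eq_pow_mod k (by rw [sq, zz])).symm
  let n : ℕ → G := fun m => z ^ (m / 4096) * P q 12 0 m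
  have n0 : n 0 = 1 := by simp [n, P]
  have nz : n 4096 = z := by simp [n, P]
  have pm : ∀ a b, a % 4096 = b % 4096 → P q 12 0 a = P q 12 0 b := fun a b e => by
    rw [← P_mod, ← P_mod 12 0 b]; exact congrArg _ e
  have m1 : ∀ i < 12, ∀ b < 8192, q i * n b = n (qm (2 ^ i) b) := fun i hi b hb' => by
    have := P_mul hb hz 12 0 i b hi le_rfl
    rw [Nat.zero_add, if_congr (and_iff_left_of_imp (by omega)) rfl rfl] at this
    simp only [n]
    rw [← ins_ok b hb' i hi, hm, pow_add, mul_assoc, pm (qm _ _) (2 ^ i ^^^ b) (by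
      rw [qm_mod]; exact (Nat.xor_mod_two_pow (n := 12)).symm), ← this, ← mul_assoc, ← mul_assoc,
      (Commute.pow_right (hz i hi) _).eq]
  have n2 : ∀ i < 12, n (2 ^ i) = q i := fun i hi => by
    have := m1 i hi 0 (by decide)
    rw [n0, mul_one, (inv_ok _ ((Nat.pow_lt_pow_right one_lt_two hi).trans (by decide))).2.2] at this
    exact this.symm
  have m2 : ∀ b < 8192, z * n b = n (qm 4096 b) := fun b hb' => by
    simp only [n]
    rw [← (top_ok b hb').1, hm, pow_add, pow_one, mul_assoc, pm (qm _ _) b (by rw [qm_mod]; simp)]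
  have mul : ∀ a < 8192, ∀ b < 8192, n a * n b = n (qm a b) := fun a => by
    induction a using Nat.strong_induction_on with | _ a ih => ?_
    intro ha b hb'
    have a2 := (top_ok a ha).2.2
    obtain a1 | a1 | ⟨i, hi, a1⟩ := low_ok a ha
    · rw [a1, n0, one_mul, (top_ok b hb').2.1]
    · rw [a1, nz, m2 b hb']
    · obtain ⟨a2, a3⟩ := a2.resolve_left (by rintro rfl; simp at a1)
      have := qm_assoc (a := a ^^^ (a &&& (a - 1))) (a1 ▸ (Nat.pow_lt_pow_right one_lt_two hi).trans (by decide))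
        (a &&& (a - 1)) hb'
      rw [a3] at this
      rw [this, ← a1, ← m1 i hi _ (qm_lt (by omega) hb'), ← ih _ a2 (by omega) b hb', ← mul_assoc (q i),
        m1 i hi _ (by omega), a1, a3]
  refine ⟨n, mul, n0, nz, n2, fun K h1 h2 a => mul_mem (pow_mem h1 _) ?_⟩
  have : ∀ k s m, s + k ≤ 12 → P q k s m ∈ K := fun k => by
    induction k with
    | zero => exact fun _ _ _ => one_mem _
    | succ k ih => exact fun s m h => mul_mem (pow_mem (h2 s (by omega)) _) (ih _ _ (by omega))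
  exact this 12 0 a le_rfl

theorem basis0 (zz : z * z = 1) (hz : ∀ i < 12, q i * z = z * q i) (hb : Bas z q) :
    ∃ n : ℕ → G, (∀ a < 8192, ∀ b < 8192, n a * n b = n (qm a b)) ∧ n 0 = 1 ∧ n 4096 = z ∧
      ∀ i < 12, n (2 ^ i) = q i := by
  obtain ⟨n, a, b, c, d, -⟩ := basis1 zz hz hb
  exact ⟨n, a, b, c, d⟩

theorem inj0 (ne : z ≠ 1) (mul : ∀ a < 8192, ∀ b < 8192, n a * n b = n (qm a b)) (n0 : n 0 = 1)
    (nz : n 4096 = z) : ∀ a < 8192, ∀ b < 8192, n a = n b → a = b := fun a ha b hb' e => by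
  have one : ∀ c < 8192, n c = 1 → c = 0 := fun c hc' e => by
    obtain a1 | a1 | ⟨i, hi, a1⟩ := anti_ok c hc'
    · exact a1
    · exact absurd (nz ▸ a1 ▸ e) ne
    · have h2 : 2 ^ i < 8192 := (Nat.pow_lt_pow_right one_lt_two hi).trans (by decide)
      have := congrArg n a1
      rw [← mul _ (by decide) _ (qm_lt h2 hc'), ← mul _ hc' _ h2, ← mul _ h2 _ hc', e, nz] at this
      exact absurd (by simpa using this) ne
  obtain ⟨a1, a2, a3⟩ := inv_ok a ha
  have hl := qm_lt ha (qm_lt ha ha)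
  have := qm_assoc ha (qm a (qm a a)) hb'
  rwa [one _ (qm_lt hl hb') (by rw [← mul _ hl _ hb', ← e, mul _ hl _ ha, a1, n0]), a2, a3,
    (top_ok b hb').2.1, eq_comm] at this

theorem of_basis [Finite G] (h : Hyp z Q) (hq : ∀ i < 12, q i ∈ Q) (hb : Bas z q) :
    ∃ n, Enc z Q n ∧ ∀ i < 12, n (2 ^ i) = q i := by
  obtain ⟨n, mul, n0, nz, n2, mem⟩ := basis1 h.zz (fun i hi => J4Fq.zc h (hq i hi)) hb
  have mem := mem Q h.mem hq
  have inj := inj0 h.ne mul n0 nz
  refine ⟨n, ⟨mul, fun a _ => mem a, fun g hg => ?_, inj, n0, nz⟩, n2⟩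
  obtain ⟨a, e⟩ := (Function.Injective.bijective_of_nat_card_le
    (f := fun a : Fin 8192 => (⟨n a, mem a⟩ : Q))
    (fun a b e => Fin.ext (inj _ a.2 _ b.2 (congrArg Subtype.val e))) (by simp [h.cQ])).2 ⟨g, hg⟩
  exact ⟨a, a.2, congrArg Subtype.val e⟩

theorem exists_bas {X : Type*} [Group X] [Finite X] {z : X} (h : Ex z) (k : ℕ) {H E : Subgroup X} (hH : Nd H)
    (hE : E ≤ H) (h1 : ∀ a ∈ E, a * a = 1 ∧ ∀ b ∈ E, a * b = b * a) (h2 : 2 ^ (k + 1) ≤ Nat.card E) :
    ∃ q : ℕ → X, ∀ i < 2 * k, q i ∈ H ∧ q i * q i = 1 ∧ ∀ j < i,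
      q i * q j = z ^ (if i = j + 1 ∧ j % 2 = 0 then 1 else 0) * (q j * q i) := by
  induction k generalizing H E with
  | zero => exact ⟨1, by simp⟩
  | succ k ih =>
    have : 2 ≤ 2 ^ (k + 1) := Nat.le_self_pow (by omega) 2
    obtain ⟨x, y, x2, y2, xy, K, k1, hx, hy, c, nd, E', l, m, s⟩ := pairE h (k := 2 ^ (k + 1) - 2) hH hE h1
      (by rw [pow_succ] at h2; omega)
    obtain ⟨q, hq⟩ := ih nd l (fun a ha => ⟨(h1 a (m ha)).1, fun b hb => (h1 a (m ha)).2 b (m hb)⟩) (by omega)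
    refine ⟨fun i => Nat.casesOn i x fun i => Nat.casesOn i y q, fun i hi => ?_⟩
    obtain _ | _ | i := i
    · exact ⟨hx, x2, by simp⟩
    · exact ⟨hy, y2, fun j hj => by
        obtain rfl : j = 0 := by omega
        simpa using h.anti xy.symm⟩
    obtain ⟨a1, a2, a3⟩ := hq i (by omega)
    refine ⟨k1 a1, a2, fun j hj => ?_⟩
    obtain _ | _ | j := j
    · simpa using (c _ a1).1.symm
    · simpa using (c _ a1).2.symm
    · simpa [add_assoc] using a3 j (by omega)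

theorem exists_enc [Finite G] (z : G) (hz : orderOf z = 2) (Q N M : Subgroup (centralizer ({z} : Set G)))
    [hN : Q.Normal] [N.Normal] [M.Normal] (hQN : Q ≤ N) (hNM : N ≤ M) (hM : M.index = 2)
    (hQ : IsExtraspecial 2 Q) (hcard : Nat.card Q = 2 ^ 13)
    (hplus : ∃ E : Subgroup Q, IsElementaryAbelian 2 E ∧ Nat.card E = 2 ^ 7)
    (hN3 : Nat.card N = 3 * Nat.card Q) (hC : centralizer (Q : Set (centralizer ({z} : Set G))) ≤ Q)
    (hM22 : Spor.IsoM22 (M ⧸ N.subgroupOf M)) :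
    ∃ n, Hyp z (Q.map (centralizer {z}).subtype) ∧ Enc z (Q.map (centralizer {z}).subtype) n := by
  let z' : centralizer ({z} : Set G) := ⟨z, mem_centralizer_singleton_iff.2 rfl⟩
  have hzc : ∀ g, g * z' = z' * g := fun g => Subtype.ext (mem_centralizer_singleton_iff.1 g.2)
  have hzQ : z' ∈ Q := hC fun g _ => hzc g
  have hz1 : z ≠ 1 := by rintro rfl; simp at hz
  have hzz : (⟨z', hzQ⟩ : Q) ∈ center Q := mem_center_iff.mpr fun r => Subtype.ext (hzc r)
  have key : ∀ g : Q, g ∈ center Q → g = 1 ∨ g = ⟨z', hzQ⟩ := by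
    intro g hg
    obtain ⟨y, -, hy⟩ := (Nat.card_eq_two_iff' (1 : center Q)).mp hQ.2
    have h1 := hy ⟨_, hzz⟩ fun h => hz1 (congrArg (fun x : center Q => (x.1.1 : G)) h)
    by_cases h : (⟨g, hg⟩ : center Q) = 1
    · exact Or.inl (congrArg Subtype.val h)
    · exact Or.inr (congrArg Subtype.val ((hy _ h).trans h1.symm))
  have ex : Ex (⟨z', hzQ⟩ : Q) := ⟨fun h => hz1 (congrArg (fun x : Q => (x.1 : G)) h),
    fun a => ⟨key a, by rintro (rfl | rfl); exacts [one_mem _, hzz]⟩, fun q r => by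
      have h1 : ⁅q, r⁆ ∈ commutator Q := commutator_mem_commutator (mem_top _) (mem_top _)
      rw [hQ.1.2.2] at h1
      refine (key _ h1).imp commutatorElement_eq_one_iff_mul_comm.1 fun h => ?_
      rw [← h, commutatorElement_def]; group⟩
  let ι : Q →* G := (centralizer {z}).subtype.comp Q.subtype
  have H : Hyp z (Q.map (centralizer {z}).subtype) := by
    refine ⟨by rw [← sq, ← hz, pow_orderOf_eq_one], hz1, ⟨z', hzQ, rfl⟩, map_subtype_le Q,
      ?_, fun g hg h => ?_, ?_, ?_, ?_, M.map (centralizer {z}).subtype, map_mono (hQN.trans hNM), ?_⟩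
    · rintro g hg _ ⟨q, hq, rfl⟩
      exact ⟨_, hN.conj_mem q hq ⟨g, hg⟩, rfl⟩
    · have : (⟨g, hg⟩ : centralizer ({z} : Set G)) ∈ centralizer (Q : Set (centralizer ({z} : Set G))) :=
        fun r hr => Subtype.ext (h r ⟨r, hr, rfl⟩).symm
      exact (key ⟨_, hC this⟩ (mem_center_iff.mpr fun r => Subtype.ext (this r r.2))).imp
        (congrArg ι) (congrArg ι)
    · rintro _ ⟨q, hq, rfl⟩ _ ⟨r, hr, rfl⟩
      exact (ex.comm ⟨q, hq⟩ ⟨r, hr⟩).imp (congrArg ι) (congrArg ι)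
    · rw [card_map_of_injective (subtype_injective _), hcard]; rfl
    · obtain ⟨e⟩ := hM22
      obtain ⟨c, ⟨e'⟩⟩ := S1666.iso
      rw [← M.index_mul_card, hM, card_eq_card_quotient_mul_card_subgroup (N.subgroupOf M),
        Nat.card_congr (e.trans e').toEquiv, c, Nat.card_congr (subgroupOfEquivOfLe hNM).toEquiv, hN3, hcard]
      rfl
    · rw [relIndex, ← hM, subgroupOf, comap_map_eq_self_of_injective (subtype_injective _)]
  obtain ⟨E, ⟨e1, e2⟩, e3⟩ := hplus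
  obtain ⟨q, hq⟩ := exists_bas ex 6 (H := ⊤) (E := E) (fun c _ hc => mem_center_iff.2 fun g => hc g trivial)
    le_top (fun a ha => ⟨by rw [← sq, e2 a ha], fun b hb =>
    congrArg Subtype.val (e1.is_comm.comm ⟨a, ha⟩ ⟨b, hb⟩)⟩) e3.ge
  obtain ⟨n, h, -⟩ := of_basis H (q := fun i => ι (q i)) (fun i _ => ⟨_, (q i).2, rfl⟩) fun i hi =>
    ⟨congrArg ι (hq i hi).2.1, fun j hj => by
      have := congrArg ι ((hq i hi).2.2 j hj)
      rwa [map_mul, map_mul, map_mul, map_pow] at this⟩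
  exact ⟨n, H, h⟩

variable (h : Hyp z Q) (E : Enc z Q n)
include h

theorem md_trans {a b c : G} (h1 : Md z a b) (h2 : Md z b c) : Md z a c := by
  rcases h1 with rfl | rfl <;> rcases h2 with rfl | rfl
  exacts [.inl rfl, .inr rfl, .inr rfl, .inl (by rw [← mul_assoc, h.zz, one_mul])]

theorem md_symm {a b : G} (h1 : Md z a b) : Md z b a :=
  h1.imp Eq.symm fun e => by rw [e, ← mul_assoc, h.zz, one_mul]

theorem md_mul {a b c d : G} (h1 : Md z a b) (h2 : Md z c d) (hb : b * z = z * b) :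
    Md z (a * c) (b * d) := by
  rcases h1 with rfl | rfl <;> rcases h2 with rfl | rfl
  exacts [.inl rfl, .inr (by rw [← mul_assoc, hb, mul_assoc]), .inr (mul_assoc _ _ _),
    .inl (by rw [← hb, mul_assoc, ← mul_assoc z, h.zz, one_mul])]

include E

omit h in
theorem md_mod {a : ℕ} (ha : a < 8192) : Md z (n a) (n (a % 4096)) :=
  (top a ha).1.imp (congrArg n) fun e => by
    rw [← E.z12, E.mul _ (by decide) _ (by omega), ← e]

theorem nz {a : ℕ} (ha : a < 8192) : n a * z = z * n a :=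
  mem_centralizer_singleton_iff.1 (h.le (E.mem a ha))

theorem exists_rho0 : ∃ ρ : centralizer ({z} : Set G) →* Equiv.Perm ℕ, ∀ g, ρ g ∈ OV ∧
    ∀ p < 4096, Md z (g * n p * (g : G)⁻¹) (n (ρ g p)) := by
  choose! A A1 A2 using fun (g : centralizer ({z} : Set G)) p (hp : p < 8192) =>
    E.surj _ (h.nor g g.2 _ (E.mem p hp))
  have Am : ∀ g, ∀ a < 8192, ∀ b < 8192, A g (qm a b) = qm (A g a) (A g b) := fun g a ha b hb =>
    E.inj _ (A1 g _ (qm_lt ha hb)) _ (qm_lt (A1 g a ha) (A1 g b hb)) (by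
      rw [← E.mul _ (A1 g a ha) _ (A1 g b hb), A2 g _ (qm_lt ha hb), A2 g a ha, A2 g b hb,
        ← E.mul a ha b hb, conj_mul])
  have Az : ∀ g, A g 0 = 0 ∧ A g 4096 = 4096 := fun g =>
    ⟨E.inj _ (A1 g _ (by decide)) _ (by decide) (by rw [A2 g _ (by decide), E.zero]; simp),
      E.inj _ (A1 g _ (by decide)) _ (by decide) (by
        rw [A2 g _ (by decide), E.z12, mem_centralizer_singleton_iff.1 g.2]; simp)⟩
  have Ad : ∀ g, ∀ a < 8192, A g (a % 4096) % 4096 = A g a % 4096 := fun g a ha => by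
    rcases (top a ha).1 with e | e
    · rw [← e]
    · nth_rw 2 [e]
      rw [Am g _ (by decide) _ (by omega), (Az g).2, qm_mod]; simp
  let b : centralizer ({z} : Set G) → ℕ → ℕ := fun g p => if p < 4096 then A g p % 4096 else p
  have b1 : ∀ g, ∀ p < 4096, b g p = A g p % 4096 := fun g p hp => if_pos hp
  have b2 : ∀ g p, 4096 ≤ p → b g p = p := fun g p hp => if_neg (by omega)
  have bm : ∀ g k p, b (g * k) p = b g (b k p) := fun g k p => by
    by_cases hp : p < 4096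
    · have hp' : p < 8192 := by omega
      rw [b1 _ p hp, b1 k p hp, b1 g _ (by omega), Ad g _ (A1 k p hp')]
      congr 1
      refine E.inj _ (A1 _ p hp') _ (A1 g _ (A1 k p hp')) ?_
      rw [A2 _ p hp', A2 g _ (A1 k p hp'), A2 k p hp']
      simp [mul_assoc]
    · rw [b2 _ p (by omega), b2 k p (by omega), b2 g p (by omega)]
  have b0 : ∀ p, b 1 p = p := fun p => by
    by_cases hp : p < 4096
    · rw [b1 _ p hp, E.inj _ (A1 1 p (by omega)) p (by omega) (by rw [A2 _ p (by omega)]; simp)]; omega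
    · exact b2 _ p (by omega)
  refine ⟨MonoidHom.mk' (fun g => ⟨b g, b g⁻¹, fun p => by rw [← bm, inv_mul_cancel, b0],
    fun p => by rw [← bm, mul_inv_cancel, b0]⟩) fun g k => Equiv.ext (bm g k),
    fun g => ⟨⟨b2 g, fun a ha => ⟨?_, fun c hc => ?_⟩⟩, fun p hp => ?_⟩⟩
  · change qm (b g a) (b g a) = _
    rw [b1 g a ha, ← (top _ (A1 g a (by omega))).2.1, ← Am g a (by omega) a (by omega)]
    rcases (top a (by omega)).2.2 with e | e <;> rw [e]
    exacts [(Az g).1, (Az g).2]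
  · change b g _ = b g a ^^^ b g c
    rw [b1 g a ha, b1 g c hc, b1 g _ (xl ha hc), ← qm_mod, ← Am g a (by omega) c (by omega),
      ← Ad g _ (qm_lt (a := a) (b := c) (by omega) (by omega)), qm_mod, Nat.mod_eq_of_lt ha,
      Nat.mod_eq_of_lt hc]
  · change Md z _ (n (b g p))
    rw [b1 g p hp, ← A2 g p (by omega)]
    exact md_mod E (A1 g p (by omega))

/-- The signs are adjusted by an element of `Q`. -/
theorem adjust {g : G} (hg : g ∈ centralizer ({z} : Set G)) {L : List ℕ} (h1 : L.length = 12)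
    (h2 : ∀ a ∈ L, a < 8192) (h3 : ∀ i < 12, Md z (g * n (2 ^ i) * g⁻¹) (n (L.getD i 0))) :
    ∃ q ∈ Q, Act n (g * q) L := by
  have key : ∀ k ≤ 12, ∃ q ∈ Q, ∀ i < 12, Md z (g * q * n (2 ^ i) * (g * q)⁻¹) (n (L.getD i 0)) ∧
      (i < k → g * q * n (2 ^ i) * (g * q)⁻¹ = n (L.getD i 0)) := fun k hk => by
    induction k with
    | zero => exact ⟨1, one_mem _, fun i hi => ⟨by simpa using h3 i hi, by simp⟩⟩
    | succ k ih =>
      obtain ⟨q, hq, e⟩ := ih (by omega)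
      rcases (e k hk).1 with e1 | e1
      · exact ⟨q, hq, fun i hi => ⟨(e i hi).1, fun h4 => by
          rcases Nat.lt_succ_iff_lt_or_eq.1 h4 with h4 | rfl
          exacts [(e i hi).2 h4, e1]⟩⟩
      have c : ∀ i < 12, g * (q * n (2 ^ (k ^^^ 1))) * n (2 ^ i) * (g * (q * n (2 ^ (k ^^^ 1))))⁻¹ =
          (if i = k then z else 1) * (g * q * n (2 ^ i) * (g * q)⁻¹) := fun i hi => by
        obtain ⟨a1, a2, a3⟩ := (by decide +kernel : ∀ k < 12, ∀ i < 12, 2 ^ (k ^^^ 1) < 8192 ∧ 2 ^ i < 8192 ∧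
          qm (2 ^ (k ^^^ 1)) (2 ^ i) = qm (if i = k then 4096 else 0) (qm (2 ^ i) (2 ^ (k ^^^ 1)))) k hk i hi
        have := congrArg n a3
        rw [← E.mul _ a1 _ a2, ← E.mul _ (by split_ifs <;> decide) _ (qm_lt a2 a1), ← E.mul _ a2 _ a1] at this
        rw [← mul_assoc g, mul_assoc (g * q), this]
        have := mem_centralizer_singleton_iff.1 (mul_mem hg (h.le hq))
        split_ifs
        · rw [E.z12, ← mul_assoc, this]; group
        · rw [E.zero]; group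
      refine ⟨q * n (2 ^ (k ^^^ 1)), mul_mem hq (E.mem _ ((by decide : ∀ k < 12, 2 ^ (k ^^^ 1) < 8192) k hk)),
        fun i hi => ?_⟩
      rw [c i hi]
      split_ifs with h4
      · have : z * (g * q * n (2 ^ i) * (g * q)⁻¹) = n (L.getD i 0) := by
          rw [h4, e1, ← mul_assoc, h.zz, one_mul]
        exact ⟨.inl this, fun _ => this⟩
      · rw [one_mul]; exact ⟨(e i hi).1, fun h5 => (e i hi).2 (by omega)⟩
  obtain ⟨q, hq, e⟩ := key 12 le_rfl
  exact ⟨q, hq, h1, h2, fun i hi => (e i hi).2 hi⟩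

theorem of_act {g : G} (hg : g ∈ centralizer ({z} : Set G)) (h1 : Act n g L0) : g = 1 ∨ g = z :=
  h.cen g hg fun q hq => by
    obtain ⟨a, ha, rfl⟩ := E.surj q hq
    have := h1.all E hg ha
    rwa [lin_L0 a ha, mul_inv_eq_iff_eq_mul] at this

theorem rebase [Finite G] {a : Equiv.Perm ℕ} (ha : a ∈ OV) :
    ∃ n', Enc z Q n' ∧ ∀ m < 4096, Md z (n' m) (n (a m)) := by
  have l : ∀ m < 4096, a m < 8192 := fun m hm => (lt_of_fix ha.1 hm).trans (by decide)
  have l2 : ∀ i < 12, 2 ^ i < 4096 := by decide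
  obtain ⟨n', E', e⟩ := of_basis h (q := fun i => n (a (2 ^ i))) (fun i hi => E.mem _ (l _ (l2 i hi)))
    fun i hi => ⟨by
      rw [E.mul _ (l _ (l2 i hi)) _ (l _ (l2 i hi)), (ha.2 _ (l2 i hi)).1,
        (by decide +kernel : ∀ i < 12, qm (2 ^ i) (2 ^ i) = 0) i hi, E.zero], fun j hj => by
      have hj' := l2 j (by omega)
      have := com_ok (l _ (l2 i hi)) (l _ hj')
      rw [← (ha.2 _ (l2 i hi)).2 _ hj', (ha.2 _ (l2 i hi)).1, (ha.2 _ hj').1,
        (ha.2 _ (xl (l2 i hi) hj')).1, (by decide +kernel : ∀ i < 12, ∀ j < i, qm (2 ^ i) (2 ^ i) ^^^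
          qm (2 ^ j) (2 ^ j) ^^^ qm (2 ^ i ^^^ 2 ^ j) (2 ^ i ^^^ 2 ^ j) =
          if i = j + 1 ∧ j % 2 = 0 then 4096 else 0) i hi j hj] at this
      rw [E.mul _ (l _ (l2 i hi)) _ (l _ hj'), this, ← E.mul _ (by split_ifs <;> decide) _
        (qm_lt (l _ hj') (l _ (l2 i hi))), E.mul _ (l _ hj') _ (l _ (l2 i hi))]
      split_ifs
      exacts [by rw [E.z12, pow_one], by rw [E.zero, pow_zero]]⟩
  refine ⟨n', E', ind (.inl (by rw [zero ha, E.zero, E'.zero])) fun i hi m hm e1 e2 => ?_⟩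
  have hi' := l2 i hi
  rw [(ha.2 _ hi').2 m hm, ← e1, ← E'.mul _ (by omega) _ (by omega), e i hi]
  refine md_trans h (md_mul h (.inl rfl) e2 (nz h E (l _ hi'))) ?_
  have := md_mod E (qm_lt (l _ hi') (l _ hm))
  rwa [qm_mod, Nat.mod_eq_of_lt (lt_of_fix ha.1 hi'), Nat.mod_eq_of_lt (lt_of_fix ha.1 hm),
    ← E.mul _ (l _ hi') _ (l _ hm)] at this

theorem exists_rho : ∃ ρ : centralizer ({z} : Set G) →* Equiv.Perm ℕ, (∀ g, ρ g ∈ OV ∧
    ∀ p < 4096, Md z (g * n p * (g : G)⁻¹) (n (ρ g p))) ∧ ∀ g, ρ g = 1 ↔ (g : G) ∈ Q := by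
  obtain ⟨ρ, hρ⟩ := exists_rho0 h E
  have k1 : ∀ g : centralizer ({z} : Set G), (g : G) ∈ Q → ρ g = 1 := fun g hg => Equiv.ext fun p => by
    by_cases hp : p < 4096
    · have l := lt_of_fix (hρ g).1.1 hp
      have := md_trans h (md_symm h ((hρ g).2 p hp)) ((h.com _ hg _ (E.mem p (by omega))).imp
        (fun e => show _ = n p by rw [e]; simp) fun e => by rw [e]; simp [mul_assoc])
      change _ = p
      rcases this with e | e
      · exact E.inj _ (by omega) _ (by omega) e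
      · replace e := e.trans (E.z12 ▸ E.mul 4096 (by decide) p (by omega))
        have := congrArg (· % 4096) (E.inj _ (by omega) _ (qm_lt (by decide) (by omega)) e)
        simp only [qm_mod] at this
        simpa [Nat.mod_eq_of_lt l, Nat.mod_eq_of_lt hp] using this
    · exact (hρ g).1.1 p (by omega)
  have k2 : ∀ g, ρ g = 1 → (g : G) ∈ Q := fun g hg => by
    obtain ⟨q, hq, e⟩ := adjust h E g.2 (L := L0) rfl (by decide) fun i hi => by
      have := (by decide : ∀ i < 12, 2 ^ i < 4096 ∧ L0.getD i 0 = 2 ^ i) i hi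
      rw [this.2]; simpa [hg] using (hρ g).2 _ this.1
    rw [← Q.mul_mem_cancel_right hq]
    rcases of_act h E (mul_mem g.2 (h.le hq)) e with e | e <;> rw [e]
    exacts [one_mem _, h.mem]
  exact ⟨ρ, hρ, fun g => ⟨k2 g, k1 g⟩⟩

theorem odd_fix {g : G} (hg : g ∈ centralizer ({z} : Set G)) {L : List ℕ} (h1 : Act n g L) (k : ℕ)
    (h3 : (List.map (lin L))^[2 * k] L = L0) :
    ∃ g' ∈ centralizer ({z} : Set G), (g' = g ∨ g' = g * z) ∧ Act n g' L ∧ g' ^ (2 * k + 1) = 1 := by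
  have : ∀ j, Act n (g ^ (j + 1)) ((List.map (lin L))^[j] L) := fun j => by
    induction j with
    | zero => simpa using h1
    | succ j ih => rw [pow_succ', Function.iterate_succ_apply']; exact h1.mul ih E hg
  have hc := mem_centralizer_singleton_iff.1 hg
  rcases of_act h E (pow_mem hg _) (h3 ▸ this (2 * k)) with e | e
  · exact ⟨g, hg, .inl rfl, h1, e⟩
  · refine ⟨g * z, mul_mem hg (h.le h.mem), .inr rfl, ⟨h1.1, h1.2.1, fun i hi => ?_⟩, ?_⟩
    · rw [← h1.2.2 i hi, mul_assoc g, ← nz h E ((by decide : ∀ i < 12, 2 ^ i < 8192) i hi)]; group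
    · rw [Commute.mul_pow hc, e, pow_succ, pow_mul, sq, h.zz, one_pow, one_mul, h.zz]

end Cfsg.Agent.Lib.J4Q
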