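import Cfsg.Agent.Lib.J4P
import Cfsg.Agent.Lib.J4Q
import Cfsg.Agent.Lib.J4T

/-! The pair group of the two involution centralisers. -/

set_option autoImplicit false
set_option maxRecDepth 100000

namespace Cfsg.Agent.Lib.J4C

open Subgroup Cfsg.Agent.Lib.PermNet Cfsg.Agent.Lib.Words Cfsg.Agent.Lib.J4L Cfsg.Agent.Lib.J4Defs
  Cfsg.Agent.Lib.J4P Cfsg.Agent.Lib.DCE Cfsg.Agent.Lib.BT

instance : Finite Spor.J4 := Nat.finite_of_card_ne_zero (by rw [J4A.card_eq]; norm_num)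

theorem exists_nJ : ∃ n : ℕ → Spor.J4, (∀ a < 8192, ∀ b < 8192, n a * n b = n (qm a b)) ∧ n 0 = 1 ∧
    n 4096 = L 18 ∧ ∀ i < 12, n (2 ^ i) = L (6 + i) := by
  have h := rel ((List.range 13).flatMap fun i => [2 * (6 + i), 2 * (6 + i)] :: (List.range i).map fun j =>
    [2 * (6 + i), 2 * (6 + j)] ++ invW (rep (if i = j + 1 ∧ j % 2 = 0 then 1 else 0) [36] ++ [2 * (6 + j), 2 * (6 + i)]))
    (by decide +kernel)
  have l : ∀ i, lval L (2 * i) = L i := fun i => by simp [lval]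
  have h1 : ∀ i < 13, L (6 + i) * L (6 + i) = 1 := fun i hi => by
    simpa [wval, l] using h _ (List.mem_flatMap.2 ⟨i, List.mem_range.2 hi, List.mem_cons_self⟩)
  have h2 : ∀ i < 13, ∀ j < i, L (6 + i) * L (6 + j) =
      L 18 ^ (if i = j + 1 ∧ j % 2 = 0 then 1 else 0) * (L (6 + j) * L (6 + i)) := fun i hi j hj => by
    have := h _ (List.mem_flatMap.2 ⟨i, List.mem_range.2 hi,
      List.mem_cons_of_mem _ (List.mem_map.2 ⟨j, List.mem_range.2 hj, rfl⟩)⟩)
    rw [wval_append, wval_invW, mul_inv_eq_one, wval_append, wval_rep, show [36] = [2 * 18] from rfl,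
      wval_single] at this
    simpa [wval, l] using this
  exact J4Q.basis0 (q := fun i => L (6 + i)) (h1 12 (by decide)) (fun i hi => by
    have := h2 12 (by decide) i hi
    rw [if_neg (by omega), pow_zero, one_mul] at this
    exact this.symm) fun i hi => ⟨h1 i (by omega), h2 i (by omega)⟩

/-- The coordinates in `J4`. -/
noncomputable def nJ : ℕ → Spor.J4 := exists_nJ.choose

theorem mulJ : ∀ a < 8192, ∀ b < 8192, nJ a * nJ b = nJ (qm a b) := exists_nJ.choose_spec.1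
theorem zeroJ : nJ 0 = 1 := exists_nJ.choose_spec.2.1
theorem powJ : ∀ i < 13, L (6 + i) = nJ (2 ^ i) := fun i hi => by
  rcases Nat.lt_succ_iff_lt_or_eq.1 hi with hi | rfl
  exacts [(exists_nJ.choose_spec.2.2.2 i hi).symm, exists_nJ.choose_spec.2.2.1.symm]
theorem injJ : ∀ a < 8192, ∀ b < 8192, nJ a = nJ b → a = b :=
  J4Q.inj0 (z := L 18) (wval_single L 18 ▸ ne [36] 0 (by decide +kernel)) mulJ zeroJ exists_nJ.choose_spec.2.2.1
theorem qwJ (a : ℕ) (h : qok a = true) : wval L (qw a) = nJ a := wval_qw mulJ zeroJ powJ a h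

theorem low : ∀ b < 8192, b = 0 ∨ ∃ i < 13, b ^^^ 2 ^ i < b ∧ qm (2 ^ i) (b ^^^ 2 ^ i) = b ∧
    ∀ m ∈ [0, 2, 2730], b &&& m = 0 → 2 ^ i &&& m = 0 ∧ (b ^^^ 2 ^ i) &&& m = 0 := fun b hb =>
  (J4Q.allD (p := fun b => b = 0 ∨ (fun i => i < 13 ∧ b ^^^ 2 ^ i < b ∧ qm (2 ^ i) (b ^^^ 2 ^ i) = b ∧
    ∀ m ∈ [0, 2, 2730], b &&& m = 0 → 2 ^ i &&& m = 0 ∧ (b ^^^ 2 ^ i) &&& m = 0)
    (Nat.log2 (b ^^^ (b &&& (b - 1))))) (by decide +kernel) b hb).imp_right fun h => ⟨_, h⟩

theorem ind {X : Type*} [Group X] {n : ℕ → X} (mul : ∀ a < 8192, ∀ b < 8192, n a * n b = n (qm a b))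
    (n0 : n 0 = 1) {p : X → Prop} (p1 : p 1) (pm : ∀ x y, p x → p y → p (x * y)) {m : ℕ} (hm : m ∈ [0, 2, 2730])
    (h : ∀ i < 13, 2 ^ i &&& m = 0 → p (n (2 ^ i))) : ∀ a < 8192, a &&& m = 0 → p (n a) := fun a => by
  induction a using Nat.strong_induction_on with | _ a ih => ?_
  intro ha h0
  rcases low a ha with rfl | ⟨i, hi, h1, h2, h3⟩
  · exact n0 ▸ p1
  · rw [← h2, ← mul _ (Nat.pow_lt_pow_right (n := 13) one_lt_two hi) _ (by omega)]
    exact pm _ _ (h i hi (h3 m hm h0).1) (ih _ h1 (by omega) (h3 m hm h0).2)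

variable {G : Type*} [Group G] {z : G} {Q : Subgroup G} {n f : ℕ → G}

/-- The pairs of elements with the same code. -/
noncomputable def N (n : ℕ → G) (a : ℕ) : G × Spor.J4 := (n a, nJ a)

/-- The letters below `19`. -/
noncomputable def Y (n f : ℕ → G) (i : ℕ) : G × Spor.J4 := (if i < 6 then f i else n (2 ^ (i - 6)), L i)

/-- The pair group. -/
noncomputable def HH (z : G) (n f : ℕ → G) : Subgroup (G × Spor.J4) := gp (Y n f) (sing 19) ⊔ zpowers (z, 1)

/-- The stabiliser of the code `1` modulo the centre. -/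
noncomputable def BB (z : G) (n f : ℕ → G) : Subgroup (G × Spor.J4) :=
  HH z n f ⊓ normalizer ({N n 1, N n 4097} : Set (G × Spor.J4))

def fW : List ℕ := [22, 26, 30, 34, 36, 4, 0, 3, 0, 0, 8, 1, 10, 1, 2, 1, 5, 0, 8, 1, 1, 2, 1, 5, 0, 8, 1, 10, 4, 0, 3, 0]

/-- An element of order five over `L 33`. -/
noncomputable def φ (n f : ℕ → G) : G × Spor.J4 := wval (Y n f) fW ^ 6

/-- The swapping involution. -/
structure SW (z : G) (n f : ℕ → G) (T : G × Spor.J4) : Prop where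
  snd : T.2 = L 19
  tt : T * T = 1
  tz : T * (z, 1) * T = (n 1, 1)
  tφ : T * φ n f * T = φ n f
  tC : ∀ a < 8192, a &&& 2 = 0 → T * N n a * T ∈ HH z n f
  tK : ∀ k ∈ HH z n f, k * N n 1 = N n 1 * k → T * k * T ∈ HH z n f ∨ T * k * T * (n 1, 1) ∈ HH z n f
  gen : ∀ K : Subgroup (G × Spor.J4), (z, 1) ∈ K → (∀ a < 8192, a &&& 2 = 0 → N n a ∈ K) → T * N n 8 * T ∈ K →
    Y n f 5 ∈ K → φ n f ∈ K → ∀ k ∈ HH z n f, k * N n 1 = N n 1 * k → k ∈ K
  idx : (BB z n f).relIndex (HH z n f) = 693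

theorem Ysnd (w : List ℕ) : (wval (Y n f) w).2 = wval L w := map_wval (MonoidHom.snd G Spor.J4) _ w

theorem Ymem {w : List ℕ} (hw : w.all (fun l => decide (l < 2 * 19)) = true) : wval (Y n f) w ∈ HH z n f :=
  mem_sup_left (wval_mem fun l hl => mem_sing _ (by have := of_decide_eq_true (List.all_eq_true.1 hw l hl); omega))

theorem ζmem : (z, 1) ∈ HH z n f := mem_sup_right (mem_zpowers _)

theorem YN {i : ℕ} (hi : i < 13) : Y n f (6 + i) = N n (2 ^ i) := by
  rw [Y, if_neg (by omega), Nat.add_sub_cancel_left, powJ i hi]; rfl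

section
variable (E : Enc z Q n)
include E

theorem mulN : ∀ a < 8192, ∀ b < 8192, N n a * N n b = N n (qm a b) := fun a ha b hb =>
  Prod.ext (E.mul a ha b hb) (mulJ a ha b hb)

theorem zeroN : N n 0 = 1 := Prod.ext E.zero zeroJ

theorem qwN (a : ℕ) (h : qok a = true) : wval (Y n f) (qw a) = N n a :=
  wval_qw (mulN E) (zeroN E) (fun _ => YN) a h

theorem Nmem : ∀ a < 8192, N n a ∈ HH z n f := fun a ha =>
  ind (mulN E) (zeroN E) (p := (· ∈ HH z n f)) (one_mem _) (fun _ _ => mul_mem) (m := 0) (by decide)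
    (fun i hi _ => YN (f := f) hi ▸ mem_sup_left (mem_sing _ (by omega))) a ha (Nat.and_zero a)

theorem injN : ∀ a < 8192, ∀ b < 8192, N n a = N n b → a = b := fun a ha b hb e =>
  E.inj a ha b hb (congrArg Prod.fst e)

theorem N12 : N n 4096 = (z, L 18) := Prod.ext E.z12 (powJ 12 (by decide)).symm

/-- The diagonal extraspecial group. -/
def QQ : Subgroup (G × Spor.J4) where
  carrier := {x | ∃ a < 8192, x = N n a}
  one_mem' := ⟨0, by decide, (zeroN E).symm⟩
  mul_mem' := by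
    rintro _ _ ⟨a, ha, rfl⟩ ⟨b, hb, rfl⟩
    exact ⟨_, qm_lt ha hb, mulN E a ha b hb⟩
  inv_mem' := by
    rintro _ ⟨a, ha, rfl⟩
    have := qm_lt ha (qm_lt ha ha)
    exact ⟨_, this, inv_eq_of_mul_eq_one_right (by rw [mulN E _ ha _ this, (J4Q.inv_ok a ha).2.1, zeroN E])⟩

end

variable [Finite G] (h : Hyp z Q) (E : Enc z Q n) (S : St z n f)
include h E S

theorem HK : HH z n f ≤ (centralizer {z}).comap (MonoidHom.fst G Spor.J4) ⊓
    ((centralizer {L 18}).comap (MonoidHom.snd G Spor.J4) ⊓ normalizer (QQ E : Set (G × Spor.J4))) := by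
  refine sup_le (gp_le.2 fun w hw => ?_) (zpowers_le.2 ⟨mem_centralizer_singleton_iff.2 rfl, one_mem (centralizer {L 18}),
    mem_normalizer_fintype ?_⟩)
  · obtain ⟨i, hi, rfl⟩ := List.mem_map.1 hw
    replace hi := List.mem_range.1 hi
    have r := rel ((List.range 19).map fun i => [2 * i] ++ [36] ++ invW ([36] ++ [2 * i])) (by decide +kernel) _
      (List.mem_map.2 ⟨i, List.mem_range.2 hi, rfl⟩)
    simp only [wval_append, wval_invW, mul_inv_eq_one, wval_single, show [36] = [2 * 18] from rfl] at r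
    rw [wval_single]
    rcases lt_or_ge i 6 with h6 | h6
    · have e : (Y n f i).1 = f i := if_pos h6
      have c := mem_centralizer_singleton_iff.1 (S.mem i h6)
      refine ⟨mem_centralizer_singleton_iff.2 (by rw [← e] at c; exact c), mem_centralizer_singleton_iff.2 r,
        mem_normalizer_fintype ?_⟩
      rintro _ ⟨a, ha, rfl⟩
      refine ind (mulN E) (zeroN E) (p := fun x => Y n f i * x * (Y n f i)⁻¹ ∈ QQ E) (by simp)
        (fun x y hx hy => by rw [← conj_mul]; exact mul_mem hx hy) (m := 0) (by decide) (fun j hj _ => ?_) a ha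
        (Nat.and_zero a)
      rcases Nat.lt_succ_iff_lt_or_eq.1 hj with hj | rfl
      · have k := (by decide +kernel : ∀ i < 6, ∀ j < 12, (LH.getD i []).getD j 0 < 8192 ∧
          qok ((LH.getD i []).getD j 0) = true) i h6 j hj
        have r' := rel ((List.range 6).flatMap fun i => (List.range 12).map fun j =>
          [2 * i] ++ [2 * (6 + j)] ++ invW [2 * i] ++ invW (qw ((LH.getD i []).getD j 0))) (by decide +kernel) _
          (List.mem_flatMap.2 ⟨i, List.mem_range.2 h6, List.mem_map.2 ⟨j, List.mem_range.2 hj, rfl⟩⟩)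
        simp only [wval_append, wval_invW, mul_inv_eq_one, wval_single, qwJ _ k.2, powJ j (by omega)] at r'
        exact ⟨_, k.1, Prod.ext (by have := (S.act i h6).2.2 j hj; rw [← e] at this; exact this) r'⟩
      · refine ⟨4096, by decide, mul_inv_eq_iff_eq_mul.2 ?_⟩
        rw [show 2 ^ 12 = 4096 from rfl, N12 E]
        exact Prod.ext (by rw [← e] at c; exact c) r
    · obtain ⟨j, rfl⟩ := Nat.exists_eq_add_of_le h6
      have l : 2 ^ j < 8192 := Nat.pow_lt_pow_right (n := 13) one_lt_two (by omega)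
      refine ⟨?_, mem_centralizer_singleton_iff.2 r, ?_⟩ <;> rw [YN (by omega)]
      exacts [h.le (E.mem _ l), le_normalizer ⟨_, l, rfl⟩]
  · rintro _ ⟨a, ha, rfl⟩
    exact ⟨a, ha, mul_inv_eq_iff_eq_mul.2 (Prod.ext (J4Q.nz h E ha).symm (by simp))⟩

/-- The pair group centralises `z` and permutes the `N a`. -/
theorem Hact : ∀ x ∈ HH z n f, x.1 * z = z * x.1 ∧ x.2 * L 18 = L 18 * x.2 ∧
    ∀ a < 8192, ∃ b < 8192, x * N n a * x⁻¹ = N n b := fun _ hx =>
  ⟨mem_centralizer_singleton_iff.1 (HK h E S hx).1, mem_centralizer_singleton_iff.1 (HK h E S hx).2.1,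
    fun a ha => (mem_normalizer_iff.1 (HK h E S hx).2.2 _).1 ⟨a, ha, rfl⟩⟩

theorem cjN {x : G × Spor.J4} (hx : x ∈ HH z n f) {a b : ℕ} (ha : a < 8192) (hb : b < 8192)
    (e : x.2 * nJ a * x.2⁻¹ = nJ b) : x * N n a * x⁻¹ = N n b := by
  obtain ⟨c, hc, e'⟩ := (Hact h E S x hx).2.2 a ha
  rw [e', injJ c hc b hb ((congrArg Prod.snd e').symm.trans e)]

theorem kerH {x : G × Spor.J4} (hx : x ∈ HH z n f) (e : x.2 = 1) : x = 1 ∨ x = (z, 1) :=
  (J4Q.of_act h E (mem_centralizer_singleton_iff.2 (Hact h E S x hx).1) ⟨rfl, by decide, fun i hi => by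
    have l : 2 ^ i < 8192 := Nat.pow_lt_pow_right (n := 13) one_lt_two (by omega)
    rw [(by decide : ∀ i < 12, L0.getD i 0 = 2 ^ i) i hi]
    exact congrArg Prod.fst (cjN h E S hx l l (by rw [e]; simp))⟩).imp (Prod.ext · e) (Prod.ext · e)

theorem ζc {x : G × Spor.J4} (hx : x ∈ HH z n f) : x * (z, 1) = (z, 1) * x :=
  Prod.ext (Hact h E S x hx).1 (by simp)

theorem mdH {x y : G × Spor.J4} (hx : x ∈ HH z n f) (hy : y ∈ HH z n f) (e : x.2 = y.2) :
    x = y ∨ x = (z, 1) * y :=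
  (kerH h E S (mul_mem hx (inv_mem hy)) (by simp [e])).imp mul_inv_eq_one.1 mul_inv_eq_iff_eq_mul.1

theorem ωnot : (n 1, 1) ∉ HH z n f := fun e => by
  rcases kerH h E S e rfl with e | e
  · exact absurd (E.inj 1 (by decide) 0 (by decide) ((congrArg Prod.fst e).trans E.zero.symm)) (by decide)
  · exact absurd (E.inj 1 (by decide) 4096 (by decide) ((congrArg Prod.fst e).trans E.z12.symm)) (by decide)

omit [Finite G] h E S in
theorem φmem : φ n f ∈ HH z n f := pow_mem (Ymem (by decide)) _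

omit [Finite G] h E S in
theorem φsnd : (φ n f).2 = L 33 := by
  rw [φ, Prod.pow_snd, Ysnd, ← wval_rep, ← wval_single L 33]
  exact eqw _ _ (by decide +kernel)

omit [Finite G] E S in
theorem ζζ : ((z, 1) : G × Spor.J4) * (z, 1) = 1 := Prod.ext h.zz (mul_one _)

theorem φ5 : φ n f ^ 5 = 1 := by
  have := kerH h E S (pow_mem (Ymem (w := fW) (by decide)) 5) (by
    rw [Prod.pow_snd, Ysnd, ← wval_rep]; exact rel1 _ (by decide +kernel))
  rw [φ, ← pow_mul, mul_comm, pow_mul]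
  rcases this with e | e <;> rw [e]
  · exact one_pow _
  · rw [show 6 = 2 * 3 from rfl, pow_mul, sq, ζζ h, one_pow]

/-- Elements of order five are determined by their second component. -/
theorem eq5 {x y : G × Spor.J4} (hx : x ∈ HH z n f) (hy : y ∈ HH z n f) (e : x.2 = y.2) (x5 : x ^ 5 = 1)
    (y5 : y ^ 5 = 1) : x = y := (mdH h E S hx hy e).resolve_right fun e' => by
  rw [e', (Commute.symm (ζc h E S hy)).mul_pow, y5, mul_one, show 5 = 2 * 2 + 1 from rfl, pow_succ, pow_mul, sq,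
    sq, ζζ h, one_mul, one_mul] at x5
  exact h.ne (congrArg Prod.fst x5)

end Cfsg.Agent.Lib.J4C
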