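import Cfsg.Agent.Lib.J4C1d
import Cfsg.Agent.Lib.J4F
import Cfsg.Agent.Lib.SuzG1

/-! The swapping involution. -/

set_option autoImplicit false
set_option maxRecDepth 100000

namespace Cfsg.Agent.Lib.J4C

open Subgroup Cfsg.Agent.Lib.PermNet Cfsg.Agent.Lib.Words Cfsg.Agent.Lib.J4L Cfsg.Agent.Lib.J4Defs
  Cfsg.Agent.Lib.J4P Cfsg.Agent.Lib.DCE Cfsg.Agent.Lib.BT

variable {G : Type*} [Group G] {z : G} {Q : Subgroup G} {n f : ℕ → G}

def Tf : List ℕ := [1, 2, 4, 8, 64, 1440, 256, 1840, 1024, 7472, 1360, 5408]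
def Tv : List ℕ := [1, 4111, 5, 4105, 16, 5472, 64, 5520, 256, 5712, 1024, 6480]
def Ts : List ℕ := [1, 4694, 4, 7113, 16, 7649, 1044, 3861, 1349, 1620, 84, 5072]
def Tm : List ℕ := [1, 4106, 4101, 8, 256, 1632, 1360, 1120, 64, 1264, 1024, 3184]

noncomputable def actB (g T : List ℕ) : Bool :=
  band (decide (T.length = 12 ∧ ∀ a ∈ T, a < 8192 ∧ qok a = true))
    (relC ((List.range 12).map fun i => g ++ [2 * (6 + i)] ++ invW g ++ invW (qw (T.getD i 0))))

/-- A candidate for the swapping involution. -/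
structure Sw1 (z : G) (n f : ℕ → G) (t : G) : Prop where
  tt : t * t = 1
  tz : t * z * t = n 1
  fx : ∀ e ∈ [4, 16, 64, 256, 1024], t * n e * t = n e
  tφ : t * (φ n f).1 * t = (φ n f).1

theorem e0 {a b : ℕ} (ha : a &&& 2730 = 0) (hb : b &&& 2730 = 0) : qm a b &&& 2730 = 0 := by
  rw [J4Q.qm_eq, Nat.and_xor_distrib_right, Nat.and_xor_distrib_right, ha, hb]
  rcases J4Q.be_or a b with e | e <;> rw [e] <;> rfl

theorem fixE : ∀ b < 8192, b &&& 2730 = 0 → lin Tf b = b → b ∈ [0, 1, 4, 5, 4096, 4097, 4100, 4101] :=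
  J4Q.allD (by decide +kernel)

theorem c2 {X : Type*} [Group X] {t : X} (tt : t * t = 1) (y : X) : t * (t * y) = y := by
  rw [← mul_assoc, tt, one_mul]

variable [Finite G] (h : Hyp z Q) (E : Enc z Q n) (S : St z n f)
include h E S

theorem actN {x : G × Spor.J4} (hx : x ∈ HH z n f) (g T : List ℕ) (e : x.2 = wval L g) (hb : actB g T = true) :
    ∀ a < 8192, lin T a < 8192 ∧ x * N n a * x⁻¹ = N n (lin T a) := fun a ha => by
  obtain ⟨h1, h2⟩ := band_eq hb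
  replace h1 := of_decide_eq_true h1
  have A : Act n x.1 T := ⟨h1.1, fun a ha => (h1.2 a ha).1, fun i hi => by
    have m : T.getD i 0 ∈ T := by rw [List.getD_eq_getElem _ _ (by omega)]; exact List.getElem_mem _
    have r := rel _ h2 _ (List.mem_map.2 ⟨i, List.mem_range.2 hi, rfl⟩)
    simp only [wval_append, wval_invW, mul_inv_eq_one, wval_single, qwJ _ (h1.2 _ m).2, powJ i (by omega), ← e] at r
    exact congrArg Prod.fst (cjN h E S hx (Nat.pow_lt_pow_right (n := 13) one_lt_two (by omega)) (h1.2 _ m).1 r)⟩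
  obtain ⟨b, hb, e'⟩ := (Hact h E S x hx).2.2 a ha
  refine ⟨A.lt a, e'.trans (congrArg _ (E.inj _ hb _ (A.lt a) ?_))⟩
  exact (congrArg Prod.fst e').symm.trans (A.all E (mem_centralizer_singleton_iff.2 (Hact h E S x hx).1) ha)

theorem aφ : ∀ a < 8192, lin Tf a < 8192 ∧ φ n f * N n a * (φ n f)⁻¹ = N n (lin Tf a) :=
  actN h E S φmem [66] Tf (φsnd.trans (wval_single L 33).symm) (by decide +kernel)

theorem aφ1 {a : ℕ} (ha : a < 8192) : (φ n f).1 * n a * (φ n f).1⁻¹ = n (lin Tf a) :=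
  congrArg Prod.fst (aφ h E S a ha).2

theorem exists_g [IsSimpleGroup G] :
    ∃ g, g * z * g⁻¹ = n 1 ∧ g * n 1 * g⁻¹ = z ∧ g * (φ n f).1 * g⁻¹ = (φ n f).1 := by
  obtain ⟨g, gz, gw⟩ := J4F.swap h E S
  have mK : ∀ {x}, x ∈ centralizer {z, n 1} ↔ z * x = x * z ∧ n 1 * x = x * n 1 := by
    simp [mem_centralizer_iff]
  have lK : ∀ {x : G × Spor.J4}, x ∈ HH z n f → x * N n 1 * x⁻¹ = N n 1 → x.1 ∈ centralizer {z, n 1} :=
    fun {x} hx e => mK.2 ⟨(Hact h E S x hx).1.symm, (congrArg Prod.fst (mul_inv_eq_iff_eq_mul.1 e)).symm⟩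
  have fK := lK φmem (aφ h E S 1 (by decide)).2
  have f5 : (φ n f).1 ^ 5 = 1 := congrArg Prod.fst (φ5 h E S)
  have f1 : (φ n f).1 ≠ 1 := fun e => by
    have := aφ1 h E S (a := 16) (by decide)
    rw [e, one_mul, inv_one, mul_one] at this
    exact absurd (E.inj _ (by decide) _ (by decide +kernel) this) (by decide +kernel)
  have mv : ∀ {k g}, k ∈ centralizer {z, n 1} → g * z * g⁻¹ = n 1 → g * n 1 * g⁻¹ = z →
      k * g * z * (k * g)⁻¹ = n 1 ∧ k * g * n 1 * (k * g)⁻¹ = z := fun {k g} hk a b => by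
    have e : ∀ x, k * g * x * (k * g)⁻¹ = k * (g * x * g⁻¹) * k⁻¹ := fun x => by group
    rw [e, e, a, b, ← (mK.1 hk).1, ← (mK.1 hk).2]
    simp
  obtain ⟨k, hk, e⟩ := SuzG1.sylow_conj (H := centralizer {z, n 1}) (p := 5) (by norm_num)
    (fun hd => absurd (hd.trans (card_dvd_of_le (centralizer_le (t := {z, n 1}) (s := {z}) (by simp))))
      (by rw [h.cH]; decide)) fK (c := g * (φ n f).1 * g⁻¹) (mK.2
        ⟨by rw [← gw, conj_mul, conj_mul, (mK.1 fK).2], by rw [← gz, conj_mul, conj_mul, (mK.1 fK).1]⟩)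
    f5 f1 (by rw [conj_pow, f5]; simp) (by simpa using f1)
  have o5 : orderOf (φ n f).1 = 5 := have := Fact.mk (show Nat.Prime 5 by norm_num); orderOf_eq_prime f5 f1
  obtain ⟨i, hi, h1⟩ : ∃ i < 5, (φ n f).1 ^ i = k * g * (φ n f).1 * (k * g)⁻¹ := by
    classical
    simpa [o5, mul_assoc] using (orderOf_pos_iff.1 (o5 ▸ by decide)).mem_zpowers_iff_mem_range_orderOf.1
      (e.le (mem_zpowers _))
  have i0 : i ≠ 0 := by rintro rfl; exact f1 (conj_eq_one_iff.1 (h1.symm.trans (pow_zero _)))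
  obtain ⟨gz, gw⟩ := mv hk gz gw
  have mH : wval (Y n f) mW ∈ HH z n f := Ymem (by decide)
  have mK' := lK mH (actN h E S mH mW Tm (Ysnd _) (by decide +kernel) 1 (by decide)).2
  have mf : (wval (Y n f) mW).1 * (φ n f).1 * (wval (Y n f) mW).1⁻¹ = (φ n f).1 ^ 2 := congrArg Prod.fst
    (eq5 h E S (mul_mem (mul_mem mH φmem) (inv_mem mH)) (pow_mem φmem 2) (by
      rw [Prod.snd_mul, Prod.snd_mul, Prod.snd_inv, Prod.pow_snd, Ysnd, φsnd, ← wval_single L 33, ← wval_rep,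
        ← wval_invW, ← wval_append, ← wval_append]
      exact eqw _ _ (by decide +kernel)) (by rw [conj_pow, φ5 h E S]; simp)
      (by rw [← pow_mul, mul_comm, pow_mul, φ5 h E S, one_pow]))
  generalize (wval (Y n f) mW).1 = m at mK' mf
  have mj : ∀ j : ℕ, m ^ j * (φ n f).1 * (m ^ j)⁻¹ = (φ n f).1 ^ 2 ^ j := fun j => by
    induction j with
    | zero => simp
    | succ j ih => rw [pow_succ' m, pow_succ' 2, pow_mul, ← mf, conj_pow, ← ih]; group
  obtain ⟨j, -, hj⟩ := (by decide : ∀ i < 5, i ≠ 0 → ∃ j < 4, 2 ^ j * i % 5 = 1) i hi i0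
  obtain ⟨a, b⟩ := mv (pow_mem mK' j) gz gw
  refine ⟨_, a, b, ?_⟩
  rw [show m ^ j * (k * g) * (φ n f).1 * (m ^ j * (k * g))⁻¹ = m ^ j * (k * g * (φ n f).1 * (k * g)⁻¹) * (m ^ j)⁻¹ by
    group, ← h1, ← conj_pow, mj, ← pow_mul, ← pow_mod_orderOf, o5, hj, pow_one]

theorem exists_t1 [IsSimpleGroup G] : ∃ t, Sw1 z n f t := by
  obtain ⟨g, gz, gw, gf⟩ := exists_g h E S
  have nE : ∀ a < 8192, a &&& 2730 = 0 → ∃ b < 8192, b &&& 2730 = 0 ∧ n a = g * n b * g⁻¹ := fun a ha h0 => by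
    obtain ⟨b, hb, e⟩ := E.surj _ ((J4F.EE h E S gz gw a ha).2 h0)
    have e' : n a = g * n b * g⁻¹ := by rw [e]; group
    exact ⟨b, hb, (J4F.EE h E S (g := g⁻¹) (by rw [← gw]; group) (by rw [← gz]; group) b hb).1
      (by rw [inv_inv, ← e']; exact E.mem a ha), e'⟩
  have ml : ∀ a b c, a < 8192 ∧ b < 8192 ∧ qm a b = c → n a * n b = n c := fun a b c k =>
    k.2.2 ▸ E.mul a k.1 b k.2.1
  have zw : z * n 1 = n 4097 := E.z12 ▸ ml _ _ _ (by decide +kernel)
  have wz : n 1 * z = n 4097 := E.z12 ▸ ml _ _ _ (by decide +kernel)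
  obtain ⟨b, hb, b0, eb⟩ := nE 4 (by decide) (by decide)
  have gf' : ∀ x, (φ n f).1 * (g * x * g⁻¹) * (φ n f).1⁻¹ = g * ((φ n f).1 * x * (φ n f).1⁻¹) * g⁻¹ := fun x => by
    conv_lhs => rw [← gf]
    group
  have bf : lin Tf b = b := E.inj _ (aφ h E S b hb).1 _ hb (by
    have := gf' (n b)
    rw [← eb, aφ1 h E S (by decide), aφ1 h E S hb, show lin Tf 4 = 4 by decide +kernel, eb] at this
    simpa using this.symm)
  obtain ⟨c, hc, cb⟩ : ∃ c ∈ [2, 10], qm c b = qm b c := by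
    rcases (by decide +kernel : ∀ b ∈ [0, 1, 4, 5, 4096, 4097, 4100, 4101], b = 1 ∨ b = 4097 ∨
      ∃ c ∈ [2, 10], qm c b = qm b c) b (fixE b hb b0 bf) with rfl | rfl | k
    · rw [gw, ← E.z12] at eb; exact absurd (E.inj _ (by decide) _ (by decide) eb) (by decide)
    · rw [← zw, ← conj_mul, gz, gw, wz] at eb; exact absurd (E.inj _ (by decide) _ (by decide) eb) (by decide)
    · exact k
  obtain ⟨c1, c2, c3, c4, c5⟩ := (by decide +kernel : ∀ c ∈ [2, 10], c < 8192 ∧ qm c c = 0 ∧ lin Tf c = c ∧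
    qm c 1 < 8192 ∧ qm (qm c 1) c = 4097) c hc
  have cc : n c * n c = 1 := by rw [E.mul _ c1 _ c1, c2, E.zero]
  have pp : g * n c * g⁻¹ * (g * n c * g⁻¹) = 1 := by rw [conj_mul, cc]; simp
  have pu : g * n c * g⁻¹ * n 4 * (g * n c * g⁻¹) = n 4 := by
    rw [eb, conj_mul, conj_mul, E.mul _ c1 _ hb, cb, ← E.mul _ hb _ c1, mul_assoc (n b), cc, mul_one]
  have pz : g * n c * g⁻¹ * z * (g * n c * g⁻¹) = n 4097 := by
    conv_lhs => rw [← gw]
    rw [conj_mul, conj_mul, E.mul _ c1 _ (by decide), E.mul _ c4 _ c1, c5]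
    conv_lhs => rw [← zw, ← conj_mul, gz, gw, wz]
  have pf : (φ n f).1 * (g * n c * g⁻¹) * (φ n f).1⁻¹ = g * n c * g⁻¹ := by rw [gf', aφ1 h E S c1, c3]
  have py : g * n c * g⁻¹ * n 16 * (g * n c * g⁻¹) = n 16 ∨ g * n c * g⁻¹ * n 16 * (g * n c * g⁻¹) = n 17 := by
    obtain ⟨d, hd, -, ed⟩ := nE 16 (by decide) (by decide)
    refine (h.com _ (E.mem c c1) _ (E.mem d hd)).imp (fun e => ?_) fun e => ?_
    · rw [ed, conj_mul, conj_mul, e, mul_assoc (n d), cc, mul_one]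
    · rw [← ml 1 16 17 (by decide +kernel), ← gz, ed, conj_mul, conj_mul, conj_mul, e, mul_assoc z, mul_assoc (n d),
        cc, mul_one]
  generalize g * n c * g⁻¹ = p at pp pu pz pf py
  have q2 : n 2 * n 2 = 1 := (ml _ _ 0 (by decide +kernel)).trans E.zero
  have tq : ∀ {x y a : G}, n 2 * x * n 2 = x → p * x * p = y → n 2 * y * n 2 = a →
      n 2 * p * n 2 * x * (n 2 * p * n 2) = a := fun {x y a} e1 e2 e3 => by
    rw [← e3, ← e2]; conv_rhs => rw [← e1]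
    simp only [mul_assoc]
  have q3 : ∀ a b, a < 8192 ∧ qm 2 a < 8192 ∧ qm (qm 2 a) 2 = b → n 2 * n a * n 2 = n b := fun a b k => by
    rw [E.mul _ (by decide) _ k.1, E.mul _ k.2.1 _ (by decide), k.2.2]
  have tt : n 2 * p * n 2 * (n 2 * p * n 2) = 1 := by
    simp only [mul_assoc, J4C.c2 q2, J4C.c2 pp, q2]
  have tf : (φ n f).1 * (n 2 * p * n 2) * (φ n f).1⁻¹ = n 2 * p * n 2 := by
    rw [← conj_mul, ← conj_mul, pf, aφ1 h E S (by decide), show lin Tf 2 = 2 by decide +kernel]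
  have tz := tq (E.z12 ▸ q3 4096 4096 (by decide +kernel)) pz (q3 _ 1 (by decide +kernel))
  have tu := tq (q3 4 4 (by decide +kernel)) pu (q3 4 4 (by decide +kernel))
  have ty := py.imp (tq (q3 16 16 (by decide +kernel)) · (q3 16 16 (by decide +kernel)))
    (tq (q3 16 16 (by decide +kernel)) · (q3 17 4113 (by decide +kernel)))
  generalize n 2 * p * n 2 = t at tt tf tz tu ty
  have stp : ∀ a b c d, t * n a * t = n b → a < 8192 ∧ b < 8192 ∧ lin Tf a = c ∧ lin Tf b = d →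
      t * n c * t = n d := fun a b c d e k => by
    rw [← k.2.2.1, ← k.2.2.2, ← aφ1 h E S k.1, ← aφ1 h E S k.2.1, ← e, ← conj_mul, ← conj_mul, tf]
  have tφ : t * (φ n f).1 * t = (φ n f).1 := by
    rw [← mul_inv_eq_iff_eq_mul.1 tf, mul_assoc, tt, mul_one]
  rcases ty with y1 | y1
  · have y2 := stp _ _ 64 64 y1 (by decide +kernel)
    have y3 := stp _ _ 256 256 y2 (by decide +kernel)
    exact ⟨t, tt, tz, by simp [tu, y1, y2, y3, stp _ _ 1024 1024 y3 (by decide +kernel)], tφ⟩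
  · have y2 := stp _ _ 64 4161 y1 (by decide +kernel)
    have y3 := stp _ _ 256 4353 y2 (by decide +kernel)
    have y4 := stp _ _ 1024 5121 y3 (by decide +kernel)
    have y5 := stp _ _ 1360 5457 y4 (by decide +kernel)
    have cm : ∀ x y, t * (x * y) * t = t * x * t * (t * y * t) := fun x y => by
      simp only [mul_assoc, J4C.c2 tt]
    rw [← ml 80 1280 1360 (by decide +kernel), ← ml 16 64 80 (by decide +kernel), ← ml 256 1024 1280 (by decide +kernel),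
      cm, cm, cm, y1, y2, y3, y4, ml _ _ 80 (by decide +kernel), ml _ _ 1280 (by decide +kernel),
      ml _ _ 1360 (by decide +kernel)] at y5
    exact absurd (E.inj _ (by decide) _ (by decide) y5) (by decide)

end Cfsg.Agent.Lib.J4C
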