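import Cfsg.Agent.Lib.J4WT

/-! Certificates. -/

set_option autoImplicit false
set_option maxRecDepth 100000

namespace Cfsg.Agent.Lib.J4W

open Cfsg.Agent.Lib.PermNet Cfsg.Agent.Lib.Words Cfsg.Agent.Lib.PermGroup Cfsg.Agent.Lib.DCE Cfsg.Agent.Lib.PermModel Cfsg.Agent.Lib.BT

theorem wok_id : idB (nat_lit 4096) (nat_lit 12) (nat_lit 4095) wid = true := by decide +kernel

theorem wok_0 : allR (fun i => okT (nat_lit 4096) (nat_lit 12) (nat_lit 4095) (wtt.get (2 * i)) (wtt.get (2 * i + 1))) (nat_lit 0) (nat_lit 8) = true := by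
  decide +kernel

theorem wok_8 : allR (fun i => okT (nat_lit 4096) (nat_lit 12) (nat_lit 4095) (wtt.get (2 * i)) (wtt.get (2 * i + 1))) (nat_lit 8) (nat_lit 8) = true := by
  decide +kernel

theorem wok_16 : allR (fun i => okT (nat_lit 4096) (nat_lit 12) (nat_lit 4095) (wtt.get (2 * i)) (wtt.get (2 * i + 1))) (nat_lit 16) (nat_lit 3) = true := by
  decide +kernel

def wdL0 : List (List ℕ) := [[13, 3, 0, 2], [15, 3, 4, 0, 3], [17, 8, 10, 12, 8, 13, 11, 9], [19, 12, 8, 10, 8, 11, 9, 12]]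

theorem wd0 : allL (fixA (nat_lit 12) (nat_lit 4095) wtt (nat_lit 4096)) wdL0 = true := by decide +kernel

def wdL1 : List (List ℕ) := [[21, 18, 16, 18, 17], [23, 10, 16, 10, 19, 17], [25, 16, 10, 16, 18, 11], [27, 8, 10, 4, 2], [29, 10, 4, 11, 5]]

theorem wd1 : allL (fixA (nat_lit 12) (nat_lit 4095) wtt (nat_lit 4096)) wdL1 = true := by decide +kernel

def wdL2 : List (List ℕ) := [[31, 0, 2, 1, 2, 10, 2, 0, 9, 2], [33, 30, 28, 30, 29], [35, 26, 30, 28, 31, 27]]

theorem wd2 : allL (fixA (nat_lit 12) (nat_lit 4095) wtt (nat_lit 4096)) wdL2 = true := by decide +kernel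

def wdL3 : List (List ℕ) := [[37, 26, 26, 31, 28, 26, 30, 30, 29, 26, 31, 29]]

theorem wd3 : allL (fixA (nat_lit 12) (nat_lit 4095) wtt (nat_lit 4096)) wdL3 = true := by decide +kernel

theorem wc : chB (nat_lit 12) (nat_lit 4095) wtt (nat_lit 4096) (fun _ => true) wch [] = true := by decide +kernel

theorem wc' : chB (nat_lit 12) (nat_lit 4095) wtt (nat_lit 4096) (fun _ => true) wc2 [] = true := by decide +kernel

theorem wok : TabsOK (nat_lit 4096) (nat_lit 12) (nat_lit 4095) (nat_lit 19) wth wid := ⟨wok_id, (((allR_of 0 8 8 (by decide) wok_0).trans (allR_of 8 8 16 (by decide) wok_8)).trans (allR_of 16 3 19 (by decide) wok_16))⟩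

theorem wTM : TM 6 (nat_lit 4096) (nat_lit 12) (nat_lit 4095) (nat_lit 19) wid 2661120 wth wdefs wch :=
  ⟨wok, (all_append (wok.relsA _ wd0) (all_append (wok.relsA _ wd1) (all_append (wok.relsA _ wd2) (wok.relsA _ wd3)))), wc, by decide +kernel⟩



end Cfsg.Agent.Lib.J4W
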