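import Cfsg.Agent.Lib.J4W0
import Cfsg.Agent.Lib.J4WC0
import Cfsg.Agent.Lib.J4WC1

/-! The involution centraliser of the fourth Janko group modulo its extraspecial subgroup. -/

set_option autoImplicit false
set_option maxRecDepth 100000

namespace Cfsg.Agent.Lib.J4W

open Subgroup Cfsg.Agent.Lib.PermNet Cfsg.Agent.Lib.Words Cfsg.Agent.Lib.PermGroup Cfsg.Agent.Lib.DCE
  Cfsg.Agent.Lib.BT Cfsg.Agent.Lib.J4Defs Cfsg.Agent.Lib.J4Fq
open Cfsg.Agent.Lib.ThCl (Md)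

variable {G : Type*} [Group G] {z : G} {Q : Subgroup G} {n f : ℕ → G}

abbrev FW (f : ℕ → G) : ℕ → G := ext f 6 wdefs

abbrev MW (z : G) (Q : Subgroup G) (f : ℕ → G) :=
  Model (FW f) (centralizer {z}) Q (nat_lit 4096) (nat_lit 12) (nat_lit 4095) wtt BW 2661120

/-- The model is the action on `Q` modulo `z`. -/
structure Cx (M : MW z Q f) (n : ℕ → G) : Prop where
  h : Hyp z Q
  E : Enc z Q n
  S : St z n f
  hs : ∀ g : centralizer ({z} : Set G), ∀ p < 4096, Md z (g * n p * (g : G)⁻¹) (n (M.π g p))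
  c1 : M.Ch (centralizer {z}) wch
  c2 : M.Ch (centralizer {z}) wc2

theorem idxQ [Finite G] (h : Hyp z Q) : (Q.subgroupOf (centralizer {z})).index = 2661120 := by
  have := (Q.subgroupOf (centralizer {z})).index_mul_card
  rw [Nat.card_congr (subgroupOfEquivOfLe h.le).toEquiv, h.cQ, h.cH] at this
  omega

theorem exists_cx [Finite G] (h : Hyp z Q) (E : Enc z Q n) (S : St z n f) : ∃ M : MW z Q f, Cx M n := by
  obtain ⟨ρ, h1, h2⟩ := rho h E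
  have lt : ∀ g, ∀ p < 4096, ρ g p < 4096 := fun g p hp => Rk3Aut.lt_of_fix (h1 g) hp
  have k1 : Q.subgroupOf (centralizer {z}) ≤ ρ.ker := fun g hg => Equiv.ext fun p => by
    by_cases hp : p < 4096
    · refine md_inj E (lt g p hp) hp (md_trans h (md_symm h (h2 g p hp))
        ((h.com g.1 hg _ (E.mem p (by omega))).imp (fun e => ?_) fun e => ?_)) <;> rw [e] <;> simp [← mul_assoc]
    · exact h1 g p (by omega)
  have i1 := idxQ h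
  obtain ⟨M, e⟩ := wTM.mk_model (f := f) (Z := Q) ρ
    (fun i => if hi : i < 6 then ⟨f i, S.mem i hi⟩ else 1) (fun i hi => by simp [hi])
    (fun i hi => Equiv.ext fun p => by
      rw [dif_pos hi]
      by_cases hp : p < 4096
      · rw [wok.apply i hp]
        refine Eq.trans ?_ (beq_eq (allR_all (p := fun p => Nat.beq (lk (nat_lit 12) (nat_lit 4095)
          (wtt.get (2 * i + 1)) p) (Nat.mod (lin (LH.getD i []) p) 4096)) (lo := 0) (n := 4096) (by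
            interval_cases i
            exacts [tb0, tb1, tb2, tb3, tb4, tb5]) p p.zero_le (by omega))).symm
        refine md_inj E (lt _ p hp) (Nat.mod_lt _ (by decide)) (md_trans h (md_symm h (h2 _ p hp)) ?_)
        rw [(S.act i hi).all E (S.mem i hi) (by omega)]
        exact md_mod E ((S.act i hi).lt p)
      · refine (h1 _ p (by omega)).trans ?_
        simpa [wval, lval] using (tp_fix (wb := 12) (mask := 4095) wtt [2 * i] (Nat.le_of_not_lt hp)).symm) lt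
    (by rw [← index_ker]
        exact ⟨index_ne_zero_of_finite, i1 ▸ Nat.le_of_dvd (i1 ▸ by decide) (index_dvd_of_le k1)⟩)
    (fun hT g => by
      rw [← MonoidHom.mem_ker, ← eq_of_le_of_card_ge k1, mem_subgroupOf]
      have h1 := ρ.ker.index_mul_card
      rw [← (Q.subgroupOf _).index_mul_card, i1, index_ker] at h1
      exact Nat.le_of_mul_le_mul_left ((Nat.mul_le_mul_right _ hT).trans h1.le) (by decide))
  let M' := M.rebase BW (by decide +kernel)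
  exact ⟨M', h, E, S, fun g p hp => (e ▸ h2 g p hp : Md z _ (n (M.π g p))),
    M'.ch_top _ (by rw [wc]; decide +kernel), M'.ch_top _ (by rw [wc']; decide +kernel)⟩

noncomputable abbrev pw (w : List ℕ) (p : ℕ) : ℕ := ap1i (nat_lit 12) (nat_lit 4095) wtt w p

/-- The mask of an orbit. -/
noncomputable def mkM (T : List (ℕ × List ℕ)) : ℕ :=
  List.rec (motive := fun _ => ℕ) (nat_lit 0) (fun e _ ih => force ih fun m => Nat.lor m (pt e.1)) T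

theorem mkM_mem {T : List (ℕ × List ℕ)} {p : ℕ} (h : bitB (mkM T) p = true) : ∃ e ∈ T, e.1 = p := by
  rw [bitB_eq] at h
  induction T with
  | nil => simp [mkM] at h
  | cons e T ih =>
    change (mkM T ||| pt e.1).testBit p = true at h
    rw [Nat.testBit_or, Bool.or_eq_true, testBit_pt, decide_eq_true_eq] at h
    exact h.elim (fun h => (ih h).imp fun _ h => ⟨List.mem_cons_of_mem _ h.1, h.2⟩)
      fun h => ⟨e, List.mem_cons_self, h.symm⟩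

theorem sing_ok : forceB (mkM (wch.headD ⟨0, []⟩).T) (fun m1 => forceB (mkM (wc2.headD ⟨0, []⟩).T) fun m2 =>
    allR (fun p => !Nat.beq (qm p p) 0 || Nat.beq (p % 4096) 0 || bitB m1 (p % 4096) || bitB m2 (p % 4096))
      0 8192) = true := by decide +kernel

theorem e0_ok : ∀ a < 8192, (∀ e ∈ BW, qm a e = qm e a) → a &&& 2730 = 0 := fun a ha h => by
  have := allR_all (by decide +kernel : allR (fun a => Nat.beq (a &&& 2730) 0 ||
    !allL (fun e => Nat.beq (qm a e) (qm e a)) BW) 0 8192 = true) a a.zero_le (by omega)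
  rw [allL_of fun e he => by simpa using h e he] at this
  simpa using this

noncomputable def mp (L K : List ℕ) : List ℕ := K.map fun a => force a (lin L)

/-- The action of a word. -/
noncomputable def aw (w : List ℕ) : List ℕ := w.foldr (fun l r => mp (LI.getD l []) r) L0

/-- The action of `n p * wval f w`. -/
noncomputable def tb (p : ℕ) (w : List ℕ) : List ℕ := mp (ip p) (aw w)

/-- A move: `n r * u` conjugates `w` to `n s * w`. -/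
def okM (w : List ℕ) (m : ℕ × List ℕ × ℕ × List ℕ) : Prop := m.1 < 8192 ∧ lt2 6 m.2.1 = true ∧ m.2.2.1 < 8192 ∧
  tb m.1 m.2.1 = m.2.2.2 ∧ tb m.1 (m.2.1 ++ w) = mp (tb m.2.2.1 w) m.2.2.2

noncomputable instance (w : List ℕ) : DecidablePred (okM w) := fun _ => inferInstanceAs (Decidable (_ ∧ _))

noncomputable def run (mv : List (ℕ × List ℕ × ℕ × List ℕ)) (pa : List ℕ) : ℕ → ℕ :=
  List.rec (motive := fun _ => ℕ → ℕ) (fun p => p) (fun j _ ih p => force (qm (lin (mv.getD j (0, [], 0, L0)).2.2.2 p)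
    (mv.getD j (0, [], 0, L0)).2.2.1 % 4096) ih) pa

theorem getD_mem {α : Type} (l : List α) (j : ℕ) (d : α) : l.getD j d ∈ d :: l := by
  rcases lt_or_ge j l.length with h | h
  · rw [List.getD_eq_getElem _ _ h]; exact List.mem_cons_of_mem _ (List.getElem_mem h)
  · rw [List.getD_eq_default _ _ h]; exact List.mem_cons_self

def rep0 : List (ℕ × List ℕ) := [(0, [8]), (5, [8]), (42, [8]), (43, [8]), (0, [0, 2, 4]), (176, [0, 2, 8, 4, 8])]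

def mv0 : List (ℕ × List ℕ × ℕ × List ℕ) := [(0, [0, 3, 5, 0], 641, [6821, 5072, 964, 5408, 3192, 1193, 4863, 1784, 5226, 1785, 3384, 889]), (2, [], 2400, [4097, 2, 4, 8, 16, 32, 64, 128, 256, 512, 1024, 2048]), (0, [5, 8, 2, 4], 324, [3040, 7743, 3760, 7798, 1046, 1583, 5991, 4829, 6999, 281, 5058, 5998])]

def pa0 : List (ℕ × List ℕ) := [(0, []), (1, [2, 1, 2]), (4, [1, 0]), (5, []), (42, []), (43, []), (46, [2, 2, 0, 0, 0]), (47, [2, 0, 2, 1, 2]), (216, [2, 0, 2]), (217, [0, 0, 1, 2, 1]), (220, [0, 2, 2, 0, 1]), (221, [2, 1, 0, 0]), (242, [2, 1, 0, 1]), (243, [2, 0, 1]), (246, [0, 1, 2, 2]), (247, [2, 1, 2, 1]), (320, [0, 0]), (321, [2, 0, 1, 0]), (324, [2, 2]), (325, [2, 1, 2, 2]), (362, [2, 0, 2, 2]), (363, [2, 2, 1, 0, 1]), (366, [0, 0, 0, 0]), (367, [2, 0, 2, 1, 0]), (408, [0, 1]), (409, [0, 1, 2, 2, 0]), (412, [2, 0, 0, 0, 1, 0]), (413, [0]), (434, [2,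 2, 1]), (435, [0, 2, 0, 1]), (438, [2, 1, 0, 1]), (439, [2, 0, 1]), (600, [1, 2]), (601, [2, 2, 1, 2, 1, 0]), (604, [0, 0, 1, 2]), (605, [0, 1, 0, 0, 1]), (626, [0, 2, 1, 2]), (627, [0, 2, 2]), (630, [1, 2, 1, 0]), (631, [1, 2, 0]), (640, [1, 2, 0, 2]), (641, [2, 1]), (644, [0, 2, 2]), (645, [2, 2, 0]), (682, [2, 1, 2, 1, 2]), (683, [1, 2, 1, 2, 0]), (686, [0, 0]), (687, [1, 0, 1, 0]), (792, [0, 1]), (793, [0, 2, 2, 1, 2]), (796, [0, 2, 2, 0]), (797, [0]), (818, [1, 2, 1, 0]), (819, [1, 2, 0]), (822, [0, 1, 2, 0, 1]), (823, [2, 0, 0, 1, 2]), (960, [2, 1, 2, 0]), (961, [0, 1, 2, 0]), (964, [2]), (965, [0, 1, 0]), (1002, [1, 2, 0, 1, 2, 0]), (1003, [0, 1, 0, 0, 0]), (1006, [1, 2, 2, 0]), (1007, [2, 2, 1, 2]), (1040, [1, 2, 0, 1]), (1041, [0, 0]), (1044, [0]), (1045, [2, 2, 1, 2, 0]), (1082, [0, 0, 1]), (1083, [2, 2, 1, 0]), (1086, [0, 0, 0, 1, 2]), (1087, [1, 2,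 1, 2, 0, 1]), (1224, [2, 1]), (1225, [0, 2, 2, 1, 0]), (1228, [0, 1, 0, 0, 1]), (1229, [0, 2, 2, 1, 0]), (1250, [0, 0, 1, 2, 1, 0]), (1251, [2, 0, 1, 0, 0, 1]), (1254, [1, 2, 1, 2]), (1255, [2, 0, 2, 1, 2, 0]), (1360, [1, 0, 0, 0]), (1361, [2, 0, 0]), (1364, [2, 1, 2, 0, 1]), (1365, [0, 2, 2, 1]), (1402, [1, 2, 2, 0, 1]), (1403, [0, 1, 2, 1]), (1406, [2, 1, 2, 1, 0]), (1407, [0, 1, 0, 1, 0, 0]), (1416, [2, 1, 2, 2, 0, 1]), (1417, [0, 0, 0]), (1420, [0, 0, 1, 0]), (1421, [2]), (1442, [0, 2, 1, 0]), (1443, [1, 2, 2]), (1446, [1, 2, 2, 1, 0, 0]), (1447, [0, 1, 2, 0]), (1608, [2, 2, 2, 0]), (1609, [0, 0, 0, 1]), (1612, [0, 0, 1, 0, 1]), (1613, [2, 0, 0, 1]), (1634, [0, 2, 2, 1, 0, 0]), (1635, [2, 1, 2, 0, 1, 0]), (1638, [2, 1, 2]), (1639, [0, 0, 1, 2, 0]), (1680, [0, 2, 1, 2, 0]), (1681, [0, 1]), (1684, [0, 1, 0]), (1685, [2, 1, 0]), (1722, [2, 1, 2, 1, 0]), (1723,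 [2, 1, 2, 2, 1]), (1726, [1, 0, 0, 1]), (1727, [0, 1, 0, 1]), (1800, [1, 2, 0, 1, 0]), (1801, [0, 1, 0, 1, 0]), (1804, [0, 1, 0, 0]), (1805, [2, 1, 2, 2, 0]), (1826, [0, 2, 0]), (1827, [2, 2]), (1830, [2, 2, 0, 1, 0]), (1831, [0, 1, 2, 1, 0]), (2000, [2, 0]), (2001, [2, 0, 2, 2]), (2004, [0, 0, 1]), (2005, [1, 0, 1, 0, 0]), (2042, [0, 0, 1, 0, 0]), (2043, [1, 2, 1, 2, 0, 1]), (2046, [0, 2, 1]), (2047, [2, 2, 1, 0]), (2058, [1, 2, 0, 2, 2]), (2059, [1, 2, 2, 1, 0, 1]), (2062, [1, 0, 0, 0, 0]), (2063, [2, 1, 2, 0]), (2080, [2]), (2081, [2, 0, 1, 2]), (2084, [1, 2, 2]), (2085, [0, 0, 0, 0]), (2258, [1, 2, 2, 1]), (2259, [0, 2, 1, 0, 1]), (2262, [1, 2, 1, 0, 1]), (2263, [1, 2, 0, 1]), (2296, [1, 0, 1]), (2297, [0, 1, 2, 1, 2, 0]), (2300, [2, 2, 0, 2, 1, 0]), (2301, [1, 0]), (2378, [1]), (2379, [1]), (2382, [1, 2, 2, 0, 0, 0]), (2383, [1, 2, 0, 2, 1, 2]), (2400, [1]),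 (2401, [1, 2, 1, 2]), (2404, [0]), (2405, [1]), (2450, [2, 0, 0, 0]), (2451, [1, 2, 0, 1]), (2454, [0, 1, 2, 1, 2]), (2455, [0, 1, 2, 2]), (2488, [1, 2, 0, 2]), (2489, [2, 2, 1, 2, 0]), (2492, [0, 2, 1, 2, 0, 1]), (2493, [1, 2, 1, 0, 0]), (2642, [2, 1, 0]), (2643, [2, 0]), (2646, [0, 2, 0, 0, 0]), (2647, [2, 2, 1, 0, 1, 0]), (2680, [1, 0, 1]), (2681, [0, 2, 1, 2, 1, 2]), (2684, [0, 2, 1, 2, 0]), (2685, [1, 0]), (2698, [2, 0, 1, 2, 0]), (2699, [2, 0, 1, 2, 0]), (2702, [2, 2, 0]), (2703, [0, 2, 0, 1, 0]), (2720, [0, 1, 0, 0, 0]), (2721, [0, 1, 2, 1, 0]), (2724, [1, 2]), (2725, [2, 0, 1]), (2834, [0, 2, 2]), (2835, [0, 2, 1, 2]), (2838, [2, 1, 0]), (2839, [2, 0]), (2872, [2]), (2873, [2, 2, 1, 2, 0]), (2876, [1, 0, 0, 1, 2]), (2877, [2, 0, 1, 2, 1]), (3018, [2, 0, 1, 2, 2]), (3019, [2, 1, 2, 0]), (3022, [1, 0, 0]), (3023, [0, 1, 0]), (3040, [2, 0, 2]), (3041, [0,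 1]), (3044, [0, 2, 1, 2]), (3045, [0, 1, 2]), (3098, [2, 2, 0, 1]), (3099, [0, 1, 2]), (3102, [0, 0, 0, 1, 0]), (3103, [0, 1, 0, 0, 0, 1]), (3120, [0, 0, 0]), (3121, [1, 2, 0, 0]), (3124, [2, 1, 2, 1, 2]), (3125, [2, 2, 1]), (3266, [0, 2, 0]), (3267, [2, 2]), (3270, [2, 2, 1, 0, 0]), (3271, [0, 1, 2, 1, 0]), (3304, [0, 1, 2, 2, 0, 0, 0]), (3305, [1, 0, 0, 0]), (3308, [1, 0, 0, 1, 0]), (3309, [1, 2]), (3418, [1, 0, 0, 1]), (3419, [0, 1, 0, 1]), (3422, [1, 0, 0, 0, 1, 2]), (3423, [2, 1, 2, 0, 1]), (3440, [2, 0, 1]), (3441, [1, 0, 0]), (3444, [1, 0]), (3445, [0, 0, 1, 2]), (3458, [2, 0, 1, 0, 0, 1]), (3459, [2, 1, 2, 1, 0, 0]), (3462, [2, 1, 2]), (3463, [2, 2, 1, 2, 2, 0]), (3496, [1, 2, 1]), (3497, [2, 2, 1, 2, 2]), (3500, [2, 2, 0, 1, 2, 0]), (3501, [0, 2, 1, 2, 1, 0]), (3650, [0, 2, 1, 0]), (3651, [1, 2, 2]), (3654, [0, 1, 2, 2, 1]), (3655, [0, 1, 2, 0]), (3688,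 [2, 0, 1, 0]), (3689, [1, 0, 1, 0, 1, 0]), (3692, [1, 0, 1, 0, 0]), (3693, [2, 2, 2, 2]), (3738, [2, 0, 2, 2]), (3739, [2, 1, 2, 0, 1]), (3742, [0, 2]), (3743, [2, 2, 2]), (3760, [1, 2, 0]), (3761, [0, 0, 1, 0, 0]), (3764, [0, 0, 0, 1]), (3765, [0, 1, 0, 0]), (3842, [2, 0, 1, 2, 2, 0]), (3843, [0, 2, 2, 0, 1, 0]), (3846, [1, 2, 1, 2]), (3847, [2, 0, 2, 2, 1, 0]), (3880, [2, 2, 2, 1, 0]), (3881, [1, 0, 0, 0, 1]), (3884, [0, 0, 0, 0, 1, 0]), (3885, [2, 1, 0, 1, 0]), (4058, [2, 1, 2, 2]), (4059, [2, 1, 2, 2]), (4062, [0, 0, 1]), (4063, [1, 0, 1, 0, 1]), (4080, [0, 2, 2, 0]), (4081, [0, 2]), (4084, [1, 0, 1, 0]), (4085, [1, 2, 1, 0])]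

def mv1 : List (ℕ × List ℕ × ℕ × List ℕ) := [(0, [10, 1, 8, 0], 1572, [1, 6662, 4, 2713, 16, 3552, 1045, 3856, 1348, 1617, 84, 977]), (0, [5, 0, 4, 3, 0], 0, [1045, 392, 3121, 7482, 2328, 3182, 5205, 3248, 256, 7732, 1320, 2174])]

def pa1 : List (ℕ × List ℕ) := [(0, []), (4, [0, 1, 0, 1, 1, 0, 1, 0, 0, 0]), (162, [0, 1, 0, 0, 1, 0, 0]), (166, [0, 0, 0, 1, 0, 0, 0, 1, 0, 0]), (338, [1, 0, 0]), (342, [1, 1, 0, 1, 0, 0, 1, 0, 0]), (496, [1, 1, 0, 0, 0, 1, 0, 0]), (500, [1, 0, 1, 0, 0, 1, 0, 0]), (577, [0, 0, 1, 1, 0, 1, 0, 0]), (581, [0, 1, 0, 0, 0, 1, 0, 0, 0]), (739, [1, 0, 1, 0, 0]), (743, [0, 1, 0, 0, 0, 1, 0, 0]), (787, [1, 0, 0, 0, 1, 0, 1, 0, 0, 0]), (791, [0, 0, 1, 0, 0]), (945, [0, 0, 0, 1, 0, 1, 0, 0, 0]), (949, [0, 1, 0, 0, 1, 0, 1, 0, 0, 0]), (1121, [0, 1, 1, 0, 1, 0, 0]), (1125, [1, 0, 0, 0, 1, 0, 0, 0]), (1219, [0, 0, 1, 1, 0, 1, 0, 0, 0]), (1223,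 [0, 0, 1, 0, 0, 0]), (1331, [0, 0, 0, 1, 1, 0, 1, 0, 0, 0]), (1335, [0, 0, 0, 1, 0, 0, 0]), (1425, [0, 0, 0, 1, 0, 1, 0, 0, 1, 0, 0]), (1429, [1, 0, 0, 1, 0, 0, 0, 1, 0, 0, 0]), (1568, [1, 0, 1, 1, 0, 1, 0, 0, 0]), (1572, [0, 0, 0]), (1666, [1, 0, 0, 0]), (1670, [1, 1, 0, 1, 0, 0, 0]), (1906, [0, 1, 1, 0, 1, 0, 0, 0]), (1910, [0, 1, 0, 0, 0]), (2000, [0, 0, 1, 0, 1, 0, 0, 0]), (2004, [1, 0, 0, 1, 0, 1, 0, 0, 0]), (2128, [0, 1, 1, 0, 0, 0, 1, 0, 0]), (2132, [0, 1, 0, 1, 0, 0, 1, 0, 0]), (2290, [0, 1, 0, 0, 1, 0, 0, 0]), (2294, [0, 0, 0, 1, 0, 1, 1, 0, 0, 0]), (2306, [0, 0, 1, 0, 1, 1, 0, 0, 0]), (2310, [1, 0, 0, 1, 0, 0, 0]), (2464, [0, 0, 0, 1, 1, 0, 1, 0, 0]), (2468, [0, 0, 1, 0, 0, 0, 1, 0, 0, 0]), (2577, [1, 1, 0, 1, 1, 0, 0, 0]), (2581, [1, 0, 1, 0, 0, 0]), (2739, [0, 1, 1, 0, 0, 0]), (2743, [0, 1, 0, 1, 1, 0, 0, 0]), (2883, [1, 1, 0, 0, 0]), (2887, [1, 0,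 1, 1, 0, 0, 0]), (3041, [1, 1, 0, 0, 1, 0, 1, 0, 0, 0]), (3045, [0]), (3121, [0, 0, 1, 1, 0, 0, 0, 1, 0, 0]), (3125, [0, 0, 1, 0, 1, 0, 0, 1, 0, 0]), (3219, [1, 0, 0, 0, 1, 0, 0]), (3223, [1, 1, 0, 0]), (3427, [0, 0, 0, 1, 0, 0]), (3431, [0, 1, 0, 0, 0, 1, 0, 1, 0, 0, 0]), (3521, [0, 1, 1, 0, 0, 1, 0, 1, 0, 0, 0]), (3525, [0, 0]), (3696, [0, 1, 0, 1, 0, 0, 0]), (3700, [1, 0, 1, 0, 1, 0, 0, 0]), (3794, [1, 0, 0, 1, 0, 0]), (3798, [0, 0, 1, 0, 0, 0, 1, 0, 0]), (3874, [0, 1, 0, 0]), (3878, [0, 1, 1, 0, 1, 0, 0, 1, 0, 0]), (3968, [1, 1, 0, 0, 1, 0, 0]), (3972, [1, 1, 0, 1, 0, 0])]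

def mv2 : List (ℕ × List ℕ × ℕ × List ℕ) := [(0, [10, 8, 5, 1, 5, 1], 837, [1, 6583, 4, 3740, 5444, 5697, 17, 6305, 4180, 6085, 1044, 3905]), (8, [], 1975, [1, 2, 4100, 8, 16, 32, 64, 128, 256, 512, 1024, 2048])]

def pa2 : List (ℕ × List ℕ) := [(176, []), (180, [0, 0, 0, 0, 0]), (211, [0, 1]), (215, [0, 1, 0, 0, 0, 0, 0]), (291, [0, 0, 1, 0, 0, 0, 0]), (295, [0, 0, 0, 0, 1, 0]), (320, [1, 0, 0, 0, 1]), (324, [0, 0, 1, 0, 1, 0]), (659, [0, 0, 1]), (663, [0, 0, 1, 0, 0, 0, 0, 0]), (752, [0, 0, 0]), (756, [1, 0, 0, 1, 0, 0]), (768, [1, 0, 1, 0, 0, 0]), (772, [0, 1, 0, 1, 0]), (867, [0, 1, 0, 0, 0, 0, 0, 0]), (871, [0, 1, 0]), (1203, [0, 0, 0, 1, 0, 0]), (1207, [0, 1, 0, 0, 0]), (1232, [1, 0, 1, 0]), (1236, [1, 0, 1, 0, 0, 0, 0, 0, 0]), (1312, [0, 0, 0, 1, 0, 1, 0]), (1316, [1, 0, 0, 1]), (1347, [0, 0, 1, 0, 0]), (1351, [1, 0, 0, 0]), (1680, [1, 0, 0, 0, 0, 1,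 0]), (1684, [1, 0, 0, 1, 0, 0, 0, 0]), (1779, [1, 0, 0, 1, 0, 1, 0]), (1783, [0, 0, 0, 1]), (1795, [1, 0, 0, 0, 0, 0]), (1799, [1]), (1888, [1, 0, 1, 0, 0, 0, 0, 0]), (1892, [1, 0, 1]), (2178, [1, 0, 0]), (2182, [1, 0, 0, 0, 0, 0, 0, 0]), (2273, [1, 0, 0, 1, 0]), (2277, [0, 0, 0, 0]), (2321, [0, 1, 0, 1, 0, 0]), (2325, [1, 0, 1, 0, 0]), (2418, [0, 1, 0, 0, 1, 0, 1, 0]), (2422, [0, 0, 0, 0, 1]), (2721, [1, 0, 0, 0, 0, 1, 0, 0]), (2725, [0, 1, 0, 0, 1]), (2754, [1, 0, 1, 0, 0, 0, 1, 0]), (2758, [1, 0, 0, 0, 1, 0, 1]), (2866, [1, 0, 0, 0, 0, 0, 0]), (2870, [1, 0]), (2897, [0, 0, 1, 0, 1]), (2901, [1, 0, 0, 0, 1, 0]), (3201, [0]), (3205, [0, 0, 0, 0, 0, 0]), (3298, [0, 0, 0, 1, 0]), (3302, [0, 1, 0, 0, 0, 0]), (3346, [0, 0, 1, 0, 0, 0]), (3350, [0, 0, 0, 0, 1, 0, 0]), (3441, [0, 0, 0, 1, 0, 1]), (3445, [0, 1, 0, 0, 0, 1, 0]), (3746, [0, 1, 0, 0]), (3750, [1, 0, 1,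 0, 1, 0, 0]), (3777, [0, 1, 0, 1]), (3781, [0, 1, 0, 1, 0, 0, 0, 0, 0]), (3889, [0, 0, 0, 0, 0, 0, 0]), (3893, [0, 0]), (3922, [1, 0, 0, 0, 0]), (3926, [0, 0, 1, 0])]

section
variable (h : Hyp z Q) (E : Enc z Q n) (S : St z n f)
include E S

theorem act_w {w : List ℕ} (hw : lt2 6 w = true) : wval f w ∈ centralizer ({z} : Set G) ∧ Act n (wval f w) (aw w) := by
  induction w with
  | nil => exact ⟨one_mem _, act_one⟩
  | cons l w ih =>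
    rw [lt2, List.all_cons, Bool.and_eq_true, decide_eq_true_eq] at hw
    obtain ⟨i1, i2⟩ := ih hw.2
    have i : l / 2 < 6 := by omega
    obtain ⟨a, b⟩ := (by decide +kernel : ∀ l < 12, (l % 2 = 0 → LI.getD l [] = LH.getD (l / 2) []) ∧
      (l % 2 ≠ 0 → (LI.getD l []).length = 12 ∧ (∀ a ∈ LI.getD l [], a < 8192) ∧
        (LI.getD l []).map (lin (LH.getD (l / 2) [])) = L0)) l hw.1
    have : lval f l ∈ centralizer ({z} : Set G) ∧ Act n (lval f l) (LI.getD l []) := by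
      unfold lval
      split_ifs with e
      exacts [⟨S.mem _ i, a e ▸ S.act _ i⟩, ⟨inv_mem (S.mem _ i), act_inv E (S.mem _ i) (S.act _ i) (b e)⟩]
    exact ⟨mul_mem this.1 i1, this.2.mul i2 E this.1⟩

include h

theorem act_tb {p : ℕ} (hp : p < 8192) {w : List ℕ} (hw : lt2 6 w = true) :
    n p * wval f w ∈ centralizer ({z} : Set G) ∧ Act n (n p * wval f w) (tb p w) :=
  ⟨mul_mem (h.le (E.mem p hp)) (act_w E S hw).1, (act_ip h E hp).mul (act_w E S hw).2 E (h.le (E.mem p hp))⟩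

theorem coset (w L : List ℕ) (t : ℕ) (mv : List (ℕ × List ℕ × ℕ × List ℕ)) (pa : List (ℕ × List ℕ)) (ε : List ℕ)
    (h0 : lt2 6 w = true ∧ aw w = L ∧ t < 8192 ∧ mp L L = ip t ∧ ∀ m ∈ (0, [], 0, L0) :: mv, okM w m)
    (h1 : allR (fun p => !Nat.beq (qm (qm p (lin L p)) t % 4096) 0 || memL (pa.map Prod.fst) (p % 4096)) 0 8192 = true)
    (h2 : allL (fun e => memL ε (run mv e.2 e.1)) pa = true) {p : ℕ} (hp : p < 8192)
    (sq : n p * wval f w * (n p * wval f w) = 1) : ∃ k ∈ centralizer ({z} : Set G), ∃ e ∈ ε,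
      Md z (k * (n p * wval f w) * k⁻¹) (n e * wval f w) := by
  obtain ⟨a1, rfl, a3, a4, a5⟩ := h0
  obtain ⟨b1, b2⟩ := act_w E S a1
  have key : ∀ (pa : List ℕ), ∀ q < 4096, run mv pa q ∈ ε → ∀ x, Md z x (n q) → ∃ k ∈ centralizer ({z} : Set G),
      ∃ e ∈ ε, Md z (k * (x * wval f w) * k⁻¹) (n e * wval f w) := fun pa => by
    induction pa with
    | nil => exact fun q _ hq x hx => ⟨1, one_mem _, q, hq, by simpa using md_r _ hx⟩
    | cons j pa ih =>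
      intro q hq e x hx
      obtain ⟨c1, c2, c3, c4, c5⟩ := a5 _ (getD_mem mv j _)
      change run mv pa (qm (lin (mv.getD j (0, [], 0, L0)).2.2.2 q) (mv.getD j (0, [], 0, L0)).2.2.1 % 4096) ∈ ε at e
      generalize mv.getD j (0, [], 0, L0) = m at *
      obtain ⟨d1, d2⟩ := act_tb h E S c1 c2
      obtain ⟨d3, d4⟩ := act_tb h E S c3 a1
      obtain ⟨d5, d6⟩ := act_tb h E S c1 (w := m.2.1 ++ w) (List.all_append.trans (Bool.and_eq_true_iff.2 ⟨c2, a1⟩))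
      rw [c4] at d2
      rw [c5, wval_append, ← mul_assoc] at d6
      have d7 := same h E (mul_mem d1 b1) (mul_mem d3 d1) d6 (d4.mul d2 E d3)
      obtain ⟨k, hk, r, hr, e⟩ := ih _ (Nat.mod_lt _ (by decide)) e _ (md_mod E (qm_lt (d2.lt q) c3))
      rw [← E.mul _ (d2.lt q) _ c3, ← d2.all E d1 (by omega)] at e
      generalize n m.1 * wval f m.2.1 = c at *
      refine ⟨k * c, mul_mem hk d1, r, hr, md_trans h ?_ e⟩
      have := md_r k⁻¹ (md_l hk (md_trans h (md_r (c * wval f w * c⁻¹) (md_r c⁻¹ (md_l d1 hx)))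
        (md_l (mul_mem (mul_mem d1 (h.le (E.mem q (by omega)))) (inv_mem d1)) (md_r c⁻¹ d7))))
      convert this using 1 <;> group
  have e1 := same h E (mul_mem b1 b1) (h.le (E.mem t a3)) (b2.mul b2 E b1) ((congrArg _ a4).mpr (act_ip h E a3))
  have l := qm_lt hp (b2.lt p)
  have e2 : Md z (n 0) (n (qm (qm p (lin (aw w) p)) t)) := by
    rw [← E.mul _ l _ a3, E.zero, ← sq]
    convert md_l (h.le (E.mem _ l)) e1 using 1
    rw [← E.mul _ hp _ (b2.lt p), ← b2.all E b1 hp]; group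
  have e3 := allR_all h1 p p.zero_le (by omega)
  rw [← md_inj E (by decide) (Nat.mod_lt _ (by decide)) (md_trans h e2 (md_mod E (qm_lt l a3)))] at e3
  obtain ⟨e, he, e4⟩ := List.mem_map.1 (memL_mem e3)
  exact key e.2 _ (Nat.mod_lt _ (by decide)) (e4 ▸ memL_mem (allL_all h2 e he)) _ (md_mod E hp)

end

theorem exact (h : Hyp z Q) (E : Enc z Q n) {b : ℕ} (hb : b ∈ [1, 2]) {x : G} (e : Md z x (n b)) :
    ∃ r ∈ Q, r * x * r⁻¹ = n b := by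
  obtain ⟨b1, b2, b3⟩ := (by decide : ∀ b ∈ [1, 2], b < 8192 ∧ b ≠ 0 ∧ b ≠ 4096) b hb
  rcases e with rfl | rfl
  · exact ⟨1, one_mem _, by simp⟩
  obtain ⟨r, hr, e⟩ := exists_anti h (E.mem b b1) (fun e => b2 (E.inj _ b1 _ (by decide) (e.trans E.zero.symm)))
    fun e => b3 (E.inj _ b1 _ (by decide) (e.trans E.z12.symm))
  exact ⟨r, hr, by rw [← mul_assoc, zc h hr, mul_assoc z, mul_assoc z, anti h hr (E.mem b b1) e, ← mul_assoc, h.zz,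
    one_mul]⟩

namespace Cx
variable {M : MW z Q f} (C : Cx M n)
include C

theorem act (w : List ℕ) {p : ℕ} (hp : p < 4096) :
    pw w p < 4096 ∧ Md z (wval (FW f) w * n p * (wval (FW f) w)⁻¹) (n (pw w p)) := by
  rw [pw, ap1i_eq M.good w hp, ← M.val]
  exact ⟨M.lt _ _ hp, C.hs _ p hp⟩

theorem fix (c : centralizer ({z} : Set G)) {p q : ℕ} (hp : p < 4096) (hq : q < 4096)
    (h : Md z (c * n p * (c : G)⁻¹) (n q)) : M.π c p = q :=
  md_inj C.E (M.lt _ _ hp) hq (md_trans C.h (md_symm C.h (C.hs c p hp)) h)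

theorem trans {v : G} (hv : v ∈ Q) (vv : v * v = 1) :
    v = 1 ∨ v = z ∨ ∃ k ∈ centralizer ({z} : Set G), ∃ b ∈ [1, 2], k * v * k⁻¹ = n b := by
  obtain ⟨p, hp, rfl⟩ := C.E.surj v hv
  rw [C.E.mul p hp p hp, ← C.E.zero] at vv
  have := sing_ok
  rw [forceB_eq, forceB_eq] at this
  replace this := allR_all this p p.zero_le hp
  have k : ∀ b ∈ [1, 2], ∀ g : centralizer ({z} : Set G), (M.π g)⁻¹ b = p % 4096 →
      ∃ k ∈ centralizer ({z} : Set G), ∃ b ∈ [1, 2], k * n p * k⁻¹ = n b := fun b hb g e => by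
    have := C.hs g _ (Nat.mod_lt p (by decide))
    rw [show M.π g (p % 4096) = b by rw [← e]; simp] at this
    obtain ⟨r, hr, e⟩ := exact C.h C.E hb (md_trans C.h (md_r _ (md_l g.2 (md_mod C.E hp))) this)
    exact ⟨r * g, mul_mem (C.h.le hr) g.2, b, hb, by rw [← e]; group⟩
  simp only [C.E.inj _ (qm_lt hp hp) _ (by decide) vv, Nat.beq_refl, Bool.not_true, Bool.false_or, Bool.or_eq_true,
    Nat.beq_eq] at this
  rcases this with (e | e) | e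
  · have := md_mod C.E hp
    rw [e, C.E.zero] at this
    exact this.imp_right fun e => .inl (by simpa using e)
  · obtain ⟨e, he, e1⟩ := mkM_mem e
    exact .inr (.inr (k 1 (by simp) _ ((C.c1.2.2.1 e he).2.2.trans e1)))
  · obtain ⟨e, he, e1⟩ := mkM_mem e
    exact .inr (.inr (k 2 (by simp) _ ((C.c2.2.2.1 e he).2.2.trans e1)))

theorem cls0 {v : G} (hv : v ∈ centralizer ({z} : Set G)) (vv : v * v = 1) :
    v ∈ Q ∨ ∃ k ∈ centralizer ({z} : Set G), ∃ r ∈ rep0, Md z (k * v * k⁻¹) (n r.1 * wval f r.2) := by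
  obtain ⟨k, -, hk⟩ := M.pfix C.c1 wc (j := 1) Nat.prime_two 1 (by decide +kernel) hv hv
    (by simpa [sq, vv] using one_mem Q)
  obtain ⟨u, hu, q, hq, e⟩ := M.find C.c1 s_i (by decide) (k * ⟨v, hv⟩ * k⁻¹).2 hk .nil
    (List.forall_mem_singleton.2 (by
      rw [wval_cons, wval_cons, lval_upd (nv := 500), wval_nil, mul_one]
      change k * v * (k : G)⁻¹ * (k * v * (k : G)⁻¹) ∈ Q
      rw [conj_mul, vv]; simp)) (by simp)
  rw [wval_mkC] at e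
  have hu := blt_lt hu
  have hm := M.mem u.tail
  have hy := M.mem (rw0.getD (u.headD 0) [])
  rw [wval_ext f 6 wdefs (rw0.getD (u.headD 0) [])
    ((by decide : ∀ i < 4, lt2 6 (rw0.getD i []) = true) _ hu)] at e hy
  generalize wval (FW f) u.tail = a, u.headD 0 = i at *
  obtain ⟨p, hp, e1⟩ := C.E.surj _ (C.h.nor _ hy _ (C.h.nor _ (inv_mem hm) q hq))
  have e : (a⁻¹ * k) * v * (a⁻¹ * k)⁻¹ = n p * wval f (rw0.getD i []) := by
    have e : (k : G) * v * (k : G)⁻¹ = _ := e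
    rw [show a⁻¹ * k * v * (a⁻¹ * k)⁻¹ = a⁻¹ * (k * v * (k : G)⁻¹) * a by group, e, e1]; group
  have hk := mul_mem (inv_mem hm) k.2
  have sq : n p * wval f (rw0.getD i []) * (n p * wval f (rw0.getD i [])) = 1 := by rw [← e, conj_mul, vv]; simp
  have fin : ∀ ε : List ℕ, (∀ e ∈ ε, (e, rw0.getD i []) ∈ rep0) → (∃ k ∈ centralizer ({z} : Set G), ∃ e ∈ ε,
      Md z (k * (n p * wval f (rw0.getD i [])) * k⁻¹) (n e * wval f (rw0.getD i []))) →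
      ∃ k ∈ centralizer ({z} : Set G), ∃ r ∈ rep0, Md z (k * v * k⁻¹) (n r.1 * wval f r.2) :=
    fun ε hε ⟨c, hc, x, hx, e2⟩ => ⟨c * (a⁻¹ * k), mul_mem hc hk, _, hε x hx, by
      rw [← e] at e2
      convert e2 using 1; group⟩
  interval_cases i
  · left
    have := C.h.nor _ (inv_mem hk) _ (C.E.mem p hp)
    rw [← mul_one (n p), show (1 : G) = wval f (rw0.getD 0 []) from rfl, ← e] at this
    simpa [mul_assoc] using this
  · exact .inr (fin [0, 5, 42, 43] (by decide) (coset C.h C.E C.S _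
      [1, 2402, 4, 2728, 4437, 992, 5396, 7729, 5204, 7345, 5445, 3008] 0 mv0 pa0 _ (by decide +kernel)
      (by decide +kernel) (by decide +kernel) hp sq))
  · exact .inr (fin [0] (by decide) (coset C.h C.E C.S _
      [4101, 6226, 4, 2314, 8080, 7649, 3632, 1297, 6304, 7284, 6069, 2544] 0 mv1 pa1 _ (by decide +kernel)
      (by decide +kernel) (by decide +kernel) hp sq))
  · exact .inr (fin [176] (by decide) (coset C.h C.E C.S _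
      [4101, 950, 4, 1983, 3989, 3557, 7733, 5392, 2213, 3189, 1968, 6644] 2000 mv2 pa2 _ (by decide +kernel)
      (by decide +kernel) (by decide +kernel) hp sq))

end Cx

end Cfsg.Agent.Lib.J4W

namespace Cfsg.Agent.Lib.J4F

open Subgroup Cfsg.Agent.Lib.PermNet Cfsg.Agent.Lib.Words Cfsg.Agent.Lib.PermGroup Cfsg.Agent.Lib.DCE
  Cfsg.Agent.Lib.BT Cfsg.Agent.Lib.J4Defs Cfsg.Agent.Lib.J4W

/-- Representatives of the involutions of the centraliser, modulo `z`. -/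
def reps : List (ℕ × List ℕ) := [(4096, []), (1, []), (2, []), (0, [8]), (5, [8]), (42, [8]), (43, [8]),
  (0, [0, 2, 4]), (176, [0, 2, 8, 4, 8])]

variable {G : Type*} [Group G] [Finite G] {z : G} {Q : Subgroup G} {n f : ℕ → G}
  (h : Hyp z Q) (E : Enc z Q n) (S : St z n f)
include h E S

theorem cE {c : G} (hc : c ∈ centralizer ({z} : Set G)) (e : ∀ e ∈ [1, 4, 16, 64, 256, 1024], c * n e = n e * c) :
    ∃ a < 8192, a &&& 2730 = 0 ∧ c = n a := by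
  obtain ⟨M, C⟩ := exists_cx h E S
  have l := (by decide : ∀ b ∈ BW, b < 4096 ∧ b ∈ [1, 4, 16, 64, 256, 1024])
  obtain ⟨a, ha, rfl⟩ := E.surj c ((M.ker ⟨c, hc⟩).1 (M.faith _ fun b hb =>
    C.fix _ (l b hb).1 (l b hb).1 (.inl (mul_inv_eq_iff_eq_mul.2 (e b (l b hb).2)))))
  exact ⟨a, ha, e0_ok a ha fun b hb => (ncom E ha ((l b hb).1.trans (by decide))).1 (e b (l b hb).2), rfl⟩

theorem idx {B : Subgroup G} (hB : ∀ b ∈ B, b ∈ centralizer ({z} : Set G) ∧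
    (b * n 1 * b⁻¹ = n 1 ∨ b * n 1 * b⁻¹ = n 4097)) : 693 ≤ B.relIndex (centralizer {z}) := by
  obtain ⟨M, C⟩ := exists_cx h E S
  let φ : centralizer ({z} : Set G) ⧸ B.subgroupOf (centralizer {z}) → ℕ := Quotient.lift (fun g => M.π g 1)
    fun a b e => by
      have e := QuotientGroup.leftRel_apply.1 e
      have := C.fix (a⁻¹ * b) (p := 1) (q := 1) (by decide) (by decide) ((hB _ e).2.elim .inl fun e' =>
        e' ▸ md_mod E (a := 4097) (by decide))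
      rwa [map_mul, map_inv, Equiv.Perm.mul_apply, Equiv.Perm.inv_eq_iff_eq, eq_comm] at this
  have nd := (lvB_sound M.good (A := ⊤) (okA := fun _ => true) (bs := []) (b := 1) (fun _ _ => trivial) (by simp)
    (by decide) (wch.headD ⟨0, []⟩).T 0 (by decide +kernel)).2
  have := Set.ncard_le_ncard (s := (((wch.headD ⟨0, []⟩).T.map Prod.fst).toFinset : Set ℕ)) (t := φ '' Set.univ)
    fun p hp => by
      obtain ⟨e, he, rfl⟩ := List.mem_map.1 (List.mem_toFinset.1 hp)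
      exact ⟨((wval M.y e.2)⁻¹ : centralizer ({z} : Set G)), trivial, (congrArg (· 1) (map_inv M.π _)).trans
        (C.c1.2.2.1 e he).2.2⟩
  rw [Set.ncard_coe_finset, List.toFinset_card_of_nodup nd,
    show ((wch.headD ⟨0, []⟩).T.map Prod.fst).length = 693 by decide +kernel] at this
  exact this.trans ((Set.ncard_image_le Set.finite_univ).trans_eq (Set.ncard_univ _))

theorem gen (K : Subgroup G) (hQ : Q ≤ K) (hf : ∀ i < 6, f i ∈ K) : centralizer {z} ≤ K := by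
  obtain ⟨M, C⟩ := exists_cx h E S
  exact M.gen C.c1 (fun i => (gp_le.2 (by
    simpa [sing, wval, lval] using hf) : gp f (sing 6) ≤ K) (ext_mem f 6 (by decide +kernel) i)) hQ

theorem cls {v : G} (hv : v ∈ centralizer ({z} : Set G)) (vv : v * v = 1) : v = 1 ∨ ∃ k ∈ centralizer ({z} : Set G),
    ∃ r ∈ reps, k * v * k⁻¹ = n r.1 * wval f r.2 ∨ k * v * k⁻¹ = z * (n r.1 * wval f r.2) := by
  obtain ⟨M, C⟩ := exists_cx h E S
  rcases C.cls0 hv vv with hq | ⟨k, hk, r, hr, e⟩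
  · rcases C.trans hq vv with e | e | ⟨k, hk, b, hb, e⟩
    exacts [.inl e, .inr ⟨1, one_mem _, (4096, []), by decide, .inl (by simp [e, E.z12, wval])⟩,
      .inr ⟨k, hk, (b, []), (by decide : ∀ b ∈ [1, 2], (b, []) ∈ reps) b hb, .inl (by simp [e, wval])⟩]
  · exact .inr ⟨k, hk, r, (by decide : ∀ r ∈ rep0, r ∈ reps) r hr, e⟩

end Cfsg.Agent.Lib.J4F
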