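import Cfsg.Agent.Lib.J4C1d
import Cfsg.Agent.Lib.J4W

/-! The index of the stabiliser in the pair group, and generators of the centraliser of `N 1`. -/

set_option autoImplicit false
set_option maxRecDepth 100000

namespace Cfsg.Agent.Lib.J4C

open Subgroup Cfsg.Agent.Lib.PermNet Cfsg.Agent.Lib.Words Cfsg.Agent.Lib.J4L Cfsg.Agent.Lib.J4Defs
  Cfsg.Agent.Lib.J4P Cfsg.Agent.Lib.DCE Cfsg.Agent.Lib.BT

theorem cm1b : ∀ a < 8192, (qm a 1 = qm 1 a → a &&& 2 = 0) ∧ (a &&& 2 = 0 → qm a 1 = qm 1 a) ∧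
    (qm a 1 = qm 1 a ∨ qm a 1 = qm 4097 a) := J4Q.allD (by decide +kernel)

theorem THok : ∀ i < J4T.KH.length, TH.getD i 0 < 8192 ∧ qok (TH.getD i 0) = true := by decide +kernel

theorem jcb (g : List ℕ) (h : relC [g ++ [12] ++ invW g ++ invW [12]] = true) :
    wval L g * nJ 1 * (wval L g)⁻¹ = nJ 1 := by
  have := rel1 _ h
  rw [wval_append, wval_append, wval_append, wval_invW, wval_invW, mul_inv_eq_one,
    show [12] = [2 * (6 + 0)] from rfl, wval_single, powJ 0 (by decide)] at this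
  exact this

variable {G : Type*} [Group G] {z : G} {Q : Subgroup G} {n f : ℕ → G}

/-- The elements of the pair group over the extraspecial group of `J4`. -/
noncomputable def AAb (E : Enc z Q n) (f : ℕ → G) : Subgroup (G × Spor.J4) :=
  HH z n f ⊓ ((QQ E).map (MonoidHom.snd G Spor.J4)).comap (MonoidHom.snd G Spor.J4)

theorem mem_AAb (E : Enc z Q n) {x : G × Spor.J4} :
    x ∈ AAb E f ↔ x ∈ HH z n f ∧ ∃ a < 8192, x.2 = nJ a := by
  refine and_congr_right fun _ => ⟨?_, ?_⟩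
  · rintro ⟨_, ⟨a, ha, rfl⟩, e⟩
    exact ⟨a, ha, e.symm⟩
  · rintro ⟨a, ha, e⟩
    exact ⟨_, ⟨a, ha, rfl⟩, e.symm⟩

variable [Finite G] (h : Hyp z Q) (E : Enc z Q n) (S : St z n f)
include h E S

theorem memBb {x : G × Spor.J4} (hx : x ∈ HH z n f)
    (e : x * N n 1 * x⁻¹ = N n 1 ∨ x * N n 1 * x⁻¹ = N n 4097) : x ∈ BB z n f := by
  have c : x * N n 4096 * x⁻¹ = N n 4096 := by
    rw [N12 E, mul_inv_eq_iff_eq_mul]
    exact Prod.ext (Hact h E S x hx).1 (Hact h E S x hx).2.1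
  have m1 : N n 4096 * N n 1 = N n 4097 := by
    rw [mulN E _ (by decide) _ (by decide), (by decide +kernel : qm 4096 1 = 4097)]
  have m2 : N n 4096 * N n 4097 = N n 1 := by
    rw [mulN E _ (by decide) _ (by decide), (by decide +kernel : qm 4096 4097 = 1)]
  refine ⟨hx, mem_normalizer_fintype ?_⟩
  rintro _ (rfl | rfl)
  · exact e
  · rw [← m1, ← conj_mul, c]
    rcases e with e | e <;> rw [e]
    · exact Or.inr rfl
    · rw [m2]; exact Or.inl rfl

theorem upb {B : Subgroup (G × Spor.J4)} (hA : AAb E f ≤ B) (h1 : wval (Y n f) [10] ∈ B)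
    (h2 : wval (Y n f) [0, 8, 1] ∈ B) (h3 : wval (Y n f) [1, 2, 1, 5] ∈ B) :
    B.relIndex (HH z n f) ≠ 0 ∧ B.relIndex (HH z n f) ≤ 693 := by
  have hy : ∀ i, wval (Y n f) (subH.getD i []) ∈ HH z n f := fun i => by
    by_cases hi : i < 5
    · exact Ymem ((by decide : ∀ i < 5, (subH.getD i []).all (fun l => decide (l < 2 * 19)) = true) i hi)
    · rw [List.getD_eq_default _ _ (Nat.le_of_not_lt hi)]; exact one_mem _
  refine J4T.tc_mod (fun i => wval (Y n f) (subH.getD i [])) (A := AAb E f) (S := HH z n f) (B := B)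
    (P := HH z n f) (K := J4T.KH) hy ?_ ?_ J4T.bH hA ?_ le_rfl ?_
  · intro s hs a ha
    obtain ⟨h1, b, hb, e⟩ := (mem_AAb E).1 ha
    obtain ⟨c, hc, e'⟩ := (Hact h E S s hs).2.2 b hb
    refine (mem_AAb E).2 ⟨mul_mem (mul_mem hs h1) (inv_mem hs), c, hc, ?_⟩
    have := congrArg Prod.snd e'
    change s.2 * a.2 * s.2⁻¹ = _
    rw [e]; exact this
  · intro w hw
    obtain ⟨i, hi, rfl⟩ := List.getElem_of_mem hw
    have h1 := jH _ (List.mem_map.2 ⟨i, List.mem_range.2 hi, rfl⟩)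
    rw [wval_append, wval_invW, mul_inv_eq_one, List.getD_eq_getElem _ _ hi, qwJ _ (THok i hi).2] at h1
    refine (mem_AAb E).2 ⟨wval_mem fun l _ => hy _, _, (THok i hi).1, ?_⟩
    rw [← wval_subst, Ysnd, h1]
  · intro w hw
    rw [← wval_subst]
    simp only [List.mem_cons, List.not_mem_nil, or_false] at hw
    rcases hw with rfl | rfl | rfl
    exacts [h1, h2, h3]
  · intro T hT hl
    have hA' : AAb E f ≤ T := fun x hx => hT ⟨hx.1, hx⟩
    refine sup_le (gp_le.2 fun w hw => ?_) (zpowers_le.2 (hA' ((mem_AAb E).2 ⟨ζmem, 0, by decide, zeroJ.symm⟩)))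
    obtain ⟨i, hi, rfl⟩ := List.mem_map.1 hw
    replace hi := List.mem_range.1 hi
    rcases lt_or_ge i 6 with h6 | h6
    · by_cases h3 : i = 3
      · subst h3
        refine hA' ((mem_AAb E).2 ⟨Ymem (by decide), 1093, by decide, ?_⟩)
        rw [Ysnd, ← qwJ 1093 (by decide +kernel)]
        exact eqw _ _ (by decide +kernel)
      · have := hl [2 * (if i < 3 then i else i - 1)] ((by decide : ∀ i < 6,
          [2 * (if i < 3 then i else i - 1)] ∈ [[0], [2], [4], [6], [8]]) i h6)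
        rwa [← wval_subst, (by decide : ∀ i < 6, i ≠ 3 →
          subst subH [2 * (if i < 3 then i else i - 1)] = [2 * i]) i h6 h3] at this
    · obtain ⟨j, rfl⟩ := Nat.exists_eq_add_of_le h6
      have l : 2 ^ j < 8192 := Nat.pow_lt_pow_right (n := 13) one_lt_two (by omega)
      rw [wval_single, YN (by omega)]
      exact hA' ((mem_AAb E).2 ⟨Nmem E _ l, _, l, rfl⟩)

theorem lowb (h0 : (BB z n f).relIndex (HH z n f) ≠ 0) : 693 ≤ (BB z n f).relIndex (HH z n f) := by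
  have h1 := J4F.idx h E S (B := (BB z n f).map (MonoidHom.fst G Spor.J4)) (by
    rintro _ ⟨x, hx, rfl⟩
    refine ⟨mem_centralizer_singleton_iff.2 (Hact h E S x hx.1).1, ?_⟩
    have hx2 : x ∈ normalizer ({N n 1, N n 4097} : Set (G × Spor.J4)) := hx.2
    rcases (hx2 (N n 1)).1 (Or.inl rfl) with e | e
    · exact Or.inl (congrArg Prod.fst e)
    · exact Or.inr (congrArg Prod.fst e))
  have h2 : centralizer {z} ≤ (HH z n f).map (MonoidHom.fst G Spor.J4) := J4F.gen h E S _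
    (fun q hq => by
      obtain ⟨a, ha, rfl⟩ := E.surj q hq
      exact ⟨_, Nmem E a ha, rfl⟩)
    (fun i hi => ⟨Y n f i, mem_sup_left (mem_sing _ (by omega)), if_pos hi⟩)
  refine h1.trans ((relIndex_le_of_le_right h2 index_ne_zero_of_finite).trans ?_)
  rw [← relIndex_comap]
  exact relIndex_le_of_le_left (le_comap_map _ _) h0

theorem wKb (w : List ℕ) (hw : w.all (fun l => decide (l < 2 * 19)) = true)
    (r : relC [w ++ [12] ++ invW w ++ invW [12]] = true) : wval (Y n f) w * N n 1 = N n 1 * wval (Y n f) w :=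
  mul_inv_eq_iff_eq_mul.1 (cjN h E S (Ymem hw) (by decide) (by decide) (by rw [Ysnd]; exact jcb w r))

theorem coreb (K : Subgroup (G × Spor.J4)) (hK : ∀ k ∈ K, k ∈ HH z n f ∧ k * N n 1 = N n 1 * k)
    (hζ : (z, 1) ∈ K) (hv : wval (Y n f) vW ∈ K) (h5 : Y n f 5 ∈ K) (hφ : φ n f ∈ K) :
    (BB z n f).relIndex (HH z n f) = 693 ∧ BB z n f ≤ K ⊔ QQ E := by
  have hQ : ∀ a < 8192, N n a ∈ K ⊔ QQ E := fun a ha => mem_sup_right ⟨a, ha, rfl⟩
  have hBB : K ⊔ QQ E ≤ BB z n f := by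
    refine sup_le (fun k hk => memBb h E S (hK k hk).1 (Or.inl (mul_inv_eq_iff_eq_mul.2 (hK k hk).2))) ?_
    rintro _ ⟨a, ha, rfl⟩
    refine memBb h E S (Nmem E a ha) ?_
    rw [mul_inv_eq_iff_eq_mul, mul_inv_eq_iff_eq_mul, mulN E _ ha _ (by decide), mulN E _ (by decide) _ ha,
      mulN E _ (by decide) _ ha]
    exact (cm1b a ha).2.2.imp (congrArg _) (congrArg _)
  have md : ∀ x ∈ HH z n f, ∀ y ∈ K ⊔ QQ E, x.2 = y.2 → x ∈ K ⊔ QQ E := fun x hx y hy e => by
    rcases mdH h E S hx (hBB hy).1 e with rfl | rfl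
    · exact hy
    · exact mul_mem (mem_sup_left hζ) hy
  let u : ℕ → G × Spor.J4 := fun i => [wval (Y n f) vW, Y n f 5, φ n f].getD i 1
  have u1 : ∀ i, u i ∈ K := fun i => by
    rcases i with _ | _ | _ | i
    exacts [hv, h5, hφ, one_mem _]
  have u2 : ∀ w, (wval u w).2 = wval L (subst [vW, [10], [66]] w) := fun w => by
    rw [wval_subst]
    refine (map_wval (MonoidHom.snd G Spor.J4) u w).trans (congrArg (wval · w) (funext fun i => ?_))
    rcases i with _ | _ | _ | i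
    · exact Ysnd vW
    · exact (wval_single L 5).symm
    · exact φsnd.trans (wval_single L 33).symm
    · rfl
  have key : ∀ (w v : List ℕ) (a : ℕ), a < 8192 → qok a = true →
      w.all (fun l => decide (l < 2 * 19)) = true →
      wval L (w ++ invW (qw a ++ subst [vW, [10], [66]] v)) = 1 → wval (Y n f) w ∈ K ⊔ QQ E := by
    intro w v a ha qa hw e
    rw [wval_append, wval_invW, mul_inv_eq_one, wval_append, qwJ a qa, ← u2] at e
    exact md _ (Ymem hw) (N n a * wval u v) (mul_mem (hQ a ha) (mem_sup_left (wval_mem fun l _ => u1 _)))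
      ((Ysnd w).trans e)
  obtain ⟨b1, b2⟩ := upb h E S (B := K ⊔ QQ E)
    (fun x hx => by
      obtain ⟨h1, a, ha, e⟩ := (mem_AAb E).1 hx
      exact md x h1 _ (hQ a ha) e)
    (by rw [show [10] = [2 * 5] from rfl, wval_single]; exact mem_sup_left h5)
    (key _ _ 7537 (by decide) (by decide +kernel) (by decide) (jE _ List.mem_cons_self))
    (key _ _ 1757 (by decide) (by decide +kernel) (by decide) (jE _ (List.mem_cons_of_mem _ List.mem_cons_self)))
  have b3 := relIndex_le_of_le_left hBB b1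
  have b4 := lowb h E S (mt (relIndex_eq_zero_of_le_left hBB) b1)
  have b5 := relIndex_mul_relIndex (K ⊔ QQ E) (BB z n f) (HH z n f) hBB inf_le_left
  have e1 : (BB z n f).relIndex (HH z n f) = 693 := by omega
  refine ⟨e1, relIndex_eq_one.1 ?_⟩
  rw [e1] at b5
  omega

theorem idxgen : (BB z n f).relIndex (HH z n f) = 693 ∧ ∀ K : Subgroup (G × Spor.J4), (z, 1) ∈ K →
    (∀ a < 8192, a &&& 2 = 0 → N n a ∈ K) → wval (Y n f) vW ∈ K → Y n f 5 ∈ K → φ n f ∈ K →
    ∀ k ∈ HH z n f, k * N n 1 = N n 1 * k → k ∈ K := by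
  let C : Subgroup (G × Spor.J4) := HH z n f ⊓ centralizer {N n 1}
  have mC : ∀ k, k ∈ C ↔ k ∈ HH z n f ∧ k * N n 1 = N n 1 * k := fun k =>
    and_congr_right fun _ => mem_centralizer_singleton_iff
  have c1 : (z, 1) ∈ C := (mC _).2 ⟨ζmem, (ζc h E S (Nmem E 1 (by decide))).symm⟩
  have c2 : wval (Y n f) vW ∈ C := (mC _).2 ⟨Ymem (by decide), wKb h E S vW (by decide) (by decide +kernel)⟩
  have c3 : Y n f 5 ∈ C := by
    rw [← wval_single (Y n f) 5]
    exact (mC _).2 ⟨Ymem (by decide), wKb h E S [10] (by decide) (by decide +kernel)⟩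
  have c4 : φ n f ∈ C := (mC _).2 ⟨φmem, mul_inv_eq_iff_eq_mul.1 (cjN h E S φmem (by decide) (by decide)
    (by rw [φsnd, ← wval_single L 33]; exact jcb [66] (by decide +kernel)))⟩
  refine ⟨(coreb h E S C (fun k hk => (mC k).1 hk) c1 c2 c3 c4).1, fun K k1 k2 k3 k4 k5 k hk hc => ?_⟩
  have hB := (coreb h E S (K ⊓ C) (fun k hk => (mC k).1 hk.2) ⟨k1, c1⟩ ⟨k3, c2⟩ ⟨k4, c3⟩ ⟨k5, c4⟩).2
    (memBb h E S hk (Or.inl (mul_inv_eq_iff_eq_mul.2 hc)))
  have hn : K ⊓ C ≤ normalizer (QQ E : Set (G × Spor.J4)) := fun x hx => (HK h E S hx.2.1).2.2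
  rw [← SetLike.mem_coe, coe_mul_of_left_le_normalizer_right _ _ hn] at hB
  obtain ⟨x, hx, _, ⟨a, ha, rfl⟩, rfl⟩ := hB
  have hN : N n a ∈ C := by
    have hx2 : x ∈ C := hx.2
    have := mul_mem (inv_mem hx2) ((mC _).2 ⟨hk, hc⟩)
    simpa using this
  have := ((mC _).1 hN).2
  rw [mulN E _ ha _ (by decide), mulN E _ (by decide) _ ha] at this
  exact mul_mem hx.1 (k2 a ha ((cm1b a ha).1 (injN E _ (qm_lt ha (by decide)) _ (qm_lt (by decide) ha) this)))

end Cfsg.Agent.Lib.J4C
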