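import Cfsg.Agent.Lib.J4C1e

/-! The index of the stabiliser in the pair group, and generators. -/

set_option autoImplicit false
set_option maxRecDepth 100000

namespace Cfsg.Agent.Lib.J4Cc

open Subgroup Cfsg.Agent.Lib.PermNet Cfsg.Agent.Lib.Words Cfsg.Agent.Lib.J4L Cfsg.Agent.Lib.J4Defs
  Cfsg.Agent.Lib.J4P Cfsg.Agent.Lib.DCE Cfsg.Agent.Lib.BT Cfsg.Agent.Lib.J4C

variable {G : Type*} [Group G] {z : G} {Q : Subgroup G} {n f : ℕ → G}
variable [Finite G] (h : Hyp z Q) (E : Enc z Q n) (S : St z n f)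
include h E S

theorem md {K : Subgroup (G × Spor.J4)} (hz : (z, 1) ∈ K) {x y : G × Spor.J4} (hx : x ∈ HH z n f)
    (hy : y ∈ HH z n f) (e : x.2 = y.2) (m : y ∈ K) : x ∈ K := by
  rcases mdH h E S hx hy e with e | e <;> rw [e]
  exacts [m, mul_mem hz m]

theorem le693 {B : Subgroup (G × Spor.J4)} (hz : (z, 1) ∈ B) (hQ : QQ E ≤ B)
    (hw : ∀ w ∈ [[10], [0, 8, 1], [1, 2, 1, 5]], wval (Y n f) w ∈ B) :
    B.relIndex (HH z n f) ≠ 0 ∧ B.relIndex (HH z n f) ≤ 693 := by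
  have QH : QQ E ≤ HH z n f := by rintro _ ⟨a, ha, rfl⟩; exact Nmem E a ha
  refine J4T.tc_mod (fun i => wval (Y n f) (subH.getD i [])) (A := QQ E ⊔ zpowers (z, 1)) (S := HH z n f)
    (K := J4T.KH) (fun i => ?_) (fun s hs a ha => ?_) (fun w hw => ?_) J4T.bH (sup_le hQ (zpowers_le.2 hz))
    (fun w hw' => ?_) le_rfl fun T h1 h2 => ?_
  · by_cases hi : i < 5
    · exact Ymem ((by decide : ∀ i < 5, (subH.getD i []).all (fun l => decide (l < 2 * 19)) = true) i hi)
    · rw [List.getD_eq_default _ _ (Nat.le_of_not_lt hi)]; exact one_mem _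
  · refine (sup_le (fun x hx => ?_) (zpowers_le.2 ?_) : QQ E ⊔ zpowers (z, 1) ≤
      (QQ E ⊔ zpowers (z, 1)).comap (MulAut.conj s).toMonoidHom) ha
    · exact mem_sup_left ((mem_normalizer_iff.1 (HK h E S hs).2.2 x).1 hx)
    · change s * _ * s⁻¹ ∈ QQ E ⊔ zpowers (z, 1)
      rw [ζc h E S hs, mul_inv_cancel_right]; exact mem_sup_right (mem_zpowers _)
  · obtain ⟨i, hi, rfl⟩ := List.getElem_of_mem hw
    have h1 := jH _ (List.mem_map.2 ⟨i, List.mem_range.2 hi, rfl⟩)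
    obtain ⟨k1, k2, k3⟩ := (by decide +kernel : ∀ i < J4T.KH.length, TH.getD i 0 < 8192 ∧ qok (TH.getD i 0) = true ∧
      (subst subH (J4T.KH.getD i [])).all (fun l => decide (l < 2 * 19)) = true) i hi
    rw [wval_append, wval_invW, mul_inv_eq_one, qwJ _ k2] at h1
    rw [← wval_subst, ← List.getD_eq_getElem _ [] hi]
    exact md h E S (mem_sup_right (mem_zpowers _)) (Ymem k3) (Nmem E _ k1) ((Ysnd _).trans h1)
      (mem_sup_left ⟨_, k1, rfl⟩)
  · rw [← wval_subst]; exact hw _ (by revert w; decide)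
  · have hQ' : QQ E ≤ T := fun x hx => h1 ⟨QH hx, mem_sup_left hx⟩
    have hz' : (z, 1) ∈ T := h1 ⟨ζmem, mem_sup_right (mem_zpowers _)⟩
    refine sup_le (gp_le.2 fun w hw => ?_) (zpowers_le.2 hz')
    obtain ⟨i, hi, rfl⟩ := List.mem_map.1 hw
    replace hi := List.mem_range.1 hi
    rcases (by decide : ∀ i < 19, 6 ≤ i ∨ i = 3 ∨ ∃ w ∈ [[0], [2], [4], [6], [8]], subst subH w = [2 * i]) i hi with
      k | rfl | ⟨w, k1, k2⟩
    · obtain ⟨j, rfl⟩ := Nat.exists_eq_add_of_le k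
      rw [wval_single, YN (by omega)]
      exact hQ' ⟨_, Nat.pow_lt_pow_right (n := 13) one_lt_two (by omega), rfl⟩
    · exact md h E S hz' (Ymem (by decide)) (Nmem E 1093 (by decide)) ((Ysnd _).trans ((eqw _ (qw 1093)
        (by decide +kernel)).trans (qwJ _ (by decide +kernel)))) (hQ' ⟨_, by decide, rfl⟩)
    · rw [← k2, wval_subst]; exact h2 w k1

theorem ge693 {B : Subgroup (G × Spor.J4)} (hB : B ≤ BB z n f) : 693 ≤ B.relIndex (HH z n f) := by
  have h1 := J4F.idx h E S (B := B.map (MonoidHom.fst G Spor.J4)) (by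
    rintro _ ⟨b, hb, rfl⟩
    refine ⟨mem_centralizer_singleton_iff.2 (Hact h E S b (hB hb).1).1, ?_⟩
    exact ((mem_set_normalizer_iff.1 (hB hb).2 (N n 1)).1 (.inl rfl)).imp (congrArg Prod.fst) (congrArg Prod.fst))
  have h2 : centralizer {z} ≤ (HH z n f).map (MonoidHom.fst G Spor.J4) := J4F.gen h E S _
    (fun q hq => by obtain ⟨a, ha, rfl⟩ := E.surj q hq; exact ⟨_, Nmem E a ha, rfl⟩)
    fun i hi => ⟨Y n f i, wval_single (Y n f) i ▸ Ymem (by simpa using by omega), if_pos hi⟩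
  refine h1.trans ((relIndex_le_of_le_right h2 index_ne_zero_of_finite).trans ?_)
  rw [← relIndex_comap]
  exact relIndex_le_of_le_left (le_comap_map _ _) index_ne_zero_of_finite

theorem idxgen : (BB z n f).relIndex (HH z n f) = 693 ∧ ∀ K : Subgroup (G × Spor.J4), (z, 1) ∈ K →
    (∀ a < 8192, a &&& 2 = 0 → N n a ∈ K) → wval (Y n f) vW ∈ K → Y n f 5 ∈ K → φ n f ∈ K →
      ∀ k ∈ HH z n f, k * N n 1 = N n 1 * k → k ∈ K := by
  have zN : N n 4097 = N n 4096 * N n 1 := by rw [mulN E _ (by decide) _ (by decide)]; rfl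
  have mB : ∀ x ∈ HH z n f, x * N n 1 * x⁻¹ = N n 1 ∨ x * N n 1 * x⁻¹ = N n 4097 → x ∈ BB z n f := fun x hx e => by
    have c : x * N n 4096 * x⁻¹ = N n 4096 := mul_inv_eq_iff_eq_mul.2 (by
      rw [N12 E]; exact Prod.ext (Hact h E S x hx).1 (Hact h E S x hx).2.1)
    refine ⟨hx, mem_normalizer_fintype ?_⟩
    rintro _ (rfl | rfl)
    · exact e
    · rw [zN, ← conj_mul, c]
      refine (e.imp (fun e => ?_) fun e => ?_).symm <;> rw [e]
      · exact rfl
      · exact mulN E _ (by decide) _ (by decide)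
  have QB : QQ E ≤ BB z n f := by
    rintro _ ⟨a, ha, rfl⟩
    refine mB _ (Nmem E a ha) ?_
    have k := J4Q.allD (p := fun a => qm a 1 = qm 1 a ∨ qm a 1 = qm 4097 a) (by decide +kernel) a ha
    rw [mul_inv_eq_iff_eq_mul, mul_inv_eq_iff_eq_mul, mulN E _ ha _ (by decide), mulN E _ (by decide) _ ha,
      mulN E _ (by decide) _ ha]
    exact k.imp (congrArg _) (congrArg _)
  have cw : ∀ w, band (w.all fun l => decide (l < 2 * 19)) (relC [w ++ qw 1 ++ invW w ++ invW (qw 1)]) = true →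
      wval (Y n f) w ∈ HH z n f ⊓ centralizer {N n 1} := fun w k => by
    have := rel1 _ (band_eq k).2
    simp only [wval_append, wval_invW, mul_inv_eq_one, qwJ 1 (by decide +kernel)] at this
    rw [← Ysnd (n := n) (f := f) w] at this
    exact ⟨Ymem (band_eq k).1, mem_centralizer_singleton_iff.2 (mul_inv_eq_iff_eq_mul.1
      (cjN h E S (Ymem (band_eq k).1) (by decide) (by decide) this))⟩
  have KB : HH z n f ⊓ centralizer {N n 1} ≤ BB z n f := fun x hx =>
    mB x hx.1 (.inl (mul_inv_eq_iff_eq_mul.2 (mem_centralizer_singleton_iff.1 hx.2)))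
  have zK : (z, 1) ∈ HH z n f ⊓ centralizer {N n 1} :=
    ⟨ζmem, mem_centralizer_singleton_iff.2 (ζc h E S (Nmem E 1 (by decide))).symm⟩
  have i1 : (BB z n f).relIndex (HH z n f) = 693 := le_antisymm (le693 h E S (KB zK) QB fun w hw => KB (cw w
    (allL_all (by decide +kernel : allL (fun w => band (w.all fun l => decide (l < 2 * 19))
      (relC [w ++ qw 1 ++ invW w ++ invW (qw 1)])) [[10], [0, 8, 1], [1, 2, 1, 5]] = true) w hw))).2
    (ge693 h E S le_rfl)
  refine ⟨i1, fun K k1 k2 k3 k4 k5 k hk kw => ?_⟩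
  set K0 := K ⊓ (HH z n f ⊓ centralizer {N n 1})
  have nq : K0 ≤ normalizer (QQ E : Set (G × Spor.J4)) := fun x hx => (HK h E S hx.2.1).2.2
  have y5 : wval (Y n f) [10] ∈ K0 := ⟨(wval_single (Y n f) 5).symm ▸ k4, cw _ (by decide +kernel)⟩
  let y : ℕ → G × Spor.J4 := fun i => if i = 0 then wval (Y n f) vW else if i = 1 then wval (Y n f) [10] else φ n f
  have hy : ∀ i, y i ∈ K0 := fun i => by
    simp only [y]; split_ifs
    exacts [⟨k3, cw _ (by decide +kernel)⟩, y5, ⟨k5, pow_mem (cw _ (by decide +kernel)) _⟩]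
  have ex : ∀ (u p : List ℕ) a, wval L (u ++ invW (qw a ++ subst [vW, [10], [66]] p)) = 1 → a < 8192 ∧ qok a = true ∧
      u.all (fun l => decide (l < 2 * 19)) = true ∧ (∀ l ∈ p, l < 2 * 3) → wval (Y n f) u ∈ K0 ⊔ QQ E :=
    fun u p a r ⟨a1, a2, a3, a4⟩ => by
      have m : wval y p ∈ K0 := wval_mem fun l _ => hy _
      rw [wval_append, wval_invW, mul_inv_eq_one, wval_append, qwJ a a2, wval_subst] at r
      refine md h E S (mem_sup_left (show _ ∈ K0 from ⟨k1, zK⟩)) (Ymem a3) (mul_mem (Nmem E a a1) m.2.1) ?_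
        (mul_mem (mem_sup_right ⟨a, a1, rfl⟩) (mem_sup_left m))
      rw [Ysnd, r, Prod.snd_mul]
      refine congrArg _ ((map_wval (MonoidHom.snd G Spor.J4) y p).trans (wval_congr (n := 3) (fun i hi => ?_) a4)).symm
      interval_cases i
      exacts [Ysnd _, Ysnd _, φsnd.trans (wval_single L 33).symm]
  have hB : K0 ⊔ QQ E ≤ BB z n f := sup_le (fun x hx => KB hx.2) QB
  have i2 := le693 h E S (B := K0 ⊔ QQ E) (mem_sup_left (show _ ∈ K0 from ⟨k1, zK⟩)) le_sup_right (by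
    simp only [List.mem_cons, List.not_mem_nil, or_false, forall_eq_or_imp, forall_eq]
    exact ⟨mem_sup_left y5, ex _ _ _ (jE _ List.mem_cons_self) (by decide +kernel),
      ex _ _ _ (jE _ (List.mem_cons_of_mem _ List.mem_cons_self)) (by decide +kernel)⟩)
  have i3 := relIndex_mul_relIndex _ _ _ hB (inf_le_left : BB z n f ≤ HH z n f)
  rw [i1] at i3
  have kB := relIndex_eq_one.1 (show (K0 ⊔ QQ E).relIndex (BB z n f) = 1 by omega)
    (KB ⟨hk, mem_centralizer_singleton_iff.2 kw⟩)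
  rw [← SetLike.mem_coe, coe_mul_of_left_le_normalizer_right _ _ nq] at kB
  obtain ⟨x, hx, _, ⟨a, ha, rfl⟩, rfl⟩ := Set.mem_mul.1 kB
  refine mul_mem hx.1 (k2 a ha (J4Q.allD (p := fun a => qm a 1 = qm 1 a → a &&& 2 = 0) (by decide +kernel) a ha ?_))
  rw [mul_assoc, ← mul_assoc (N n 1), ← mem_centralizer_singleton_iff.1 hx.2.2, mul_assoc, mul_right_inj,
    mulN E _ ha _ (by decide), mulN E _ (by decide) _ ha] at kw
  exact injN E _ (qm_lt ha (by decide)) _ (qm_lt (by decide) ha) kw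

end Cfsg.Agent.Lib.J4Cc
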