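import Cfsg.Agent.Lib.J4C0

/-! Data for the pair group. -/

set_option autoImplicit false
set_option maxRecDepth 100000

namespace Cfsg.Agent.Lib.J4C

open Cfsg.Agent.Lib.PermNet Cfsg.Agent.Lib.Words Cfsg.Agent.Lib.J4L Cfsg.Agent.Lib.J4P

def vW : List ℕ := [12, 18, 24, 36, 10, 0, 8, 1, 1, 2, 1, 5, 0, 8, 1, 10, 0, 8, 1, 4, 0, 3, 0, 0, 8, 1, 10, 1, 2, 1, 5, 0, 8, 1, 1, 2, 1, 5, 0, 8, 1, 1, 2, 1, 5]

def mW : List ℕ := [22, 24, 26, 28, 32, 10, 0, 8, 1, 10, 0, 8, 1, 4, 0, 3, 0]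

def s2W : List ℕ := [16, 24, 32, 36, 10, 1, 2, 1, 5, 1, 2, 1, 5]

def subH : List (List ℕ) := [[0], [2], [4], [8], [10]]

def TH : List ℕ := [0, 0, 0, 0, 4421, 0, 4741, 0, 4736, 0, 4736, 0, 0, 0, 324, 1044, 0, 0, 3441, 0, 0, 0, 4741, 0, 0, 0, 0, 0, 0, 0, 1044, 3441, 0, 0, 4736, 324, 0, 0, 0, 324, 0, 0, 0, 0, 0, 0, 0, 0, 325, 325, 0, 960, 0, 0, 0, 0, 0, 0, 0, 0, 0, 0, 4096, 4096, 4096, 4096, 4096, 0, 0, 0, 0, 0, 325, 0, 0, 0, 0, 0, 0, 0, 0, 0, 4096, 4096, 4096, 4096, 4096, 4096, 4096, 4096, 4096, 4096, 4096, 645, 0, 0, 4096, 4096, 4096, 4096, 4096, 4096, 4096, 4096, 4096, 4096, 0, 0, 0, 2692, 0, 0, 0, 0, 0, 0, 0, 0, 0, 2709, 0, 0, 0, 0, 0, 0, 0, 0, 0, 0, 0]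

theorem jH : ∀ w ∈ (List.range J4T.KH.length).map (fun i => subst subH (J4T.KH.getD i []) ++ invW (qw (TH.getD i 0))),
    wval L w = 1 := rel _ (by decide +kernel)

theorem jE : ∀ w ∈ [[0, 8, 1] ++ invW (qw 7537 ++ subst [vW, [10], [66]] [0, 2, 4, 2, 0, 2, 4, 2, 4, 4]),
    [1, 2, 1, 5] ++ invW (qw 1757 ++ subst [vW, [10], [66]] [4, 2, 4, 2, 0, 2, 5, 5])], wval L w = 1 :=
  rel _ (by decide +kernel)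

end Cfsg.Agent.Lib.J4C
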