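import Cfsg.Agent.Lib.J4C1

/-! The swapping involution normalises the pair group of the common centraliser up to `ω`. -/

set_option autoImplicit false
set_option maxRecDepth 100000

namespace Cfsg.Agent.Lib.J4C

open Subgroup Cfsg.Agent.Lib.PermNet Cfsg.Agent.Lib.Words Cfsg.Agent.Lib.J4L Cfsg.Agent.Lib.J4Defs
  Cfsg.Agent.Lib.J4P Cfsg.Agent.Lib.DCE Cfsg.Agent.Lib.BT

variable {G : Type*} [Group G] {z t : G} {Q : Subgroup G} {n f : ℕ → G}

theorem l38 (u v : List ℕ) (h : relC [38 :: u ++ 38 :: invW v] = true) : L 19 * wval L u * L 19 = wval L v := by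
  have := rel1 _ h
  rwa [List.cons_append, wval_cons, wval_append, wval_cons, wval_invW, show lval L 38 = L 19 from rfl, ← mul_assoc,
    ← mul_assoc, mul_inv_eq_one] at this

theorem j38 (a b : ℕ) (h : band (band (qok a) (qok b)) (relC [38 :: qw a ++ 38 :: invW (qw b)]) = true) :
    L 19 * nJ a * L 19 = nJ b := by
  rw [← qwJ a (band_eq (band_eq h).1).1, ← qwJ b (band_eq (band_eq h).1).2]; exact l38 _ _ (band_eq h).2

def BL : List ℕ := [7113, 7649, 3861, 1620, 5072]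
def VL : List ℕ := [0, 1, 4096, 4097]

theorem cenE : ∀ e < 8192, e &&& 2730 = 0 → (∀ b ∈ BL, qm e b = qm b e) → e ∈ VL := J4Q.allD (by decide +kernel)

theorem cmul {X : Type*} [Group X] {t : X} (tt : t * t = 1) (x y : X) : t * (x * y) * t = t * x * t * (t * y * t) := by
  simp only [mul_assoc, c2 tt]

theorem cback {X : Type*} [Group X] {t x y : X} (tt : t * t = 1) (e : t * x * t = y) : t * y * t = x := by
  rw [← e]; simp only [mul_assoc, c2 tt, tt, mul_one]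

theorem Sw1.TT (W : Sw1 z n f t) : ((t, L 19) : G × Spor.J4) * (t, L 19) = 1 :=
  Prod.ext W.tt (by simpa using l38 [] [] (by decide +kernel))

theorem Sw1.Tζ (W : Sw1 z n f t) : ((t, L 19) : G × Spor.J4) * (z, 1) * (t, L 19) = (n 1, 1) :=
  Prod.ext W.tz (by simpa using l38 [] [] (by decide +kernel))

theorem Sw1.Tφ (W : Sw1 z n f t) : (t, L 19) * φ n f * (t, L 19) = φ n f :=
  Prod.ext W.tφ (by
    rw [Prod.snd_mul, Prod.snd_mul, φsnd, ← wval_single L 33]; exact l38 _ _ (by decide +kernel))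

/-- The conjugate of the pair group. -/
noncomputable def T0 (z : G) (n f : ℕ → G) (t : G) : Subgroup (G × Spor.J4) :=
  (HH z n f).comap (MulAut.conj ((t, L 19) : G × Spor.J4)).toMonoidHom

theorem Sw1.mem (W : Sw1 z n f t) {x : G × Spor.J4} : x ∈ T0 z n f t ↔ (t, L 19) * x * (t, L 19) ∈ HH z n f := by
  nth_rw 2 [← inv_eq_of_mul_eq_one_right W.TT]; rfl

variable [Finite G] (h : Hyp z Q) (E : Enc z Q n) (S : St z n f) (W : Sw1 z n f t)
include E W

omit [Finite G] in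
theorem tE : ∀ a < 8192, a &&& 2730 = 0 → ∃ b < 8192, b &&& 2730 = 0 ∧ (t, L 19) * N n a * (t, L 19) = N n b :=
  ind (mulN E) (zeroN E) (p := fun x => ∃ b < 8192, b &&& 2730 = 0 ∧ (t, L 19) * x * (t, L 19) = N n b)
    ⟨0, by decide, rfl, by rw [mul_one, W.TT, zeroN E]⟩
    (fun x y ⟨b, hb, b0, eb⟩ ⟨c, hc, c0, ec⟩ => ⟨_, qm_lt hb hc, e0 b0 c0, by
      rw [cmul W.TT, eb, ec, mulN E _ hb _ hc]⟩) (by decide) fun i hi h0 => by
    rcases (by decide : ∀ i < 13, 2 ^ i &&& 2730 = 0 → 2 ^ i = 1 ∨ 2 ^ i = 4096 ∨ 2 ^ i ∈ [4, 16, 64, 256, 1024])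
      i hi h0 with e | e | e
    · exact ⟨4096, by decide, rfl, e ▸ Prod.ext ((cback W.tt W.tz).trans E.z12.symm) (j38 _ _ (by decide +kernel))⟩
    · exact ⟨1, by decide, rfl, e ▸ Prod.ext ((congrArg (t * · * t) E.z12).trans W.tz) (j38 _ _ (by decide +kernel))⟩
    · exact ⟨_, Nat.pow_lt_pow_right (n := 13) one_lt_two hi, h0, Prod.ext (W.fx _ e) (j38 _ _ (allL_all (by
        decide +kernel : allL (fun a => band (band (qok a) (qok a)) (relC [38 :: qw a ++ 38 :: invW (qw a)]))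
          [4, 16, 64, 256, 1024] = true) _ e))⟩

include h S

theorem G1 {k k2 : G × Spor.J4} (hk : k ∈ HH z n f) (kw : k * N n 1 = N n 1 * k) (h2 : k2 ∈ HH z n f)
    (e : L 19 * k.2 * L 19 = k2.2) :
    ∃ e < 8192, e &&& 2730 = 0 ∧ (t, L 19) * k * (t, L 19) = (n e, 1) * k2 := by
  have ti := inv_eq_of_mul_eq_one_right W.tt
  have tw := cback W.tt W.tz
  have EE := J4F.EE h E S (g := t) (ti.symm ▸ W.tz) (ti.symm ▸ tw)
  rw [ti] at EE
  have kz : t * k.1 * t ∈ centralizer {z} := mem_centralizer_singleton_iff.2 (by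
    rw [← tw, ← cmul W.tt, ← cmul W.tt, show k.1 * n 1 = n 1 * k.1 from congrArg Prod.fst kw])
  have d2 : ((t, L 19) * k * (t, L 19) * k2⁻¹).2 = 1 := mul_inv_eq_one.2 e
  obtain ⟨a, ha, a0, ea⟩ := J4F.cE h E S (c := ((t, L 19) * k * (t, L 19) * k2⁻¹).1)
    (mul_mem kz (inv_mem (mem_centralizer_singleton_iff.2 (Hact h E S _ h2).1))) fun b hb => by
      obtain ⟨b1, b0⟩ := (by decide : ∀ b ∈ [1, 4, 16, 64, 256, 1024], b < 8192 ∧ b &&& 2730 = 0) b hb
      obtain ⟨a1, l1, z1, e1⟩ := tE E W b b1 b0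
      obtain ⟨a2, l2, e2⟩ := (Hact h E S _ (inv_mem hk)).2.2 a1 l1
      obtain ⟨a3, l3, -, e3⟩ := tE E W a2 l2 ((EE a2 l2).1 (by
        have := h.nor _ (inv_mem kz) _ ((EE a1 l1).2 z1)
        rw [show n a2 = k.1⁻¹ * n a1 * k.1⁻¹⁻¹ from (congrArg Prod.fst e2).symm]
        simpa only [mul_inv_rev, ti, inv_inv, mul_assoc, c2 W.tt] using this))
      obtain ⟨a4, l4, e4⟩ := (Hact h E S _ h2).2.2 a3 l3
      have e5 : ((t, L 19) * k * (t, L 19) * k2⁻¹)⁻¹ * N n b * ((t, L 19) * k * (t, L 19) * k2⁻¹) = N n a4 := by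
        rw [← e4, ← e3, ← e2, ← e1]
        simp only [mul_inv_rev, inv_eq_of_mul_eq_one_right W.TT, inv_inv, mul_assoc]
      have := congrArg Prod.snd e5
      rw [Prod.snd_mul, Prod.snd_mul, Prod.snd_inv, d2, inv_one, one_mul, mul_one] at this
      rw [← injJ _ b1 _ l4 this, mul_assoc, inv_mul_eq_iff_eq_mul] at e5
      exact (congrArg Prod.fst e5).symm
  exact ⟨a, ha, a0, mul_inv_eq_iff_eq_mul.1 (Prod.ext ea d2)⟩

omit W in
theorem exists_t2 [IsSimpleGroup G] : ∃ t, Sw1 z n f t ∧ N n 8 ∈ T0 z n f t := by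
  obtain ⟨t, W⟩ := exists_t1 h E S
  have vH : wval (Y n f) vW ∈ HH z n f := Ymem (by decide)
  have ml : ∀ a b c, a < 8192 ∧ b < 8192 ∧ qm a b = c → n a * n b = n c := fun a b c k =>
    k.2.2 ▸ E.mul a k.1 b k.2.1
  obtain ⟨e, he, h0, ee⟩ := G1 h E S W (Nmem E 8 (by decide))
    (by rw [mulN E _ (by decide) _ (by decide), mulN E _ (by decide) _ (by decide)]; rfl) vH
    (by rw [Ysnd]; change _ * nJ 8 * _ = _; rw [← qwJ 8 (by decide +kernel)]; exact l38 _ _ (by decide +kernel))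
  have av := actN h E S vH vW Tv (Ysnd _) (by decide +kernel) e he
  have vf := eq5 h E S (mul_mem (mul_mem vH φmem) (inv_mem vH)) φmem (by
    rw [Prod.snd_mul, Prod.snd_mul, Prod.snd_inv, Ysnd, φsnd, ← wval_single L 33, ← wval_invW, ← wval_append,
      ← wval_append]
    exact eqw _ _ (by decide +kernel)) (by rw [conj_pow, φ5 h E S]; simp) (φ5 h E S)
  have vv := kerH h E S (mul_mem vH vH) (by rw [← wval_append, Ysnd]; exact rel1 _ (by decide +kernel))
  generalize wval (Y n f) vW = v at vH ee av vf vv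
  have fT : φ n f * (t, L 19) * (φ n f)⁻¹ = (t, L 19) := by
    rw [mul_inv_eq_iff_eq_mul]; nth_rw 2 [← W.Tφ]; rw [mul_assoc, c2 W.TT]
  have ef : lin Tf e = e := E.inj _ (aφ h E S e he).1 _ he (by
    have := congrArg (fun x => φ n f * x * (φ n f)⁻¹) ee
    simp only [← conj_mul] at this
    rw [fT, (aφ h E S 8 (by decide)).2, show lin Tf 8 = 8 by decide +kernel, ee,
      mul_inv_eq_iff_eq_mul.2 (mul_inv_eq_iff_eq_mul.1 vf).symm, mul_left_inj] at this
    rw [← aφ1 h E S he]; exact (congrArg Prod.fst this).symm)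
  have sq : n (qm e (lin Tv e)) * (v * v).1 = 1 := by
    have : ((n e, 1) * v * ((n e, 1) * v)).1 = 1 := by
      rw [← ee, ← cmul W.TT, mulN E _ (by decide) _ (by decide), show qm 8 8 = 0 by decide +kernel, zeroN E,
        mul_one, W.TT]; rfl
    rw [← E.mul _ he _ av.1, ← this, show n (lin Tv e) = v.1 * n e * v.1⁻¹ from (congrArg Prod.fst av.2).symm]
    simp [mul_assoc]
  have ez : ∀ c ∈ [0, 4096], ((n c, 1) : G × Spor.J4) ∈ HH z n f := by
    simp only [List.mem_cons, List.not_mem_nil, or_false, forall_eq_or_imp, forall_eq, E.zero, E.z12]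
    exact ⟨one_mem _, ζmem⟩
  have lt := qm_lt he av.1
  rcases (by decide +kernel : ∀ e ∈ [0, 1, 4, 5, 4096, 4097, 4100, 4101], qm e (lin Tv e) = 0 ∨
      qm (qm e (lin Tv e)) 4096 = 0 → e ∈ [0, 4096] ∨ qm 1 e ∈ [0, 4096]) e (fixE e he h0 ef)
    (vv.imp (fun k => E.inj _ lt _ (by decide) (by rwa [k, Prod.fst_one, mul_one, ← E.zero] at sq))
      fun k => E.inj _ (qm_lt lt (by decide)) _ (by decide) (by
        rwa [k, ← E.z12, E.mul _ lt _ (by decide), ← E.zero] at sq)) with k | k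
  · exact ⟨t, W, W.mem.2 (ee ▸ mul_mem (ez e k) vH)⟩
  have tu : n 4 * t = t * n 4 := by rw [← W.fx 4 (by decide), mul_assoc, W.tt, mul_one, W.fx 4 (by decide)]
  have cu : ∀ x, t * n 4 * x * (t * n 4) = t * (n 4 * x * n 4) * t := fun x => by
    nth_rw 2 [← tu]; simp only [mul_assoc]
  have u3 : ∀ a b, a < 8192 ∧ qm 4 a < 8192 ∧ qm (qm 4 a) 4 = b → n 4 * n a * n 4 = n b := fun a b k => by
    rw [E.mul _ (by decide) _ k.1, E.mul _ k.2.1 _ (by decide), k.2.2]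
  have uu : n 4 * n 4 = 1 := (ml _ _ 0 (by decide +kernel)).trans E.zero
  have W' : Sw1 z n f (t * n 4) := ⟨by simpa [uu, W.tt] using cu 1,
    by rw [cu, ← E.z12, u3 _ 4096 (by decide +kernel), E.z12, W.tz], fun a ha => by
      rw [cu, u3 a a ((by decide +kernel : ∀ a ∈ [4, 16, 64, 256, 1024], a < 8192 ∧ qm 4 a < 8192 ∧
        qm (qm 4 a) 4 = a) a ha), W.fx a ha], by
      have := aφ1 h E S (a := 4) (by decide)
      rw [show lin Tf 4 = 4 by decide +kernel, mul_inv_eq_iff_eq_mul] at this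
      rw [cu, ← this, mul_assoc _ (n 4), uu, mul_one, W.tφ]⟩
  refine ⟨_, W', W'.mem.2 ?_⟩
  have : ((t * n 4, L 19) : G × Spor.J4) * N n 8 * (t * n 4, L 19) = (n (qm 1 e), 1) * v := Prod.ext (by
    change t * n 4 * n 8 * (t * n 4) = n (qm 1 e) * v.1
    rw [cu, u3 8 4104 (by decide +kernel), ← ml 4096 8 4104 (by decide +kernel), cmul W.tt, E.z12, W.tz,
      show t * n 8 * t = n e * v.1 from congrArg Prod.fst ee, ← mul_assoc, E.mul _ (by decide) _ he])
    (by have := congrArg Prod.snd ee; exact this)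
  exact this ▸ mul_mem (ez _ k) vH

theorem ζnot : (z, 1) ∉ T0 z n f t := fun e => ωnot h E S (W.Tζ ▸ W.mem.1 e)

theorem K1 : ∃ e < 8192, e &&& 2730 = 0 ∧ (Y n f 5 ∈ T0 z n f t ∨ Y n f 5 * (z, 1) ∈ T0 z n f t ∨ e ∉ [0, 1, 4096, 4097]) ∧
    ∀ a < 8192, N n a ∈ T0 z n f t → (N n (lin Ts a) ∈ T0 z n f t ∧ qm e (lin Ts a) = qm (lin Ts a) e) ∨
      N n (lin Ts a) * (z, 1) ∈ T0 z n f t := by
  have sH : Y n f 5 ∈ HH z n f := wval_single (Y n f) 5 ▸ Ymem (by decide)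
  have s2H : wval (Y n f) s2W ∈ HH z n f := Ymem (by decide)
  have as := actN h E S sH [10] Ts (wval_single L 5).symm (by decide +kernel)
  obtain ⟨e, he, h0, ee⟩ := G1 h E S W sH (mul_inv_eq_iff_eq_mul.1 (as 1 (by decide)).2) s2H
    (by rw [Ysnd]; change _ * L 5 * _ = _; rw [← wval_single L 5]; exact l38 _ _ (by decide +kernel))
  obtain ⟨e', he', h0', ee'⟩ := tE E W e he h0
  replace ee' : t * n e * t = n e' := congrArg Prod.fst ee'
  generalize wval (Y n f) s2W = s2 at s2H ee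
  refine ⟨e', he', h0', ?_, fun a ha hT => ?_⟩
  · have k : (t, L 19) * (Y n f 5 * (z, 1)) * (t, L 19) = (n 1 * n e, 1) * s2 := by
      rw [ζc h E S sH, cmul W.TT, W.Tζ, ee, ← mul_assoc]; simp
    have ww : n 1 * n 1 = 1 := by rw [E.mul _ (by decide) _ (by decide), ← E.zero]; rfl
    rw [W.mem, W.mem, k, ee, ← cback W.tt ee']
    by_cases hm : e' ∈ [0, 1, 4096, 4097]
    · simp only [List.mem_cons, List.not_mem_nil, or_false] at hm
      rcases hm with rfl | rfl | rfl | rfl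
      · exact .inl (by rw [E.zero, mul_one, W.tt]; exact mul_mem (one_mem _) s2H)
      · exact .inl (by rw [cback W.tt W.tz]; exact mul_mem ζmem s2H)
      · exact .inr (.inl (by rw [E.z12, W.tz, ww]; exact mul_mem (one_mem _) s2H))
      · refine .inr (.inl ?_)
        rw [show n 4097 = z * n 1 by rw [← E.z12, E.mul _ (by decide) _ (by decide)]; rfl, cmul W.tt, W.tz,
          cback W.tt W.tz, c2 ww]
        exact mul_mem ζmem s2H
    · exact .inr (.inr hm)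
  · obtain ⟨l, ea⟩ := as a ha
    have y : ((n e', 1) : G × Spor.J4)⁻¹ * N n (lin Ts a) * (n e', 1) ∈ T0 z n f t := by
      have e1 : ((n e', 1) : G × Spor.J4) = (t, L 19) * (n e, 1) * (t, L 19) :=
        Prod.ext ee'.symm (by simpa using (congrArg Prod.snd W.TT).symm)
      have := mul_mem (mul_mem s2H (W.mem.1 hT)) (inv_mem s2H)
      rw [← inv_mul_eq_iff_eq_mul.2 ee] at this
      rw [W.mem, e1, ← ea]
      simpa only [mul_inv_rev, inv_eq_of_mul_eq_one_right W.TT, inv_inv, mul_assoc, c2 W.TT, W.TT, mul_one] using this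
    rcases h.com _ (E.mem _ l) _ (E.mem _ he') with c | c
    · refine .inl ⟨?_, E.inj _ (qm_lt he' l) _ (qm_lt l he') (by rw [← E.mul _ he' _ l, ← E.mul _ l _ he', c])⟩
      rwa [mul_assoc, show N n (lin Ts a) * (n e', 1) = (n e', 1) * N n (lin Ts a) from Prod.ext c (by simp),
        inv_mul_cancel_left] at y
    · refine .inr ?_
      rwa [mul_assoc, show N n (lin Ts a) * (n e', 1) = (n e', 1) * (N n (lin Ts a) * (z, 1)) from Prod.ext (c.trans (by
        change _ = n e' * (n (lin Ts a) * z)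
        rw [J4Q.nz h E l, ← mul_assoc, ← J4Q.nz h E he', mul_assoc])) (by simp), inv_mul_cancel_left] at y

theorem tCs (h8 : N n 8 ∈ T0 z n f t) : (∀ a < 8192, a &&& 2 = 0 → N n a ∈ T0 z n f t) ∧
    (Y n f 5 ∈ T0 z n f t ∨ Y n f 5 * (z, 1) ∈ T0 z n f t) := by
  obtain ⟨e, he, h0, hs, k⟩ := K1 h E S W
  have fT : φ n f ∈ T0 z n f t := W.mem.2 (W.Tφ.symm ▸ φmem)
  have hE : ∀ a < 8192, a &&& 2730 = 0 → N n a ∈ T0 z n f t := fun a ha a0 => by
    obtain ⟨b, hb, -, eb⟩ := tE E W a ha a0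
    exact W.mem.2 (eb ▸ Nmem E b hb)
  have ml : ∀ a b c, a < 8192 ∧ b < 8192 ∧ qm a b = c → N n a * N n b = N n c := fun a b c k =>
    k.2.2 ▸ mulN E a k.1 b k.2.1
  have st : ∀ (y : G × Spor.J4) a b, φ n f * y * (φ n f)⁻¹ = y → N n a * y ∈ T0 z n f t → a < 8192 ∧ lin Tf a = b →
      N n b * y ∈ T0 z n f t := fun y a b e m k => by
    rw [← k.2, ← (aφ h E S a k.1).2, ← e, conj_mul]; exact mul_mem (mul_mem fT m) (inv_mem fT)
  have b0 : N n 7113 ∈ T0 z n f t := by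
    refine ((k 8 (by decide) h8).resolve_right fun b0 => ζnot h E S W ?_).1
    have fz := mul_inv_eq_iff_eq_mul.2 (ζc h E S (φmem (z := z) (n := n) (f := f)))
    have b1 := st _ 7113 6697 fz b0 (by decide +kernel)
    have b2 := st _ _ 7609 fz b1 (by decide +kernel)
    have b3 := st _ _ 1705 fz b2 (by decide +kernel)
    have b4 := st _ _ 6905 fz b3 (by decide +kernel)
    have pr : ∀ a b c, N n a * (z, 1) ∈ T0 z n f t → N n b * (z, 1) ∈ T0 z n f t → a < 8192 ∧ b < 8192 ∧ qm a b = c →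
        N n c ∈ T0 z n f t := fun a b c x y k => by
      have := mul_mem x y
      rwa [ζc h E S (Nmem E b k.2.1), mul_assoc, c2 (ζζ h), ml _ _ _ k] at this
    have := mul_mem (mul_mem (pr 7113 _ 480 b0 b1 (by decide +kernel)) (pr _ _ 2832 b2 b3 (by decide +kernel))) b4
    rw [ml _ _ 6896 (by decide +kernel), ← mul_assoc, ml _ _ 9 (by decide +kernel),
      ← ml 1 8 9 (by decide +kernel)] at this
    exact (mul_mem_cancel_left (mul_mem (hE 1 (by decide) rfl) h8)).1 this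
  have f1 : φ n f * 1 * (φ n f)⁻¹ = 1 := by simp
  have b1 := st _ 7113 6697 f1 (by rwa [mul_one]) (by decide +kernel)
  have b2 := st _ _ 7609 f1 b1 (by decide +kernel)
  have b3 := st _ _ 1705 f1 b2 (by decide +kernel)
  rw [mul_one] at b1 b2 b3
  have pr : ∀ c x y u r, N n x ∈ T0 z n f t → N n y ∈ T0 z n f t → N n u ∈ T0 z n f t →
      c < 8192 ∧ c &&& 2730 = 0 ∧ x < 8192 ∧ y < 8192 ∧ u < 8192 ∧ qm c (qm 8 (qm x (qm y u))) = r →
      N n r ∈ T0 z n f t := fun c x y u r hx hy hu ⟨k1, k2, k3, k4, k5, k6⟩ => by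
    have := mul_mem (hE c k1 k2) (mul_mem h8 (mul_mem hx (mul_mem hy hu)))
    have l1 := qm_lt k4 k5
    have l2 := qm_lt k3 l1
    rwa [mulN E _ k4 _ k5, mulN E _ k3 _ l1, mulN E _ (by decide) _ l2, mulN E _ k1 _ (qm_lt (by decide) l2), k6] at this
  have hC := ind (mulN E) (zeroN E) (p := (· ∈ T0 z n f t)) (one_mem _) (fun _ _ => mul_mem) (m := 2) (by decide)
    fun i hi i0 => by
      rcases (by decide : ∀ i < 13, 2 ^ i &&& 2 = 0 → 2 ^ i &&& 2730 = 0 ∨ 2 ^ i = 8 ∨ 2 ^ i = 32 ∨ 2 ^ i = 128 ∨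
        2 ^ i = 512 ∨ 2 ^ i = 2048) i hi i0 with e | e | e | e | e | e
      · exact hE _ (Nat.pow_lt_pow_right (n := 13) one_lt_two hi) e
      all_goals rw [e]
      exacts [h8, pr 4369 _ _ _ _ b1 b2 b3 (by decide +kernel), pr 81 _ _ _ _ b0 b2 b3 (by decide +kernel),
        pr 1345 _ _ _ _ b0 b1 b3 (by decide +kernel), pr 1105 _ _ _ _ b0 b1 b2 (by decide +kernel)]
  refine ⟨hC, hs.imp_right fun hs => hs.resolve_right fun hn => hn ?_⟩
  refine cenE e he h0 fun b hb => ?_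
  obtain ⟨a, ha, rfl⟩ := (by decide +kernel : ∀ b ∈ BL, ∃ a ∈ [8, 32, 128, 512, 2048],
    lin Ts a = b) b hb
  obtain ⟨l1, l2, l3, l4⟩ := (by decide +kernel : ∀ a ∈ [8, 32, 128, 512, 2048], a < 8192 ∧ a &&& 2 = 0 ∧
    lin Ts a < 8192 ∧ lin Ts a &&& 2 = 0) a ha
  exact ((k a l1 (hC a l1 l2)).resolve_right fun m => ζnot h E S W ((mul_mem_cancel_left (hC _ l3 l4)).1 m)).2

omit W in
theorem sw0 [IsSimpleGroup G] (idx : (BB z n f).relIndex (HH z n f) = 693)
    (gen : ∀ K : Subgroup (G × Spor.J4), (z, 1) ∈ K → (∀ a < 8192, a &&& 2 = 0 → N n a ∈ K) →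
      wval (Y n f) vW ∈ K → Y n f 5 ∈ K → φ n f ∈ K → ∀ k ∈ HH z n f, k * N n 1 = N n 1 * k → k ∈ K) :
    ∃ T, SW z n f T := by
  obtain ⟨t, W, h8⟩ := exists_t2 h E S
  obtain ⟨hC, hs⟩ := tCs h E S W h8
  have gen' : ∀ K : Subgroup (G × Spor.J4), (z, 1) ∈ K → (∀ a < 8192, a &&& 2 = 0 → N n a ∈ K) →
      (t, L 19) * N n 8 * (t, L 19) ∈ K → Y n f 5 ∈ K → φ n f ∈ K → ∀ k ∈ HH z n f, k * N n 1 = N n 1 * k → k ∈ K :=
    fun K a b c => gen K a b (by
      rcases mdH h E S (Ymem (w := vW) (by decide)) (W.mem.1 h8) (by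
        rw [Ysnd]; change _ = _ * nJ 8 * _; rw [← qwJ 8 (by decide +kernel)]
        exact (l38 _ _ (by decide +kernel)).symm) with e | e <;> rw [e]
      exacts [c, mul_mem a c])
  refine ⟨(t, L 19), rfl, W.TT, W.Tζ, W.Tφ, fun a ha a0 => W.mem.1 (hC a ha a0), fun k hk kw => ?_, gen', idx⟩
  let K : Subgroup (G × Spor.J4) :=
    { carrier := {x | x ∈ HH z n f ∧ (x ∈ T0 z n f t ∨ x * (z, 1) ∈ T0 z n f t)}
      one_mem' := ⟨one_mem _, .inl (one_mem _)⟩
      mul_mem' := fun {x y} hx hy => ⟨mul_mem hx.1 hy.1, by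
        rcases hx.2 with a | a <;> rcases hy.2 with b | b <;> have := mul_mem a b
        · exact .inl this
        · exact .inr (by rwa [mul_assoc])
        · exact .inr (by rwa [mul_assoc, ζc h E S hy.1, ← mul_assoc])
        · exact .inl (by rwa [ζc h E S hy.1, mul_assoc, c2 (ζζ h)] at this)⟩
      inv_mem' := fun {x} hx => ⟨inv_mem hx.1, hx.2.imp inv_mem fun a => by
        rw [ζc h E S (inv_mem hx.1), ← inv_eq_of_mul_eq_one_right (ζζ h), ← mul_inv_rev]; exact inv_mem a⟩ }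
  have := gen' K ⟨ζmem, .inr (by rw [ζζ h]; exact one_mem _)⟩ (fun a ha a0 => ⟨Nmem E a ha, .inl (hC a ha a0)⟩)
    ⟨W.mem.1 h8, .inl (W.mem.2 (cback W.TT rfl ▸ Nmem E 8 (by decide)))⟩
    ⟨wval_single (Y n f) 5 ▸ Ymem (by decide), hs⟩ ⟨φmem, .inl (W.mem.2 (W.Tφ.symm ▸ φmem))⟩ k hk kw
  exact this.2.imp W.mem.1 fun a => by have := W.mem.1 a; rwa [cmul W.TT, W.Tζ] at this

end Cfsg.Agent.Lib.J4C
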