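import Mathlib

/-! Signs on subgroups and the transfer of a central involution. -/

set_option autoImplicit false

namespace Cfsg.Agent.Lib.J4C2a

open Subgroup

variable {Γ : Type*} [Group Γ] {P R : Subgroup Γ} {V W : Γ → ℤˣ} {a b : Γ}

/-- `V` is a sign on `P`. -/
def Ch (P : Subgroup Γ) (V : Γ → ℤˣ) : Prop := ∀ a ∈ P, ∀ b ∈ P, V (a * b) = V a * V b

theorem Ch.one (h : Ch P V) : V 1 = 1 := by simpa using h 1 P.one_mem 1 P.one_mem

theorem Ch.inv (h : Ch P V) (ha : a ∈ P) : V a⁻¹ = V a := by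
  have := h a ha _ (P.inv_mem ha)
  rw [mul_inv_cancel, h.one] at this
  rcases Int.units_eq_one_or (V a) with e | e <;> rcases Int.units_eq_one_or (V a⁻¹) with e' | e' <;>
    simp_all

theorem Ch.conj (h : Ch P V) (ha : a ∈ P) (hb : b ∈ P) : V (a * b * a⁻¹) = V b := by
  rw [h _ (P.mul_mem ha hb) _ (P.inv_mem ha), h a ha b hb, h.inv ha, mul_right_comm, Int.units_mul_self, one_mul]

theorem Ch.pow (h : Ch P V) (ha : a ∈ P) (k : ℕ) : V (a ^ k) = V a ^ k := by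
  induction k with
  | zero => simpa using h.one
  | succ k ih => rw [pow_succ, h _ (P.pow_mem ha k) a ha, ih, pow_succ]

theorem Ch.odd (h : Ch P V) (ha : a ∈ P) (e : a ^ 5 = 1) : V a = 1 := by
  have := h.pow ha 5
  rw [e, h.one] at this
  rcases Int.units_eq_one_or (V a) with e | e
  · exact e
  · rw [e] at this; exact absurd this (by decide)

theorem Ch.mono (h : Ch P V) (hR : R ≤ P) : Ch R V := fun a ha b hb => h a (hR ha) b (hR hb)

theorem Ch.mul (h : Ch P V) (h' : Ch P W) : Ch P fun x => V x * W x := fun a ha b hb => by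
  simp only [h a ha b hb, h' a ha b hb]
  exact mul_mul_mul_comm _ _ _ _

/-- The kernel of a sign. -/
def Ch.ker (h : Ch P V) : Subgroup Γ where
  carrier := {x | x ∈ P ∧ V x = 1}
  mul_mem' := fun {a b} ha hb => ⟨P.mul_mem ha.1 hb.1, by rw [h a ha.1 b hb.1, ha.2, hb.2, one_mul]⟩
  one_mem' := ⟨P.one_mem, h.one⟩
  inv_mem' := fun {a} ha => ⟨P.inv_mem ha.1, (h.inv ha.1).trans ha.2⟩

theorem Ch.mem_ker (h : Ch P V) : a ∈ h.ker ↔ a ∈ P ∧ V a = 1 := Iff.rfl

open Classical in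
/-- The sign of a subgroup. -/
noncomputable def sg (D : Subgroup Γ) (x : Γ) : ℤˣ := if x ∈ D then 1 else -1

theorem sg_eq {D : Subgroup Γ} : sg D a = 1 ↔ a ∈ D := by
  unfold sg
  split_ifs with h <;> simp [h]

theorem sg_not {D : Subgroup Γ} (h : a ∉ D) : sg D a = -1 := if_neg h

theorem ch_sg {D : Subgroup Γ} (h : ∀ a ∈ P, ∀ b ∈ P, a ∉ D → b ∉ D → a * b ∈ D) : Ch P (sg D) := by
  intro a ha b hb
  by_cases h1 : a ∈ D <;> by_cases h2 : b ∈ D
  · rw [sg_eq.2 h1, sg_eq.2 h2, sg_eq.2 (D.mul_mem h1 h2), one_mul]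
  · rw [sg_eq.2 h1, sg_not h2, sg_not fun e => h2 ((D.mul_mem_cancel_left h1).1 e), one_mul]
  · rw [sg_eq.2 h2, sg_not h1, sg_not fun e => h1 ((D.mul_mem_cancel_right h2).1 e), mul_one]
  · rw [sg_not h1, sg_not h2, sg_eq.2 (h a ha b hb h1 h2)]; simp

/-- Transfer of a sign from a subgroup of odd index. -/
theorem trans {H B N : Subgroup Γ} {ζ : Γ} {χ : Γ → ℤˣ} (odd : Odd (B.relIndex H))
    (hχ : Ch B χ) (hζ : ζ ∈ H) (zz : ζ * ζ = 1) (zc : ∀ x ∈ H, x * ζ = ζ * x) (χζ : χ ζ = -1) (hN : N ≤ H)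
    (nN : ∀ x ∈ H, ∀ q ∈ N, x * q * x⁻¹ ∈ N) (χN : ∀ q ∈ N, χ q = 1) :
    ∃ V : Γ → ℤˣ, Ch H V ∧ V ζ = -1 ∧ ∀ q ∈ N, V q = 1 := by
  classical
  have : (B.subgroupOf H).FiniteIndex := ⟨fun e => by
    rw [relIndex, e] at odd; exact absurd odd (by decide)⟩
  let ϕ : B.subgroupOf H →* ℤˣ := MonoidHom.mk' (fun x => χ x.1.1) fun a b => hχ _ a.2 _ b.2
  refine ⟨fun x => if h : x ∈ H then MonoidHom.transfer ϕ ⟨x, h⟩ else 1, fun a ha b hb => ?_, ?_, fun q hq => ?_⟩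
  · simp only [dif_pos ha, dif_pos hb, dif_pos (H.mul_mem ha hb), ← map_mul]; rfl
  · simp only [dif_pos hζ]
    rw [MonoidHom.transfer_eq_pow ϕ _ fun k g _ => Subtype.ext (by
      have : Commute (g : Γ) ζ := zc g g.2
      simp [mul_assoc, ← (this.pow_right k).eq])]
    change χ (ζ ^ _) = _
    obtain ⟨k, hk⟩ := odd
    rw [show (B.subgroupOf H).index = 2 * k + 1 from hk, pow_succ, pow_mul, sq, zz, one_pow, one_mul, χζ]
  · simp only [dif_pos (hN hq)]
    have := (B.subgroupOf H).finite_quotient_of_finiteIndex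
    have : Fintype (Quotient (MulAction.orbitRel (zpowers (⟨q, hN hq⟩ : H)) (H ⧸ B.subgroupOf H))) :=
      Fintype.ofFinite _
    rw [MonoidHom.transfer_eq_prod_quotient_orbitRel_zpowers_quot]
    refine Finset.prod_eq_one fun x _ => χN _ ?_
    simpa using nN _ (H.inv_mem x.out.out.2) _ (N.pow_mem hq _)

/-- A subgroup of odd index is not contained in the kernel of a non-trivial sign. -/
theorem Ch.triv {H B : Subgroup Γ} (h : Ch H V) (odd : Odd (B.relIndex H)) (hB : ∀ b ∈ B, b ∈ H → V b = 1)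
    (ha : a ∈ H) : V a = 1 := by
  let ϕ : H →* ℤˣ := MonoidHom.mk' (fun x => V x.1) fun a b => h _ a.2 _ b.2
  have h1 : ϕ.ker.index ∣ (B.subgroupOf H).index := index_dvd_of_le fun b hb => hB _ hb b.2
  have h2 : ϕ.ker.index ∣ 2 := by
    rw [index_ker]
    exact (card_subgroup_dvd_card _).trans (by simp)
  have h3 : ϕ.ker.index = 1 := by
    rcases (Nat.dvd_prime Nat.prime_two).1 h2 with e | e
    · exact e
    · exact absurd (even_iff_two_dvd.2 (e ▸ h1)) (Nat.not_even_iff_odd.2 odd)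
  exact (index_eq_one.1 h3).ge (mem_top (⟨a, ha⟩ : H))

end Cfsg.Agent.Lib.J4C2a
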