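import Cfsg.Agent.Lib.J4E
import Cfsg.Agent.Lib.J4F
import Cfsg.Agent.Lib.J4A

/-! A copy of the fourth Janko group through the standard generators of the involution centraliser is
the whole group. -/

set_option autoImplicit false
set_option maxRecDepth 100000

namespace Cfsg.Agent.Lib.J4Fin

open Subgroup Cfsg.Agent.Lib.PermNet Cfsg.Agent.Lib.Words Cfsg.Agent.Lib.J4Defs Cfsg.Agent.Lib.J4L

variable {G : Type*} [Group G] {z : G} {Q : Subgroup G} {n f : ℕ → G}

theorem lin_mem (E : Enc z Q n) (K : Subgroup G) (hz : z ∈ K) {l : List ℕ}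
    (hl : ∀ a ∈ l, a < 8192 ∧ n a ∈ K) (m : ℕ) : n (lin l m) ∈ K := by
  induction l generalizing m with
  | nil =>
    change n (4096 * (m % 2)) ∈ K
    rcases Nat.mod_two_eq_zero_or_one m with h | h <;> rw [h]
    · rw [mul_zero, E.zero]; exact one_mem _
    · rw [mul_one, E.z12]; exact hz
  | cons a l ih =>
    have h1 := ih (fun b hb => hl b (List.mem_cons_of_mem _ hb)) (m / 2)
    rw [lin_cons]
    split_ifs
    · rw [← E.mul a (hl a List.mem_cons_self).1 _
        (lin_lt (fun b hb => (hl b (List.mem_cons_of_mem _ hb)).1) _)]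
      exact mul_mem (hl a List.mem_cons_self).2 h1
    · exact h1

theorem Q_le (E : Enc z Q n) (K : Subgroup G) (hz : z ∈ K) (hn : ∀ i < 12, n (2 ^ i) ∈ K) : Q ≤ K := by
  intro q hq
  obtain ⟨a, ha, rfl⟩ := E.surj q hq
  rw [← lin_L0 a ha]
  refine lin_mem E K hz (fun b hb => ?_) a
  obtain ⟨i, hi, rfl⟩ := (by decide : ∀ b ∈ L0, ∃ i < 12, b = 2 ^ i) b hb
  exact ⟨(Nat.pow_lt_pow_right (by decide) (by omega : i < 13) : 2 ^ i < 2 ^ 13), hn i hi⟩

theorem rep_eq (E : Enc z Q n) (y : ℕ → G) (hf : ∀ i < 6, y i = f i) (hn : ∀ i < 12, y (6 + i) = n (2 ^ i))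
    (hz : y 18 = z) : ∀ r ∈ J4F.reps, ∃ u ∈ J4E.repW, wval y u = n r.1 * wval f r.2 := by
  have f0 : y 0 = f 0 := hf 0 (by decide)
  have f1 : y 1 = f 1 := hf 1 (by decide)
  have f2 : y 2 = f 2 := hf 2 (by decide)
  have f4 : y 4 = f 4 := hf 4 (by decide)
  have n0 : y 6 = n 1 := hn 0 (by decide)
  have n1 : y 7 = n 2 := hn 1 (by decide)
  have n2 : y 8 = n 4 := hn 2 (by decide)
  have n3 : y 9 = n 8 := hn 3 (by decide)
  have n4 : y 10 = n 16 := hn 4 (by decide)
  have n5 : y 11 = n 32 := hn 5 (by decide)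
  have n7 : y 13 = n 128 := hn 7 (by decide)
  have m : ∀ a b c, a < 8192 → b < 8192 → qm a b = c → n c = n a * n b := fun a b c ha hb e =>
    e ▸ (E.mul a ha b hb).symm
  have e5 := m 1 4 5 (by decide) (by decide) (by decide +kernel)
  have e40 := m 8 32 40 (by decide) (by decide) (by decide +kernel)
  have e42 := m 2 40 42 (by decide) (by decide) (by decide +kernel)
  have e43 := m 1 42 43 (by decide) (by decide) (by decide +kernel)
  have e160 := m 32 128 160 (by decide) (by decide) (by decide +kernel)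
  have e176 := m 16 160 176 (by decide) (by decide) (by decide +kernel)
  intro r hr
  simp only [J4F.reps, List.mem_cons, List.not_mem_nil, or_false] at hr
  rcases hr with rfl | rfl | rfl | rfl | rfl | rfl | rfl | rfl | rfl
  · exact ⟨[36], by decide, by simp [wval, lval, hz, E.z12]⟩
  · exact ⟨[12], by decide, by simp [wval, lval, n0]⟩
  · exact ⟨[14], by decide, by simp [wval, lval, n1]⟩
  · exact ⟨[8], by decide, by simp [wval, lval, f4, E.zero]⟩
  · exact ⟨[12, 16, 8], by decide, by simp [wval, lval, f4, n0, n2, e5, mul_assoc]⟩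
  · exact ⟨[14, 18, 22, 8], by decide, by simp [wval, lval, f4, n1, n3, n5, e42, e40, mul_assoc]⟩
  · exact ⟨[12, 14, 18, 22, 8], by decide,
      by simp [wval, lval, f4, n0, n1, n3, n5, e43, e42, e40, mul_assoc]⟩
  · exact ⟨[0, 2, 4], by decide, by simp [wval, lval, f0, f1, f2, E.zero]⟩
  · exact ⟨[20, 22, 26, 0, 2, 8, 4, 8], by decide,
      by simp [wval, lval, f0, f1, f2, f4, n4, n5, n7, e176, e160, mul_assoc]⟩

theorem fin [Finite G] (h : Hyp z Q) (E : Enc z Q n) (S : St z n f) (ι : Spor.J4 →* G)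
    (hf : ∀ i < 6, ι (L i) = f i) (hn : ∀ i < 13, ι (L (6 + i)) = n (2 ^ i)) :
    Nonempty (G ≃* Spor.J4) ∧ ∃ x y : G, orderOf x = 2 ∧ orderOf y = 2 ∧
      ¬ IsConj x y ∧ ∀ v : G, orderOf v = 2 → IsConj v x ∨ IsConj v y := by
  have hz : ι (L 18) = z := (hn 12 (by decide)).trans E.z12
  replace hn : ∀ i < 12, ι (L (6 + i)) = n (2 ^ i) := fun i hi => hn i (by omega)
  have hι : Function.Injective ι := by
    haveI := J4A.simple
    rcases ι.normal_ker.eq_bot_or_eq_top with e | e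
    · exact ι.ker_eq_bot_iff.1 e
    · exact absurd (hz.symm.trans (MonoidHom.mem_ker.1 (e ▸ mem_top _))) h.ne
  have hC : centralizer {z} ≤ ι.range :=
    J4F.gen h E S _ (Q_le E _ ⟨_, hz⟩ fun i hi => ⟨_, hn i hi⟩) fun i hi => ⟨_, hf i hi⟩
  have n1 : ι (L 7) = n 2 := hn 1 (by decide)
  have nb := J4F.nb h E S
  obtain ⟨top, two⟩ := J4E.top ι hι (hz ▸ hC) (hz ▸ h.cH) (by rw [hz, n1]; exact nb) fun v vv vz => by
    have hv : ι v ∈ centralizer ({z} : Set G) := by
      rw [mem_centralizer_singleton_iff, ← hz, ← map_mul, ← map_mul, vz]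
    rcases J4F.cls h E S hv (by rw [← map_mul, vv, map_one]) with e | ⟨k, hk, r, hr, e⟩
    · exact .inl (hι (e.trans ι.map_one.symm))
    · obtain ⟨k, rfl⟩ := hC hk
      obtain ⟨u, hu, eu⟩ := rep_eq E (fun i => ι (L i)) hf hn hz r hr
      rw [← eu, ← map_wval, ← hz, ← map_mul, ← map_inv, ← map_mul, ← map_mul] at e
      exact .inr ⟨k, u, hu, e.imp (hι ·) (hι ·)⟩
  have sur : Function.Surjective ι := MonoidHom.range_eq_top.1 top
  haveI := Fact.mk Nat.prime_two
  refine ⟨⟨(MulEquiv.ofBijective ι ⟨hι, sur⟩).symm⟩, z, n 2, orderOf_eq_prime (by rw [sq, h.zz]) h.ne,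
    orderOf_eq_prime ?_ fun e => ?_, nb, fun v hv => ?_⟩
  · rw [sq, E.mul 2 (by decide) 2 (by decide), show qm 2 2 = 0 by decide +kernel, E.zero]
  · exact absurd (E.inj 2 (by decide) 0 (by decide) (e.trans E.zero.symm)) (by decide)
  · obtain ⟨w, rfl⟩ := sur v
    have := pow_orderOf_eq_one (ι w)
    rw [hv, sq, ← map_mul] at this
    rcases two w (hι (this.trans ι.map_one.symm)) with rfl | e | e
    · simp at hv
    · exact .inl (hz ▸ (ι.map_isConj e).symm)
    · exact .inr (n1 ▸ (ι.map_isConj e).symm)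

/-- The conclusions of the two characterisations. -/
theorem fin' [Finite G] [IsSimpleGroup G] (h : Hyp z Q) (E : Enc z Q n) (S : St z n f) (ι : Spor.J4 →* G)
    (hf : ∀ i < 6, ι (L i) = f i) (hn : ∀ i < 13, ι (L (6 + i)) = n (2 ^ i)) :
    Cfsg.IsJ4 G ∧ ∃ x y : G, orderOf x = 2 ∧ orderOf y = 2 ∧
      ¬ IsConj x y ∧ ∀ v : G, orderOf v = 2 → IsConj v x ∨ IsConj v y := by
  obtain ⟨⟨e⟩, h2⟩ := fin h E S ι hf hn
  exact ⟨⟨inferInstance, (Nat.card_congr e.toEquiv).trans J4A.card_eq⟩, h2⟩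

end Cfsg.Agent.Lib.J4Fin
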