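import Cfsg.Agent.Lib.J4C0
import Cfsg.Agent.Lib.J4C2a
import Cfsg.Agent.Lib.J4F
import Cfsg.Agent.Lib.J4Fin

/-! The transfer: the pair group splits over the central involution compatibly with the swap. -/

set_option autoImplicit false
set_option maxRecDepth 100000

namespace Cfsg.Agent.Lib.J4C

open Subgroup Cfsg.Agent.Lib.PermNet Cfsg.Agent.Lib.Words Cfsg.Agent.Lib.J4L Cfsg.Agent.Lib.J4Defs
  Cfsg.Agent.Lib.J4P Cfsg.Agent.Lib.DCE Cfsg.Agent.Lib.BT Cfsg.Agent.Lib.J4C2a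

theorem jc (g : List ℕ) (a b : ℕ) (ha : qok a = true) (hb : qok b = true)
    (h : relC [g ++ qw a ++ invW g ++ invW (qw b)] = true) : wval L g * nJ a * (wval L g)⁻¹ = nJ b := by
  have := rel1 _ h
  simpa only [wval_append, wval_invW, mul_inv_eq_one, qwJ a ha, qwJ b hb] using this

theorem jt (g u : List ℕ) (b : ℕ) (hb : qok b = true)
    (h : relC [g ++ u ++ invW g ++ invW ([38] ++ qw b ++ [38])] = true) :
    wval L g * wval L u * (wval L g)⁻¹ = L 19 * nJ b * L 19 := by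
  have := rel1 _ h
  simpa only [wval_append, wval_invW, mul_inv_eq_one, qwJ b hb, show [38] = [2 * 19] from rfl, wval_single]
    using this

theorem cm1 : ∀ a < 8192, (a &&& 2 = 0 ↔ qm a 1 = qm 1 a) := J4Q.allD (by decide +kernel)

theorem cen4 : ∀ a < 8192, a &&& 2730 = 0 → (∀ b ∈ [8, 32, 128, 512, 2048], qm a b = qm b a) →
    a ∈ [0, 1, 4096, 4097] := J4Q.allD (by decide +kernel)

theorem mv {Γ : Type*} [Group Γ] {g d a b : Γ} (e : g * a * g⁻¹ = b) (h : d * a = a * d) :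
    g * d * g⁻¹ * b = b * (g * d * g⁻¹) := by rw [← e, conj_mul, conj_mul, h]

/-- The conjugate of a subgroup by an involution. -/
def cT {Γ : Type*} [Group Γ] {T : Γ} (tt : T * T = 1) (P : Subgroup Γ) : Subgroup Γ where
  carrier := {x | T * x * T ∈ P}
  mul_mem' := fun {a b} ha hb => by
    have := P.mul_mem ha hb
    rwa [show T * a * T * (T * b * T) = T * a * (T * T) * b * T by group, tt, mul_one, mul_assoc T] at this
  one_mem' := by
    change T * 1 * T ∈ P
    rw [mul_one, tt]; exact P.one_mem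
  inv_mem' := fun {a} ha => by
    have := P.inv_mem ha
    rwa [mul_inv_rev, mul_inv_rev, inv_eq_of_mul_eq_one_right tt, ← mul_assoc] at this

variable {G : Type*} [Group G] {z : G} {Q : Subgroup G} {n f : ℕ → G} {T : G × Spor.J4}
  {x y : G × Spor.J4} {V : G × Spor.J4 → ℤˣ}

/-- The centraliser of the four-group. -/
noncomputable def KK (z : G) (n f : ℕ → G) : Subgroup (G × Spor.J4) := HH z n f ⊓ centralizer {N n 1}

theorem mem_KK : x ∈ KK z n f ↔ x ∈ HH z n f ∧ x * N n 1 = N n 1 * x :=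
  and_congr_right' mem_centralizer_singleton_iff

/-- The part of it that is normalised by the swap. -/
noncomputable def DK (W : SW z n f T) : Subgroup (G × Spor.J4) := KK z n f ⊓ cT W.tt (HH z n f)

theorem EN (E : Enc z Q n) : Enc (z, L 18) (QQ E) (N n) :=
  ⟨mulN E, fun a ha => ⟨a, ha, rfl⟩, fun _ ⟨a, ha, e⟩ => ⟨a, ha, e.symm⟩, injN E, zeroN E, N12 E⟩

theorem ttx (W : SW z n f T) (x : G × Spor.J4) : T * (T * x * T) * T = x := by
  rw [show T * (T * x * T) * T = T * T * x * (T * T) by group, W.tt, one_mul, mul_one]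

theorem ti (W : SW z n f T) : T⁻¹ = T := inv_eq_of_mul_eq_one_right W.tt

theorem T12 (E : Enc z Q n) (W : SW z n f T) : T * N n 4096 * T = N n 1 := by
  refine Prod.ext (by simpa [N, E.z12] using congrArg Prod.fst W.tz) ?_
  have := jt [] [12] 4096 (by decide +kernel) (by decide +kernel)
  rw [show [12] = qw 1 from rfl, qwJ 1 (by decide +kernel)] at this
  simpa [N, W.snd] using this.symm

theorem TN1 (E : Enc z Q n) (W : SW z n f T) : T * N n 1 * T = N n 4096 := by rw [← T12 E W, ttx W]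

theorem NK (E : Enc z Q n) {a : ℕ} (ha : a < 8192) : N n a ∈ KK z n f ↔ a &&& 2 = 0 := by
  rw [mem_KK, cm1 a ha, mulN E _ ha _ (by decide), mulN E _ (by decide) _ ha]
  exact ⟨fun e => injN E _ (qm_lt ha (by decide)) _ (qm_lt (by decide) ha) e.2, fun e => ⟨Nmem E a ha, by rw [e]⟩⟩

theorem ND (E : Enc z Q n) (W : SW z n f T) {a : ℕ} (ha : a < 8192) (h2 : a &&& 2 = 0) : N n a ∈ DK W :=
  ⟨(NK E ha).2 h2, W.tC a ha h2⟩

theorem n21 (E : Enc z Q n) : N n 2 * N n 4097 * (N n 2)⁻¹ = N n 1 := by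
  rw [mul_inv_eq_iff_eq_mul, mulN E _ (by decide) _ (by decide), mulN E _ (by decide) _ (by decide),
    show qm 2 4097 = qm 1 2 by decide +kernel]

theorem n41 (E : Enc z Q n) : N n 1 * N n 4096 = N n 4097 := by
  rw [mulN E _ (by decide) _ (by decide), show qm 1 4096 = 4097 by decide +kernel]

variable [Finite G] (h : Hyp z Q) (E : Enc z Q n) (S : St z n f)
include h E S

theorem c12 (hx : x ∈ HH z n f) : x * N n 4096 = N n 4096 * x := by
  rw [N12 E]; exact Prod.ext (Hact h E S x hx).1 (Hact h E S x hx).2.1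

theorem ζK : (z, 1) ∈ KK z n f := mem_KK.2 ⟨ζmem, (ζc h E S (Nmem E 1 (by decide))).symm⟩

theorem wK (w : List ℕ) (hw : w.all (fun l => decide (l < 2 * 19)) = true)
    (r : relC [w ++ qw 1 ++ invW w ++ invW (qw 1)] = true) : wval (Y n f) w ∈ KK z n f :=
  mem_KK.2 ⟨Ymem hw, mul_inv_eq_iff_eq_mul.1 (cjN h E S (Ymem hw) (by decide) (by decide)
    (by rw [Ysnd]; exact jc w 1 1 (by decide +kernel) (by decide +kernel) r))⟩

theorem φN {a b : ℕ} (ha : a < 8192) (hb : b < 8192) (qa : qok a = true) (qb : qok b = true)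
    (r : relC [[66] ++ qw a ++ invW [66] ++ invW (qw b)] = true) : φ n f * N n a * (φ n f)⁻¹ = N n b :=
  cjN h E S φmem ha hb (by rw [φsnd, ← wval_single L 33]; exact jc _ a b qa qb r)

theorem φK : φ n f ∈ KK z n f := mem_KK.2 ⟨φmem, mul_inv_eq_iff_eq_mul.1
  (φN h E S (by decide) (by decide) (by decide +kernel) (by decide +kernel) (by decide +kernel))⟩

theorem Y5K : Y n f 5 ∈ KK z n f := wval_single (Y n f) 5 ▸ wK h E S [10] (by decide) (by decide +kernel)

theorem nQ (hx : x ∈ HH z n f) (hy : y ∈ QQ E) : x * y * x⁻¹ ∈ QQ E := by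
  obtain ⟨a, ha, rfl⟩ := hy
  exact (Hact h E S x hx).2.2 a ha

theorem BK (hx : x ∈ BB z n f) : x ∈ KK z n f ∨ N n 2 * x ∈ KK z n f := by
  rcases (mem_set_normalizer_iff.1 hx.2 (N n 1)).1 (.inl rfl) with e | e
  · exact .inl (mem_KK.2 ⟨hx.1, mul_inv_eq_iff_eq_mul.1 e⟩)
  · refine .inr (mem_KK.2 ⟨mul_mem (Nmem E 2 (by decide)) hx.1, mul_inv_eq_iff_eq_mul.1 ?_⟩)
    conv_rhs => rw [← n21 E, ← (e : _ = _)]
    group

theorem mdV {P : Subgroup (G × Spor.J4)} (hP : P ≤ HH z n f) (hζ : (z, 1) ∈ P) (hV : Ch P V) (Vζ : V (z, 1) = 1)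
    (hx : x ∈ P) (hy : y ∈ P) (e : x.2 = y.2) : V x = V y := by
  rcases mdH h E S (hP hx) (hP hy) e with e | e
  · rw [e]
  · rw [e, hV _ hζ _ hy, Vζ, one_mul]

theorem eqV (hV : Ch (HH z n f) V) (Vζ : V (z, 1) = -1) (hx : x ∈ HH z n f) (hy : y ∈ HH z n f)
    (e : x.2 = y.2) (e' : V x = V y) : x = y := (mdH h E S hx hy e).resolve_right fun e'' => by
  rw [e'', hV _ ζmem _ hy, Vζ] at e'
  exact absurd (mul_eq_right.1 e') (by decide)

variable (W : SW z n f T)
include W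

theorem DKT (hx : x ∈ DK W) : T * x * T ∈ DK W := by
  refine ⟨mem_KK.2 ⟨hx.2, ?_⟩, show T * (T * x * T) * T ∈ HH z n f from (ttx W x).symm ▸ hx.1.1⟩
  have := mv (g := T) (b := N n 1) (by rw [ti W]; exact T12 E W) (c12 h E S hx.1.1)
  rwa [ti W] at this

theorem ζD : (z, 1) ∉ DK W := fun e => ωnot h E S (W.tz ▸ (e.2 : T * (z, 1) * T ∈ HH z n f))

theorem Kor (hx : x ∈ KK z n f) : x ∈ DK W ∨ x * (z, 1) ∈ DK W :=
  (W.tK x hx.1 (mem_KK.1 hx).2).imp (fun e => ⟨hx, e⟩) fun e => ⟨mul_mem hx (ζK h E S), by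
    change T * (x * (z, 1)) * T ∈ HH z n f
    rwa [← W.tz, show T * x * T * (T * (z, 1) * T) = T * x * (T * T) * (z, 1) * T by group, W.tt, mul_one,
      mul_assoc T] at e⟩

/-- The product with the diagonal extraspecial group. -/
def DB : Subgroup (G × Spor.J4) where
  carrier := {x | ∃ d ∈ DK W, ∃ q ∈ QQ E, x = d * q}
  one_mem' := ⟨1, one_mem _, 1, one_mem _, (mul_one _).symm⟩
  mul_mem' := by
    rintro _ _ ⟨d, hd, q, hq, rfl⟩ ⟨d', hd', q', hq', rfl⟩
    exact ⟨_, mul_mem hd hd', _, mul_mem (nQ h E S (inv_mem hd'.1.1) hq) hq', by group⟩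
  inv_mem' := by
    rintro _ ⟨d, hd, q, hq, rfl⟩
    exact ⟨_, inv_mem hd, _, nQ h E S hd.1.1 (inv_mem hq), by group⟩

theorem DB1 (hx : x ∈ DK W) : x ∈ DB h E S W := ⟨x, hx, 1, one_mem _, (mul_one _).symm⟩

theorem DB2 (hx : x ∈ QQ E) : x ∈ DB h E S W := ⟨1, one_mem _, x, hx, (one_mul _).symm⟩

theorem DB3 (hx : x ∈ KK z n f) (hx' : x ∈ DB h E S W) : x ∈ DK W := by
  obtain ⟨d, hd, _, ⟨a, ha, rfl⟩, rfl⟩ := hx'
  exact mul_mem hd (ND E W ha ((NK E ha).1 (((KK z n f).mul_mem_cancel_left hd.1).1 hx)))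

theorem chD {P : Subgroup (G × Spor.J4)} (hP : ∀ x ∈ P, x ∈ KK z n f ∨ N n 2 * x ∈ KK z n f) :
    Ch P (sg (DB h E S W)) := by
  have n2 := DB2 h E S W ⟨2, by decide, rfl⟩
  have k : ∀ x ∈ P, x ∉ DB h E S W → x ∈ HH z n f ∧ x * (z, 1) ∈ DB h E S W := fun x hx hn => by
    rcases hP x hx with e | e
    · exact ⟨e.1, DB1 h E S W ((Kor h E S W e).resolve_left fun e' => hn (DB1 h E S W e'))⟩
    · refine ⟨(mul_mem_cancel_left (Nmem E 2 (by decide))).1 e.1, (mul_mem_cancel_left n2).1 ?_⟩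
      rw [← mul_assoc]
      exact DB1 h E S W ((Kor h E S W e).resolve_left fun e' => hn ((mul_mem_cancel_left n2).1 (DB1 h E S W e')))
  refine ch_sg fun a ha b hb na nb => ?_
  have := mul_mem (k a ha na).2 (k b hb nb).2
  rwa [ζc h E S (k b hb nb).1, mul_assoc, ← mul_assoc (z, 1), ζζ h, one_mul] at this

theorem χζ : sg (DB h E S W) (z, 1) = -1 := sg_not fun e => ζD h E S W (DB3 h E S W (ζK h E S) e)

omit W in
def GLs : List ℕ := [1, 4, 16, 64, 256, 1024, 8, 1408, 1968, 7984, 7456]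

theorem cl (hV : Ch (KK z n f) V) (Vζ : V (z, 1) = 1) (VN : ∀ a < 8192, a &&& 2 = 0 → V (N n a) = 1)
    (V8 : V (T * N n 8 * T) = 1) (m : ℕ) : V (T * N n (lin GLs m) * T) = 1 := by
  have tK : ∀ a < 8192, a &&& 2 = 0 → T * N n a * T ∈ KK z n f := fun a ha h2 => (DKT h E S W (ND E W ha h2)).1
  have e0 : ∀ e < 8192, e &&& 2 = 0 → qok e = true →
      relC [[] ++ qw e ++ invW [] ++ invW ([38] ++ qw e ++ [38])] = true → V (T * N n e * T) = 1 :=
    fun e he h2 q r => (mdV h E S inf_le_left (ζK h E S) hV Vζ (tK e he h2) ((NK E he).2 h2) (by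
      have := jt [] (qw e) e q r
      rw [qwJ e q] at this
      simpa [N, W.snd] using this.symm)).trans (VN e he h2)
  have e1 : ∀ a < 8192, ∀ b < 8192, ∀ c < 8192, a &&& 2 = 0 → qm c a = b → φ n f * N n a * (φ n f)⁻¹ = N n b →
      V (T * N n c * T) = 1 := fun a ha b hb c hc h2 e r => by
    have φT : φ n f * T = T * φ n f := by
      conv_lhs => rw [← W.tφ, mul_assoc, W.tt, mul_one]
    have : T * N n c * T = φ n f * (T * N n a * T) * (φ n f)⁻¹ * (T * N n a * T)⁻¹ := by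
      rw [eq_mul_inv_of_mul_eq (mulN E c hc a ha), e, ← r, mul_inv_rev, mul_inv_rev, ti W]
      calc _ = T * φ n f * N n a * ((φ n f)⁻¹ * (N n a)⁻¹ * T) := by group
        _ = φ n f * T * N n a * ((φ n f)⁻¹ * (T * T) * (N n a)⁻¹ * T) := by rw [φT, W.tt, mul_one]
        _ = φ n f * T * N n a * (((φ n f)⁻¹ * T * φ n f) * (φ n f)⁻¹ * T * (N n a)⁻¹ * T) := by group
        _ = _ := by rw [mul_assoc (φ n f)⁻¹ T, ← φT]; group
    rw [this, hV _ (mul_mem (mul_mem (φK h E S) (tK a ha h2)) (inv_mem (φK h E S))) _ (inv_mem (tK a ha h2)),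
      hV.conj (φK h E S) (tK a ha h2), hV.inv (tK a ha h2), Int.units_mul_self]
  refine (J4Fin.lin_mem (EN E) (cT W.tt hV.ker) ?_ (fun a ha => ?_) m).2
  · rw [← N12 E]
    exact ⟨tK _ (by decide) (by decide), (T12 E W).symm ▸ VN 1 (by decide) (by decide)⟩
  have l := (by decide : ∀ a ∈ GLs, a < 8192 ∧ a &&& 2 = 0) a ha
  refine ⟨l.1, tK a l.1 l.2, ?_⟩
  simp only [GLs, List.mem_cons, List.not_mem_nil, or_false] at ha
  rcases ha with rfl | rfl | rfl | rfl | rfl | rfl | rfl | rfl | rfl | rfl | rfl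
  · exact (TN1 E W).symm ▸ VN 4096 (by decide) (by decide)
  iterate 5 exact e0 _ l.1 l.2 (by decide +kernel) (by decide +kernel)
  · exact V8
  · exact e1 32 (by decide) 1440 (by decide) _ l.1 (by decide) (by decide +kernel)
      (φN h E S (by decide) (by decide) (by decide +kernel) (by decide +kernel) (by decide +kernel))
  · exact e1 128 (by decide) 1840 (by decide) _ l.1 (by decide) (by decide +kernel)
      (φN h E S (by decide) (by decide) (by decide +kernel) (by decide +kernel) (by decide +kernel))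
  · exact e1 512 (by decide) 7472 (by decide) _ l.1 (by decide) (by decide +kernel)
      (φN h E S (by decide) (by decide) (by decide +kernel) (by decide +kernel) (by decide +kernel))
  · exact e1 2048 (by decide) 5408 (by decide) _ l.1 (by decide) (by decide +kernel)
      (φN h E S (by decide) (by decide) (by decide +kernel) (by decide +kernel) (by decide +kernel))

theorem genK (hV : Ch (KK z n f) V) (Vζ : V (z, 1) = 1) (VN : ∀ a < 8192, a &&& 2 = 0 → V (N n a) = 1)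
    (V8 : V (T * N n 8 * T) = 1) (V5 : V (Y n f 5) = 1) (hx : x ∈ KK z n f) : V x = 1 :=
  (W.gen hV.ker ⟨ζK h E S, Vζ⟩ (fun a ha h2 => ⟨(NK E ha).2 h2, VN a ha h2⟩)
    ⟨(DKT h E S W (ND E W (by decide) (by decide))).1, V8⟩ ⟨Y5K h E S, V5⟩
    ⟨φK h E S, hV.odd (φK h E S) (φ5 h E S)⟩ x hx.1 (mem_KK.1 hx).2).2

omit [Finite G] h E S in
theorem j1 (e : x.2 = L 5) : (wval (Y n f) [1, 3, 10, 8] * x * (wval (Y n f) [1, 3, 10, 8])⁻¹).2 =
    (T * N n 3857 * T).2 := by
  have := jt [1, 3, 10, 8] [2 * 5] 3857 (by decide +kernel) (by decide +kernel)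
  rw [wval_single] at this
  simpa only [Prod.snd_mul, Prod.snd_inv, Ysnd, e, W.snd, N] using this

theorem lam : ∃ V : G × Spor.J4 → ℤˣ, Ch (HH z n f) V ∧ V (z, 1) = 1 ∧ (∀ a < 8192, V (N n a) = 1) ∧
    V (T * N n 8 * T) = -1 := by
  obtain ⟨M, hQ, hM⟩ := h.out
  have c : ∀ x ∈ HH z n f, x.1 ∈ centralizer ({z} : Set G) := fun x hx =>
    mem_centralizer_singleton_iff.2 (Hact h E S x hx).1
  have hV : Ch (HH z n f) (sg (M.comap (MonoidHom.fst G Spor.J4))) := ch_sg fun a ha b hb na nb =>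
    (mul_mem_iff_of_index_two (H := M.subgroupOf (centralizer {z})) hM (a := ⟨a.1, c a ha⟩)
      (b := ⟨b.1, c b hb⟩)).2 (iff_of_false na nb)
  have Vζ : sg (M.comap (MonoidHom.fst G Spor.J4)) (z, 1) = 1 := sg_eq.2 (hQ h.mem)
  have VN : ∀ a < 8192, sg (M.comap (MonoidHom.fst G Spor.J4)) (N n a) = 1 := fun a ha => sg_eq.2 (hQ (E.mem a ha))
  refine ⟨_, hV, Vζ, VN, (Int.units_eq_one_or _).resolve_left fun V8 => ?_⟩
  have hK : Ch (KK z n f) _ := hV.mono inf_le_left
  have g := Ymem (z := z) (n := n) (f := f) (w := [1, 3, 10, 8]) (by decide)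
  have y5 : Y n f 5 ∈ HH z n f := (Y5K h E S).1
  have V5 := cl h E S W hK Vζ (fun a ha _ => VN a ha) V8 1409
  rw [show lin GLs 1409 = 3857 by decide +kernel, ← mdV h E S le_rfl ζmem hV Vζ (mul_mem (mul_mem g y5) (inv_mem g))
    (W.tC _ (by decide) (by decide)) (j1 W rfl), hV.conj g y5] at V5
  have k := fun x hx => genK h E S W (x := x) hK Vζ (fun a ha _ => VN a ha) V8 V5 hx
  have all := fun x hx => hV.triv (B := BB z n f) (a := x) (by rw [W.idx]; decide) (fun b hb hb' => by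
    rcases BK h E S hb with e | e
    · exact k b e
    · have := k _ e
      rwa [hV _ (Nmem E 2 (by decide)) _ hb', VN 2 (by decide), one_mul] at this) hx
  have := J4F.gen h E S M hQ fun i hi => by
    have := sg_eq.1 (all (Y n f i) (mem_sup_left (mem_sing _ (by omega))))
    rwa [mem_comap, MonoidHom.coe_fst, Y, if_pos hi] at this
  rw [relIndex_eq_one.2 this] at hM
  exact absurd hM (by decide)

theorem exV : ∃ V : G × Spor.J4 → ℤˣ, Ch (HH z n f) V ∧ V (z, 1) = -1 ∧ (∀ a < 8192, V (N n a) = 1) ∧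
    V (T * N n 8 * T) = 1 := by
  obtain ⟨V, h1, h2, h3⟩ := J4C2a.trans (H := HH z n f) (B := BB z n f) (N := QQ E) (by rw [W.idx]; decide)
    (chD h E S W fun x hx => BK h E S hx) ζmem (ζζ h) (fun x hx => ζc h E S hx) (χζ h E S W)
    (by rintro _ ⟨a, ha, rfl⟩; exact Nmem E a ha) (fun x hx q hq => nQ h E S hx hq)
    fun q hq => sg_eq.2 (DB2 h E S W hq)
  rcases Int.units_eq_one_or (V (T * N n 8 * T)) with e | e
  · exact ⟨V, h1, h2, fun a ha => h3 _ ⟨a, ha, rfl⟩, e⟩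
  · obtain ⟨U, k1, k2, k3, k4⟩ := lam h E S W
    exact ⟨_, h1.mul k1, by simp [h2, k2], fun a ha => by simp [h3 _ ⟨a, ha, rfl⟩, k3 a ha], by simp [e, k4]⟩

theorem q3 : (N n 2 * T) ^ 3 = 1 := by
  have c2 : ((N n 2 * T) ^ 3).2 = 1 := by
    have := rel1 (rep 3 ([2 * (6 + 1)] ++ [2 * 19])) (by decide +kernel)
    rw [wval_rep, wval_append, wval_single, wval_single, powJ 1 (by decide)] at this
    rw [Prod.pow_snd, Prod.snd_mul, W.snd]; exact this
  have n2 := Nmem (f := f) E 2 (by decide)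
  have st : ∀ d ∈ DK W, N n 2 * T * d * (N n 2 * T)⁻¹ ∈ DK W := fun d hd => by
    have b := DKT h E S W hd
    have q := DB2 h E S W ⟨2, by decide, rfl⟩
    rw [show N n 2 * T * d * (N n 2 * T)⁻¹ = N n 2 * (T * d * T⁻¹) * (N n 2)⁻¹ by group, ti W]
    refine DB3 h E S W (mem_KK.2 ⟨mul_mem (mul_mem n2 b.1.1) (inv_mem n2), mv (n21 E) ?_⟩)
      (mul_mem (mul_mem q (DB1 h E S W b)) (inv_mem q))
    rw [← n41 E, ← mul_assoc, (mem_KK.1 b.1).2, mul_assoc, c12 h E S b.1.1, ← mul_assoc]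
  have cen : ∀ b < 8192, b &&& 2 = 0 → ((N n 2 * T) ^ 3).1 * n b = n b * ((N n 2 * T) ^ 3).1 := fun b hb h2 => by
    have d := ND E W hb h2
    have h5 := st _ (st _ (st _ d))
    rw [show ∀ g d : G × Spor.J4, g * (g * (g * d * g⁻¹) * g⁻¹) * g⁻¹ = g ^ 3 * d * (g ^ 3)⁻¹ from
      fun g d => by simp [pow_succ, mul_assoc]] at h5
    have h6 := (mdH h E S h5.1.1 d.1.1 (by rw [Prod.snd_mul, Prod.snd_mul, Prod.snd_inv, c2]; simp)).resolve_right
      fun e => ζD h E S W ((mul_mem_cancel_right d).1 (e ▸ h5))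
    exact congrArg Prod.fst (mul_inv_eq_iff_eq_mul.1 h6)
  obtain ⟨a, ha, h0, ea⟩ := J4F.cE h E S (mem_centralizer_singleton_iff.2 (E.z12 ▸ cen 4096 (by decide) (by decide)))
    fun e he => cen e ((by decide : ∀ e ∈ [1, 4, 16, 64, 256, 1024], e < 8192) e he)
      ((by decide : ∀ e ∈ [1, 4, 16, 64, 256, 1024], e &&& 2 = 0) e he)
  have hV := cen4 a ha h0 fun b hb => by
    have hb' := (by decide : ∀ b ∈ [8, 32, 128, 512, 2048], b < 8192 ∧ b &&& 2 = 0) b hb
    have := cen b hb'.1 hb'.2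
    rw [ea, E.mul _ ha _ hb'.1, E.mul _ hb'.1 _ ha] at this
    exact E.inj _ (qm_lt ha hb'.1) _ (qm_lt hb'.1 ha) this
  have u1 : N n 2 * T * N n 1 * (N n 2 * T)⁻¹ = N n 4096 := by
    rw [show N n 2 * T * N n 1 * (N n 2 * T)⁻¹ = N n 2 * (T * N n 1 * T⁻¹) * (N n 2)⁻¹ by group, ti W, TN1 E W,
      c12 h E S n2, mul_inv_cancel_right]
  have u2 : N n 2 * T * N n 4096 * (N n 2 * T)⁻¹ = N n 4097 := by
    rw [show N n 2 * T * N n 4096 * (N n 2 * T)⁻¹ = N n 2 * (T * N n 4096 * T⁻¹) * (N n 2)⁻¹ by group, ti W,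
      T12 E W, mul_inv_eq_iff_eq_mul, mulN E _ (by decide) _ (by decide), mulN E _ (by decide) _ (by decide),
      show qm 2 1 = qm 4097 2 by decide +kernel]
  have u3 : N n 2 * T * N n 4097 * (N n 2 * T)⁻¹ = N n 1 := by
    rw [← n41 E, ← conj_mul, u1, u2, mulN E _ (by decide) _ (by decide), show qm 4096 4097 = 1 by decide +kernel]
  have fx : ∀ b < 8192, N n 2 * T * N n a * (N n 2 * T)⁻¹ = N n b → a = b := fun b hb e => by
    refine E.inj a ha b hb (Eq.trans ?_ (congrArg Prod.fst e))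
    change n a = (N n 2 * T).1 * n a * (N n 2 * T).1⁻¹
    rw [← ea, Prod.pow_fst]; simp only [pow_succ]; group
  simp only [List.mem_cons, List.not_mem_nil, or_false] at hV
  rcases hV with rfl | rfl | rfl | rfl
  · exact Prod.ext (ea.trans E.zero) c2
  exacts [absurd (fx _ (by decide) u1) (by decide), absurd (fx _ (by decide) u2) (by decide),
    absurd (fx _ (by decide) u3) (by decide)]

section
variable (hV : Ch (HH z n f) V) (Vζ : V (z, 1) = -1) (VN : ∀ a < 8192, V (N n a) = 1) (V8 : V (T * N n 8 * T) = 1)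
include hV Vζ VN V8

theorem mu5 : V (Y n f 5) * sg (DB h E S W) (Y n f 5) = 1 := by
  have hχ := chD h E S W (P := KK z n f) fun x hx => .inl hx
  have hμ := (hV.mono (R := KK z n f) inf_le_left).mul hχ
  have μζ : V (z, 1) * sg (DB h E S W) (z, 1) = 1 := by rw [Vζ, χζ h E S W]; simp
  have χD : ∀ x ∈ DK W, sg (DB h E S W) x = 1 := fun x hx => sg_eq.2 (DB1 h E S W hx)
  have VT : ∀ m c, c < 8192 → c &&& 2 = 0 → lin GLs m = c → V (T * N n c * T) = 1 := fun m c hc h2 e => by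
    have := cl h E S W hμ μζ (fun a ha h2 => by rw [VN a ha, χD _ (ND E W ha h2), one_mul])
      (by rw [V8, χD _ (DKT h E S W (ND E W (by decide) (by decide))), one_mul]) m
    rwa [e, χD _ (DKT h E S W (ND E W hc h2)), mul_one] at this
  refine (Int.units_eq_one_or _).resolve_right fun m5 => J4F.nb h E S ?_
  obtain ⟨σ, σK, σ2, Vσ⟩ : ∃ σ ∈ KK z n f, σ.2 = L 5 ∧ V σ = 1 := by
    rcases Int.units_eq_one_or (V (Y n f 5)) with e | e
    · exact ⟨_, Y5K h E S, rfl, e⟩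
    · exact ⟨_, mul_mem (Y5K h E S) (ζK h E S), mul_one _, by rw [hV _ (Y5K h E S).1 _ ζmem, e, Vζ]; simp⟩
  have μσ := (mdV h E S inf_le_left (ζK h E S) hμ μζ σK (Y5K h E S) σ2).trans m5
  have σD : σ * (z, 1) ∈ DK W := (Kor h E S W σK).resolve_left fun e => by
    rw [Vσ, χD σ e] at μσ; exact absurd μσ (by decide)
  have sD := DKT h E S W σD
  have aK := inv_mem (wK h E S [1, 8, 0, 3, 8, 2, 4, 8, 5, 6, 8, 7, 3, 0, 8, 1, 2] (by decide) (by decide +kernel))
  have s2 : (T * (σ * (z, 1)) * T).2 = L 19 * L 5 * L 19 := by simp [W.snd, σ2]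
  have Vs := mdV h E S inf_le_left (ζK h E S) hμ μζ sD.1 (mul_mem (mul_mem aK σK) (inv_mem aK)) (by
    have := eqw ([2 * 19] ++ [2 * 5] ++ [2 * 19]) (invW [1, 8, 0, 3, 8, 2, 4, 8, 5, 6, 8, 7, 3, 0, 8, 1, 2] ++ [2 * 5] ++
      [1, 8, 0, 3, 8, 2, 4, 8, 5, 6, 8, 7, 3, 0, 8, 1, 2]) (by decide +kernel)
    simp only [wval_append, wval_invW, wval_single] at this
    rw [s2, this]
    simp only [Prod.snd_mul, Prod.snd_inv, Ysnd, σ2, inv_inv])
  rw [hμ.conj aK σK, μσ, χD _ sD, mul_one] at Vs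
  have g1 := Ymem (z := z) (n := n) (f := f) (w := [1, 3, 10, 8]) (by decide)
  have g2 := Ymem (z := z) (n := n) (f := f) (w := [14, 4, 1, 10, 8]) (by decide)
  have r1 := eqV h E S hV Vζ (mul_mem (mul_mem g1 σK.1) (inv_mem g1)) (W.tC 3857 (by decide) (by decide))
    (j1 W σ2) (by rw [hV.conj g1 σK.1, Vσ, VT 1409 _ (by decide) (by decide) (by decide +kernel)])
  have z1 := mul_mem sD.1.1 (ζmem (z := z) (n := n) (f := f))
  have z2 := mul_mem z1 (Nmem E 4096 (by decide))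
  have z3 := mul_mem z2 (Nmem E 1 (by decide))
  have r2 := eqV h E S hV Vζ (mul_mem (mul_mem g2 z3) (inv_mem g2)) (W.tC 5361 (by decide) (by decide)) (by
    have := jt [14, 4, 1, 10, 8] ([2 * 19] ++ [2 * 5] ++ [2 * 19] ++ qw 4096 ++ qw 1) 5361 (by decide +kernel)
      (by decide +kernel)
    simp only [wval_append, wval_single, qwJ 4096 (by decide +kernel), qwJ 1 (by decide +kernel)] at this
    simpa only [Prod.snd_mul, Prod.snd_inv, Ysnd, σ2, W.snd, N, mul_one] using this)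
    (by rw [hV.conj g2 z3, hV _ z2 _ (Nmem E 1 (by decide)), hV _ z1 _ (Nmem E 4096 (by decide)),
      hV _ sD.1.1 _ ζmem, Vs, Vζ, VN _ (by decide), VN _ (by decide),
      VT 1821 _ (by decide) (by decide) (by decide +kernel)]; simp)
  have r3 := cjN h E S (Ymem (w := [2, 0, 10, 8, 5, 1]) (by decide)) (a := 3857) (b := 1) (by decide) (by decide)
    (by rw [Ysnd]; exact jc _ _ _ (by decide +kernel) (by decide +kernel) (by decide +kernel))
  have r4 := cjN h E S (Ymem (w := [6, 4, 1]) (by decide)) (a := 5361) (b := 2) (by decide) (by decide)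
    (by rw [Ysnd]; exact jc _ _ _ (by decide +kernel) (by decide +kernel) (by decide +kernel))
  have cj : ∀ {g a b : G × Spor.J4}, g * a * g⁻¹ = b → IsConj a.1 b.1 := fun e =>
    isConj_iff.2 ⟨_, congrArg Prod.fst e⟩
  have ct : ∀ a : G × Spor.J4, IsConj a.1 (T * a * T).1 := fun a => cj (g := T) (by rw [ti W])
  have e1 : (T * (σ * (z, 1)) * T * (z, 1) * N n 4096 * N n 1).1 = (T * σ * T).1 := by
    rw [show T * (σ * (z, 1)) * T = T * σ * T * (T * (z, 1) * T) by
      rw [show T * σ * T * (T * (z, 1) * T) = T * σ * (T * T) * (z, 1) * T by group, W.tt]; group, W.tz]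
    simp only [Prod.fst_mul, N, E.z12]
    rw [mul_assoc _ z z, h.zz, mul_one, mul_assoc _ (n 1), E.mul 1 (by decide) 1 (by decide),
      show qm 1 1 = 0 by decide +kernel, E.zero, mul_one]
  have c1 : IsConj z (n 1) := by simpa [W.tz] using ct (z, 1)
  exact c1.trans ((cj r3).symm.trans ((ct _).trans ((cj r1).symm.trans ((ct σ).trans
    ((e1 ▸ cj r2).trans ((ct _).symm.trans (cj r4)))))))

end

theorem tb : ∃ X D, TB n X D ∧ St z n fun i => (X i).1 := by
  classical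
  obtain ⟨V, hV, Vζ, VN, V8⟩ := exV h E S W
  have hχ := chD h E S W (P := KK z n f) fun x hx => .inl hx
  have hμ := (hV.mono (R := KK z n f) inf_le_left).mul hχ
  have χD : ∀ x ∈ DK W, sg (DB h E S W) x = 1 := fun x hx => sg_eq.2 (DB1 h E S W hx)
  have k : ∀ x ∈ KK z n f, V x * sg (DB h E S W) x = 1 := fun x hx => genK h E S W hμ
    (by rw [Vζ, χζ h E S W]; simp) (fun a ha h2 => by rw [VN a ha, χD _ (ND E W ha h2), one_mul])
    (by rw [V8, χD _ (DKT h E S W (ND E W (by decide) (by decide))), one_mul]) (mu5 h E S W hV Vζ VN V8) hx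
  let X : ℕ → G × Spor.J4 := fun i => if i = 19 then T else if V (Y n f i) = 1 then Y n f i else Y n f i * (z, 1)
  have XN : ∀ i < 13, X (6 + i) = N n (2 ^ i) := fun i hi => by
    simp only [X, if_neg (by omega : 6 + i ≠ 19), YN hi,
      VN _ (Nat.pow_lt_pow_right (n := 13) one_lt_two hi), if_true]
  have X19 : X 19 = T := if_pos rfl
  refine ⟨X, hV.ker, ⟨fun i hi => ?_, fun i hi => by rw [XN i hi]; rfl, fun i hi => ?_, fun d hd e => ?_,
    fun d hd => by rw [show X 18 = N n 4096 from XN 12 (by decide)]; exact c12 h E S hd.1, X19 ▸ W.tt,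
    fun d hd e => ?_, by rw [show X 7 = N n 2 from XN 1 (by decide), X19]; exact q3 h E S W⟩,
    fun i hi => ?_, fun i hi => ?_⟩
  · simp only [X]
    split_ifs with h1
    exacts [h1 ▸ W.snd, rfl, mul_one _]
  · have y : Y n f i ∈ HH z n f := mem_sup_left (mem_sing _ hi)
    simp only [X, if_neg hi.ne]
    split_ifs with h1
    · exact ⟨y, h1⟩
    · exact ⟨mul_mem y ζmem, by rw [hV _ y _ ζmem, (Int.units_eq_one_or _).resolve_left h1, Vζ]; simp⟩
  · exact eqV h E S hV Vζ hd.1 (one_mem _) e (hd.2.trans hV.one.symm)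
  · rw [show X 6 = N n 1 from XN 0 (by decide)] at e
    have dK := mem_KK.2 ⟨hd.1, e⟩
    have := k d dK
    rw [hd.2, one_mul] at this
    have dD := DKT h E S W (DB3 h E S W dK (sg_eq.1 this))
    have := k _ dD.1
    rw [χD _ dD, mul_one] at this
    rw [X19]
    exact ⟨dD.1.1, this⟩
  · simp only [X, if_neg (by omega : i ≠ 19)]
    split_ifs <;> simp only [Y, if_pos hi, Prod.fst_mul]
    exacts [S.mem i hi, mul_mem (S.mem i hi) (mem_centralizer_singleton_iff.2 rfl)]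
  · simp only [X, if_neg (by omega : i ≠ 19)]
    split_ifs <;> simp only [Y, if_pos hi, Prod.fst_mul]
    · exact S.act i hi
    · refine ⟨(S.act i hi).1, (S.act i hi).2.1, fun j hj => ?_⟩
      rw [← (S.act i hi).2.2 j hj, mul_assoc (f i) z, ← J4Q.nz h E
        (Nat.pow_lt_pow_right (n := 13) one_lt_two (by omega))]
      group

end Cfsg.Agent.Lib.J4C
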