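import Cfsg.Agent.Lib.J4O2
import Cfsg.Agent.Lib.J4Q

/-! The action of the involution centraliser on its extraspecial subgroup. -/

set_option autoImplicit false
set_option maxRecDepth 100000

namespace Cfsg.Agent.Lib.J4Cl

open Subgroup Cfsg.Agent.Lib.PermNet Cfsg.Agent.Lib.Words Cfsg.Agent.Lib.PermGroup Cfsg.Agent.Lib.DCE
  Cfsg.Agent.Lib.BT Cfsg.Agent.Lib.J4Defs Cfsg.Agent.Lib.J4V Cfsg.Agent.Lib.J4O

theorem letters : ∀ i < 6, (∀ l ∈ LW.getD i [], l < 2 * 5) ∧ (LH.getD i []).length = 12 ∧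
    (∀ a ∈ LH.getD i [], a < 8192) ∧ ∀ k < 12, ap1i (nat_lit 12) (nat_lit 4095) vtt (LW.getD i []) (2 ^ k) =
      (LH.getD i []).getD k 0 % 4096 := by decide +kernel

theorem exists_st {G : Type*} [Group G] [Finite G] (t : G) (ht : orderOf t = 2)
    (Q N M : Subgroup (Subgroup.centralizer ({t} : Set G))) [Q.Normal] [N.Normal] [M.Normal] (hQN : Q ≤ N)
    (hNM : N ≤ M) (hM : M.index = 2) (hQ : Cfsg.IsExtraspecial 2 Q) (hcard : Nat.card Q = 2 ^ 13)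
    (hplus : ∃ E : Subgroup Q, Cfsg.IsElementaryAbelian 2 E ∧ Nat.card E = 2 ^ 7)
    (hN : Nat.card N = 3 * Nat.card Q) (hcent : ⁅M, N⁆ ≤ Q) (_hperf : M ≤ ⁅M, M⁆ ⊔ Q)
    (h2c : Subgroup.centralizer (Q : Set (Subgroup.centralizer ({t} : Set G))) ≤ Q)
    (_hout : ∀ c : Subgroup.centralizer ({t} : Set G), (∀ m ∈ M, c * m * c⁻¹ * m⁻¹ ∈ N) → c ∈ M)
    (hM22 : Cfsg.Spor.IsoM22 (M ⧸ N.subgroupOf M)) :
    ∃ (Q' : Subgroup G) (n f : ℕ → G), Hyp t Q' ∧ Enc t Q' n ∧ St t n f := by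
  obtain ⟨n, h, E⟩ := J4Q.exists_enc t ht Q N M hQN hNM hM hQ hcard hplus hN h2c hM22
  obtain ⟨ρ, hρ, hk⟩ := J4Q.exists_rho h E
  obtain ⟨a, ha, hF⟩ := core ρ (fun c => (hρ c).1) Q N M
    (fun c => (hk c).trans (mem_map_iff_mem (f := (centralizer {t}).subtype) Subtype.val_injective)) hQN hNM hM hN hcent hM22
  obtain ⟨n', E', e⟩ := J4Q.rebase h E (inv_mem ha)
  have key : ∀ i < 6, ∃ g ∈ centralizer ({t} : Set G), Act n' g (LH.getD i []) := fun i hi => by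
    obtain ⟨a1, a2, a3, a4⟩ := letters i hi
    obtain ⟨g, hg⟩ := wval_mem (y := F) (w := LW.getD i []) fun l hl => hF _ (by have := a1 l hl; omega)
    obtain ⟨q, hq, a5⟩ := J4Q.adjust h E' g.2 a2 a3 fun k hk => by
      have l2 := p12 k hk
      have l3 := lt_of_fix (inv_mem ha).1 l2
      have := ap1i_eq vok.good (LW.getD i []) l2
      rw [a4 k hk, MonoidHom.id_apply, ← wval_congr (y := F) (fun j hj => FP j (show j < 7 by omega)) a1, ← hg,
        List.getD_eq_getElem _ _ (a2 ▸ hk)] at this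
      rw [List.getD_eq_getElem _ _ (a2 ▸ hk)]
      refine J4Q.md_trans h ((e _ l2).conj g.2) (J4Q.md_trans h ((hρ g).2 _ l3) (J4Q.md_symm h
        (J4Q.md_trans h (J4Q.md_mod E' (a3 _ (List.getElem_mem _))) ?_)))
      have e' := e _ (Nat.mod_lt (LH.getD i [])[k] (by decide))
      nth_rw 2 [this] at e'
      simpa using e'
    exact ⟨_, mul_mem g.2 (h.le hq), a5⟩
  choose! f f1 f2 using key
  exact ⟨_, n', f, h, E', f1, f2⟩

end Cfsg.Agent.Lib.J4Cl
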