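import Cfsg.Agent.Lib.J4DF0

set_option autoImplicit false
set_option maxRecDepth 100000

namespace Cfsg.Agent.Lib.J4D
open Cfsg.Agent.Lib.PermNet Cfsg.Agent.Lib.DCE

noncomputable def FF : FT := (.node (nat_lit 64) (.node (nat_lit 32) f0 f32) (.node (nat_lit 96) f64 (.node (nat_lit 128) f96 f128)))

def TM : List Tm := [⟨false, [], [(false, []), (true, [])]⟩,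
  ⟨true, [], [(false, [])]⟩,
  ⟨true, [2, 1, 3, 1, 2, 1, 3, 1, 3, 1, 2, 1, 3, 1, 2, 1, 3], [(false, [2, 1, 3, 1, 2, 1, 3, 1, 3, 1, 2, 1, 3, 1, 2, 1, 3]), (true, [2, 1, 3, 1, 2, 1, 3, 1, 3, 1, 2, 1, 3, 1, 2, 1, 3])]⟩,
  ⟨false, [2, 1, 3, 1, 2, 1, 3, 1, 3, 1, 2, 1, 3, 1, 2, 1, 3], [(false, [2, 1, 3, 1, 2, 1, 3, 1, 3, 1, 2, 1, 3, 1, 2, 1, 3]), (true, [2, 1, 3, 1, 2, 1, 3, 1, 3, 1, 2, 1, 3, 1, 2, 1, 3]), (true, [])]⟩,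
  ⟨true, [3, 1, 3, 1, 3, 1, 3, 3, 1, 3, 1, 3, 1, 3, 3, 1, 3, 1, 3, 1, 3, 3, 3, 1, 3, 1, 3, 1, 3, 1, 3, 1, 3, 1, 3, 3, 1, 3, 1, 3, 1], [(false, [1, 2, 1, 2, 1, 2, 2, 1, 2, 1, 2, 1, 2, 1, 2, 1, 2, 1, 2, 2]), (false, [3, 1, 3, 1, 3, 1, 3, 3, 1, 3, 1, 3, 1, 3, 3, 1, 3, 1, 3, 1, 3, 3, 3, 1, 3, 1, 3, 1, 3, 1, 3, 1, 3, 1, 3, 3, 1, 3, 1, 3, 1]), (true, [1, 2, 1, 2, 1, 2, 2, 1, 2, 1, 2, 1, 2, 1, 2, 1, 2, 1, 2, 2])]⟩,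
  ⟨true, [2, 1, 3, 1, 2, 1, 3, 1, 3, 1, 2, 1, 3, 1, 2, 1, 3], [(false, [2, 1, 3, 1, 2, 1, 3, 1, 3, 1, 2, 1, 3, 1, 2, 1, 3]), (false, [2, 1, 3, 1, 2, 1, 3, 1, 3, 1, 2, 1, 3, 1, 2, 1, 3])]⟩,
  ⟨false, [1, 2, 1, 2, 1, 2, 2, 1, 2, 1, 2, 1, 2, 1, 2, 1, 2, 1, 2, 2], [(false, [3, 1, 3, 1, 3, 1, 3, 3, 1, 3, 1, 3, 1, 3, 3, 1, 3, 1, 3, 1, 3, 3, 3, 1, 3, 1, 3, 1, 3, 1, 3, 1, 3, 1, 3, 3, 1, 3, 1, 3, 1]), (false, [1, 2, 1, 2, 1, 2, 2, 1, 2, 1, 2, 1, 2, 1, 2, 1, 2, 1, 2, 2]), (false, [3, 1, 3, 1, 3, 1, 3, 3, 1, 3, 1, 3, 1, 3, 3, 1, 3, 1, 3, 1, 3, 3, 3, 1, 3, 1, 3, 1, 3, 1, 3, 1, 3, 1, 3, 3, 1, 3, 1, 3, 1]), (true, [])]⟩,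
  ⟨false, [2, 1, 3, 1, 2, 1, 3, 1, 3, 1, 2, 1, 3, 1, 2, 1, 3], [(false, [2, 1, 3, 1, 2, 1, 3, 1, 3, 1, 2, 1, 3, 1, 2, 1, 3]), (false, [2, 1, 3, 1, 2, 1, 3, 1, 3, 1, 2, 1, 3, 1, 2, 1, 3]), (false, [])]⟩]

def XW : List (List (List Nat)) := [[],
  [[]],
  [[], [12, 14, 5]],
  [[], [2]],
  [[], [4]],
  [[], [12, 14, 5], [4]],
  [[], [2], [10]]]

def BB : List Nat := [(nat_lit 0), (nat_lit 1), (nat_lit 5), (nat_lit 36)]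



end Cfsg.Agent.Lib.J4D
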