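import Cfsg.Agent.Lib.J4DR
import Cfsg.Agent.Lib.J4DT
import Cfsg.Agent.Lib.J4DF
import Cfsg.Agent.Lib.J4DM

set_option autoImplicit false
set_option maxRecDepth 100000

namespace Cfsg.Agent.Lib.J4D
open Cfsg.Agent.Lib.PermNet Cfsg.Agent.Lib.DCE

theorem tab0 : allR (tabB nets (nat_lit 17228) (nat_lit 15) (nat_lit 2048) (nat_lit 11) (nat_lit 11) (nat_lit 2047) tH) (nat_lit 0) (nat_lit 30) = true := by decide +kernel

end Cfsg.Agent.Lib.J4D
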