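import Cfsg.Agent.Lib.BT5
import Cfsg.Prelude.Def_Transfer

/-! Interfaces for the recognition of the fourth Janko group: coordinates for the extraspecial group
of order `2 ^ 13` and the action of its normaliser. -/

set_option autoImplicit false
set_option maxRecDepth 100000

namespace Cfsg.Agent.Lib.J4Defs

open Subgroup Cfsg.Agent.Lib.PermNet

/-- The parity of the bits `0, 2, …, 10`. -/
noncomputable def par (m : ℕ) : ℕ := force m fun m =>
  force (Nat.xor (Nat.xor m (Nat.shiftRight m (nat_lit 4))) (Nat.shiftRight m (nat_lit 8))) fun k =>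
    Nat.land (Nat.xor k (Nat.shiftRight k (nat_lit 2))) (nat_lit 1)

/-- The product of two codes; bit `i < 12` is the exponent of the `i`-th generator, bit `12` that of
the central involution. -/
noncomputable def qm (a b : ℕ) : ℕ := force a fun a => force b fun b => Nat.xor (Nat.xor a b)
  (Nat.shiftLeft (par (Nat.land (Nat.shiftRight a (nat_lit 1)) b)) (nat_lit 12))

/-- The image of a code under the automorphism with the given images of the generators. -/
noncomputable def lin (L : List ℕ) : ℕ → ℕ :=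
  List.rec (motive := fun _ => ℕ → ℕ) (fun m => Nat.mul (nat_lit 4096) (Nat.mod m (nat_lit 2)))
    (fun a _ ih m => force (ih (Nat.div m (nat_lit 2))) fun r =>
      @Bool.rec (fun _ => ℕ) r (qm a r) (Nat.beq (Nat.mod m (nat_lit 2)) (nat_lit 1))) L

/-- The generators. -/
def L0 : List ℕ := [1, 2, 4, 8, 16, 32, 64, 128, 256, 512, 1024, 2048]

variable {G : Type*} [Group G]

/-- The hypothesis, inside `G`. -/
structure Hyp (z : G) (Q : Subgroup G) : Prop where
  zz : z * z = 1
  ne : z ≠ 1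
  mem : z ∈ Q
  le : Q ≤ centralizer {z}
  nor : ∀ g ∈ centralizer ({z} : Set G), ∀ q ∈ Q, g * q * g⁻¹ ∈ Q
  cen : ∀ g ∈ centralizer ({z} : Set G), (∀ q ∈ Q, g * q = q * g) → g = 1 ∨ g = z
  com : ∀ a ∈ Q, ∀ b ∈ Q, a * b = b * a ∨ a * b = z * (b * a)
  cQ : Nat.card Q = 8192
  cH : Nat.card (centralizer ({z} : Set G)) = 21799895040
  out : ∃ M : Subgroup G, Q ≤ M ∧ M.relIndex (centralizer {z}) = 2

/-- Coordinates for `Q`. -/
structure Enc (z : G) (Q : Subgroup G) (n : ℕ → G) : Prop where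
  mul : ∀ a < 8192, ∀ b < 8192, n a * n b = n (qm a b)
  mem : ∀ a < 8192, n a ∈ Q
  surj : ∀ q ∈ Q, ∃ a < 8192, n a = q
  inj : ∀ a < 8192, ∀ b < 8192, n a = n b → a = b
  zero : n 0 = 1
  z12 : n 4096 = z

/-- `g` conjugates the generators to the elements with the codes `L`. -/
def Act (n : ℕ → G) (g : G) (L : List ℕ) : Prop :=
  L.length = 12 ∧ (∀ a ∈ L, a < 8192) ∧ ∀ i < 12, g * n (2 ^ i) * g⁻¹ = n (L.getD i 0)

/-- The action of the six letters. -/
def LH : List (List ℕ) :=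
  [[4084, 5642, 645, 7634, 3018, 5614, 5004, 4942, 2153, 4558, 7198, 1199],
   [3440, 1970, 8176, 5048, 4751, 2705, 3075, 8041, 3395, 3244, 2010, 1061],
   [2401, 7421, 6821, 4931, 5714, 4132, 3551, 2552, 1535, 2237, 775, 3013],
   [1, 4098, 4, 4104, 16, 32, 64, 4224, 256, 512, 1024, 6144],
   [1, 2402, 4, 2728, 4437, 992, 5396, 7729, 5204, 7345, 5445, 3008],
   [1, 4694, 4, 7113, 16, 7649, 1044, 3861, 1349, 1620, 84, 5072]]

/-- The letters `f 0, …, f 5` and their action on `Q`. -/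
structure St (z : G) (n f : ℕ → G) : Prop where
  mem : ∀ i < 6, f i ∈ centralizer ({z} : Set G)
  act : ∀ i < 6, Act n (f i) (LH.getD i [])

theorem xor_lt {a b : ℕ} (ha : a < 8192) (hb : b < 8192) : Nat.xor a b < 8192 :=
  Nat.xor_lt_two_pow (n := 13) ha hb

theorem qm_lt {a b : ℕ} (ha : a < 8192) (hb : b < 8192) : qm a b < 8192 := by
  refine xor_lt (xor_lt ha hb) ?_
  have : par (Nat.land (Nat.shiftRight a 1) b) ≤ 1 := Nat.and_le_right
  change par (Nat.land (Nat.shiftRight a 1) b) <<< 12 < 8192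
  rw [Nat.shiftLeft_eq]; omega

theorem lin_cons (a : ℕ) (L : List ℕ) (m : ℕ) :
    lin (a :: L) m = if m % 2 = 1 then qm a (lin L (m / 2)) else lin L (m / 2) := by
  change @Bool.rec (fun _ => ℕ) (lin L (m / 2)) (qm a (lin L (m / 2))) (Nat.beq (m % 2) 1) = _
  rcases Nat.mod_two_eq_zero_or_one m with h | h <;> rw [h] <;> rfl

theorem lin_lt {L : List ℕ} (h : ∀ a ∈ L, a < 8192) (m : ℕ) : lin L m < 8192 := by
  induction L generalizing m with
  | nil => change 4096 * (m % 2) < 8192; omega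
  | cons a L ih =>
    have := ih (fun b hb => h b (List.mem_cons_of_mem _ hb)) (m / 2)
    rw [lin_cons]
    split_ifs
    exacts [qm_lt (h a List.mem_cons_self) this, this]

theorem lin_L0 : ∀ m < 8192, lin L0 m = m := fun m hm => DCE.beq_eq (DCE.allR_all
  (by decide +kernel : DCE.allR (fun m => Nat.beq (lin L0 m) m) 0 8192 = true) m m.zero_le (by omega))

variable {z : G} {Q : Subgroup G} {n : ℕ → G} {g k : G} {L L' : List ℕ}

theorem Enc.conj (E : Enc z Q n) (hg : g * z * g⁻¹ = z) (h : List.Forall₂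
    (fun a b => a < 8192 ∧ b < 8192 ∧ g * n a * g⁻¹ = n b) L L') (m : ℕ) :
    lin L m < 8192 ∧ lin L' m < 8192 ∧ g * n (lin L m) * g⁻¹ = n (lin L' m) := by
  induction h generalizing m with
  | nil =>
    refine ⟨lin_lt (by simp) m, lin_lt (by simp) m, ?_⟩
    change g * n (4096 * (m % 2)) * g⁻¹ = n (4096 * (m % 2))
    rcases Nat.mod_two_eq_zero_or_one m with h | h <;> rw [h]
    · simp [E.zero]
    · rw [E.z12, hg]
  | cons h _ ih =>
    obtain ⟨i1, i2, i3⟩ := ih (m / 2)
    rw [lin_cons, lin_cons]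
    split_ifs
    · exact ⟨qm_lt h.1 i1, qm_lt h.2.1 i2, by
        rw [← E.mul _ h.1 _ i1, ← E.mul _ h.2.1 _ i2, ← h.2.2, ← i3, conj_mul]⟩
    · exact ⟨i1, i2, i3⟩

theorem Act.lt (h : Act n g L) (m : ℕ) : lin L m < 8192 := lin_lt h.2.1 m

/-- The action on all codes. -/
theorem Act.all (h : Act n g L) (E : Enc z Q n) (hg : g ∈ centralizer ({z} : Set G)) {m : ℕ}
    (hm : m < 8192) : g * n m * g⁻¹ = n (lin L m) := by
  have := (E.conj (g := g) (by rw [mem_centralizer_singleton_iff.1 hg]; simp) (L := L0) (L' := L)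
    (List.forall₂_iff_get.2 ⟨h.1.symm, fun i h1 h2 => by
      have h3 := (by decide : ∀ i (h : i < L0.length), L0.get ⟨i, h⟩ = 2 ^ i ∧ 2 ^ i < 8192) i h1
      refine ⟨h3.1 ▸ h3.2, h.2.1 _ (List.get_mem _ _), ?_⟩
      rw [h3.1, h.2.2 i h1, List.getD_eq_getElem _ _ h2]; rfl⟩) m).2.2
  rwa [lin_L0 m hm] at this

theorem Act.mul (h : Act n g L) (h' : Act n k L') (E : Enc z Q n)
    (hg : g ∈ centralizer ({z} : Set G)) : Act n (g * k) (L'.map (lin L)) := by
  refine ⟨by simpa using h'.1, fun a ha => ?_, fun i hi => ?_⟩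
  · obtain ⟨b, -, rfl⟩ := List.mem_map.1 ha
    exact h.lt b
  · have h1 : i < L'.length := h'.1 ▸ hi
    rw [List.getD_eq_getElem _ _ (by simpa using h1), List.getElem_map,
      ← h.all E hg (h'.2.1 _ (List.getElem_mem h1)), ← List.getD_eq_getElem _ 0 h1, ← h'.2.2 i hi]
    group

end Cfsg.Agent.Lib.J4Defs
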