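import Cfsg.Agent.Lib.J4E2a
import Cfsg.Agent.Lib.J4E2b
import Cfsg.Agent.Lib.J4E2c
import Cfsg.Agent.Lib.DCECov
import Cfsg.Agent.Lib.BT6

/-! The subgroup `2 ^ 11 : M₂₄` of the fourth Janko group. -/

set_option autoImplicit false
set_option maxRecDepth 100000

namespace Cfsg.Agent.Lib.J4E

open Subgroup Cfsg.Agent.Lib.PermNet Cfsg.Agent.Lib.Words Cfsg.Agent.Lib.PermGroup
  Cfsg.Agent.Lib.MatRep Cfsg.Agent.Lib.DCE Cfsg.Agent.Lib.J4L Cfsg.Agent.Lib.J4Base
  Cfsg.Agent.Lib.J4A0 Cfsg.Agent.Lib.J4R0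

instance : Finite Spor.J4 := Nat.finite_of_card_ne_zero (by rw [J4A.card_eq]; norm_num)

/-- The letters, with three more. -/
noncomputable def K (i : ℕ) : Spor.J4 := if i < 34 then L i else F ([2, 5, 6].getD (i - 34) 0)

theorem hK0 (i : ℕ) (hi : i < 34) : phi (K i) = gen RepJ4.c ms2 i := by
  rw [K, if_pos hi, hL i hi, ← wval_single (gen RepJ4.c ms), ← wval_single (gen RepJ4.c ms2)]
  refine Units.ext ?_
  rw [val_wval hinv (by simpa using by omega), val_wval hinv2 (by simpa using by omega)]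
  have : getW ms2 (2 * i) = getW ms (2 * i) := by
    rw [BT.getW_eq, BT.getW_eq, ms2, List.getD_append _ _ _ _ (by
      rw [show ms.length = 68 from rfl]; omega)]
  simp only [mval, List.map_cons, List.map_nil, this]

theorem hK (i : ℕ) (hi : i < 37) : phi (K i) = gen RepJ4.c ms2 i := by
  by_cases h : i < 34
  · exact hK0 i h
  have hD := rels_of hinv2 hD2 (by decide +kernel)
  obtain ⟨h1, h2, h3⟩ := (by decide +kernel : ∀ i < 37, ¬ i < 34 →
    (2 * i + 1) :: subst [[40], [42], [10]] (FW.getD ([2, 5, 6].getD (i - 34) 0) []) ∈ D2 ∧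
    (FW.getD ([2, 5, 6].getD (i - 34) 0) []).all (fun l => decide (l < 2 * 3)) = true ∧
    ∀ l ∈ subst [[40], [42], [10]] (FW.getD ([2, 5, 6].getD (i - 34) 0) []), l < 2 * 34) i hi h
  have := hD _ h1
  rw [wval_odd, inv_mul_eq_one] at this
  rw [this, K, if_neg h, F, ← wval_xy _ h2, map_wval]
  exact wval_congr (fun j hj => by rw [← hK0 j hj, K, if_pos hj]) h3

theorem ne_K (w : List ℕ) (i : ℕ) (h : ne2 w i = true) : wval K w ≠ 1 := fun e => by
  obtain ⟨h1, h⟩ := band_eq h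
  obtain ⟨h2, h3⟩ := band_eq h
  refine ne_one ok2 hinv2 w i 0 ?_ (by
    rw [← wval_congr hK (by simpa using h2), ← map_wval, e, map_one])
  rw [h2, h3, decide_eq_true (p := i < 112 ∧ 0 % 2 ≠ 1 % 2) ⟨Nat.blt_eq.mp h1, by decide⟩]
  rfl

/-- The elementary abelian subgroup. -/
noncomputable def A : Subgroup Spor.J4 := closure {g | ∃ i ∈ eb, L i = g}

/-- Its normaliser. -/
noncomputable def S : Subgroup Spor.J4 := gp L [[40], [42], [8]]

/-- The element with the code `p`. -/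
noncomputable def ee (p : ℕ) : Spor.J4 := wval L (ew eb p)

theorem w2 (i j : ℕ) : wval L [2 * i, 2 * j] = L i * L j := by
  rw [show [2 * i, 2 * j] = [2 * i] ++ [2 * j] from rfl, wval_append, wval_single, wval_single]

theorem sq0 {i : ℕ} (hi : i ∈ eb) : L i * L i = 1 :=
  w2 i i ▸ rel _ relA _ (List.mem_append_right _ (List.mem_map.2 ⟨i, hi, rfl⟩))

theorem cm0 {i j : ℕ} (hi : i ∈ eb) (hj : j ∈ eb) : L i * L j = L j * L i := by
  have := rel _ relA _ (List.mem_append_left _ (List.mem_flatMap.2 ⟨i, hi, List.mem_map.2 ⟨j, hj, rfl⟩⟩))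
  rw [show [2 * i, 2 * j, 2 * i, 2 * j] = [2 * i, 2 * j] ++ [2 * i, 2 * j] from rfl, wval_append, w2] at this
  rw [← inv_eq_of_mul_eq_one_right this, mul_inv_rev, inv_eq_of_mul_eq_one_right (sq0 hi),
    inv_eq_of_mul_eq_one_right (sq0 hj)]

theorem cmA {a b : Spor.J4} (ha : a ∈ A) (hb : b ∈ A) : a * b = b * a := by
  have h1 : ∀ i ∈ eb, A ≤ centralizer {L i} := fun i hi => (closure_le _).2 (by
    rintro _ ⟨j, hj, rfl⟩; exact mem_centralizer_singleton_iff.2 (cm0 hj hi))
  have h2 : A ≤ centralizer {b} := (closure_le _).2 (by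
    rintro _ ⟨j, hj, rfl⟩
    exact mem_centralizer_singleton_iff.2 (mem_centralizer_singleton_iff.1 (h1 j hj hb)).symm)
  exact mem_centralizer_singleton_iff.1 (h2 ha)

theorem sqA {a : Spor.J4} (ha : a ∈ A) : a * a = 1 := by
  induction ha using closure_induction with
  | mem g hg => obtain ⟨i, hi, rfl⟩ := hg; exact sq0 hi
  | one => simp
  | mul a b h1 h2 ha hb => rw [mul_assoc, ← mul_assoc b, cmA h2 h1, mul_assoc, hb, mul_one, ha]
  | inv a _ ha => rw [← mul_inv_rev, ha, inv_one]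

theorem ew_cons (a : ℕ) (l : List ℕ) (p : ℕ) : wval L (ew (a :: l) p) =
    (if p % 2 = 1 then L a else 1) * wval L (ew l (p / 2)) := by
  rw [ew]; split_ifs
  · rw [← List.singleton_append, wval_append, wval_single]
  · rw [one_mul]

theorem ew_mem {l : List ℕ} (hl : ∀ i ∈ l, L i ∈ A) (p : ℕ) : wval L (ew l p) ∈ A := by
  induction l generalizing p with
  | nil => exact one_mem _
  | cons a l ih =>
    rw [ew_cons]
    refine mul_mem ?_ (ih (fun i hi => hl i (List.mem_cons_of_mem _ hi)) _)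
    split_ifs
    exacts [hl a List.mem_cons_self, one_mem _]

theorem ew_xor {l : List ℕ} (hl : ∀ i ∈ l, L i ∈ A) (p q : ℕ) :
    wval L (ew l (p ^^^ q)) = wval L (ew l p) * wval L (ew l q) := by
  induction l generalizing p q with
  | nil => simp [ew]
  | cons a l ih =>
    have hl' := fun i hi => hl i (List.mem_cons_of_mem _ hi)
    have ha := hl a List.mem_cons_self
    rw [ew_cons, ew_cons, ew_cons, Nat.xor_div_two, ih hl', Nat.xor_mod_two_eq]
    have c := cmA (ew_mem hl' (p / 2)) ha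
    rcases Nat.mod_two_eq_zero_or_one p with h1 | h1 <;>
      rcases Nat.mod_two_eq_zero_or_one q with h2 | h2
    · rw [if_neg (by omega), if_neg (by omega), if_neg (by omega)]; simp
    · rw [if_pos (by omega), if_neg (by omega), if_pos h2, one_mul, ← mul_assoc, ← mul_assoc, c]
    · rw [if_pos (by omega), if_pos h1, if_neg (by omega), one_mul, mul_assoc]
    · rw [if_neg (by omega), if_pos h1, if_pos h2, one_mul, mul_assoc, ← mul_assoc _ (L a), c,
        mul_assoc, ← mul_assoc, sqA ha, one_mul]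

theorem ebA : ∀ i ∈ eb, L i ∈ A := fun i hi => subset_closure ⟨i, hi, rfl⟩

theorem ee_mem (p : ℕ) : ee p ∈ A := ew_mem ebA p

theorem ee_xor (p q : ℕ) : ee (p ^^^ q) = ee p * ee q := ew_xor ebA p q

theorem ee_zero : ee 0 = 1 := rfl

theorem xl {a b : ℕ} (ha : a < 2048) (hb : b < 2048) : a ^^^ b < 2048 :=
  Nat.xor_lt_two_pow (n := 11) ha hb

theorem ee_surj {a : Spor.J4} (ha : a ∈ A) : ∃ p < 2048, ee p = a := by
  induction ha using closure_induction with
  | mem g hg =>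
    obtain ⟨i, hi, rfl⟩ := hg
    obtain ⟨h1, h2⟩ := (by decide +kernel : ∀ i ∈ eb, 2 ^ (i - 22) < 2048 ∧ ew eb (2 ^ (i - 22)) = [2 * i]) i hi
    exact ⟨_, h1, by rw [ee, h2, wval_single]⟩
  | one => exact ⟨0, by decide, rfl⟩
  | mul a b _ _ ha hb =>
    obtain ⟨p, hp, rfl⟩ := ha
    obtain ⟨q, hq, rfl⟩ := hb
    exact ⟨_, xl hp hq, ee_xor p q⟩
  | inv a h ha => rwa [inv_eq_of_mul_eq_one_right (sqA h)]

theorem ee_conj {g : Spor.J4} {l T : List ℕ} (h : List.Forall₂ (fun i c => g * L i * g⁻¹ = ee c) l T)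
    (p : ℕ) : g * wval L (ew l p) * g⁻¹ = ee (ap T p) := by
  induction h generalizing p with
  | nil => rw [show ap [] p = 0 from rfl, ee_zero]; simp [ew]
  | @cons i c l T h _ ih =>
    rw [ew_cons, ← conj_mul, ih]
    change _ = ee (@Bool.rec (fun _ => ℕ) (ap T (p / 2)) (c ^^^ ap T (p / 2)) (Nat.beq (p % 2) 1))
    rcases Nat.mod_two_eq_zero_or_one p with e | e <;> rw [e]
    · simp; rfl
    · rw [if_pos rfl, h]; exact (ee_xor _ _).symm

theorem cj3 (i j : ℕ) : wval L [2 * i, 2 * j, 2 * i + 1] = L i * L j * (L i)⁻¹ := by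
  rw [show [2 * i, 2 * j, 2 * i + 1] = [2 * i, 2 * j] ++ [2 * i + 1] from rfl, wval_append, w2, wval_odd,
    wval_nil, mul_one]

theorem cjx (p : ℕ) : L 20 * ee p * (L 20)⁻¹ = ee (ap Tx p) :=
  ee_conj (l := eb) (T := Tx) (List.forall₂_iff_zip.2 ⟨rfl, fun {a b} h => by
    have := rel _ relX _ (List.mem_append_left _ (List.mem_map.2 ⟨_, h, rfl⟩))
    rwa [wval_append, wval_invW, mul_inv_eq_one, cj3 20 a] at this⟩) p

theorem cjy (p : ℕ) : L 21 * ee p * (L 21)⁻¹ = ee (ap Ty p) :=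
  ee_conj (l := eb) (T := Ty) (List.forall₂_iff_zip.2 ⟨rfl, fun {a b} h => by
    have := rel _ relX _ (List.mem_append_right _ (List.mem_map.2 ⟨_, h, rfl⟩))
    rwa [wval_append, wval_invW, mul_inv_eq_one, cj3 21 a] at this⟩) p

theorem L4A : L 4 ∈ A := by
  have := eqw [2 * 4] [2 * 22] (by decide +kernel)
  rw [wval_single, wval_single] at this
  exact this ▸ ebA 22 (by decide)

theorem xS : L 20 ∈ S := wval_single L 20 ▸ mem_gp (by decide)

theorem yS : L 21 ∈ S := wval_single L 21 ▸ mem_gp (by decide)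

theorem actS {s : Spor.J4} (hs : s ∈ S) :
    ∀ p < 2048, ∃ q < 2048, s * ee p * s⁻¹ = ee q ∧ bt TB q = bt TB p := by
  have hm : ∀ a b : Spor.J4, (∀ p < 2048, ∃ q < 2048, a * ee p * a⁻¹ = ee q ∧ bt TB q = bt TB p) →
      (∀ p < 2048, ∃ q < 2048, b * ee p * b⁻¹ = ee q ∧ bt TB q = bt TB p) →
      ∀ p < 2048, ∃ q < 2048, a * b * ee p * (a * b)⁻¹ = ee q ∧ bt TB q = bt TB p := fun a b ha hb p hp => by
    obtain ⟨q, h1, h2, h3⟩ := hb p hp
    obtain ⟨r, h4, h5, h6⟩ := ha q h1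
    exact ⟨r, h4, by rw [← h5, ← h2]; group, h6.trans h3⟩
  induction hs using closure_induction with
  | mem g hg =>
    obtain ⟨w, hw, rfl⟩ := hg
    intro p hp
    have := allR_all inv_ok p p.zero_le (by omega)
    simp only [forceB_eq] at this
    obtain ⟨h1, h2⟩ := band_eq this
    simp only [List.mem_cons, List.not_mem_nil, or_false] at hw
    rcases hw with rfl | rfl | rfl
    · exact ⟨_, blt_lt (band_eq h1).1, wval_single L 20 ▸ cjx p, eq_of_beq (band_eq h2).1⟩
    · exact ⟨_, blt_lt (band_eq h1).2, wval_single L 21 ▸ cjy p, eq_of_beq (band_eq h2).2⟩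
    · exact ⟨p, hp, wval_single L 4 ▸ mul_inv_eq_iff_eq_mul.2 (cmA L4A (ee_mem p)), rfl⟩
  | one => exact fun p hp => ⟨p, hp, by simp, rfl⟩
  | mul a b _ _ ha hb => exact hm a b ha hb
  | inv a _ ha =>
    obtain ⟨n, hn⟩ := mem_powers_iff_mem_zpowers.2 (inv_mem (mem_zpowers a))
    rw [← hn]
    clear hn
    induction n with
    | zero => exact fun p hp => ⟨p, hp, by simp, rfl⟩
    | succ n ih => simp only [pow_succ] at ih ⊢; exact hm _ _ ih ha

theorem nS : S ≤ normalizer (A : Set Spor.J4) := fun s hs => mem_normalizer_iff.2 fun a => by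
  have key : ∀ s ∈ S, ∀ a ∈ A, s * a * s⁻¹ ∈ A := fun s hs a ha => by
    obtain ⟨p, hp, rfl⟩ := ee_surj ha
    obtain ⟨q, -, e, -⟩ := actS hs p hp
    exact e ▸ ee_mem q
  exact ⟨key s hs a, fun h => by simpa [mul_assoc] using key _ (inv_mem hs) _ h⟩

theorem trans (p : ℕ) (hp : p < 2048) (h0 : 0 < p) :
    ∃ s ∈ S, s * ee p * s⁻¹ = ee 31 ∧ bt TB p = true ∨ s * ee p * s⁻¹ = ee 797 ∧ bt TB p = false := by
  generalize hn : lk 6 63 RT p = n
  induction n using Nat.strong_induction_on generalizing p with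
  | _ n ih =>
  have h := allR_all rank_ok p h0 (by omega)
  have h1 := allR_all inv_ok p p.zero_le (by omega)
  simp only [forceB_eq] at h h1
  obtain ⟨h1, h2⟩ := band_eq h1
  cases e1 : Nat.beq p 31
  · cases e2 : Nat.beq p 797
    · rw [e1, e2] at h
      cases e3 : (band (Nat.blt 0 (ap Tx p)) (Nat.blt (lk 6 63 RT (ap Tx p)) (lk 6 63 RT p)))
      · rw [e3] at h
        obtain ⟨s, hs, e⟩ := ih _ (hn ▸ blt_lt (band_eq h).2) _ (blt_lt (band_eq h1).2)
          (blt_lt (band_eq h).1) rfl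
        rw [← cjy, eq_of_beq (band_eq h2).2] at e
        exact ⟨s * L 21, mul_mem hs yS, by simpa only [mul_inv_rev, mul_assoc] using e⟩
      · obtain ⟨s, hs, e⟩ := ih _ (hn ▸ blt_lt (band_eq e3).2) _ (blt_lt (band_eq h1).1)
          (blt_lt (band_eq e3).1) rfl
        rw [← cjx, eq_of_beq (band_eq h2).1] at e
        exact ⟨s * L 20, mul_mem hs xS, by simpa only [mul_inv_rev, mul_assoc] using e⟩
    · rw [beq_eq e2]
      exact ⟨1, one_mem _, .inr ⟨by simp, by decide +kernel⟩⟩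
  · rw [beq_eq e1]
    exact ⟨1, one_mem _, .inl ⟨by simp, by decide +kernel⟩⟩

theorem crep : ∀ e ∈ CR, wval L e.2.1 * wval L e.1 * (wval L e.2.1)⁻¹ = ee e.2.2 := fun e he => by
  have := rel _ relR _ (List.mem_map.2 ⟨e, he, rfl⟩)
  rwa [wval_append, wval_invW, mul_inv_eq_one, wval_append, wval_append, wval_invW] at this

theorem ez : ee 797 = L 18 := by
  have := crep ([2 * 18], [], 797) (by decide)
  rw [wval_single] at this
  simpa using this.symm

theorem cb : IsConj (L 7) (ee 31) := by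
  have := crep ([2 * 7], [10, 43, 0, 14, 1, 42, 11, 44, 46, 48, 50, 52, 10, 43, 0], 31) (by decide)
  rw [wval_single] at this
  exact isConj_iff.2 ⟨_, this⟩

theorem z_ne : L 18 ≠ 1 := wval_single L 18 ▸ ne [2 * 18] 0 (by decide +kernel)

theorem b_ne : ee 31 ≠ 1 := ne _ 0 (by decide +kernel)

theorem ee_inj {p q : ℕ} (hp : p < 2048) (hq : q < 2048) (e : ee p = ee q) : p = q := by
  by_contra hn
  obtain ⟨s, -, h⟩ := trans _ (xl hp hq) (Nat.pos_of_ne_zero fun h => hn (Nat.eq_of_xor_eq_zero h))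
  rw [ee_xor, e, sqA (ee_mem q), mul_one, mul_inv_cancel, ez] at h
  exact h.elim (fun h => b_ne h.1.symm) fun h => z_ne h.1.symm

theorem cardA : Nat.card A = 2048 := by
  rw [← Nat.card_eq_of_bijective (fun p : Fin 2048 => (⟨ee p, ee_mem p⟩ : A))
    ⟨fun p q e => Fin.ext (ee_inj p.2 q.2 (congrArg Subtype.val e)), fun a => by
      obtain ⟨p, hp, e⟩ := ee_surj a.2
      exact ⟨⟨p, hp⟩, Subtype.ext e⟩⟩, Nat.card_fin]

theorem S_eq : S = gp F (sing 8) := by
  have e1 : wval L [40] = wval y [0] := (wval_single L 20).trans (L20.trans (wval_single y 0).symm)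
  have e2 : wval L [42] = wval y [2] := (wval_single L 21).trans (L21.trans (wval_single y 1).symm)
  have e3 : wval L [8] = wval y (FW.getD 7 []) := (wval_single L 4).trans L4
  rw [J4A.gp_eq, S, gp, gp]
  simp only [List.mem_cons, List.not_mem_nil, or_false, exists_eq_or_imp, exists_eq_left, e1, e2, e3]

theorem cardS : Nat.card S = 501397585920 := by
  have := S.index_mul_card
  rw [S_eq, J4A.main.1, J4A.card_eq, ← S_eq] at this
  omega

theorem XK_eq : ∀ j < 7, ((getD [] J4D.dat.XW (getD 0 J4D.dat.live j)).map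
    fun a => wval F a * F J4D.dat.n0).prod = wval K (XK.getD j []) := by
  have k5 : K 5 = F 8 := L5.trans (wval_single y 2).symm
  have k21 : K 21 = F 1 := L21.trans (wval_single y 1).symm
  have k4 : K 4 = F 7 := L4
  have k34 : K 34 = F 2 := rfl
  have k35 : K 35 = F 5 := rfl
  have k36 : K 36 = F 6 := rfl
  intro j hj
  rw [(by decide +kernel : ∀ j < 7, getD [] J4D.dat.XW (getD 0 J4D.dat.live j) =
    [[], [[]], [[], [12, 14, 5]], [[], [2]], [[], [4]], [[], [12, 14, 5], [4]], [[], [2], [10]]].getD j []) j hj,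
    show J4D.dat.n0 = 8 from rfl]
  interval_cases j <;> simp [XK, wval, lval, k5, k21, k4, k34, k35, k36, mul_assoc]

theorem cover (g : Spor.J4) : ∃ j < 7, ∃ s ∈ S, ∃ s' ∈ S, g = s * (wval K (XK.getD j []))⁻¹ * s' := by
  obtain ⟨j, hj, s, hs, s', hs', e⟩ := J4D.ok.cover F J4A.hR J4A.htop J4A.hub (by decide +kernel) g
  exact ⟨j, hj, s, S_eq ▸ hs, s', S_eq ▸ hs', XK_eq j hj ▸ e⟩

theorem ew_lt (l : List ℕ) (hl : ∀ i ∈ l, i < 34) (p : ℕ) : ∀ c ∈ ew l p, c < 2 * 34 := by
  induction l generalizing p with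
  | nil => simp [ew]
  | cons a l ih =>
    have h1 := ih (fun i hi => hl i (List.mem_cons_of_mem _ hi)) (p / 2)
    have := hl a List.mem_cons_self
    rw [ew]; split_ifs
    exacts [List.forall_mem_cons.2 ⟨by omega, h1⟩, h1]

theorem nc_sound {X : List ℕ} (h : NcOK X) {p : ℕ} (hp : p < 2048)
    (hb : bt TB p = true) : (wval K X)⁻¹ * ee p * wval K X ∉ A := fun hA => by
  obtain ⟨e, rfl, he⟩ := h p hp hb
  obtain ⟨h3, h4⟩ := band_eq he
  have h3 := blt_lt h3
  refine ne_K _ _ h4 ?_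
  have ha := ebA _ ((by decide : ∀ k < 11, 22 + k ∈ eb) _ h3)
  rw [wval_rep, wval_append, wval_append, wval_append, wval_invW, wval_single,
    wval_congr (y := K) (z := L) (n := 34) (fun i hi => if_pos hi) (ew_lt eb (by decide) _),
    show K (22 + e.2.1) = L (22 + e.2.1) from if_pos (by omega)]
  have := sqA (mul_mem hA ha)
  change (ee e.1 * _) ^ 2 = 1
  rw [← conj_eq_one_iff (a := wval K X)] at this
  rw [← this, sq]; group

/-- The centraliser of an involution of the small orbit. -/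
theorem cenB {c : Spor.J4} (h : c * ee 31 = ee 31 * c) : c ∈ S := by
  obtain ⟨j, hj, s, hs, s', hs', e⟩ := cover c
  obtain ⟨q, hq, e1, e2⟩ := actS hs' 31 (by decide)
  have hA : (wval K (XK.getD j []))⁻¹ * ee q * wval K (XK.getD j []) ∈ A := by
    have := (mem_normalizer_iff.1 (nS (inv_mem hs)) _).1 (ee_mem 31)
    rw [← mul_inv_eq_iff_eq_mul.2 h, e] at this
    rw [← e1]
    simpa [mul_assoc] using this
  have hb : bt TB q = true := e2.trans (by decide +kernel)
  interval_cases j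
  · rw [e]; exact mul_mem (mul_mem hs (inv_mem (one_mem _))) hs'
  exacts [(nc_sound nc1 hq hb hA).elim, (nc_sound nc2 hq hb hA).elim, (nc_sound nc3 hq hb hA).elim,
    (nc_sound nc4 hq hb hA).elim, (nc_sound nc5 hq hb hA).elim, (nc_sound nc6 hq hb hA).elim]

end Cfsg.Agent.Lib.J4E
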