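import Cfsg.Agent.Lib.J4E1
import Cfsg.Agent.Lib.J4E3

/-! A copy of the fourth Janko group that contains the centraliser of a central involution is the
whole group. -/

set_option autoImplicit false
set_option maxRecDepth 100000

namespace Cfsg.Agent.Lib.J4E

open Subgroup Cfsg.Agent.Lib.PermNet Cfsg.Agent.Lib.Words Cfsg.Agent.Lib.PermGroup
  Cfsg.Agent.Lib.DCE Cfsg.Agent.Lib.J4L
open Cfsg.Agent.Lib.Co1E (cj mem_cj card_cj isConj_conj)

theorem typ {a : Spor.J4} (ha : a ∈ A) : a = 1 ∨ (∃ s ∈ S, s * L 18 * s⁻¹ = a) ∨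
    ∃ s ∈ S, s * a * s⁻¹ = ee 31 := by
  obtain ⟨p, hp, rfl⟩ := ee_surj ha
  rcases p.eq_zero_or_pos with rfl | h0
  · exact .inl rfl
  obtain ⟨s, hs, h | h⟩ := trans p hp h0
  · exact .inr (.inr ⟨s, hs, h.1⟩)
  · exact .inr (.inl ⟨s⁻¹, inv_mem hs, by rw [← ez, ← h.1]; group⟩)

theorem okp_of {p : ℕ} (hp : p < 2048) (h : ¬ IsConj (L 18) (ee p)) : okp p = true := by
  rcases p.eq_zero_or_pos with rfl | h0
  · rfl
  obtain ⟨s, -, e | e⟩ := trans p hp h0
  · rw [okp, e.2]; cases Nat.beq p 0 <;> rfl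
  · exact absurd (isConj_iff.2 ⟨s, e.1.trans ez⟩).symm h

theorem card_le_of {W : Subgroup Spor.J4} (T : Finset ℕ) (h : ∀ w ∈ W, ∃ p ∈ T, ee p = w) :
    Nat.card W ≤ T.card := by
  classical
  rw [← Nat.card_eq_finsetCard]
  exact Nat.card_le_card_of_surjective (fun p : T => if h : ee p ∈ W then (⟨_, h⟩ : W) else 1) fun w => by
    obtain ⟨p, hp, e⟩ := h w w.2
    exact ⟨⟨p, hp⟩, by simp only []; rw [dif_pos (e ▸ w.2)]; exact Subtype.ext e⟩

theorem free {W : Subgroup Spor.J4} (hW : W ≤ A) (h : ∀ w ∈ W, ¬ IsConj (L 18) w) : Nat.card W ≤ 24 := by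
  rcases eq_or_ne W ⊥ with rfl | hn
  · simp
  obtain ⟨⟨a, ha⟩, a1⟩ := ne_bot_iff_exists_ne_one.1 hn
  rcases typ (hW ha) with e | ⟨s, -, e⟩ | ⟨s, hs, e⟩
  · exact absurd (Subtype.ext e) a1
  · exact absurd (isConj_iff.2 ⟨s, e⟩) (h a ha)
  rw [← card_cj W s]
  have h1 : ee 31 ∈ cj W s := mem_cj.2 (by rw [← e]; simpa [mul_assoc] using ha)
  have h2 : cj W s ≤ A := fun x hx => by
    have := (mem_normalizer_iff.1 (nS hs) _).1 (hW (mem_cj.1 hx))
    simpa [mul_assoc] using this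
  have h3 : ∀ p < 2048, ee p ∈ cj W s → okp p = true := fun p hp hx => okp_of hp fun c =>
    h _ (mem_cj.1 hx) (by simpa using isConj_conj s⁻¹ c)
  generalize cj W s = V at *
  by_cases hq : ∃ q < 2048, ee q ∈ V ∧ q ≠ 0 ∧ q ≠ 31
  · obtain ⟨q, q1, q2, q3, q4⟩ := hq
    have b : ∀ p, p ≠ 0 → okp p = true → bt TB p = true := fun p hp h => by
      rw [okp] at h
      cases e : Nat.beq p 0
      · rwa [e] at h
      · exact absurd (beq_eq e) hp
    have h4 := allR_all free_ok q q.zero_le (by omega)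
    rw [b q q3 (h3 q q1 q2), show bt TB (Nat.xor q 31) = true from b _ (fun e => q4 (Nat.eq_of_xor_eq_zero e))
      (h3 _ (xl q1 (by decide)) (ee_xor _ _ ▸ mul_mem q2 h1))] at h4
    refine (card_le_of {0, 31, q, q ^^^ 31} fun w hw => ?_).trans (Finset.card_le_four.trans (by decide))
    obtain ⟨r, hr, rfl⟩ := ee_surj (h2 hw)
    have h5 := allR_all h4 r r.zero_le (by omega)
    rw [h3 r hr hw, show okp (Nat.xor r 31) = true from h3 _ (xl hr (by decide)) (ee_xor _ _ ▸ mul_mem hw h1),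
      show okp (Nat.xor r q) = true from h3 _ (xl hr q1) (ee_xor _ _ ▸ mul_mem hw q2),
      show okp (Nat.xor (Nat.xor r q) 31) = true from h3 _ (xl (xl hr q1) (by decide))
        (show ee ((r ^^^ q) ^^^ 31) ∈ V by rw [ee_xor, ee_xor]; exact mul_mem (mul_mem hw q2) h1)] at h5
    refine ⟨r, ?_, rfl⟩
    simp only [Finset.mem_insert, Finset.mem_singleton]
    cases e1 : Nat.beq r 0
    · cases e2 : Nat.beq r 31
      · cases e3 : Nat.beq r q
        · rw [e1, e2, e3] at h5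
          exact .inr (.inr (.inr (beq_eq h5)))
        · exact .inr (.inr (.inl (beq_eq e3)))
      · exact .inr (.inl (beq_eq e2))
    · exact .inl (beq_eq e1)
  · refine (card_le_of {0, 31} fun w hw => ?_).trans (by decide)
    obtain ⟨r, hr, rfl⟩ := ee_surj (h2 hw)
    refine ⟨r, by_contra fun hn => hq ⟨r, hr, hw, ?_⟩, rfl⟩
    simpa using hn

theorem inv (hH : Nat.card (centralizer ({L 18} : Set Spor.J4)) = 21799895040)
    (cls : ∀ v : Spor.J4, v * v = 1 → v * L 18 = L 18 * v →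
      v = 1 ∨ ∃ k, ∃ u ∈ repW, k * v * k⁻¹ = wval L u ∨ k * v * k⁻¹ = L 18 * wval L u)
    {v : Spor.J4} (hv : v * v = 1) : ∃ m, m * v * m⁻¹ ∈ A := by
  obtain ⟨m, -, hm⟩ := BT.conj_into (M := ⊤) (H := centralizer {L 18}) (p := 2) (k := 1) Nat.prime_two
    (by
      have := (centralizer ({L 18} : Set Spor.J4)).index_mul_card
      rw [hH, J4A.card_eq] at this
      rw [relIndex_top_right]; omega)
    (P := zpowers v) le_top (by
      rintro _ ⟨n, rfl⟩
      rw [pow_one, ← zpow_natCast, ← zpow_mul, mul_comm, zpow_mul, zpow_natCast, sq, hv, one_zpow])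
  have h1 := mem_centralizer_singleton_iff.1 (hm v (mem_zpowers v))
  have h2 : m * v * m⁻¹ * (m * v * m⁻¹) = 1 := by rw [conj_mul, hv]; simp
  rcases cls _ h2 h1 with e | ⟨k, u, hu, e⟩
  · exact ⟨m, e ▸ one_mem _⟩
  obtain ⟨w, e, hw⟩ : ∃ w, k * (m * v * m⁻¹) * k⁻¹ = wval L w ∧ (w ∈ CR.map Prod.fst ∨
      w ++ w ++ invW [36] ∈ [[12, 14, 18, 22, 8] ++ [12, 14, 18, 22, 8] ++ invW [36],
        [36, 12, 14, 18, 22, 8] ++ [36, 12, 14, 18, 22, 8] ++ invW [36]]) := by
    rcases e with e | e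
    · exact ⟨u, e, by clear e; revert u; decide⟩
    · exact ⟨[2 * 18] ++ u, by rw [wval_append, wval_single, e], by clear e; revert u; decide⟩
  rcases hw with hw | hw
  · obtain ⟨c, hc, rfl⟩ := List.mem_map.1 hw
    exact ⟨wval L c.2.1 * k * m, by
      have := crep c hc ▸ ee_mem c.2.2
      rw [← e] at this
      simpa only [mul_inv_rev, mul_assoc] using this⟩
  · have := rel _ relB _ hw
    rw [wval_append, wval_append, wval_invW, ← e, conj_mul, h2, mul_one, mul_inv_cancel, one_mul,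
      inv_eq_one] at this
    exact absurd ((wval_single L 18).symm.trans this) z_ne

theorem idxS : 1771 ≤ (centralizer {L 18}).relIndex (gp L [[40], [42], [8]]) := by
  have h1 := popI_eq TZ 2048 0
  rw [tz_card, zero_add] at h1
  have h2 : ∀ p : (Finset.range 2048).filter fun p => TZ.testBit p = true,
      ∃ s : S, s * L 18 * (s : Spor.J4)⁻¹ = ee p := fun p => by
    obtain ⟨p1, p2⟩ := Finset.mem_filter.1 p.2
    have := allR_all tz_ok p (Nat.zero_le _) (by simpa using p1)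
    rw [p2] at this
    obtain ⟨s, hs, e | e⟩ := trans p (Finset.mem_range.1 p1) (blt_lt (band_eq this).1)
    · have := (band_eq this).2
      rw [e.2] at this; cases this
    · exact ⟨⟨s⁻¹, inv_mem hs⟩, by rw [← ez, ← e.1]; simp [mul_assoc]⟩
  choose s hs using h2
  rw [h1, ← Nat.card_eq_finsetCard]
  refine Nat.card_le_card_of_injective
    (fun p => (s p : S ⧸ (centralizer {L 18}).subgroupOf S)) fun p q e => Subtype.ext (ee_inj
      (Finset.mem_range.1 (Finset.mem_filter.1 p.2).1) (Finset.mem_range.1 (Finset.mem_filter.1 q.2).1) ?_)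
  have := mem_centralizer_singleton_iff.1 (mem_subgroupOf.1 (QuotientGroup.eq.1 e))
  rw [← hs p, ← hs q, mul_inv_eq_iff_eq_mul]
  simp only [coe_mul, coe_inv] at this
  calc _ = s p * (L 18 * ((s p : Spor.J4)⁻¹ * s q)) * ((s q : Spor.J4)⁻¹ * s p) := by group
    _ = _ := by rw [← this]; group

theorem top {G : Type*} [Group G] [Finite G] (ι : Spor.J4 →* G) (hι : Function.Injective ι)
    (hC : centralizer {ι (L 18)} ≤ ι.range)
    (hH : Nat.card (centralizer ({ι (L 18)} : Set G)) = 21799895040)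
    (nb : ¬ IsConj (ι (L 18)) (ι (L 7)))
    (cls : ∀ v : Spor.J4, v * v = 1 → v * L 18 = L 18 * v →
      v = 1 ∨ ∃ k, ∃ u ∈ repW, k * v * k⁻¹ = wval L u ∨ k * v * k⁻¹ = L 18 * wval L u) :
    ι.range = ⊤ ∧ ∀ v : Spor.J4, v * v = 1 → v = 1 ∨ IsConj (L 18) v ∨ IsConj (L 7) v := by
  have hH' : Nat.card (centralizer ({L 18} : Set Spor.J4)) = 21799895040 := by
    rw [← hH, ← card_map_of_injective hι, eq_comm]
    congr 2
    refine le_antisymm (fun g hg => ?_) ?_
    · obtain ⟨m, rfl⟩ := hC hg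
      exact ⟨m, mem_centralizer_singleton_iff.2 (hι (by
        simpa using mem_centralizer_singleton_iff.1 hg)), rfl⟩
    · rintro _ ⟨m, hm, rfl⟩
      exact mem_centralizer_singleton_iff.2 (by
        rw [← map_mul, mem_centralizer_singleton_iff.1 hm, map_mul])
  have nb' : ¬ IsConj (ι (L 18)) (ι (ee 31)) := fun e => nb (e.trans (ι.map_isConj cb).symm)
  refine ⟨Hy.eq_top (z := ι (L 18)) (A := A.map ι) (S := S.map ι)
    ⟨by rw [← map_mul, ← ez, sqA (ee_mem _), map_one],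
    fun g hg => hC (mem_centralizer_singleton_iff.2 hg), map_le_range _ _, ?_,
    (card_map_of_injective hι).trans cardA, ?_, fun W hW h => ?_, ?_,
    (map_mono nS).trans (le_normalizer_map ι), (card_map_of_injective hι).trans cardS⟩
    ⟨_, ee_mem 31, rfl⟩ (fun e => b_ne (hι (e.trans ι.map_one.symm))) nb', fun v hv => ?_⟩
  · rintro _ ⟨a, ha, rfl⟩; rw [← map_mul, sqA ha, map_one]
  · rintro _ ⟨a, ha, rfl⟩
    rcases typ ha with e | ⟨m, -, e⟩ | ⟨s, hs, e⟩
    · exact .inl (by rw [e, map_one])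
    · exact .inr (.inl ⟨ι m, ⟨m, rfl⟩, by simp [← e]⟩)
    · refine .inr (.inr ⟨?_, fun c => nb' (c.trans (ι.map_isConj (isConj_iff.2 ⟨s, e⟩)))⟩)
      rintro _ ⟨m, rfl⟩ c
      have c' : m * a = a * m := hι (by simpa using c)
      have := cenB (c := s * m * s⁻¹) (by rw [← e, conj_mul, conj_mul, c'])
      exact ⟨m, by simpa [mul_assoc] using mul_mem (mul_mem (inv_mem hs) this) hs, rfl⟩
  · rw [← map_comap_eq_self (hW.trans (map_le_range _ _)), card_map_of_injective hι]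
    exact free ((comap_mono hW).trans (comap_map_eq_self_of_injective hι A).le)
      fun w hw e => h _ hw (ι.map_isConj e)
  · rintro _ ⟨v, rfl⟩ e
    obtain ⟨m, h⟩ := inv hH' cls (v := v) (hι (by simpa using e))
    exact ⟨ι m, ⟨m, rfl⟩, _, h, by simp⟩
  · obtain ⟨m, h⟩ := inv hH' cls hv
    have c : IsConj (m * v * m⁻¹) v := (isConj_iff.2 ⟨m, rfl⟩).symm
    rcases typ h with e | ⟨s, -, e⟩ | ⟨s, -, e⟩
    · exact .inl (conj_eq_one_iff.1 e)
    · exact .inr (.inl ((isConj_iff.2 ⟨s, e⟩).trans c))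
    · exact .inr (.inr ((cb.trans (isConj_iff.2 ⟨s, e⟩).symm).trans c))

end Cfsg.Agent.Lib.J4E
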