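import Cfsg.Agent.Lib.Co1E1

/-! A subgroup with the local structure of the fourth Janko group is the whole group. -/

set_option autoImplicit false

namespace Cfsg.Agent.Lib.J4E

open Subgroup
open Cfsg.Agent.Lib.Co1E (cj mem_cj card_cj mem1 cj_inf cj_cj conj_mem_cj isConj_conj card_le_sq Mx)

variable {G : Type*} [Group G] {z : G} {M A S : Subgroup G}

/-- The facts that are used. -/
structure Hy (z : G) (M A S : Subgroup G) : Prop where
  zz : z * z = 1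
  hC : ∀ g, g * z = z * g → g ∈ M
  le : A ≤ M
  sq : ∀ a ∈ A, a * a = 1
  card : Nat.card A = 2048
  typ : ∀ a ∈ A, a = 1 ∨ (∃ m ∈ M, m * z * m⁻¹ = a) ∨
    (∀ m ∈ M, m * a = a * m → m ∈ S) ∧ ¬ IsConj z a
  free : ∀ W ≤ A, (∀ w ∈ W, ¬ IsConj z w) → Nat.card W ≤ 24
  inv : ∀ v ∈ M, v * v = 1 → ∃ m ∈ M, m * v * m⁻¹ ∈ A
  nS : S ≤ normalizer (A : Set G)
  cS : Nat.card S = 501397585920

variable (H : Hy z M A S)
include H

namespace Hy

theorem fuse {v : G} (hv : v ∈ M) (h : IsConj z v) : ∃ m ∈ M, m * z * m⁻¹ = v := by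
  obtain ⟨m, hm, ha⟩ := H.inv v hv (InvolCount.sq_of_isConj H.zz h)
  rcases H.typ _ ha with e | ⟨k, hk, e⟩ | ⟨-, e⟩
  · rw [conj_eq_one_iff.1 e] at h ⊢
    exact ⟨1, one_mem _, by simp [isConj_one_left.1 h]⟩
  · exact ⟨_, mul_mem (inv_mem hm) hk, by
      rw [mul_assoc m⁻¹, mul_inv_rev, ← mul_assoc, mul_assoc m⁻¹, e]; group⟩
  · exact absurd (isConj_conj m h) e

/-- A conjugate of `z` fixes at most one coset. -/
theorem uniq {s g h : G} (hs : IsConj z s) (h1 : g⁻¹ * s * g ∈ M) (h2 : h⁻¹ * s * h ∈ M) :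
    g⁻¹ * h ∈ M := by
  obtain ⟨m, hm, e⟩ := H.fuse h1 (by simpa using isConj_conj g⁻¹ hs)
  obtain ⟨n, hn, e'⟩ := H.fuse h2 (by simpa using isConj_conj h⁻¹ hs)
  have := H.hC ((g * m)⁻¹ * (h * n)) (by
    calc _ = (g * m)⁻¹ * h * (n * z * n⁻¹) * n := by group
      _ = m⁻¹ * (g⁻¹ * s * g) * g⁻¹ * h * n := by rw [e']; group
      _ = _ := by rw [← e]; group)
  simpa [mul_assoc] using mul_mem (mul_mem hm this) (inv_mem hn)

theorem sq' {g a : G} (h : a ∈ cj A g) : a * a = 1 := by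
  have := H.sq _ (mem_cj.1 h)
  rwa [← inv_inv g, inv_inv g⁻¹, conj_mul, conj_eq_one_iff] at this

theorem comm {g a c : G} (ha : a ∈ cj A g) (hc : c ∈ cj A g) : a * c = c * a := by
  rw [← inv_eq_of_mul_eq_one_right (H.sq' (mul_mem ha hc)), mul_inv_rev,
    inv_eq_of_mul_eq_one_right (H.sq' ha), inv_eq_of_mul_eq_one_right (H.sq' hc)]

theorem free' {g : G} {W : Subgroup G} (h : W ≤ cj A g) (h1 : ∀ w ∈ W, ¬ IsConj z w) :
    Nat.card W ≤ 24 := by
  rw [← card_cj W g⁻¹]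
  exact H.free _ (fun x hx => by simpa [mem_cj, mul_assoc] using h (mem_cj.1 hx)) fun w hw e =>
    h1 _ (mem_cj.1 hw) (by simpa using isConj_conj g e)

theorem norm {g t m : G} (ht : t ∈ cj A g) (t1 : t ≠ 1) (t2 : ¬ IsConj z t) (hm : g⁻¹ * m * g ∈ M)
    (e : m * t = t * m) {x : G} : x ∈ cj A g ↔ m * x * m⁻¹ ∈ cj A g := by
  rcases H.typ _ (mem_cj.1 ht) with e1 | ⟨k, -, e1⟩ | ⟨h, -⟩
  · rw [← inv_inv g, inv_inv g⁻¹, conj_eq_one_iff] at e1
    exact absurd e1 t1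
  · exact absurd (isConj_iff.2 ⟨g * k, by
      rw [mul_assoc g, mul_inv_rev, ← mul_assoc, mul_assoc g, e1]; group⟩) t2
  · have := mem_normalizer_iff.1 (H.nS <| h _ hm (by
      calc _ = g⁻¹ * (m * t) * g := by group
        _ = _ := by rw [e]; group)) (g⁻¹ * x * g)
    rw [mem_cj, mem_cj, this]
    simp [mul_assoc]

end Hy

variable [Finite G] {W : Subgroup G} {t : G} (X : Mx z M A W t)
include X

theorem three {g h b : G} (hn : g⁻¹ * h ∉ M) (h1 : W ≤ cj A g) (h2 : W ≤ cj A h)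
    (hb : b ∈ cj A h) (b1 : g⁻¹ * b * g ∈ M) : b ∈ W := by_contra fun b2 => by
  have h3 := card_le_sq (B := cj A g) (fun _ => H.sq') (H.sq' hb) fun a =>
    (H.norm (h1 X.t0) X.t1 (X.fr _ X.t0) b1 (H.comm hb (h2 X.t0))).1
  have h4 := H.free' (W := cj A g ⊓ centralizer {b}) inf_le_left fun q hq e => hn (H.uniq e
    (H.le (mem_cj.1 hq.1)) (by
      rw [mul_assoc]
      exact X.fix h2 hb b2 (fun w hw => H.comm hq.1 (h1 hw)) hb (by
        rw [mem_centralizer_singleton_iff.1 hq.2]; simp [one_mem])))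
  rw [card_cj, H.card] at h3
  nlinarith

theorem odd {y a b : G} (hy : y ∉ M) (hW : W ≤ A) (cy : ∀ w ∈ W, y * w = w * y) (ha : a ∈ A)
    (a1 : a ∉ W) (hb : b ∈ cj A y) (b1 : b ∉ W) :
    ∃ k, (∀ w ∈ W, k * w = w * k) ∧ a⁻¹ * (k * b * k⁻¹) ∈ W := by
  classical
  have W1 : W ≤ cj A 1 := fun _ h => mem1.2 (hW h)
  have cW : ∀ y, (∀ w ∈ W, y * w = w * y) → W ≤ cj A y := fun y cy w hw => by
    rw [mem_cj, mul_assoc, ← cy w hw, inv_mul_cancel_left]; exact hW hw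
  have ha' : a ∈ cj A 1 := mem1.2 ha
  have aa : a ^ 2 = 1 := (sq a).trans (H.sq a ha)
  have bb : b ^ 2 = 1 := (sq b).trans (H.sq' hb)
  have ca : ∀ w ∈ W, a * w = w * a := fun w hw => H.comm ha' (W1 hw)
  have cb : ∀ w ∈ W, b * w = w * b := fun w hw => H.comm hb (cW y cy hw)
  have cx : ∀ k ∈ zpowers (a * b), ∀ w ∈ W, k * w = w * k := fun k hk w hw =>
    mem_centralizer_singleton_iff.1 (zpowers_le.2 (mul_mem (mem_centralizer_singleton_iff.2 (ca w hw))
      (mem_centralizer_singleton_iff.2 (cb w hw))) hk)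
  have ex : ∃ n, 0 < n ∧ (a * b) ^ n ∈ W := ⟨_, orderOf_pos _, by
    rw [pow_orderOf_eq_one]; exact one_mem _⟩
  obtain ⟨n0, n1⟩ := Nat.find_spec ex
  obtain ⟨j, e | e⟩ := (Nat.find ex).even_or_odd'
  · exfalso
    have s1 : (a * b) ^ j ∉ W := fun h => Nat.find_min ex (m := j) (by omega) ⟨by omega, h⟩
    rw [e, two_mul, pow_add] at n1
    have s0 := npow_mem_zpowers (a * b) j
    have ia : a * (a * b) ^ j * a⁻¹ = ((a * b) ^ j)⁻¹ := by
      rw [← conj_pow, ← inv_pow, mul_inv_rev, inv_eq_of_mul_eq_one_right (H.sq' hb), ← mul_assoc a,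
        H.sq a ha, one_mul]
    have ib : b * (a * b) ^ j * b⁻¹ = ((a * b) ^ j)⁻¹ := by
      rw [← conj_pow, ← inv_pow, mul_inv_rev, ← mul_assoc b, mul_inv_cancel_right,
        inv_eq_of_mul_eq_one_right (H.sq' hb), inv_eq_of_mul_eq_one_right (H.sq a ha)]
    obtain ⟨k, hk, e1⟩ := ZStar.dihedral aa bb s0
    have cs := cx _ s0
    generalize (a * b) ^ j = s at *
    have fin : ∀ x ∈ A, x ∉ W → x⁻¹ * (b * x * b⁻¹) ∉ W := fun x hx x1 e => b1 (three H X
      (g := 1) (by simpa using hy) W1 (cW y cy) hb (by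
        simpa using X.fix W1 (mem1.2 hx) x1 cb (mem1.2 hx) e))
    have sM : s ∈ M := by
      simpa using X.fix W1 ha' a1 cs ha' (by
        rw [← mul_assoc, ← mul_assoc, show a⁻¹ * s * a = s⁻¹ by
          rw [← ia, inv_eq_of_mul_eq_one_right (H.sq a ha)], ← mul_inv_rev]
        exact inv_mem n1)
    obtain ⟨y', c1, c2⟩ : ∃ y', (∀ w ∈ W, y' * w = w * y') ∧ s * a ∈ cj A y' := by
      rcases e1 with e1 | e1 <;> rw [e1]
      · exact ⟨k, cx k hk, by simpa using conj_mem_cj (k := k) ha'⟩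
      · exact ⟨k * y, fun w hw => by rw [mul_assoc, cy w hw, ← mul_assoc, cx k hk w hw, mul_assoc],
          conj_mem_cj hb⟩
    have sA : s ∈ A := by
      have : s * a ∈ A := by
        by_cases hy' : y' ∈ M
        · have := (H.norm (W1 X.t0) X.t1 (X.fr _ X.t0) (m := y') (by simpa using hy') (c1 _ X.t0)
            (x := y'⁻¹ * (s * a) * y')).1 (mem1.2 (mem_cj.1 c2))
          simpa [mem1, mul_assoc] using this
        · exact hW (three H X (g := 1) (by simpa using hy') W1 (cW y' c1) c2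
            (by simpa using mul_mem sM (H.le ha)))
      simpa using mul_mem this (inv_mem ha)
    exact fin s sA s1 (by rw [ib, ← mul_inv_rev]; exact inv_mem n1)
  · refine ⟨(a * b) ^ (j + 1), cx _ (npow_mem_zpowers _ _), ?_⟩
    have := ZStar.conj_zpow_mul' aa bb ((j + 1 : ℕ) : ℤ)
    rw [show 2 * ((j + 1 : ℕ) : ℤ) - 1 = (2 * j + 1 : ℕ) by push_cast; ring, zpow_natCast,
      zpow_natCast, ← e] at this
    rwa [this, ← ca _ n1, inv_mul_cancel_left]

omit X in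
/-- Conjugates of `A` that belong to different cosets intersect trivially. -/
theorem Hy.ti {g h a : G} (h1 : a ∈ cj A g) (h2 : a ∈ cj A h) (a1 : a ≠ 1) : g⁻¹ * h ∈ M := by
  by_contra hn
  obtain ⟨⟨y0, hy0⟩, hm⟩ := @Finite.exists_max {y : G // y ∉ M} ℕ _ ⟨⟨_, hn⟩⟩ _
    fun y => Nat.card ↥(A ⊓ cj A y)
  have mx : ∀ g h, g⁻¹ * h ∉ M → Nat.card ↥(cj A g ⊓ cj A h) ≤ Nat.card ↥(A ⊓ cj A y0) :=
    fun g h hn => by
      have := hm ⟨_, hn⟩
      rwa [← card_cj _ g, cj_inf, cj_cj, mul_inv_cancel_left] at this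
  have fr : ∀ w ∈ A ⊓ cj A y0, ¬ IsConj z w := fun w hw e => hy0 (by
    simpa using H.uniq (g := 1) e (by simpa using H.le hw.1) (H.le (mem_cj.1 hw.2)))
  have c24 := H.free _ inf_le_left fr
  have c2 : 1 < Nat.card ↥(A ⊓ cj A y0) := lt_of_lt_of_le (Finite.one_lt_card_iff_nontrivial.2
    ⟨⟨a, h1, h2⟩, 1, fun e => a1 (congrArg Subtype.val e)⟩) (mx g h hn)
  obtain ⟨⟨t, t0⟩, t1⟩ := @exists_ne _ (Finite.one_lt_card_iff_nontrivial.1 c2) 1
  have hW0 : A ⊓ cj A y0 ≤ cj A y0 := inf_le_right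
  have hW : A ⊓ cj A y0 ≤ A := inf_le_left
  have X : Mx z M A (A ⊓ cj A y0) t := ⟨t0, fun e => t1 (Subtype.ext e), fr, mx⟩
  generalize A ⊓ cj A y0 = W at *
  have W1 : W ≤ cj A 1 := fun _ h => mem1.2 (hW h)
  have out : ∀ g, ∃ b ∈ cj A g, b ∉ W := fun g => by_contra fun hb => by
    have := card_le_of_le (show cj A g ≤ W from fun b h => by_contra fun e => hb ⟨b, h, e⟩)
    rw [card_cj, H.card] at this; omega
  obtain ⟨y, y1, y2⟩ := out y0
  have yM : y ∉ M := fun e => y2 (three H X (g := 1) (by simpa using hy0) W1 hW0 y1 (by simpa using e))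
  have cy : ∀ w ∈ W, y * w = w * y := fun w hw => H.comm y1 (hW0 hw)
  obtain ⟨b, b1, b2⟩ := out y
  obtain ⟨a0, a2, a3⟩ := out 1
  have AY : A ≤ centralizer (W : Set G) := fun x hx w hw => H.comm (W1 hw) (mem1.2 hx)
  let Y := centralizer (W : Set G)
  have : (W.subgroupOf Y).Normal := ⟨fun w hw k => by
    rw [mem_subgroupOf, coe_mul, coe_mul, ← (k.2 _ hw : (w : G) * k = k * w), coe_inv,
      mul_inv_cancel_right]; exact hw⟩
  let q := QuotientGroup.mk' (W.subgroupOf Y)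
  let B := (A.subgroupOf Y).map q
  letI : MulAction (M.subgroupOf Y) (Y ⧸ W.subgroupOf Y) := MulAction.compHom _
    ((MulAut.conj.comp q).comp (M.subgroupOf Y).subtype)
  have act : ∀ (k : M.subgroupOf Y) (x : Y), k • q x = q (k * x * k⁻¹) := fun k x => rfl
  have orb : MulAction.orbit (M.subgroupOf Y) (q ⟨a0, AY (mem1.1 a2)⟩) = (B : Set _) \ {1} := by
    ext x
    constructor
    · rintro ⟨k, rfl⟩
      refine ⟨⟨_, ?_, (act k _).symm⟩, fun e => a3 ?_⟩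
      · exact mem1.1 ((H.norm (W1 X.t0) X.t1 (X.fr _ X.t0) (m := k.1.1)
          (by simpa using mem_subgroupOf.1 k.2) (k.1.2 _ X.t0).symm).1 a2)
      · have e : q (k * ⟨a0, _⟩ * k⁻¹) = 1 := e
        rw [map_mul, map_mul, coe_inv, map_inv, conj_eq_one_iff] at e
        exact (QuotientGroup.eq_one_iff (N := W.subgroupOf Y) _).1 e
    · rintro ⟨⟨x, hx, rfl⟩, x1⟩
      have x2 : x.1 ∉ W := fun e => x1 ((QuotientGroup.eq_one_iff _).2 e)
      obtain ⟨k, k1, k2⟩ := odd H X yM hW cy hx x2 b1 b2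
      obtain ⟨l, l1, l2⟩ := odd H X yM hW cy (mem1.1 a2) a3 b1 b2
      have c1 : ∀ w ∈ W, k * l⁻¹ * w = w * (k * l⁻¹) := fun w hw => by
        rw [mul_assoc, (show Commute l w from l1 w hw).inv_left.eq, ← mul_assoc, k1 w hw, mul_assoc]
      have c2 : x.1⁻¹ * (k * l⁻¹ * a0 * (k * l⁻¹)⁻¹) ∈ W := by
        have := mul_mem (show x.1⁻¹ * _ ∈ W from k2) (inv_mem l2)
        rw [← mul_inv_eq_iff_eq_mul.2 (c1 _ (inv_mem l2))] at this
        convert this using 1; group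
      refine ⟨⟨⟨k * l⁻¹, fun w hw => (c1 w hw).symm⟩, ?_⟩, ((act _ _).trans
        (QuotientGroup.eq.2 ?_).symm)⟩
      · simpa [mem_subgroupOf] using X.fix W1 (mem1.2 hx) x2 c1 a2 c2
      · exact c2
  have d1 : Nat.card B - 1 ∣ 501397585920 := by
    have := (MulAction.stabilizer (M.subgroupOf Y) (q ⟨a0, AY (mem1.1 a2)⟩)).index_dvd_card
    rw [MulAction.index_stabilizer, orb, Set.ncard_sdiff_singleton_of_mem (one_mem B)] at this
    refine (this.trans ?_).trans H.cS.dvd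
    rw [← inf_subgroupOf_right, Nat.card_congr (subgroupOfEquivOfLe inf_le_right).toEquiv]
    refine card_dvd_of_le fun k hk => ?_
    rcases H.typ t (hW X.t0) with e | ⟨m, -, e⟩ | ⟨e, -⟩
    · exact absurd e X.t1
    · exact absurd (isConj_iff.2 ⟨m, e⟩) (X.fr _ X.t0)
    · exact e k hk.1 (hk.2 t X.t0).symm
  have d2 : Nat.card W * Nat.card B = 2048 := by
    rw [← relIndex_ker, QuotientGroup.ker_mk', relIndex_subgroupOf AY, ← H.card,
      ← (W.subgroupOf A).card_mul_index, Nat.card_congr (subgroupOfEquivOfLe hW).toEquiv]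
    rfl
  generalize Nat.card W = m, Nat.card B = n at *
  have : n = 1024 ∨ n = 512 ∨ n = 256 ∨ n = 128 := by interval_cases m <;> omega
  rcases this with rfl | rfl | rfl | rfl <;> norm_num at d1

omit X in
theorem Hy.eq_top {b : G} (hb : b ∈ A) (b1 : b ≠ 1) (nb : ¬ IsConj z b) : M = ⊤ := by
  by_contra hM
  obtain ⟨g, hg⟩ : ∃ g, g ∉ M := by simpa [eq_top_iff'] using hM
  have bb : g * b * g⁻¹ * (g * b * g⁻¹) = 1 := by rw [conj_mul, H.sq b hb]; simp
  have ho : ¬ Odd (orderOf (z * (g * b * g⁻¹))) := fun ho => nb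
    ((isConj_iff.2 ⟨_, (InvolCount.exists_conj_of_odd H.zz bb ho).choose_spec⟩).trans
      (isConj_iff.2 ⟨g, rfl⟩).symm)
  obtain ⟨v, hv, v1, v2⟩ := InvolCount.exists_invol ho
  obtain ⟨c1, c2⟩ := InvolCount.comm_of_mem H.zz bb v1 hv
  have vM := H.hC v c1.symm
  have vg : g⁻¹ * v * g ∈ M := by
    have := H.ti (g := 1) (h := g⁻¹ * v * g) (mem1.2 hb) (mem_cj.2 (by
      have : (g⁻¹ * v * g)⁻¹ * b * (g⁻¹ * v * g) = b := by
        calc _ = g⁻¹ * v⁻¹ * (g * b * g⁻¹ * v) * g := by group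
          _ = _ := by rw [c2]; group
      rwa [this])) b1
    simpa using this
  obtain ⟨m, hm, e⟩ := H.inv v vM v1
  obtain ⟨k, hk, e'⟩ := H.inv _ vg (by rw [← inv_inv g, inv_inv g⁻¹, conj_mul, v1]; simp)
  have := H.ti (g := m⁻¹) (h := g * k⁻¹) (a := v) (mem_cj.2 (by simpa using e))
    (mem_cj.2 (by simpa [mul_assoc] using e')) v2
  exact hg (by simpa [mul_assoc] using mul_mem (mul_mem (inv_mem hm) this) hk)

end Cfsg.Agent.Lib.J4E
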