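import Cfsg.Agent.Lib.J4Defs

/-! Counting in an extraspecial group of order `2 ^ 13`. -/

set_option autoImplicit false

namespace Cfsg.Agent.Lib.J4Fq

open Subgroup Cfsg.Agent.Lib.J4Defs

variable {G : Type*} [Group G] {z : G} {Q : Subgroup G}

theorem zc (h : Hyp z Q) {a : G} (ha : a ∈ Q) : a * z = z * a := mem_centralizer_singleton_iff.1 (h.le ha)

open Classical in
noncomputable def χ (a b : G) : ℤ := if a * b = b * a then 1 else -1

theorem χ_mul (h : Hyp z Q) {a b c : G} (ha : a ∈ Q) (hb : b ∈ Q) (hc : c ∈ Q) :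
    χ a (b * c) = χ a b * χ a c := by
  have ne : ∀ x y : G, x = z * y → x ≠ y := fun x y e e' => h.ne (by simpa [e'] using e.symm)
  unfold χ
  rcases h.com a ha b hb with h1 | h1 <;> rcases h.com a ha c hc with h2 | h2
  · rw [if_pos h1, if_pos h2, if_pos (by rw [← mul_assoc, h1, mul_assoc, h2, mul_assoc])]; rfl
  · rw [if_pos h1, if_neg (ne _ _ h2), if_neg (ne _ _ (by
      rw [← mul_assoc, h1, mul_assoc, h2, ← mul_assoc, zc h hb]; group))]; rfl
  · rw [if_neg (ne _ _ h1), if_pos h2, if_neg (ne _ _ (by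
      rw [← mul_assoc, h1, mul_assoc, mul_assoc, h2]; group))]; rfl
  · rw [if_neg (ne _ _ h1), if_neg (ne _ _ h2), if_pos (by
      rw [← mul_assoc, h1, mul_assoc, mul_assoc, h2, ← mul_assoc b, zc h hb, ← mul_assoc, ← mul_assoc,
        ← mul_assoc, h.zz]; group)]; rfl

theorem dbl [Finite G] (h : Hyp z Q) {A B : Subgroup G} [Fintype A] [Fintype B] (hA : A ≤ Q) (hB : B ≤ Q) :
    ∑ a : A, ∑ b : B, χ (a : G) b = Nat.card ↥(A ⊓ centralizer (B : Set G)) * Nat.card B := by
  classical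
  have e : ∀ a : A, ∑ b : B, χ (a : G) b = if (a : G) ∈ centralizer (B : Set G) then (Nat.card B : ℤ) else 0 :=
    fun a => by
      let f : B →* ℤ := ⟨⟨fun b => χ (a : G) b, by simp [χ]⟩, fun b c => χ_mul h (hA a.2) (hB b.2) (hB c.2)⟩
      split_ifs with h1
      · rw [Finset.sum_congr rfl fun (b : B) _ => show χ (a : G) b = 1 from if_pos (h1 b b.2).symm]
        simp
      · refine sum_hom_units_eq_zero f fun h2 => h1 fun b hb => ?_
        by_contra h3
        exact absurd ((if_neg fun e => h3 e.symm).symm.trans (DFunLike.congr_fun h2 ⟨b, hb⟩)) (by simp)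
  rw [Finset.sum_congr rfl fun a _ => e a, ← Finset.sum_filter, Finset.sum_const, nsmul_eq_mul,
    ← Fintype.card_subtype, ← Nat.card_eq_fintype_card]
  congr 2
  exact Nat.card_congr ⟨fun x => ⟨x.1.1, x.1.2, x.2⟩, fun x => ⟨⟨x.1, x.2.1⟩, x.2.2⟩, fun _ => rfl, fun _ => rfl⟩

theorem CS [Finite G] (h : Hyp z Q) {A : Subgroup G} (hA : A ≤ Q) :
    Nat.card A * Nat.card ↥(Q ⊓ centralizer (A : Set G)) = Nat.card ↥(A ⊓ zpowers z) * 8192 := by
  classical
  letI := Fintype.ofFinite A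
  letI := Fintype.ofFinite Q
  have h1 := dbl h hA le_rfl
  have h2 := dbl h le_rfl hA
  rw [Finset.sum_comm, Finset.sum_congr rfl fun (a : A) _ => Finset.sum_congr rfl fun (b : Q) _ =>
    show χ (b : G) a = χ (a : G) b from if_congr eq_comm rfl rfl, h1, h.cQ] at h2
  rw [show A ⊓ zpowers z = A ⊓ centralizer (Q : Set G) from le_antisymm
    (inf_le_inf_left _ (zpowers_le.2 fun a ha => zc h ha)) fun a ha => ⟨ha.1, by
      rcases h.cen a (h.le (hA ha.1)) fun q hq => (ha.2 q hq).symm with e | e <;> rw [e]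
      exacts [one_mem _, mem_zpowers z]⟩, mul_comm]
  exact_mod_cast h2.symm

theorem cardZ [Finite G] (h : Hyp z Q) : Nat.card (zpowers z) = 2 := by
  rw [Nat.card_zpowers, orderOf_eq_prime (by rw [sq, h.zz]) h.ne]

theorem AB [Finite G] (h : Hyp z Q) {A : Subgroup G} (hA : A ≤ Q) (hc : ∀ a ∈ A, ∀ b ∈ A, a * b = b * a) :
    Nat.card A ≤ 128 := by
  have h1 := CS h hA
  have h2 := card_le_of_le (show A ≤ Q ⊓ centralizer (A : Set G) from fun a ha => ⟨hA ha, fun b hb => hc b hb a ha⟩)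
  have h3 := card_le_of_le (inf_le_right : A ⊓ zpowers z ≤ _)
  rw [cardZ h] at h3
  nlinarith

theorem memZ (h : Hyp z Q) {a : G} (ha : a ∈ zpowers z) : a = 1 ∨ a = z := by
  obtain ⟨k, rfl⟩ := ha
  have e : z ^ (2 : ℤ) = 1 := by rw [zpow_two, h.zz]
  rcases Int.emod_two_eq_zero_or_one k with e' | e'
  · left; change z ^ k = 1; rw [← Int.emod_add_mul_ediv k 2, zpow_add, zpow_mul, e, e']; simp
  · right; change z ^ k = z; rw [← Int.emod_add_mul_ediv k 2, zpow_add, zpow_mul, e, e']; simp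

theorem cardC [Finite G] (h : Hyp z Q) {j : G} (hj : j ∈ Q) (jj : j * j = 1) (h1 : j ≠ 1) (h2 : j ≠ z) :
    Nat.card ↥(Q ⊓ centralizer {j}) = 4096 := by
  have e := CS h (zpowers_le.2 hj)
  have o : orderOf j = 2 := orderOf_eq_prime (by rw [sq, jj]) h1
  rw [Nat.card_zpowers, o, show zpowers j ⊓ zpowers z = ⊥ from eq_bot_iff.2 fun a ha => (memZ h ha.2).resolve_right
    fun e => by
      obtain ⟨k, hk⟩ := ha.1
      have e2 : j ^ (2 : ℤ) = 1 := by rw [zpow_two, jj]
      change j ^ k = a at hk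
      rw [← Int.emod_add_mul_ediv k 2, zpow_add, zpow_mul, e2, e] at hk
      rcases Int.emod_two_eq_zero_or_one k with e' | e' <;> rw [e'] at hk
      exacts [h.ne (by simpa using hk.symm), h2 (by simpa using hk)],
    zpowers_eq_closure, centralizer_closure, card_bot] at e
  omega

theorem cover {A B : Subgroup G} [Finite A] (T : Finset G) (h : ∀ b ∈ B, ∃ t ∈ T, b * t ∈ A) :
    Nat.card B ≤ T.card * Nat.card A := by
  choose t t1 t2 using h
  simpa using Nat.card_le_card_of_injective (fun b : B => ((⟨_, t1 b b.2⟩, ⟨_, t2 b b.2⟩) : T × A)) fun a b e => by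
    have e1 : t a a.2 = t b b.2 := congrArg (fun x : T × A => x.1.1) e
    have e2 : a.1 * t a a.2 = b.1 * t b b.2 := congrArg (fun x : T × A => x.2.1) e
    exact Subtype.ext (mul_right_cancel (e1 ▸ e2))

theorem mc (e : G ≃* G) {g : G} : e g ∈ centralizer {e z} ↔ g ∈ centralizer ({z} : Set G) := by
  rw [mem_centralizer_singleton_iff, mem_centralizer_singleton_iff, ← map_mul, ← map_mul, e.apply_eq_iff_eq]

theorem sq_or (h : Hyp z Q) {a : G} (ha : a ∈ Q) : a * a = 1 ∨ a * a = z :=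
  h.cen _ (h.le (mul_mem ha ha)) fun q hq => by
    rcases h.com a ha q hq with e | e
    · rw [mul_assoc, e, ← mul_assoc, e, mul_assoc]
    · rw [mul_assoc, e, ← mul_assoc, zc h ha, mul_assoc z, ← mul_assoc a, e, ← mul_assoc z,
        ← mul_assoc z, h.zz, one_mul, mul_assoc]

theorem cm (h : Hyp z Q) {x a b : G} (hx : x ∈ Q) (ha : a ∈ Q) (hb : b ∈ Q) :
    x * (a * b) = a * b * x ↔ (x * a = a * x ↔ x * b = b * x) := by
  have := χ_mul h hx ha hb
  unfold χ at this
  split_ifs at this <;> simp_all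

theorem anti (h : Hyp z Q) {a b : G} (ha : a ∈ Q) (hb : b ∈ Q) (e : a * b ≠ b * a) : a * b * a⁻¹ = z * b := by
  rw [(h.com a ha b hb).resolve_left e]; group

theorem exists_anti (h : Hyp z Q) {a : G} (ha : a ∈ Q) (h1 : a ≠ 1) (h2 : a ≠ z) : ∃ r ∈ Q, r * a ≠ a * r := by
  by_contra! hn
  exact (h.cen a (h.le ha) fun q hq => (hn q hq).symm).elim h1 h2

end Cfsg.Agent.Lib.J4Fq
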