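import Cfsg.Agent.Lib.J4LD
import Cfsg.Agent.Lib.J4A
import Cfsg.Agent.Lib.BT5

/-! Named elements of the fourth Janko group, and the word problem for them. -/

set_option autoImplicit false
set_option maxRecDepth 100000

namespace Cfsg.Agent.Lib.J4L

open Cfsg.Agent.Lib.PermNet Cfsg.Agent.Lib.Words Cfsg.Agent.Lib.MatRep Cfsg.Agent.Lib.J4Base Cfsg.Agent.Lib.J4A0

/-- The letters. -/
noncomputable def L (i : ℕ) : Spor.J4 := Function.invFun phi (gen RepJ4.c ms i)

theorem gen_eq (i j : ℕ) (hi : i < 34) (hj : j < 3) (h : getW ms (2 * i) = getW RepJ4.ms (2 * j)) :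
    gen RepJ4.c ms i = phi (y j) := by
  rw [exists_phi.choose_spec j hj |> (id : phi (y j) = RepJ4.f j → _), ← wval_single (gen RepJ4.c ms),
    ← wval_single RepJ4.f]
  refine Units.ext ?_
  rw [val_wval hinv (by simpa using by omega), RepJ4.f, val_wval RepJ4.hinv (by simpa using by omega)]
  simp only [mval, List.map_cons, List.map_nil, h]

theorem hL : ∀ i < 34, phi (L i) = gen RepJ4.c ms i := fun i hi => by
  have := BT.mem_of_defB (F := gen RepJ4.c ms) (K := phi.range)
    (rels_of hinv hD (by decide +kernel)) st [20, 21, 5] (List.range 34)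
    (by
      intro i hi
      simp only [List.mem_cons, List.not_mem_nil, or_false] at hi
      rcases hi with rfl | rfl | rfl
      exacts [⟨_, (gen_eq 20 0 (by norm_num) (by norm_num) rfl).symm⟩,
        ⟨_, (gen_eq 21 1 (by norm_num) (by norm_num) rfl).symm⟩,
        ⟨_, (gen_eq 5 2 (by norm_num) (by norm_num) rfl).symm⟩])
    (by decide +kernel) i (List.mem_range.2 hi)
  exact Function.invFun_eq this

theorem phi_L (w : List ℕ) (hw : w.all (fun l => decide (l < 2 * 34)) = true) :
    phi (wval L w) = wval (gen RepJ4.c ms) w := by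
  rw [map_wval]; exact wval_congr hL (by simpa using hw)

/-- The check for relators (`by decide +kernel`; about 2 ms per letter). -/
noncomputable def relC (ws : List (List ℕ)) : Bool :=
  band (ws.all fun w => w.all fun l => decide (l < 2 * 34)) (relB RepJ4.c ms ws 0 112)

theorem rel (ws : List (List ℕ)) (h : relC ws = true) : ∀ w ∈ ws, wval L w = 1 := fun w hw =>
  J4A.main.2.2 (by
    rw [phi_L w (List.all_eq_true.1 (band_eq h).1 w hw), map_one]
    exact rels_of hinv (relOn ok ws 0 112 112 (by rw [(band_eq h).2]; decide)) (band_eq h).1 w hw)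

theorem rel1 (w : List ℕ) (h : relC [w] = true) : wval L w = 1 := rel _ h w List.mem_cons_self

theorem eqw (u v : List ℕ) (h : relC [u ++ invW v] = true) : wval L u = wval L v := by
  have := rel1 _ h
  rwa [wval_append, wval_invW, mul_inv_eq_one] at this

/-- The check that the diagonal entry `i` of a word is `0` (one row only). -/
noncomputable def neC (w : List ℕ) (i : ℕ) : Bool :=
  band (Nat.blt i 112) (band (w.all fun l => decide (l < 2 * 34)) (entB RepJ4.c ms w i i 0))

theorem ne (w : List ℕ) (i : ℕ) (h : neC w i = true) : wval L w ≠ 1 := fun e => by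
  obtain ⟨h1, h⟩ := band_eq h
  obtain ⟨h2, h3⟩ := band_eq h
  refine ne_one ok hinv w i 0 ?_ (by rw [← phi_L w h2, e, map_one])
  rw [h2, h3, decide_eq_true (p := i < 112 ∧ 0 % 2 ≠ 1 % 2) ⟨Nat.blt_eq.mp h1, by decide⟩]
  rfl

theorem L20 : L 20 = y 0 := J4A.main.2.2 ((hL 20 (by norm_num)).trans (gen_eq 20 0 (by norm_num) (by norm_num) rfl))
theorem L21 : L 21 = y 1 := J4A.main.2.2 ((hL 21 (by norm_num)).trans (gen_eq 21 1 (by norm_num) (by norm_num) rfl))
theorem L5 : L 5 = y 2 := J4A.main.2.2 ((hL 5 (by norm_num)).trans (gen_eq 5 2 (by norm_num) (by norm_num) rfl))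

/-- Words in the generators of the presentation as words in the letters. -/
theorem wval_xy (w : List ℕ) (hw : w.all (fun l => decide (l < 2 * 3)) = true) :
    wval L (subst [[40], [42], [10]] w) = wval y w := by
  rw [wval_subst]
  refine wval_congr (n := 3) (fun i hi => ?_) (by simpa using hw)
  interval_cases i
  exacts [(wval_single L 20).trans L20, (wval_single L 21).trans L21, (wval_single L 5).trans L5]

theorem L4 : L 4 = J4R0.F 7 := by
  rw [J4R0.F, ← wval_xy _ (by decide +kernel), ← wval_single L 4]
  exact eqw _ _ (by decide +kernel)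

end Cfsg.Agent.Lib.J4L
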