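import Cfsg.Agent.Lib.J4L1R

set_option autoImplicit false
set_option maxRecDepth 100000

namespace Cfsg.Agent.Lib.J4L1
open Cfsg.Agent.Lib.PermNet

theorem ch_0 : levelB nets [[4], [6], [8], [10], [28]] [] 0 [3, 4, 0, 1, 2, 4, 1, 0, 3, 2, 1, 0, 4, 2, 3, 1, 0] 0 2048 2048 = true := by decide +kernel

theorem ch_1 : levelB nets [[4], [6], [8]] [0] 1 [0, 1, 2, 0, 1, 2, 0, 1, 2, 0, 1, 2, 1, 0] 1 540 540 = true := by decide +kernel

theorem ch_2 : levelB nets [[7, 8, 4, 7], [6, 8, 8, 7]] [1, 0] 2 [0, 1] 2 356 4 = true := by decide +kernel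

theorem rels0_0 : RelsOn nets 2048 11 rels0 0 11 :=
  relsOn_of_B _ _ _ _ _ 11 _ (by decide +kernel) (by decide +kernel)

end Cfsg.Agent.Lib.J4L1
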