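import Cfsg.Agent.Lib.J4L2R

set_option autoImplicit false
set_option maxRecDepth 100000

namespace Cfsg.Agent.Lib.J4L2
open Cfsg.Agent.Lib.PermNet

theorem ch_0 : levelB nets [[18], [20], [22], [24], [30]] [] 0 [4, 0, 1, 2, 4, 0, 2, 1, 4, 2, 0, 4, 2, 1, 0, 4, 1, 0] 0 1024 1024 = true := by decide +kernel

theorem ch_1 : levelB nets [[18], [20], [22], [24]] [0] 1 [0, 1, 2, 0, 1, 2, 0, 1, 2, 1, 0, 2, 0] 1 336 336 = true := by decide +kernel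

theorem ch_2 : levelB nets [[21, 18, 20, 18], [18, 24, 22, 20, 18]] [1, 0] 2 [0, 1, 0, 1, 0] 2 256 12 = true := by decide +kernel

theorem ch_3 : levelB nets [[18, 24, 22, 20, 18, 18, 24, 22, 20, 18], [21, 18, 23, 24, 19, 21, 18, 20, 18, 18, 24, 22, 20, 18], [19, 21, 23, 24, 19, 21, 18, 20, 18, 18, 24, 22, 20, 18, 21, 18, 20, 18], [19, 21, 19, 20, 18, 24, 22, 20, 18, 21, 18, 23, 24, 19, 19, 21, 19, 20]] [2, 1, 0] 3 [0] 3 14 2 = true := by decide +kernel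

theorem ch_4 : levelB nets [[21, 18, 23, 24, 19, 21, 18, 20, 18, 18, 24, 22, 20, 18], [19, 21, 23, 24, 19, 21, 18, 20, 18, 18, 24, 22, 20, 18, 21, 18, 20, 18], [19, 21, 23, 24, 19, 19, 21, 23, 24, 19, 19, 21, 19, 20, 18, 24, 22, 20, 18, 21, 18, 23, 24, 19, 19, 21, 19, 20]] [3, 2, 1, 0] 4 [1] 4 14 2 = true := by decide +kernel

theorem ch_5 : levelB nets [[21, 18, 23, 24, 19, 21, 18, 20, 18, 18, 24, 22, 20, 18], [19, 21, 23, 24, 19, 19, 21, 23, 24, 19, 19, 21, 19, 20, 18, 24, 22, 20, 18, 21, 18, 23, 24, 19, 19, 21, 19, 20]] [4, 3, 2, 1, 0] 6 [0] 6 15 2 = true := by decide +kernel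

theorem ch_6 : levelB nets [[19, 21, 23, 24, 19, 19, 21, 19, 20, 18, 24, 22, 19, 20, 19, 21, 23, 24, 19, 19, 21, 23, 24, 19, 19, 21, 19, 20, 18, 24, 22, 20, 18, 21, 18, 23, 24, 19, 19, 21, 19, 20]] [6, 4, 3, 2, 1, 0] 8 [0] 8 39 2 = true := by decide +kernel

theorem rels0_0 : RelsOn nets 1024 10 rels0 0 10 :=
  relsOn_of_B _ _ _ _ _ 10 _ (by decide +kernel) (by decide +kernel)

end Cfsg.Agent.Lib.J4L2
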