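import Cfsg.Agent.Lib.J4L4R

set_option autoImplicit false
set_option maxRecDepth 100000

namespace Cfsg.Agent.Lib.J4L4
open Cfsg.Agent.Lib.PermNet

theorem ch_0 : levelB nets [[4], [6], [8], [10], [14], [32]] [] 0 [4, 5, 0, 1, 2, 5, 1, 0, 5, 0, 0] 0 128 128 = true := by decide +kernel

theorem ch_1 : levelB nets [[4], [6], [8], [10]] [0] 1 [0, 1, 2, 0, 1, 3, 2, 0, 2, 0, 1] 1 90 90 = true := by decide +kernel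

theorem ch_2 : levelB nets [[4, 10, 5], [9, 4, 8], [4, 6, 8], [7, 8, 6, 5]] [1, 0] 2 [0, 1, 2, 1, 3, 2, 1, 2] 2 89 48 = true := by decide +kernel

theorem ch_3 : levelB nets [[9, 5, 8, 4, 10, 5, 9, 4, 8], [9, 4, 8, 4, 10, 5, 9, 5, 8], [9, 5, 7, 5, 9, 5, 8, 7, 8, 6, 6, 4, 8], [4, 10, 5, 9, 7, 5, 9, 5, 8, 4, 10, 5, 9, 4, 8, 4, 6, 8]] [2, 1, 0] 3 [2, 0, 2] 3 70 4 = true := by decide +kernel

theorem ch_4 : levelB nets [[9, 5, 8, 4, 10, 5, 9, 4, 8], [9, 4, 8, 4, 10, 5, 9, 5, 8], [9, 5, 7, 7, 9, 6, 9, 4, 8, 4, 6, 4, 8, 4, 10, 5, 9, 7, 5, 9, 5, 8, 4, 10, 5, 9, 4, 8, 4, 6, 5, 7, 5, 9, 5, 8, 7, 8, 6, 6, 4, 8]] [3, 2, 1, 0] 4 [1] 4 11 2 = true := by decide +kernel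

theorem ch_5 : levelB nets [[9, 5, 8, 4, 10, 5, 9, 4, 8], [9, 5, 7, 7, 9, 6, 9, 4, 8, 4, 6, 4, 8, 4, 10, 5, 9, 7, 5, 9, 5, 8, 4, 10, 5, 9, 4, 8, 4, 6, 5, 7, 5, 9, 5, 8, 7, 8, 6, 6, 4, 8]] [4, 3, 2, 1, 0] 7 [1] 7 15 2 = true := by decide +kernel

theorem ch_6 : levelB nets [[9, 5, 8, 4, 10, 5, 9, 4, 8]] [7, 4, 3, 2, 1, 0] 8 [0] 8 18 2 = true := by decide +kernel

theorem rels0_0 : RelsOn nets 128 7 rels0 0 7 :=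
  relsOn_of_B _ _ _ _ _ 7 _ (by decide +kernel) (by decide +kernel)

end Cfsg.Agent.Lib.J4L4
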