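import Cfsg.Agent.Lib.J4L4N0

set_option autoImplicit false
set_option maxRecDepth 100000

namespace Cfsg.Agent.Lib.J4L4
open Cfsg.Agent.Lib.PermNet

noncomputable def nets : NL := (.cons net0 (.cons net1 (.cons net2 (.cons net3 (.cons net4 (.cons net5 (.cons net6 (.cons net7 (.cons net8 (.cons net9 (.cons net10 (.cons net11 (.cons net12 (.cons net13 (.cons net14 (.cons net15 (.cons net16 .nil)))))))))))))))))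

theorem hv : nets.Valid 128 := ⟨valid0, ⟨valid1, ⟨valid2, ⟨valid3, ⟨valid4, ⟨valid5, ⟨valid6, ⟨valid7, ⟨valid8, ⟨valid9, ⟨valid10, ⟨valid11, ⟨valid12, ⟨valid13, ⟨valid14, ⟨valid15, ⟨valid16, trivial⟩⟩⟩⟩⟩⟩⟩⟩⟩⟩⟩⟩⟩⟩⟩⟩⟩

def rels0 : List (List Nat × List Nat) := [([10], [11]),
  ([14], [15]),
  ([32], [33]),
  ([4, 4], [5]),
  ([6, 6], [7]),
  ([8, 8], [9, 9]),
  ([4, 6, 8], [9, 7, 5]),
  ([4, 8, 10], [11, 4, 8]),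
  ([4, 4, 7, 9, 6], [8, 5, 8, 8]),
  ([4, 6, 10, 8, 4], [11, 9, 7, 11]),
  ([4, 6, 9, 5, 8], [8, 5, 9, 6]),
  ([4, 7, 8, 6, 5], [8, 5, 9, 9]),
  ([6, 6, 8, 7, 8], [9, 6, 9, 6]),
  ([4, 4, 8, 8, 7], [9, 5, 7, 9]),
  ([6, 10, 7, 9, 9], [11, 8, 11, 8]),
  ([4, 14], [15, 4]),
  ([6, 14], [15, 6]),
  ([8, 14], [15, 8]),
  ([10, 14], [15, 11]),
  ([4, 10, 5, 32], [33, 4, 11, 5]),
  ([9, 4, 8, 32], [33, 9, 4, 8]),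
  ([4, 6, 8, 32], [33, 4, 6, 8]),
  ([7, 8, 6, 5, 32], [33, 7, 8, 6, 5]),
  ([32, 14, 10], [11, 33]),
  ([9, 32, 8, 4, 32, 5, 5, 10], [5, 11, 8, 5, 33, 4, 9]),
  ([32, 6, 9, 4, 32, 5, 8, 7], [7, 4, 11, 33, 11, 5, 6]),
  ([32, 5, 32, 4, 10, 8], [11, 8, 8, 33, 9])]
def rels : List (List Nat × List Nat) := rels0

end Cfsg.Agent.Lib.J4L4
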