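import Cfsg.Agent.Lib.J4O1
import Cfsg.Agent.Lib.J4V

/-! The subgroups `3 M₂₂ 2` of the orthogonal group `O⁺₁₂(2)`. -/

set_option autoImplicit false
set_option maxRecDepth 100000

namespace Cfsg.Agent.Lib.J4O

open Subgroup Cfsg.Agent.Lib.PermNet Cfsg.Agent.Lib.Words Cfsg.Agent.Lib.PermGroup Cfsg.Agent.Lib.DCE
  Cfsg.Agent.Lib.BT Cfsg.Agent.Lib.J4V Cfsg.Agent.Lib.J4Defs

/-- The permutations. -/
noncomputable abbrev P : ℕ → Equiv.Perm ℕ := tp (nat_lit 4096) (nat_lit 12) (nat_lit 4095) vtt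

theorem P_fix (i : ℕ) {p : ℕ} (hp : 4096 ≤ p) : P i p = p := by simpa [wval, lval] using tp_fix vtt [2 * i] hp

theorem mem (i : ℕ) (hi : i < 7) : P i ∈ OV := by
  have : linB i = true := by
    by_cases h : i < 4
    exacts [allR_all lin0 i i.zero_le h, allR_all lin1 i (by omega) hi]
  rw [linB, forceB_eq] at this
  obtain ⟨h0, h1⟩ := band_eq this
  obtain ⟨h1, h2⟩ := band_eq h1
  refine ⟨fun p hp => P_fix i hp, fun a ha => ⟨by
    rw [vok.apply i ha]; exact beq_eq (allR_all h1 a a.zero_le ha), ?_⟩⟩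
  have k : ∀ j < 12, ∀ a < 4096, P i (2 ^ j ^^^ a) = P i (2 ^ j) ^^^ P i a := fun j hj a ha => by
    have := allR_all h2 j j.zero_le hj
    rw [forceB_eq, forceB_eq] at this
    rw [vok.apply i ha, vok.apply i (p12 j hj), vok.apply i (xl (p12 j hj) ha)]
    exact beq_eq (allR_all this a a.zero_le ha)
  revert a
  refine ind (fun b _ => ?_) fun j hj m hm ih b hb => ?_
  · rw [vok.apply i (show 0 < 4096 by decide), show lk _ _ _ 0 = 0 from beq_eq h0]; simp
  · rw [Nat.xor_assoc, k j hj _ (xl hm hb), ih b hb, k j hj m hm, Nat.xor_assoc]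

theorem card_eq : Nat.card OV = 100055114296433049600 := by
  have h : gp P (sing 7) ≤ OV := gp_le.2 fun w hw => by
    obtain ⟨i, hi, rfl⟩ := List.mem_map.1 hw
    exact wval_single P i ▸ mem i (List.mem_range.1 hi)
  have := Finite.of_injective _ (inclusion_injective h)
  exact card_le.antisymm ((vTM.le_card (f := P) (MonoidHom.id _) fun _ _ => rfl).trans (card_le_of_le h))

/-- The letters. -/
noncomputable abbrev F : ℕ → Equiv.Perm ℕ := ext P 7 vdefs

/-- The model. -/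
abbrev MV := Model F OV ⊥ (nat_lit 4096) (nat_lit 12) (nat_lit 4095) vtt (vch.map Lv.b) 100055114296433049600

theorem model : ∃ M : MV, M.Ch OV vch := by
  obtain ⟨M, -⟩ := vTM.mk_model (f := P) (Z := ⊥) OV.subtype
    (fun i => if h : i < 7 then ⟨P i, mem i h⟩ else 1) (fun i hi => by simp [hi])
    (fun i hi => by simp [hi]) (fun g p hp => lt_of_fix g.2.1 hp)
    (by rw [range_subtype, card_eq]; decide) fun _ g => mem_bot.symm
  exact ⟨M, M.ch_top vch (by rw [vc]; decide +kernel)⟩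

theorem FP : ∀ i < 7, F i = P i := fun _ hi => ext_of_lt _ _ hi

/-- The word fixes the base. -/
noncomputable abbrev fx (w : List ℕ) : Bool := fixW (nat_lit 12) (nat_lit 4095) vtt (vch.map Lv.b) w

section
variable (M : MV) (hch : M.Ch OV vch)
include M

theorem o11 : wval F [0] ^ 11 = 1 ∧ wval F [0] ≠ 1 :=
  ⟨M.pow [0] 11 (by decide +kernel), M.ne_one _ (by decide +kernel)⟩

/-- The normalising words. -/
def NW (i : ℕ) : List ℕ := NA.getD i [] ++ rep (FL.getD i 0) [8]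

theorem pw {H : Subgroup (Equiv.Perm ℕ)} (hH : H ≤ OV) (h0 : wval F [0] ∈ H) {x : Equiv.Perm ℕ} (hx : x ∈ H)
    (x11 : x ^ 11 = 1) (x1 : x ≠ 1) :
    ∃ a ∈ H, ∃ i < 11, wval F (NW i) * a * x * (wval F (NW i) * a)⁻¹ = wval F [0] := by
  have := Finite.of_injective _ (inclusion_injective hH)
  obtain ⟨p7, p1⟩ := o11 M
  obtain ⟨a, ha, e⟩ := SuzG1.sylow_conj (H := H) (p := 11) (by norm_num)
    (fun h => absurd (h.trans (card_dvd_of_le hH)) (by rw [card_eq]; decide)) h0 hx p7 p1 x11 x1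
  have o7 : orderOf (wval F [0]) = 11 :=
    have := Fact.mk (show Nat.Prime 11 by norm_num); orderOf_eq_prime p7 p1
  obtain ⟨i, hi, h1⟩ : ∃ i < 11, wval F [0] ^ i = a * x * a⁻¹ := by
    classical
    simpa [o7] using (orderOf_pos_iff.1 (o7 ▸ by decide)).mem_zpowers_iff_mem_range_orderOf.1
      (e.le (mem_zpowers _))
  have i0 : i ≠ 0 := by rintro rfl; exact x1 (by simpa using h1.symm)
  refine ⟨a, ha, i, hi, ?_⟩
  rw [← M.cj (NW i) (rep i [0]) [0] (allR_all (by decide +kernel : allR (fun i =>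
    fx ((NW i ++ rep i [0] ++ invW (NW i)) ++ invW [0])) 1 10 = true) i (by omega) (by omega)), wval_rep, h1]
  group

include hch

theorem find {xs ys eqs neqs : List (List ℕ)} {okU : List ℕ → Bool} {mk : List ℕ → List ℕ} {ts : List Tst} {ct : CT}
    (h : srch vtt vch xs ys eqs neqs okU mk ts ct = true) (h0 : (xs ++ ys).all (lt2 500) = true)
    {c : Equiv.Perm ℕ} (hc : c ∈ OV) (h1 : List.Forall₂ (fun x y => c * wval F x * c⁻¹ = wval F y) xs ys)
    (h2 : ∀ u ∈ eqs, wval (Function.update F 500 c) u = 1) (h3 : ∀ u ∈ neqs, wval (Function.update F 500 c) u ≠ 1) :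
    ∃ u, okU u = true ∧ c = wval F (mk u) := by
  have h1' : List.Forall₂ (fun x y => c * wval F x * c⁻¹ * (wval F y)⁻¹ ∈ (⊥ : Subgroup (Equiv.Perm ℕ))) xs ys :=
    h1.imp fun _ _ e => by rw [e]; simp
  obtain ⟨g, hg, u, hu, z, hz, e⟩ := M.solve' hch (fun l _ => M.lmem _) h hc hc (by simp) h1'
    (List.forall_mem_append.2 ⟨h2, prEq_mem h1' h0⟩) h3
  rw [show g = 1 by simpa [sl, gp_nil] using hg, one_mul, mem_bot.1 hz, mul_one] at e
  exact ⟨u, hu, e⟩

theorem next {xs ys eqs neqs reps : List (List ℕ)} {k : ℕ} {KL : List ℕ} {ts : List Tst} {ct : CT}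
    (h : srch vtt vch xs ys eqs neqs (okR k KL) (mkC reps) ts ct = true) (W R NR : List (List ℕ))
    (p : List (List ℕ × List ℕ)) (n : ℕ)
    (hd : W.length = n ∧ xs = p.map (fun e => subst W e.1) ∧ ys = p.map (fun e => subst W e.2) ∧
      eqs = R.map (subst (W ++ [[1000]])) ∧ neqs = NR.map (subst (W ++ [[1000]])) ∧
      (∀ e ∈ p, lt2 n e.1 = true ∧ lt2 n e.2 = true) ∧ (R ++ NR).all (lt2 (n + 1)) = true ∧
      (xs ++ ys).all (lt2 500) = true ∧ W.all (lt2 500) = true)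
    (hK : allL (fun w => allL (fun i => fx (([2 * i] ++ w) ++ invW (w ++ [2 * i]))) KL) W = true)
    {Y : ℕ → Equiv.Perm ℕ} (hY : Y n ∈ OV) (hW : ∀ i < n, Y i = wval F (W.getD i []))
    (hP : ∀ e ∈ p, Y n * wval Y e.1 * (Y n)⁻¹ = wval Y e.2) (hR : ∀ r ∈ R, wval Y r = 1)
    (hN : ∀ r ∈ NR, wval Y r ≠ 1) :
    ∃ b ∈ OV, ∃ j < k, ∀ i < n + 1, b * Y i * b⁻¹ = wval F ((W ++ [reps.getD j []]).getD i []) := by
  obtain ⟨rfl, rfl, rfl, rfl, rfl, d1, d3, d4, d5⟩ := hd
  have ev : ∀ r ∈ R ++ NR, wval (Function.update F 500 (Y W.length)) (subst (W ++ [[1000]]) r) = wval Y r :=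
    fun r hr => by
      rw [wval_subst]
      refine wval_congr (n := W.length + 1) (fun i hi => ?_) (by simpa [lt2] using List.all_eq_true.1 d3 r hr)
      rcases Nat.lt_succ_iff_lt_or_eq.1 hi with hi | rfl
      · rw [List.getD_append _ _ _ _ hi, hW i hi, wval_upd]
        rw [List.getD_eq_getElem _ _ hi]
        exact List.all_eq_true.1 d5 _ (List.getElem_mem _)
      · rw [List.getD_append_right _ _ _ _ le_rfl, Nat.sub_self]
        exact (wval_single _ 500).trans (Function.update_self ..)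
  obtain ⟨u, hu, e⟩ := find M hch h d4 hY
    (List.forall₂_map_left_iff.2 (List.forall₂_map_right_iff.2 (List.forall₂_same.2 fun e he => by
      rw [wval_subst, wval_subst, ← wval_congr hW (by simpa [lt2] using (d1 e he).1),
        ← wval_congr hW (by simpa [lt2] using (d1 e he).2), hP e he])))
    (List.forall_mem_map.2 fun r hr => (ev r (by simp [hr])).trans (hR r hr))
    (List.forall_mem_map.2 fun r hr => (ev r (by simp [hr])).trans_ne (hN r hr))
  rw [wval_mkC] at e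
  refine ⟨(wval F u.tail)⁻¹, inv_mem (M.mem _), _, blt_lt (band_eq hu).1, fun i hi => ?_⟩
  rcases Nat.lt_succ_iff_lt_or_eq.1 hi with hi | rfl
  · rw [List.getD_append _ _ _ _ hi, hW i hi, inv_inv, mul_assoc, ← comm_word KL (fun k hk =>
      wval_single F k ▸ M.comm [2 * k] _ (allL_all (allL_all hK _ (by
        rw [List.getD_eq_getElem _ _ hi]; exact List.getElem_mem _)) k hk)) (band_eq hu).2]
    simp
  · rw [List.getD_append_right _ _ _ _ le_rfl, Nat.sub_self, e]
    simp [mul_assoc]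

end

/-- The relations that are used. -/
def RR : List (List ℕ) := rep 11 [0] :: rep 5 [2] :: rep 3 [4] :: [2, 0, 3, 1, 1, 1] :: [4, 0, 5, 1] ::
  [4, 2, 5, 3] :: [6, 2, 7, 3, 3] :: [6, 4, 7, 5] :: [6, 5, 7, 4] :: rep 4 [6] :: RX0.map (rep 3)

theorem cj_rel {X : Type*} [Group X] {Y : ℕ → X} (h : ∀ r ∈ RR, wval Y r = 1) (a : X) :
    ∀ r ∈ RR, wval (fun i => a * Y i * a⁻¹) r = 1 := fun r hr =>
  (map_wval (MulAut.conj a).toMonoidHom Y r).symm.trans (by rw [h r hr, map_one])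

theorem pr {X : Type*} [Group X] {Y : ℕ → X} (h : ∀ r ∈ RR, wval Y r = 1) (n : ℕ) (p : List (List ℕ × List ℕ))
    (hp : ∀ e ∈ p, 2 * n :: (e.1 ++ (2 * n + 1) :: invW e.2) ∈ RR) :
    ∀ e ∈ p, Y n * wval Y e.1 * (Y n)⁻¹ = wval Y e.2 := fun e he => by
  have := h _ (hp e he)
  rw [wval_cons, wval_append, wval_odd, wval_invW, lval, if_pos (by omega), show 2 * n / 2 = n by omega] at this
  rw [← mul_inv_eq_one, ← this]; group

theorem cj2 {X : Type*} [Group X] (a b y : X) : a * (b * y * b⁻¹) * a⁻¹ = a * b * y * (a * b)⁻¹ := by group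

theorem classify {Y : ℕ → Equiv.Perm ℕ} (hY : ∀ i, Y i ∈ OV) (h : ∀ r ∈ RR, wval Y r = 1) (h0 : Y 0 ≠ 1)
    (h2 : Y 2 ≠ 1) : ∃ a ∈ OV, a * Y 0 * a⁻¹ = F 0 ∧ a * Y 1 * a⁻¹ = F 1 ∧
      (a * Y 2 * a⁻¹ = F 2 ∨ a * Y 2 * a⁻¹ = (F 2)⁻¹) ∧ a * Y 3 * a⁻¹ = F 3 := by
  obtain ⟨M, hch⟩ := model
  have cj : ∀ {a y : Equiv.Perm ℕ}, a ∈ OV → y ∈ OV → a * y * a⁻¹ ∈ OV := fun ha hy =>
    mul_mem (mul_mem ha hy) (inv_mem ha)
  obtain ⟨a, ha, i, -, e⟩ := pw M le_rfl (M.mem _) (hY 0)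
    (wval_single Y 0 ▸ (wval_rep _ 11 _).symm.trans (h _ List.mem_cons_self)) h0
  replace ha := mul_mem (M.mem (NW i)) ha
  generalize wval F (NW i) * a = a at e ha
  have ra := cj_rel h a
  obtain ⟨b, hb, j, hj, e⟩ := next M hch s_y [[0]] [rep 5 [2]] [] [([0], [0, 0, 0])] 1 (by decide) (by decide +kernel)
    (cj ha (hY 1)) (fun i hi => by interval_cases i; exact e) (pr ra 1 _ (by decide))
    (fun r hr => ra r (by revert r; decide)) (by simp)
  obtain rfl : j = 0 := by omega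
  have rb := cj_rel ra b
  obtain ⟨c, hc, j, hj, e⟩ := next M hch s_w [[0], [2]] [rep 3 [4]] [[4]] [([0], [0]), ([2], [2])] 2 (by decide)
    (by decide +kernel) (cj hb (cj ha (hY 2))) e (pr rb 2 _ (by decide)) (fun r hr => rb r (by revert r; decide))
    (by simpa [wval, lval] using h2)
  have rc := cj_rel rb c
  have hu := cj hc (cj hb (cj ha (hY 3)))
  have r2 : ∀ r ∈ rep 4 [6] :: RX0.map (rep 3), r ∈ RR := by decide
  interval_cases j
  · obtain ⟨d, hd, j, hj, e⟩ := next M hch s_u0 [[0], [2], [4]] _ [] [([2], [2, 2]), ([4], [4])] 3 (by decide)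
      (by decide +kernel) hu e (pr rc 3 _ (by decide)) (fun r hr => rc r (r2 r hr)) (by simp)
    obtain rfl : j = 0 := by omega
    simp only [cj2] at e
    exact ⟨_, mul_mem hd (mul_mem hc (mul_mem hb ha)), (e 0 (by decide)).trans (wval_single F 0),
      (e 1 (by decide)).trans (wval_single F 1), .inl ((e 2 (by decide)).trans (wval_single F 2)),
      (e 3 (by decide)).trans (wval_single F 3)⟩
  · obtain ⟨d, hd, j, hj, e⟩ := next M hch s_u0 [[0], [2], [5]] _ [] [([2], [2, 2]), ([5], [5])] 3 (by decide)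
      (by decide +kernel) hu e (pr rc 3 _ (by decide)) (fun r hr => rc r (r2 r hr)) (by simp)
    obtain rfl : j = 0 := by omega
    simp only [cj2] at e
    exact ⟨_, mul_mem hd (mul_mem hc (mul_mem hb ha)), (e 0 (by decide)).trans (wval_single F 0),
      (e 1 (by decide)).trans (wval_single F 1), .inr ((e 2 (by decide)).trans (by simp [wval, lval])),
      (e 3 (by decide)).trans (wval_single F 3)⟩
  · obtain ⟨d, hd, j, hj, e⟩ := next M hch s_u1 [[0], [2], [14]] _ [] [([2], [2, 2]), ([4], [4])] 3 (by decide)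
      (by decide +kernel) hu e (pr rc 3 _ (by decide)) (fun r hr => rc r (r2 r hr)) (by simp)
    omega
  · obtain ⟨d, hd, j, hj, e⟩ := next M hch s_u1 [[0], [2], [15]] _ [] [([2], [2, 2]), ([5], [5])] 3 (by decide)
      (by decide +kernel) hu e (pr rc 3 _ (by decide)) (fun r hr => rc r (r2 r hr)) (by simp)
    omega
  · obtain ⟨d, hd, j, hj, e⟩ := next M hch s_u2 [[0], [2], [10]] _ [] [([2], [2, 2]), ([4], [4])] 3 (by decide)
      (by decide +kernel) hu e (pr rc 3 _ (by decide)) (fun r hr => rc r (r2 r hr)) (by simp)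
    omega

/-- The stabiliser of the short orbit. -/
def TS : Subgroup (Equiv.Perm ℕ) where
  carrier := {g | ∀ p, vS.testBit (g p) = vS.testBit p}
  one_mem' := fun _ => rfl
  mul_mem' := fun {g k} hg hk p => (hg (k p)).trans (hk p)
  inv_mem' := fun {g} hg p => by simpa using (hg (g⁻¹ p)).symm

theorem F_mem : ∀ i < 5, F i ∈ TS := fun i hi p => by
  rw [FP i (by omega)]
  by_cases hp : p < 4096
  · have := allR_all inv_ok i i.zero_le hi
    rw [forceB_eq, forceB_eq] at this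
    have := beq_eq (allR_all this p p.zero_le hp)
    rw [vok.apply i hp, Nat.testBit, Nat.testBit, Nat.and_comm, Nat.and_comm 1]
    exact congrArg (· != 0) this
  · rw [P_fix i (by omega)]

/-- The outer element. -/
theorem outer {H K : Subgroup (Equiv.Perm ℕ)} (hH : H ≤ OV) (hT : H ≤ TS) (hK : H ≤ K) (h : ∀ i < 4, F i ∈ H)
    {v : Equiv.Perm ℕ} (hv : v ∈ OV) (vK : v ∈ K) (vH : v ∉ H) (hn : ∀ g ∈ H, v * g * v⁻¹ ∈ H) : F 4 ∈ K := by
  obtain ⟨M, hch⟩ := model
  have h0 : wval F [0] ∈ H := wval_single F 0 ▸ h 0 (by decide)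
  obtain ⟨a, ha, i, hi, e⟩ := pw M hH h0 (hn _ h0) (by rw [conj_pow, (o11 M).1]; simp) (by simpa using (o11 M).2)
  obtain ⟨u, hu, e1⟩ := find M hch s_c (by decide) (c := wval F (NW i) * a * v)
    (mul_mem (mul_mem (M.mem _) (hH ha)) hv) (.cons ((cj2 _ _ _).symm.trans e) .nil) (by simp) (by simp)
  change _ = wval F (mkL CR u) at e1
  rw [mkL, wval_append, getW_eq] at e1
  have t1 : wval F u.tail ∈ H := mem_word [0, 2] (by simp [h]) (band_eq hu).2
  obtain ⟨a1, a2⟩ := (by decide +kernel : ∀ i < 11, allL (okL [1]) (NA.getD i []) = true ∧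
    (FL.getD i 0 = 0 ∨ FL.getD i 0 = 1)) i hi
  have t2 : wval F (NA.getD i []) ∈ H := mem_word [1] (by simp [h]) a1
  have t3 : wval F (NW i) ∈ TS := by
    rw [NW, wval_append, wval_rep]
    exact mul_mem (hT t2) (pow_mem (wval_single F 4 ▸ F_mem 4 (by decide)) _)
  have hj := blt_lt (band_eq hu).1
  generalize u.headD 0 = j at e1 hj
  by_cases j0 : j = 0
  · rw [j0, show CR.getD 0 [] = [] from rfl, wval_nil, mul_one, NW, wval_append, wval_rep] at e1
    rcases a2 with a2 | a2 <;> rw [a2] at e1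
    · rw [pow_zero, mul_one] at e1
      exact absurd ((H.mul_mem_cancel_left (mul_mem t2 ha)).1 (e1 ▸ t1)) vH
    · rw [pow_one, show wval F [8] = F 4 from wval_single F 4, mul_assoc] at e1
      exact (K.mul_mem_cancel_left (hK t2)).1 ((K.mul_mem_cancel_right (mul_mem (hK ha) vK)).1 (e1 ▸ hK t1))
  · have t4 : wval F (CR.getD j [] ++ [6] ++ invW (CR.getD j [])) ∈ TS := by
      rw [wval_append, wval_append, wval_invW, show wval F [6] = F 3 from wval_single F 3,
        eq_inv_mul_iff_mul_eq.2 e1.symm]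
      have := mul_mem (mul_mem (inv_mem (hT t1)) (mul_mem (mul_mem t3 (hT (mul_mem (mul_mem ha
        (hn _ (h 3 (by decide)))) (inv_mem ha)))) (inv_mem t3))) (hT t1)
      simpa [mul_assoc] using this
    obtain ⟨b1, b2, b3⟩ := (by decide +kernel : ∀ j < 6, j ≠ 0 → CP.getD j 0 < 4096 ∧
      lt2 7 (CR.getD j [] ++ [6] ++ invW (CR.getD j [])) = true ∧
      bitB vS (ap1i (nat_lit 12) (nat_lit 4095) vtt (CR.getD j [] ++ [6] ++ invW (CR.getD j [])) (CP.getD j 0)) ≠
        bitB vS (CP.getD j 0)) j hj j0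
    rw [ap1i_eq vok.good _ b1, bitB_eq, bitB_eq, MonoidHom.id_apply, ← wval_ext P 7 vdefs _ b2] at b3
    exact absurd (t4 _) b3

end Cfsg.Agent.Lib.J4O
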