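import Cfsg.Agent.Lib.J4Defs
import Cfsg.Agent.Lib.J4VT
import Cfsg.Agent.Lib.SuzG1

/-! The orthogonal group of plus type in dimension twelve over two elements: an upper bound for the order. -/

set_option autoImplicit false
set_option maxRecDepth 100000

namespace Cfsg.Agent.Lib.J4O

open Subgroup Cfsg.Agent.Lib.PermNet Cfsg.Agent.Lib.Words Cfsg.Agent.Lib.PermGroup Cfsg.Agent.Lib.DCE
  Cfsg.Agent.Lib.BT Cfsg.Agent.Lib.J4V Cfsg.Agent.Lib.J4Defs

theorem lt_of_fix {g : Equiv.Perm ℕ} (h : ∀ p, 4096 ≤ p → g p = p) {p : ℕ} (hp : p < 4096) : g p < 4096 := by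
  by_contra hn
  have := g.injective (h _ (Nat.le_of_not_lt hn))
  omega

theorem xl {a b : ℕ} (ha : a < 4096) (hb : b < 4096) : a ^^^ b < 4096 := Nat.xor_lt_two_pow (n := 12) ha hb

theorem p12 : ∀ i < 12, 2 ^ i < 4096 := by decide

/-- The isometries of the space of codes below `4096`. -/
def OV : Subgroup (Equiv.Perm ℕ) where
  carrier := {g | (∀ p, 4096 ≤ p → g p = p) ∧ ∀ a < 4096, qm (g a) (g a) = qm a a ∧
    ∀ b < 4096, g (a ^^^ b) = g a ^^^ g b}
  one_mem' := ⟨fun _ _ => rfl, fun _ _ => ⟨rfl, fun _ _ => rfl⟩⟩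
  mul_mem' := fun {g k} hg hk => ⟨fun p hp => by rw [Equiv.Perm.mul_apply, hk.1 p hp, hg.1 p hp],
    fun a ha => ⟨((hg.2 _ (lt_of_fix hk.1 ha)).1).trans (hk.2 a ha).1, fun b hb => by
      simp only [Equiv.Perm.mul_apply]
      rw [(hk.2 a ha).2 b hb, (hg.2 _ (lt_of_fix hk.1 ha)).2 _ (lt_of_fix hk.1 hb)]⟩⟩
  inv_mem' := fun {g} hg => by
    have h : ∀ p, 4096 ≤ p → g⁻¹ p = p := fun p hp => by rw [Equiv.Perm.inv_eq_iff_eq, hg.1 p hp]
    refine ⟨h, fun a ha => ⟨by simpa using (hg.2 _ (lt_of_fix h ha)).1.symm, fun b hb => ?_⟩⟩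
    rw [Equiv.Perm.inv_eq_iff_eq, (hg.2 _ (lt_of_fix h ha)).2 _ (lt_of_fix h hb)]
    simp

theorem zero {g : Equiv.Perm ℕ} (h : g ∈ OV) : g 0 = 0 := by
  simpa using (h.2 0 (by decide)).2 0 (by decide)

instance : Finite OV := Finite.of_injective
  (fun g : OV => fun p : Fin 4096 => (⟨g.1 p, lt_of_fix g.2.1 p.2⟩ : Fin 4096)) fun a b e =>
    Subtype.ext (Equiv.ext fun p => by
      by_cases hp : p < 4096
      · exact congrArg Fin.val (congrFun e ⟨p, hp⟩)
      · rw [a.2.1 p (by omega), b.2.1 p (by omega)])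

/-- Induction along the binary expansion. -/
theorem ind {p : ℕ → Prop} (h0 : p 0) (h : ∀ i < 12, ∀ m < 4096, p m → p (2 ^ i ^^^ m)) : ∀ m < 4096, p m := fun m => by
  induction m using Nat.strong_induction_on with | _ m ih => ?_
  intro hm
  by_cases m0 : m = 0
  · exact m0 ▸ h0
  obtain ⟨i, h1, -⟩ := Nat.exists_most_significant_bit m0
  have h2 : 2 ^ i ^^^ m < m := Nat.lt_of_testBit i (by simp [h1]) h1 fun j hj => by
    simp [Nat.testBit_two_pow_of_ne hj.ne]
  have := h i ((Nat.pow_lt_pow_iff_right one_lt_two).1 ((Nat.ge_two_pow_of_testBit h1).trans_lt hm)) _ (by omega)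
    (ih _ h2 (by omega))
  rwa [Nat.xor_xor_cancel_left] at this

/-- The number of solutions. -/
noncomputable def cnt (p : ℕ → Bool) (n : ℕ) : ℕ :=
  Nat.rec (nat_lit 0) (fun i ih => force ih fun c => @Bool.rec (fun _ => ℕ) c (Nat.succ c) (p i)) n

theorem cnt_eq (p : ℕ → Bool) (n : ℕ) : cnt p n = ((List.range n).filter p).length := by
  induction n with
  | zero => rfl
  | succ n ih =>
    change @Bool.rec (fun _ => ℕ) (cnt p n) (Nat.succ (cnt p n)) (p n) = _
    rw [List.range_succ, List.filter_append, List.length_append, ih]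
    cases h : p n <;> simp [h]

noncomputable def bd : List ℕ → List ℕ → ℕ
  | [], _ => 1
  | b :: r, bs => cnt (fun y => band (bnot (Nat.beq y 0)) (band (Nat.beq (qm y y) (qm b b))
      (allL (fun x => Nat.beq (qm (y ^^^ x) (y ^^^ x)) (qm (b ^^^ x) (b ^^^ x))) bs))) 4096 * bd r (b :: bs)

theorem le_bd (r bs : List ℕ) (h : ∀ b ∈ r ++ bs, b ≠ 0 ∧ b < 4096) :
    Nat.card (fixer OV bs) ≤ bd r bs * Nat.card (fixer OV (r.reverse ++ bs)) := by
  induction r generalizing bs with
  | nil => simp [bd]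
  | cons b r ih =>
    rw [card_fixer bs b, bd, mul_assoc, List.reverse_cons, List.append_assoc, cnt_eq]
    refine Nat.mul_le_mul (le_trans ?_ (List.toFinset_card_le _)) (ih _ fun x hx => h x (by
      simp only [List.mem_append, List.mem_cons] at hx ⊢; tauto))
    rw [← Set.ncard_coe_finset]
    refine Set.ncard_le_ncard ?_
    rintro _ ⟨⟨g, hg, h1⟩, rfl⟩
    obtain ⟨b0, hb⟩ := h b (by simp)
    simp only [List.coe_toFinset, List.mem_filter, List.mem_range, Set.mem_ofPred_eq]
    refine ⟨lt_of_fix hg.1 hb, ?_⟩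
    change band (bnot (Nat.beq (g b) 0)) (band (Nat.beq (qm (g b) (g b)) _) (allL (fun x =>
      Nat.beq (qm (g b ^^^ x) (g b ^^^ x)) _) bs)) = true
    rw [Bool.eq_false_iff.2 fun e => b0 (g.injective ((beq_eq e).trans (zero hg).symm)), (hg.2 b hb).1, Nat.beq_refl,
      allL_of fun x hx => ?_]
    · rfl
    have hx' := (h x (by simp [hx])).2
    have := (hg.2 _ (xl hb hx')).1
    rw [(hg.2 b hb).2 x hx', h1 x hx] at this
    rw [this, Nat.beq_refl]

theorem card_le : Nat.card OV ≤ 100055114296433049600 := by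
  have := le_bd L0 [] (by decide)
  rw [fixer_nil, show bd L0 [] = 100055114296433049600 by decide +kernel,
    show fixer OV (L0.reverse ++ []) = ⊥ from eq_bot_iff.2 fun g hg => Equiv.ext fun p => by
      by_cases hp : p < 4096
      · refine ind (p := fun m => g m = m) (zero hg.1) (fun i hi m hm e => ?_) p hp
        have := (by decide : ∀ i < 12, 2 ^ i ∈ L0.reverse ++ [] ∧ 2 ^ i < 4096) i hi
        rw [(hg.1.2 _ this.2).2 m hm, e, hg.2 _ this.1]
      · exact hg.1.1 p (by omega)] at this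
  simpa using this

/-- The table is an isometry. -/
noncomputable def linB (i : ℕ) : Bool := forceB (vtt.get (2 * i + 1)) fun T => band (Nat.beq (lk 12 4095 T 0) 0)
  (band (allR (fun a => forceB (lk 12 4095 T a) fun a' => Nat.beq (qm a' a') (qm a a)) 0 4096)
    (allR (fun k => forceB (Nat.pow 2 k) fun b => forceB (lk 12 4095 T b) fun b' => allR (fun a =>
      Nat.beq (lk 12 4095 T (Nat.xor b a)) (Nat.xor b' (lk 12 4095 T a))) 0 4096) 0 12))

theorem lin0 : allR linB 0 4 = true := by decide +kernel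

theorem lin1 : allR linB 4 3 = true := by decide +kernel

theorem inv_ok : allR (fun i => forceB (vtt.get (2 * i + 1)) fun T => forceB vS fun S =>
    allR (fun a => Nat.beq (Nat.land (Nat.shiftRight S (lk 12 4095 T a)) 1) (Nat.land (Nat.shiftRight S a) 1)) 0 4096)
    0 5 = true := by decide +kernel

end Cfsg.Agent.Lib.J4O
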