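import Cfsg.Agent.Lib.J4O
import Cfsg.Agent.Lib.M24Ord
import Cfsg.Agent.Lib.Rk3Emb
import Cfsg.Prelude.Def_Spor_Mathieu

/-! A group of shape `3 M₂₂ 2` acting on the orthogonal space. -/

set_option autoImplicit false
set_option maxRecDepth 100000

namespace Cfsg.Agent.Lib.J4O

open Subgroup Cfsg.Agent.Lib.PermNet Cfsg.Agent.Lib.Words Cfsg.Agent.Lib.PermGroup Cfsg.Agent.Lib.DCE
  Cfsg.Agent.Lib.PermModel Cfsg.Agent.Lib.BT Cfsg.Agent.Lib.J4V Cfsg.Spor

theorem card_M22 : Nat.card M22 ≤ 443520 := by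
  have e : gp M24Ord.nets.perm [[0], [2]] = M24.map M24Ord.phi := M24Ord.gp_eq ▸ (map_gp' M24Ord.hphi _).symm
  have := Rk3Aut.finite_of_fix (Rk3Emb.fix_gp M24Ord.hv [[0], [2]])
  have h := le_card_fixer M24Ord.hv (A := gp M24Ord.nets.perm [[0], [2]]) _ (fun _ => mem_gp) [] 23 [0, 1, 0, 1, 0, 1, 0, 1, 0] 0 24 24
    (by decide +kernel) (le_card_fixer M24Ord.hv [[1, 2, 1, 2, 0, 3, 0], [2, 1, 3, 1, 2, 0, 2, 0, 3]] (mem_gp_of_lettersIn (by decide))
      [23] 0 [0, 1, 0, 1, 0, 0, 1, 0, 0, 1] 0 23 23 (by decide +kernel) le_rfl)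
  have := finite_fixer (A := gp M24Ord.nets.perm [[0], [2]]) [0, 23]
  have := Subgroup.card_le_of_le (H := M22.map M24Ord.phi) (K := fixer (gp M24Ord.nets.perm [[0], [2]]) [0, 23]) (by
    rintro _ ⟨g, hg, rfl⟩
    exact ⟨e ▸ ⟨g, hg.1.1, rfl⟩, List.forall_mem_cons.2 ⟨(M24Ord.phi_idx g (some 0)).trans (congrArg Golay.idx hg.2),
      List.forall_mem_singleton.2 ((M24Ord.phi_idx g none).trans (congrArg Golay.idx hg.1.2))⟩⟩)
  rw [fixer_nil, e, Subgroup.card_map_of_injective M24Ord.phi_injective, M24Ord.card_M24, ← e] at h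
  rw [Subgroup.card_map_of_injective M24Ord.phi_injective] at this
  omega

/-- Generators of `M₂₂`. -/
def g (i : ℕ) : M22 := if h : i < 4 then ⟨Golay.ofList (gL.getD i default).1 (gL.getD i default).2
    (by revert i; decide +kernel), ⟨Golay.mem_M24_of (by revert i; decide +kernel),
      by change Golay.pt _ = _; revert i; decide +kernel⟩, by change Golay.pt _ = _; revert i; decide +kernel⟩ else 1

/-- The permutations of the numbers. -/
noncomputable def ph : M22 →* Equiv.Perm ℕ := M24Ord.phi.comp M22.subtype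

theorem ph_inj : Function.Injective ph := M24Ord.phi_injective.comp Subtype.val_injective

theorem ph_g : ∀ i < 4, ph (g i) = tp (nat_lit 24) (nat_lit 5) (nat_lit 31) mtt i := fun i hi => Equiv.ext fun n => by
  by_cases hn : n < 24
  · rw [mok.apply i hn, ← Golay.idx_pt n hn, g, dif_pos hi]
    refine (M24Ord.phi_idx _ _).trans ?_
    change Golay.idx (Golay.pt _) = _
    revert i n
    decide +kernel
  · rw [show tp _ _ _ mtt i n = n by simpa [wval, lval] using tp_fix mtt [2 * i] (not_lt.1 hn)]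
    exact Equiv.Perm.viaEmbedding_apply_of_notMem _ _ _ fun ⟨p, hp⟩ => hn (hp ▸ Golay.idx_lt p)

theorem g_top : gp g (sing 4) = ⊤ := eq_top_of_le_card _ (card_M22.trans (mTM.le_card ph ph_g))

theorem g_rel (w : List ℕ) (h : (lt2 4 w && fixA (nat_lit 5) (nat_lit 31) mtt (nat_lit 24) w) = true) : wval g w = 1 := by
  rw [Bool.and_eq_true] at h
  refine ph_inj ?_
  rw [map_wval, wval_congr ph_g (by simpa using h.1), map_one]
  exact mok.relsA [w] (allL_of (by simpa using h.2)) w (by simp)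

theorem g_ne : g 0 ≠ 1 := fun e => by
  have := congrArg (fun x => ph x 1) e
  simp only [ph_g 0 (by decide), map_one] at this
  rw [mok.apply 0 (by decide)] at this
  exact absurd this (by decide +kernel)

theorem rig {X : Type*} [Group X] {a b : X} {m : ℕ} (hc : a * b⁻¹ * b = b * (a * b⁻¹)) (h3 : (a * b⁻¹) ^ 3 = 1)
    (ha : a ^ m = 1) (hb : b ^ m = 1) (hm : Nat.gcd 3 m = 1) : a * b⁻¹ = 1 := by
  have := Commute.mul_pow hc m
  rw [inv_mul_cancel_right, ha, hb, mul_one] at this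
  have := pow_gcd_eq_one.2 ⟨h3, this.symm⟩
  rwa [hm, pow_one] at this

theorem core {C : Type*} [Group C] [Finite C] (ρ : C →* Equiv.Perm ℕ) (hρ : ∀ c, ρ c ∈ OV) (Q N M : Subgroup C)
    [N.Normal] [hMn : M.Normal] (hk : ∀ c, ρ c = 1 ↔ c ∈ Q) (hQN : Q ≤ N) (hNM : N ≤ M) (hM : M.index = 2)
    (hN : Nat.card N = 3 * Nat.card Q) (hcent : ⁅M, N⁆ ≤ Q) (hM22 : IsoM22 (M ⧸ N.subgroupOf M)) :
    ∃ a ∈ OV, ∀ i < 5, F i ∈ ((MulAut.conj a).toMonoidHom.comp ρ).range := by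
  obtain ⟨e⟩ := hM22
  let ψ : M →* M22 := e.toMonoidHom.comp (QuotientGroup.mk' _)
  have hs : Function.Surjective ψ := e.surjective.comp (QuotientGroup.mk'_surjective _)
  have hψ : ∀ m, ψ m = 1 ↔ (m : C) ∈ N := fun m => (map_eq_one_iff e e.injective).trans (QuotientGroup.eq_one_iff m)
  have cZ : Nat.card (N.map ρ) = 3 := by
    have := (Q.subgroupOf N).index_mul_card
    rw [Nat.card_congr (subgroupOfEquivOfLe hQN).toEquiv, hN] at this
    rw [← relIndex_ker, show ρ.ker = Q from Subgroup.ext hk]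
    exact Nat.eq_of_mul_eq_mul_right Nat.card_pos this
  have z3 : ∀ n ∈ N, ρ n ^ 3 = 1 := fun n hn =>
    congrArg Subtype.val (cZ ▸ pow_card_eq_one' (x := (⟨ρ n, n, hn, rfl⟩ : N.map ρ)))
  have zc : ∀ n ∈ N, ∀ m ∈ M, ρ m * ρ n = ρ n * ρ m := fun n hn m hm => by
    have := (hk _).2 (hcent (commutator_mem_commutator hm hn))
    rwa [map_commutatorElement, commutatorElement_eq_one_iff_mul_comm] at this
  obtain ⟨n0, hn0, n1⟩ : ∃ n ∈ N, n ∉ Q := by
    by_contra! c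
    have := card_le_of_le (show N ≤ Q from c)
    have : 0 < Nat.card Q := Nat.card_pos
    omega
  choose y0 hy0 using fun i => hs (g i)
  let y : ℕ → M := fun i => if i = 2 then ⟨n0, hNM hn0⟩ else y0 i ^ [12, 6, 1, 9].getD i 1
  have gp' : ∀ i k, (lt2 4 (rep k [2 * i]) && fixA (nat_lit 5) (nat_lit 31) mtt (nat_lit 24) (rep k [2 * i])) = true →
      g i ^ k = 1 := fun i k h => wval_single g i ▸ (wval_rep _ k _).symm.trans (g_rel _ h)
  have hy : ∀ i < 4, ψ (y i) = g i := fun i hi => by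
    interval_cases i
    · exact (map_pow ψ _ (11 + 1)).trans (by rw [hy0, pow_succ, gp' 0 11 (by decide +kernel), one_mul])
    · exact (map_pow ψ _ (5 + 1)).trans (by rw [hy0, pow_succ, gp' 1 5 (by decide +kernel), one_mul])
    · exact ((hψ _).2 hn0).trans ((pow_one _).symm.trans (gp' 2 1 (by decide +kernel))).symm
    · exact (map_pow ψ _ (8 + 1)).trans (by rw [hy0, pow_succ, gp' 3 8 (by decide +kernel), one_mul])
  let σ : M →* Equiv.Perm ℕ := ρ.comp M.subtype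
  have ex : ∀ i k m, g i ^ m = 1 → σ (y0 i ^ (3 * k)) ^ m = 1 := fun i k m h => by
    rw [← map_pow, ← pow_mul, mul_comm, pow_mul, map_pow, pow_mul,
      show σ (y0 i ^ m) ^ 3 = 1 from z3 _ ((hψ _).1 (by rw [map_pow, hy0, h])), one_pow]
  have rel : ∀ w, (lt2 4 w && fixA (nat_lit 5) (nat_lit 31) mtt (nat_lit 24) w) = true →
      ∃ n ∈ N, wval (fun i => σ (y i)) w = ρ n := fun w h =>
    ⟨(wval y w).1, (hψ _).1 (by
      rw [map_wval, wval_congr hy (by simpa using (Bool.and_eq_true_iff.1 h).1), g_rel w h]), (map_wval σ y w).symm⟩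
  have o0 : σ (y 0) ^ 11 = 1 := ex 0 4 11 (gp' 0 11 (by decide +kernel))
  have o1 : σ (y 1) ^ 5 = 1 := ex 1 2 5 (gp' 1 5 (by decide +kernel))
  have o3 : σ (y 3) ^ 4 = 1 := ex 3 3 4 (gp' 3 4 (by decide +kernel))
  have c2 : ∀ i, σ (y i) * σ (y 2) = σ (y 2) * σ (y i) := fun i => zc n0 hn0 _ (y i).2
  have cj : ∀ i j k m, σ (y j) ^ m = 1 → Nat.gcd 3 m = 1 →
      (∃ n ∈ N, σ (y i) * σ (y j) * (σ (y i))⁻¹ * (σ (y j) ^ k)⁻¹ = ρ n) →
      σ (y i) * σ (y j) * (σ (y i))⁻¹ * (σ (y j) ^ k)⁻¹ = 1 := fun i j k m h hm ⟨n, hn, e⟩ =>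
    rig (by rw [e, ← map_pow]; exact (zc n hn _ (y j ^ k).2).symm) (e ▸ z3 n hn) (by rw [conj_pow, h]; simp)
      (by rw [← pow_mul, mul_comm, pow_mul, h, one_pow]) hm
  have wr : ∀ i k, σ (y i) ^ k = 1 → wval (fun i => σ (y i)) (rep k [2 * i]) = 1 := fun i k h => by
    rw [wval_rep, wval_single, h]
  obtain ⟨a, ha, a0, a1, a2, a3⟩ := classify (Y := fun i => σ (y i)) (fun i => hρ _) (by
      simp only [RR, List.forall_mem_cons, List.forall_mem_map]
      refine ⟨wr 0 11 o0, wr 1 5 o1, wr 2 3 (z3 n0 hn0), ?_, ?_, ?_, ?_, ?_, ?_, wr 3 4 o3, fun r hr => ?_⟩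
      · have := cj 1 0 3 11 o0 rfl (by
          simpa [wval, lval, pow_succ, mul_assoc] using rel [2, 0, 3, 1, 1, 1] (by decide +kernel))
        simpa [wval, lval, pow_succ, mul_assoc] using this
      · simp [wval, lval, ← mul_assoc, ← c2 0]
      · simp [wval, lval, ← mul_assoc, ← c2 1]
      · have := cj 3 1 2 5 o1 rfl (by
          simpa [wval, lval, pow_succ, mul_assoc] using rel [6, 2, 7, 3, 3] (by decide +kernel))
        simpa [wval, lval, pow_succ, mul_assoc] using this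
      · simp [wval, lval, ← mul_assoc, c2 3]
      · simp [wval, lval, ← mul_assoc, (Commute.inv_right (c2 3)).eq]
      · obtain ⟨n, hn, e⟩ := rel r (by revert r; decide +kernel)
        rw [wval_rep, e, z3 n hn])
    (fun e => g_ne (by rw [← hy 0 (by decide), hψ]; exact hQN ((hk _).1 e))) fun e => n1 ((hk _).1 e)
  let τ := (MulAut.conj a).toMonoidHom.comp ρ
  have hH : ∀ i < 4, F i ∈ M.map τ := fun i hi => by
    interval_cases i
    · exact ⟨_, (y 0).2, a0⟩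
    · exact ⟨_, (y 1).2, a1⟩
    · exact a2.elim (fun e => ⟨_, (y 2).2, e⟩) fun e => inv_mem_iff.1 ⟨_, (y 2).2, e⟩
    · exact ⟨_, (y 3).2, a3⟩
  have hy' : ∀ i < 4, τ (y i) ∈ TS := fun i hi => by
    interval_cases i
    · exact (show τ (y 0) = F 0 from a0) ▸ F_mem 0 (by decide)
    · exact (show τ (y 1) = F 1 from a1) ▸ F_mem 1 (by decide)
    · exact a2.elim (fun e => (show τ (y 2) = F 2 from e) ▸ F_mem 2 (by decide))
        fun e => (show τ (y 2) = (F 2)⁻¹ from e) ▸ inv_mem (F_mem 2 (by decide))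
    · exact (show τ (y 3) = F 3 from a3) ▸ F_mem 3 (by decide)
  have hZ : ∀ n ∈ N, τ n ∈ TS := fun n hn => by
    have := Fact.mk Nat.prime_three
    obtain ⟨k, hk'⟩ := mem_zpowers_of_prime_card cZ (g := ⟨ρ n0, n0, hn0, rfl⟩)
      (fun e => n1 ((hk _).1 (congrArg Subtype.val e))) (g' := ⟨ρ n, n, hn, rfl⟩)
    have : τ n = τ n0 ^ k := by
      change MulAut.conj a (ρ n) = MulAut.conj a (ρ n0) ^ k
      rw [← map_zpow]; exact congrArg _ (congrArg Subtype.val hk').symm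
    exact this ▸ zpow_mem (hy' 2 (by decide)) k
  have hT : M.map τ ≤ TS := by
    rintro _ ⟨m, hm, rfl⟩
    have : ⊤ ≤ (TS.comap (τ.comp M.subtype)).map ψ := g_top ▸ gp_le.2 fun w hw => by
      obtain ⟨i, hi, rfl⟩ := List.mem_map.1 hw
      exact ⟨y i, hy' i (List.mem_range.1 hi), (hy i (List.mem_range.1 hi)).trans (wval_single g i).symm⟩
    obtain ⟨x, hx, e⟩ := this (mem_top (ψ ⟨m, hm⟩))
    have := mul_mem (show τ x ∈ TS from hx) (hZ (x⁻¹ * ⟨m, hm⟩ : M).1
      ((hψ (x⁻¹ * ⟨m, hm⟩)).1 (by rw [map_mul, map_inv, e, inv_mul_cancel])))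
    rwa [← map_mul, Subgroup.coe_mul, Subgroup.coe_inv, mul_inv_cancel_left] at this
  obtain ⟨v, hv⟩ : ∃ v, v ∉ M := by
    by_contra! c
    rw [(eq_top_iff' M).2 c] at hM
    simp at hM
  have hO : ∀ c, τ c ∈ OV := fun c => mul_mem (mul_mem ha (hρ c)) (inv_mem ha)
  refine ⟨a, ha, fun i hi => ?_⟩
  rcases Nat.lt_succ_iff_lt_or_eq.1 hi with hi | rfl
  · exact map_le_range τ M (hH i hi)
  refine outer (by rintro _ ⟨m, -, rfl⟩; exact hO m) hT (map_le_range τ M) hH (hO v) ⟨v, rfl⟩ ?_ ?_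
  · rintro ⟨m, hm, e⟩
    have : ρ (m⁻¹ * v) = 1 := by
      rw [map_mul, map_inv, (MulAut.conj a).injective e, inv_mul_cancel]
    exact hv ((M.mul_mem_cancel_left (inv_mem hm)).1 (hNM (hQN ((hk _).1 this))))
  · rintro _ ⟨m, hm, rfl⟩
    exact ⟨v * m * v⁻¹, hMn.conj_mem m hm v, by simp only [map_mul, map_inv]⟩

end Cfsg.Agent.Lib.J4O
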