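import Cfsg.Agent.Lib.J4L
import Cfsg.Agent.Lib.J4Defs

/-! Pairs of an abstract group and the fourth Janko group: the interface between the construction
of the swapping involution and the relators. -/

set_option autoImplicit false
set_option maxRecDepth 100000

namespace Cfsg.Agent.Lib.J4P

open Subgroup Cfsg.Agent.Lib.PermNet Cfsg.Agent.Lib.Words Cfsg.Agent.Lib.J4Defs Cfsg.Agent.Lib.J4L

/-- The word of a code. -/
def qw (a : ℕ) : List ℕ := ((List.range 13).filter a.testBit).map fun i => 2 * (6 + i)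

/-- The code of a word. -/
noncomputable def cq (w : List ℕ) : ℕ :=
  List.rec (motive := fun _ => ℕ) 0 (fun l _ ih => qm (2 ^ (l / 2 - 6)) ih) w

/-- The word of the code `a` has the code `a`. -/
noncomputable def qok (a : ℕ) : Bool :=
  (qw a).all (fun l => decide (l % 2 = 0 ∧ 12 ≤ l ∧ l < 38)) && Nat.beq (cq (qw a)) a

theorem wval_cq {X : Type*} [Group X] {y n : ℕ → X} (mul : ∀ a < 8192, ∀ b < 8192, n a * n b = n (qm a b))
    (n0 : n 0 = 1) (hy : ∀ i < 13, y (6 + i) = n (2 ^ i)) (w : List ℕ)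
    (hw : w.all (fun l => decide (l % 2 = 0 ∧ 12 ≤ l ∧ l < 38)) = true) :
    cq w < 8192 ∧ wval y w = n (cq w) := by
  induction w with
  | nil => exact ⟨by decide, n0.symm⟩
  | cons l w ih =>
    rw [List.all_cons, Bool.and_eq_true, decide_eq_true_eq] at hw
    obtain ⟨i1, i2⟩ := ih hw.2
    have h : 2 ^ (l / 2 - 6) < 8192 := Nat.pow_lt_pow_right (n := 13) one_lt_two (by omega)
    refine ⟨qm_lt h i1, ?_⟩
    rw [wval_cons, i2, lval, if_pos hw.1.1, show l / 2 = 6 + (l / 2 - 6) by omega, hy _ (by omega), mul _ h _ i1]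
    rfl

theorem wval_qw {X : Type*} [Group X] {y n : ℕ → X} (mul : ∀ a < 8192, ∀ b < 8192, n a * n b = n (qm a b))
    (n0 : n 0 = 1) (hy : ∀ i < 13, y (6 + i) = n (2 ^ i)) (a : ℕ) (h : qok a = true) :
    wval y (qw a) = n a := by
  rw [qok, Bool.and_eq_true] at h
  rw [(wval_cq mul n0 hy _ h.1).2, Nat.eq_of_beq_eq_true h.2]

variable {G : Type*} [Group G]

/-- The pairs `X 0, …, X 19` over the letters of `J4`; `D` is the graph of an isomorphism of the
involution centralisers, `X 19` the swapping involution. -/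
structure TB (n : ℕ → G) (X : ℕ → G × Spor.J4) (D : Subgroup (G × Spor.J4)) : Prop where
  snd : ∀ i < 20, (X i).2 = L i
  fst : ∀ i < 13, (X (6 + i)).1 = n (2 ^ i)
  mem : ∀ i < 19, X i ∈ D
  inj : ∀ d ∈ D, d.2 = 1 → d = 1
  zc : ∀ d ∈ D, d * X 18 = X 18 * d
  tt : X 19 * X 19 = 1
  nor : ∀ d ∈ D, d * X 6 = X 6 * d → X 19 * d * X 19 ∈ D
  q3 : (X 7 * X 19) ^ 3 = 1

end Cfsg.Agent.Lib.J4P
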