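import Cfsg.Agent.Lib.J4S0
import Cfsg.Agent.Lib.BT5

/-! The defining relators of the fourth Janko group from the swapping involution. -/

set_option autoImplicit false
set_option maxRecDepth 100000

namespace Cfsg.Agent.Lib.J4S

open Subgroup Cfsg.Agent.Lib.PermNet Cfsg.Agent.Lib.Words Cfsg.Agent.Lib.J4L Cfsg.Agent.Lib.J4Defs
  Cfsg.Agent.Lib.J4P Cfsg.Agent.Lib.DCE Cfsg.Agent.Lib.BT

variable {G : Type*} [Group G] {z : G} {Q : Subgroup G} {n : ℕ → G} {X : ℕ → G × Spor.J4}
  {D : Subgroup (G × Spor.J4)}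

/-- All letters. -/
def XX (X : ℕ → G × Spor.J4) (i : ℕ) : G × Spor.J4 := wval X (FWD.getD i [])

theorem XX_lt {i : ℕ} (hi : i < 20) : XX X i = X i := by
  rw [XX, (by decide : ∀ i < 20, FWD.getD i [] = [2 * i]) i hi, wval_single]

theorem XX_eq {i : ℕ} (hi : i < 34) : XX X i = wval (XX X) (FWD.getD i []) :=
  wval_congr (n := 20) (fun _ h => (XX_lt h).symm)
    ((by decide +kernel : ∀ i < 34, ∀ l ∈ FWD.getD i [], l < 2 * 20) i hi)

def DL : List ℕ := List.range 19 ++ [22, 23, 24, 25, 26, 27, 28, 29, 30, 31, 32, 33]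
def AL : List ℕ := [22, 23, 24, 25, 26, 27, 28, 29, 30, 31, 32]
def PL : List ℕ := [0, 1, 2, 3, 19] ++ AL
def SL : List ℕ := [20, 21] ++ ([4, 18, 7] ++ PL)

theorem cj {Y : Type*} [Group Y] {y : ℕ → Y} {g u v : List ℕ} (h : wval y (g ++ u ++ invW g ++ invW v) = 1) :
    wval y g * wval y u * (wval y g)⁻¹ = wval y v := by
  simpa only [wval_append, wval_invW, mul_inv_eq_one] using h

theorem cm {Y : Type*} [Group Y] {y : ℕ → Y} {u v : List ℕ} (h : wval y (u ++ v ++ invW u ++ invW v) = 1) :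
    wval y u * wval y v = wval y v * wval y u := by
  exact mul_inv_eq_iff_eq_mul.1 (cj h)

variable (T : TB n X D)
include T

theorem snd {w : List ℕ} (hw : w.all (fun l => decide (l < 2 * 34)) = true) : (wval (XX X) w).2 = wval L w := by
  refine (map_wval (MonoidHom.snd G Spor.J4) (XX X) w).trans (wval_congr (n := 34) (fun i hi => ?_) (by simpa using hw))
  have := jF _ (List.mem_map.2 ⟨i, List.mem_range.2 hi, rfl⟩)
  rw [wval_append, wval_invW, mul_inv_eq_one, wval_single] at this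
  rw [← this]
  exact (map_wval (MonoidHom.snd G Spor.J4) X _).trans (wval_congr (n := 20) T.snd
    ((by decide +kernel : ∀ i < 34, ∀ l ∈ FWD.getD i [], l < 2 * 20) i hi))

theorem memD : ∀ i ∈ DL, XX X i ∈ D := fun i hi =>
  mem_word (List.range 19) (fun j hj => T.mem j (List.mem_range.1 hj))
    (allL_all (by decide +kernel : allL (fun i => allL (okL (List.range 19)) (FWD.getD i [])) DL = true) i hi)

theorem wD {w : List ℕ} (hw : allL (okL DL) w = true) : wval (XX X) w ∈ D := mem_word DL (memD T) hw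

theorem relI {P : Subgroup (G × Spor.J4)} (hP : ∀ d ∈ P, d.2 = 1 → d = 1) {l : List ℕ} (hl : ∀ i ∈ l, XX X i ∈ P)
    {R : List (List ℕ)} (hR : ∀ w ∈ R, wval L w = 1)
    (h : allL (fun w => band (allL (okL l) w) (w.all fun l => decide (l < 2 * 34))) R = true) :
    ∀ w ∈ R, wval (XX X) w = 1 := fun w hw =>
  hP _ (mem_word l hl (band_eq (allL_all h w hw)).1) ((snd T (band_eq (allL_all h w hw)).2).trans (hR w hw))

theorem hD : ∀ w ∈ RD, wval (XX X) w = 1 := relI T T.inj (memD T) jRD (by decide +kernel)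

theorem eqD {a b : G × Spor.J4} (ha : a ∈ D) (hb : b ∈ D) (h : a.2 = b.2) : a = b :=
  mul_inv_eq_one.1 (T.inj _ (D.mul_mem ha (D.inv_mem hb)) (by simp [h]))

theorem hT : ∀ w ∈ RT.map (fun p => 38 :: p.1 ++ 38 :: invW p.2), wval (XX X) w = 1 := fun w hw => by
  obtain ⟨p, hp, rfl⟩ := List.mem_map.1 hw
  obtain ⟨⟨h1, h2⟩, h3, h4⟩ := (band_eq (allL_all (by decide +kernel : allL (fun p : List ℕ × List ℕ => band
    (band (allL (okL DL) p.1) (allL (okL DL) p.2)) (band ((p.1 ++ [12] ++ invW ([12] ++ p.1)).all fun l => decide (l < 2 * 34))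
      ((38 :: p.1 ++ 38 :: invW p.2).all fun l => decide (l < 2 * 34)))) RT = true) p hp)).imp band_eq band_eq
  have e6 : wval (XX X) [12] = X 6 := (wval_single _ 6).trans (XX_lt (by decide))
  have c : wval (XX X) (p.1 ++ [12] ++ invW ([12] ++ p.1)) = 1 := T.inj _ (by
    simp only [wval_append, wval_invW, e6]
    exact D.mul_mem (D.mul_mem (wD T h1) (T.mem 6 (by decide))) (D.inv_mem (D.mul_mem (T.mem 6 (by decide)) (wD T h1))))
    ((snd T h3).trans (jT1 _ (List.mem_map.2 ⟨p, hp, rfl⟩)))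
  simp only [wval_append, wval_invW, e6, mul_inv_eq_one] at c
  refine T.inj _ ?_ ((snd T h4).trans (jT2 _ hw))
  have e : lval (XX X) 38 = X 19 := XX_lt (by decide)
  rw [List.cons_append, wval_cons, wval_append, wval_cons, wval_invW, e, ← mul_assoc, ← mul_assoc]
  exact D.mul_mem (T.nor _ (wD T h1) c) (D.inv_mem (wD T h2))

omit T in
def K1 : List (List ℕ) := [[38, 38], rep 3 [14, 38]] ++ (RD ++ RT.map fun p => 38 :: p.1 ++ 38 :: invW p.2)

theorem hK1 : ∀ w ∈ K1, wval (XX X) w = 1 := by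
  refine all_append (fun w hw => ?_) (all_append (hD T) (hT T))
  have e : lval (XX X) 38 = X 19 := XX_lt (by decide)
  have e' : lval (XX X) 14 = X 7 := XX_lt (by decide)
  simp only [List.mem_cons, List.not_mem_nil, or_false] at hw
  rcases hw with rfl | rfl
  · rw [wval_cons, wval_cons, e, wval_nil, mul_one, T.tt]
  · rw [wval_rep, wval_cons, wval_cons, e, e', wval_nil, mul_one, T.q3]

theorem d1 (w : List ℕ) (h : deriveB [19] K1 [w] = true) : wval (XX X) w = 1 := derive_one _ (hK1 T) w h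

omit T in
def ap (l : List ℕ) (a : ℕ) : ℕ := l.getD (V8.idxOf a) 0

theorem cjV (g l : List ℕ)
    (h : deriveB [19] K1 (V8.map fun a => g ++ qw a ++ invW g ++ invW (qw (ap l a))) = true) :
    ∀ a ∈ V8, wval (XX X) g * wval (XX X) (qw a) * (wval (XX X) g)⁻¹ = wval (XX X) (qw (ap l a)) :=
  fun a ha => cj (derive _ (hK1 T) _ h _ (List.mem_map.2 ⟨a, ha, rfl⟩))

variable (E : Enc z Q n)
include E

theorem fq (a : ℕ) (h : qok a = true) : (wval (XX X) (qw a)).1 = n a :=
  (map_wval (MonoidHom.fst G Spor.J4) (XX X) _).trans (wval_qw E.mul E.zero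
    (fun i hi => by rw [XX_lt (by omega)]; exact T.fst i hi) a h)

theorem braid (cE : ∀ c, c * z = z * c → (∀ e ∈ [1, 4, 16, 64, 256, 1024], c * n e = n e * c) →
    ∃ a < 8192, a &&& 2730 = 0 ∧ c = n a) : wval (XX X) (rep 3 (38 :: sw)) = 1 := by
  have hs := cjV T sw ls (by decide +kernel)
  have ht := cjV T [38] lt (by decide +kernel)
  have hx := cjV T qx lx (by decide +kernel)
  have et : wval (XX X) [38] = X 19 := (wval_single _ 19).trans (XX_lt (by decide))
  have e6 : wval (XX X) (qw 1) = X 6 := (wval_single _ 6).trans (XX_lt (by decide))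
  have ez : wval (XX X) (qw 4096) = X 18 := (wval_single _ 18).trans (XX_lt (by decide))
  have ss : wval (XX X) sw * wval (XX X) sw = 1 := (wval_append _ _ _).symm.trans (d1 T _ (by decide +kernel))
  have sq := cj (d1 T (sw ++ [14] ++ invW sw ++ invW qx) (by decide +kernel))
  have xw := cm (d1 T (qx ++ qw 1 ++ invW qx ++ invW (qw 1)) (by decide +kernel))
  have sD : wval (XX X) sw ∈ D := wD T (by decide +kernel)
  have xD : wval (XX X) qx ∈ D := wD T (by decide +kernel)
  have c2 : (wval (XX X) (rep 3 (38 :: sw))).2 = 1 := (snd T (by decide +kernel)).trans jX2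
  have r2 : (wval (XX X) (rep 3 (38 :: qx ++ 38 :: sw))).2 = 1 := (snd T (by decide +kernel)).trans jX1
  have e7 : wval (XX X) [14] = X 7 := (wval_single _ 7).trans (XX_lt (by decide))
  have el : lval (XX X) 38 = X 19 := XX_lt (by decide)
  rw [wval_rep, List.cons_append, wval_cons, wval_append, wval_cons, el, ← mul_assoc, ← mul_assoc] at r2
  rw [wval_rep, wval_cons, el] at c2 ⊢
  rw [et] at ht
  rw [e7] at sq
  rw [e6] at xw
  have r3 := T.inj _ (D.pow_mem (D.mul_mem (T.nor _ xD xw) sD) 3) r2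
  have tt := T.tt
  have q3 := T.q3
  generalize wval (XX X) sw = s at *
  generalize wval (XX X) qx = x at *
  have ti : (X 19)⁻¹ = X 19 := inv_eq_of_mul_eq_one_right tt
  have si : s⁻¹ = s := inv_eq_of_mul_eq_one_right ss
  -- the cube centralises the stabiliser of the plane
  have mv : ∀ {g d a b : G × Spor.J4}, g * a * g⁻¹ = b → d * a = a * d → g * d * g⁻¹ * b = b * (g * d * g⁻¹) :=
    fun {g d a b} e h => by rw [← e, conj_mul, conj_mul, h]
  let P : G × Spor.J4 → Prop := fun d => d ∈ D ∧ d * wval (XX X) (qw 1) = wval (XX X) (qw 1) * d ∧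
    d * wval (XX X) (qw 1360) = wval (XX X) (qw 1360) * d
  have st : ∀ d, P d → P (X 19 * s * d * (X 19 * s)⁻¹) := fun d ⟨a1, a2, a3⟩ => by
    have b1 := D.mul_mem (D.mul_mem sD a1) (D.inv_mem sD)
    have b2 := mv (hs 1360 (by decide)) a3
    have b3 := mv (hs 1 (by decide)) a2
    rw [show X 19 * s * d * (X 19 * s)⁻¹ = X 19 * (s * d * s⁻¹) * (X 19)⁻¹ by group]
    refine ⟨ti.symm ▸ T.nor _ b1 (e6 ▸ b2), mv (ht 4096 (by decide)) (ez ▸ T.zc _ b1), mv (ht 1360 (by decide)) b3⟩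
  have cen : ∀ b ∈ CB, ((X 19 * s) ^ 3).1 * n b = n b * ((X 19 * s) ^ 3).1 := fun b hb => by
    obtain ⟨⟨h1, h2⟩, h3⟩ := (band_eq (allL_all (by decide +kernel : allL (fun b => band (band (allL (okL DL) (qw b))
      (qok b)) (deriveB [19] K1 [qw b ++ qw 1 ++ invW (qw b) ++ invW (qw 1),
        qw b ++ qw 1360 ++ invW (qw b) ++ invW (qw 1360)])) CB = true) b hb)).imp_left band_eq
    have h4 := derive _ (hK1 T) _ h3
    have h5 := (st _ (st _ (st _ ⟨wD T h1, cm (h4 _ (by simp)), cm (h4 _ (by simp))⟩))).1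
    rw [show ∀ g d : G × Spor.J4, g * (g * (g * d * g⁻¹) * g⁻¹) * g⁻¹ = g ^ 3 * d * (g ^ 3)⁻¹ from
      fun g d => by simp [pow_succ, mul_assoc]] at h5
    have h6 := eqD T h5 (wD T h1) (by rw [Prod.snd_mul, Prod.snd_mul, Prod.snd_inv, c2]; simp)
    rw [← fq T E b h2, ← Prod.fst_mul, ← Prod.fst_mul, mul_inv_eq_iff_eq_mul.1 h6]
  obtain ⟨a, ha, h0, ea⟩ := cE _ (E.z12 ▸ cen 4096 (by decide)) fun e he => cen e (by
    simp only [List.mem_cons, List.not_mem_nil, or_false] at he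
    rcases he with rfl | rfl | rfl | rfl | rfl | rfl <;> decide)
  have hV : a ∈ V8 := by
    refine of_decide_eq_true (allR_all (by decide +kernel : allR (fun a => decide (a &&& 2730 = 0 →
      (∀ b ∈ CB, qm a b = qm b a) → a ∈ V8)) 0 8192 = true) a a.zero_le (by omega)) h0 fun b hb => ?_
    have hb' := (by decide : ∀ b ∈ CB, b < 8192) b hb
    have := cen b hb
    rw [ea, E.mul _ ha _ hb', E.mul _ hb' _ ha] at this
    exact E.inj _ (qm_lt ha hb') _ (qm_lt hb' ha) this
  have g1 : ∀ {g : G × Spor.J4} {l : List ℕ}, (∀ a ∈ V8, g * wval (XX X) (qw a) * g⁻¹ = wval (XX X) (qw (ap l a))) →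
      (∀ a ∈ V8, qok a = true ∧ qok (ap l a) = true) → ∀ a ∈ V8, g.1 * n a * g.1⁻¹ = n (ap l a) :=
    fun h h' a ha => by
      rw [← fq T E _ (h' a ha).1, ← fq T E _ (h' a ha).2, ← h a ha]; rfl
  replace hs := g1 hs (by decide +kernel)
  replace ht := g1 ht (by decide +kernel)
  replace hx := g1 hx (by decide +kernel)
  have fx : n a = n (ap lt (ap ls a)) := by
    rw [← ht _ ((by decide : ∀ a ∈ V8, ap ls a ∈ V8) a hV), ← hs a hV, ← ea, Prod.pow_fst, Prod.fst_mul]
    simp only [pow_succ]; group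
  rcases (by decide : ∀ a ∈ V8, a = ap lt (ap ls a) → a = 0 ∨ a = 5457) a hV
    (E.inj _ ha _ ((by decide : ∀ a ∈ V8, ap lt (ap ls a) < 8192) a hV) fx) with rfl | rfl
  · exact Prod.ext (ea.trans E.zero) c2
  exfalso
  have u3 : (x * (s * X 19 * s)) ^ 3 = 1 := by
    rw [← sq, show s * X 7 * s⁻¹ * (s * X 19 * s) = s * (X 7 * X 19) * s⁻¹ by rw [si]; nth_rw 2 [← si]; group,
      conj_pow, q3]; simp
  have v3 : (x * ((X 19 * s) ^ 3 * (s * X 19 * s))) ^ 3 = 1 := by
    have t2 : ∀ y, X 19 * (X 19 * y) = y := fun y => by rw [← mul_assoc, tt, one_mul]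
    have s2 : ∀ y, s * (s * y) = y := fun y => by rw [← mul_assoc, ss, one_mul]
    rw [show x * ((X 19 * s) ^ 3 * (s * X 19 * s)) = X 19 * (X 19 * x * X 19 * s) * (X 19)⁻¹ by
      rw [ti]; simp only [pow_succ, pow_zero, one_mul, mul_assoc, t2, s2, ss, mul_one], conj_pow, r3]; simp
  replace u3 := congrArg Prod.fst u3
  replace v3 := congrArg Prod.fst v3
  replace si := congrArg Prod.fst si
  simp only [Prod.pow_fst, Prod.fst_mul, Prod.fst_one, Prod.fst_inv] at u3 v3 ea si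
  rw [ea, ← mul_assoc, show x.1 * n 5457 = n 1361 * x.1 from mul_inv_eq_iff_eq_mul.1 (hx 5457 (by decide)),
    mul_assoc] at v3
  have hu : ∀ b ∈ V8, x.1 * (s.1 * (X 19).1 * s.1) * n b * (x.1 * (s.1 * (X 19).1 * s.1))⁻¹ =
      n (ap lx (ap ls (ap lt (ap ls b)))) := fun b hb => by
    rw [← hx _ ((by decide : ∀ a ∈ V8, ap ls (ap lt (ap ls a)) ∈ V8) b hb),
      ← hs _ ((by decide : ∀ a ∈ V8, ap lt (ap ls a) ∈ V8) b hb),
      ← ht _ ((by decide : ∀ a ∈ V8, ap ls a ∈ V8) b hb), ← hs b hb]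
    group
  generalize x.1 * (s.1 * (X 19).1 * s.1) = u at u3 v3 hu
  rw [show (n 1361 * u) ^ 3 = n 1361 * (u * n 1361 * u⁻¹) * (u * (u * n 1361 * u⁻¹) * u⁻¹) * u ^ 3 by
    simp only [pow_succ]; group, u3, hu 1361 (by decide), show ap lx (ap ls (ap lt (ap ls 1361))) = 4097 by decide,
    hu 4097 (by decide), show ap lx (ap ls (ap lt (ap ls 4097))) = 5457 by decide, mul_one,
    E.mul _ (by decide) _ (by decide), E.mul _ (qm_lt (by decide) (by decide)) _ (by decide), ← E.zero] at v3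
  exact absurd (E.inj _ (by decide +kernel) _ (by decide) v3) (by decide +kernel)

end Cfsg.Agent.Lib.J4S
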