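import Cfsg.Agent.Lib.J4S

/-! The embedding of the fourth Janko group from the swapping involution. -/

set_option autoImplicit false
set_option maxRecDepth 100000

namespace Cfsg.Agent.Lib.J4S

open Subgroup Cfsg.Agent.Lib.PermNet Cfsg.Agent.Lib.Words Cfsg.Agent.Lib.J4L Cfsg.Agent.Lib.J4Defs
  Cfsg.Agent.Lib.J4P Cfsg.Agent.Lib.DCE Cfsg.Agent.Lib.BT

variable {G : Type*} [Group G] {z : G} {Q : Subgroup G} {n : ℕ → G} {X : ℕ → G × Spor.J4}
  {D : Subgroup (G × Spor.J4)}

instance : Finite Spor.J4 := Nat.finite_of_card_ne_zero (by rw [J4A.card_eq]; norm_num)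

theorem mem_sl {Y : Type*} [Group Y] (y : ℕ → Y) (l : List ℕ) : ∀ i ∈ l, y i ∈ gp y (sl l) := fun i hi =>
  wval_single y i ▸ mem_gp (List.mem_map.2 ⟨i, hi, rfl⟩)

theorem sl_le {Y : Type*} [Group Y] {y : ℕ → Y} {l : List ℕ} {K : Subgroup Y} (h : ∀ i ∈ l, y i ∈ K) :
    gp y (sl l) ≤ K := gp_le.2 fun w hw => by
  obtain ⟨i, hi, rfl⟩ := List.mem_map.1 hw
  rw [wval_single]; exact h i hi

variable (T : TB n X D)
include T

theorem memP : ∀ i ∈ SL, XX X i ∈ gp (XX X) (sl PL) := by
  have h := mem_of_defB (hK1 T) st0 PL ([4, 18, 7] ++ PL) (mem_sl _ _) (by decide +kernel)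
  refine List.forall_mem_cons.2 ⟨?_, List.forall_mem_cons.2 ⟨?_, h⟩⟩ <;>
    rw [XX_eq (by decide)] <;> exact mem_word _ h (by decide +kernel)

theorem norA [Finite G] : gp (XX X) (sl PL) ≤ normalizer (gp (XX X) (sl AL) : Set (G × Spor.J4)) := by
  refine sl_le (List.forall_mem_append.2 ⟨fun g hg => ?_, fun i hi => le_normalizer (mem_sl _ _ i hi)⟩)
  refine mem_normalizer_fintype fun a ha => ?_
  refine (sl_le fun i hi => ?_ : gp (XX X) (sl AL) ≤ (gp (XX X) (sl AL)).comap (MulAut.conj (XX X g)).toMonoidHom) ha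
  obtain ⟨h1, h2⟩ := band_eq (allL_all (allL_all (by decide +kernel : allL (fun g => allL (fun i =>
    band (allL (okL AL) ((NA.getD (min g 4) []).getD (i - 22) [])) (deriveB [19] K1 [[2 * g] ++ [2 * i] ++ invW [2 * g] ++
      invW ((NA.getD (min g 4) []).getD (i - 22) [])])) AL) [0, 1, 2, 3, 19] = true) g hg) i hi)
  have := cj (d1 T _ h2)
  rw [wval_single, wval_single] at this
  exact (this.symm ▸ mem_word AL (mem_sl _ _) h1 : XX X g * XX X i * (XX X g)⁻¹ ∈ gp _ _)

theorem injP [Finite G] (hb : wval (XX X) (rep 3 (38 :: sw)) = 1)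
    (idxS : 1771 ≤ (centralizer {L 18}).relIndex (gp L [[40], [42], [8]])) :
    ∀ d ∈ gp (XX X) (sl PL), d.2 = 1 → d = 1 := by
  have hK : ∀ w ∈ [rep 3 (38 :: sw)] ++ K1, wval (XX X) w = 1 := all_append (by simpa using hb) (hK1 T)
  obtain ⟨b1, b2⟩ := J4T.tc_mod (fun i => wval (XX X) (sub.getD i [])) (A := gp (XX X) (sl AL))
    (S := gp (XX X) (sl PL)) (B := D) (P := gp (XX X) (sl PL)) (K := J4T.KS)
    (fun i => by
      by_cases hi : i < 7
      · exact mem_word SL (memP T) ((by decide +kernel : ∀ i < 7, allL (okL SL) (sub.getD i []) = true) i hi)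
      · rw [List.getD_eq_default _ _ (Nat.le_of_not_lt hi)]; exact one_mem _)
    (fun s hs a ha => (mem_normalizer_iff.1 (norA T hs) a).1 ha)
    (fun w hw => by
      obtain ⟨i, hi, rfl⟩ := List.getElem_of_mem hw
      have h1 := derive [19] hK ((List.range J4T.KS.length).map fun i =>
        subst sub (J4T.KS.getD i []) ++ invW (TL.getD i [])) (by decide +kernel) _
        (List.mem_map.2 ⟨i, List.mem_range.2 hi, rfl⟩)
      rw [wval_append, wval_invW, mul_inv_eq_one, wval_subst, List.getD_eq_getElem _ _ hi] at h1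
      rw [h1]
      exact mem_word AL (mem_sl _ _) ((by decide +kernel : ∀ i < J4T.KS.length,
        allL (okL AL) (TL.getD i []) = true) i hi))
    J4T.bS (sl_le fun i hi => memD T i (by revert i; decide))
    (fun w hw => by
      rw [← wval_subst]
      exact wD T (allL_all (by decide +kernel : allL (fun w => allL (okL DL) (subst sub w))
        [[0], [2], [4], [6], [10], [12]] = true) w hw))
    le_rfl (fun K h1 h2 => sl_le (List.forall_mem_append.2 ⟨fun i hi => by
      have := h2 [2 * min i 4] (by revert i; decide)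
      rwa [← wval_subst, (by decide : ∀ i ∈ [0, 1, 2, 3, 19], subst sub [2 * min i 4] = [2 * i]) i hi,
        wval_single] at this,
      fun i hi => h1 ⟨mem_sl _ _ i (List.mem_append_right _ hi), mem_sl _ _ i hi⟩⟩))
  set P := gp (XX X) (sl PL)
  set C := (centralizer {L 18}).comap (MonoidHom.snd G Spor.J4)
  have hC : D ≤ C := fun d hd => mem_centralizer_singleton_iff.2 (by
    rw [← T.snd 18 (by decide)]; exact congrArg Prod.snd (T.zc d hd))
  have h1 : 1771 ≤ C.relIndex P := by
    rw [relIndex_comap]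
    refine idxS.trans (relIndex_le_of_le_right (gp_le.2 fun w hw => ?_) index_ne_zero_of_finite)
    have hw' := (by decide +kernel : ∀ w ∈ [[40], [42], [8]], allL (okL SL) w = true ∧
      w.all (fun l => decide (l < 2 * 34)) = true) w hw
    exact ⟨_, mem_word SL (memP T) hw'.1, snd T hw'.2⟩
  have h2 := relIndex_mul_relIndex (D ⊓ P) (C ⊓ P) P (inf_le_inf_right _ hC) inf_le_right
  rw [inf_relIndex_right, inf_relIndex_right] at h2
  have h3 : (D ⊓ P).relIndex (C ⊓ P) = 1 := by
    rcases Nat.lt_trichotomy ((D ⊓ P).relIndex (C ⊓ P)) 1 with h | h | h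
    · rw [Nat.lt_one_iff.1 h] at h2; omega
    · exact h
    · nlinarith
  intro d hd h
  exact T.inj d (relIndex_eq_one.1 h3 ⟨mem_centralizer_singleton_iff.2 (by
    change d.2 * _ = _ * d.2; rw [h]; simp), hd⟩).1 h

theorem comm (hS : ∀ w ∈ RS, wval (XX X) w = 1) :
    ∀ w ∈ VW.map (fun p => [10] ++ subst [[40], cT] p ++ invW [10] ++ invW (subst [[40], cT] p)),
      wval (XX X) w = 1 := fun w hw => by
  obtain ⟨p, -, rfl⟩ := List.mem_map.1 hw
  have h1 : gp (XX X) EG ≤ centralizer {wval (XX X) [10]} := gp_le.2 fun e he =>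
    mem_centralizer_singleton_iff.2 (cm (deriveP [19] (hK1 T)
      (EG.map fun e => [10] ++ e ++ invW [10] ++ invW e) CE (by decide +kernel) _ (List.mem_map.2 ⟨e, he, rfl⟩))).symm
  have h2 : gp (XX X) [[40], cT] ≤ gp (XX X) EG := gp_le.2 fun e he => by
    simp only [List.mem_cons, List.not_mem_nil, or_false] at he
    rcases he with rfl | rfl
    · rw [derive_eq [] hS [40] (subst EG px) (by decide +kernel)]; exact subst_mem_gp _ _
    · rw [derive_eq [] hS cT (subst EG pc) (by decide +kernel)]; exact subst_mem_gp _ _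
  have := mem_centralizer_singleton_iff.1 (h1 (h2 (subst_mem_gp _ p)))
  simp only [wval_append, wval_invW, ← this]; simp

theorem iota [Finite G] (E : Enc z Q n)
    (cE : ∀ c, c * z = z * c → (∀ e ∈ [1, 4, 16, 64, 256, 1024], c * n e = n e * c) →
      ∃ a < 8192, a &&& 2730 = 0 ∧ c = n a)
    (idxS : 1771 ≤ (centralizer {L 18}).relIndex (gp L [[40], [42], [8]])) :
    ∃ ι : Spor.J4 →* G, ∀ i < 19, ι (L i) = (X i).1 := by
  have hS := relI T (injP T (braid T E cE) idxS) (memP T) jRS (by decide +kernel)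
  have h := deriveP [5] (all_append (hD T) (all_append hS (comm T hS)))
    (RepJ4.K.map (subst [[40], [42], [10]]) ++ st.map fun e => (2 * e.1 + 1) :: e.2) CC (by decide +kernel)
  obtain ⟨ι, hι⟩ := J4Base.exists_hom (fun i => (wval (XX X) ([[40], [42], [10]].getD i [])).1) fun w hw =>
    (map_wval (MonoidHom.fst G Spor.J4) _ w).symm.trans (congrArg Prod.fst (derive []
      (rels_of_subst _ _ fun w hw => h w (List.mem_append_left _ hw)) J4Base.K (by decide +kernel) w hw))
  refine ⟨ι, fun i hi => ?_⟩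
  have k : ∀ i j, i < 34 → j < 3 → L i = J4Base.y j → [[40], [42], [10]].getD j [] = [2 * i] →
      XX X i ∈ (ι.prod (MonoidHom.id _)).range := fun i j hi hj e e' => ⟨L i, Prod.ext
    (by change ι _ = _; rw [e, hι j hj, e', wval_single])
    (by rw [← wval_single (XX X), snd T (by simpa using by omega), wval_single]; rfl)⟩
  obtain ⟨j, hj⟩ := mem_of_defB (fun w hw => h w (List.mem_append_right _ hw)) st [20, 21, 5] (List.range 19)
    (List.forall_mem_cons.2 ⟨k 20 0 (by decide) (by decide) L20 rfl, List.forall_mem_cons.2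
      ⟨k 21 1 (by decide) (by decide) L21 rfl, List.forall_mem_cons.2 ⟨k 5 2 (by decide) (by decide) L5 rfl, by simp⟩⟩⟩)
    (by decide +kernel) i (List.mem_range.2 hi)
  rw [XX_lt (by omega)] at hj
  rw [← T.snd i (by omega), ← hj]; rfl

end Cfsg.Agent.Lib.J4S
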