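import Cfsg.Agent.Lib.J4VT

/-! Certificates. -/

set_option autoImplicit false
set_option maxRecDepth 100000

namespace Cfsg.Agent.Lib.J4V

open Cfsg.Agent.Lib.PermNet Cfsg.Agent.Lib.Words Cfsg.Agent.Lib.PermGroup Cfsg.Agent.Lib.DCE Cfsg.Agent.Lib.PermModel Cfsg.Agent.Lib.BT

theorem vok_id : idB (nat_lit 4096) (nat_lit 12) (nat_lit 4095) vid = true := by decide +kernel

theorem vok_0 : allR (fun i => okT (nat_lit 4096) (nat_lit 12) (nat_lit 4095) (vtt.get (2 * i)) (vtt.get (2 * i + 1))) (nat_lit 0) (nat_lit 16) = true := by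
  decide +kernel

theorem vok_16 : allR (fun i => okT (nat_lit 4096) (nat_lit 12) (nat_lit 4095) (vtt.get (2 * i)) (vtt.get (2 * i + 1))) (nat_lit 16) (nat_lit 16) = true := by
  decide +kernel

theorem vok_32 : allR (fun i => okT (nat_lit 4096) (nat_lit 12) (nat_lit 4095) (vtt.get (2 * i)) (vtt.get (2 * i + 1))) (nat_lit 32) (nat_lit 6) = true := by
  decide +kernel

theorem vok : TabsOK (nat_lit 4096) (nat_lit 12) (nat_lit 4095) (nat_lit 38) vth vid := ⟨vok_id, (((allR_of 0 16 16 (by decide) vok_0).trans (allR_of 16 16 32 (by decide) vok_16)).trans (allR_of 32 6 38 (by decide) vok_32))⟩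

end Cfsg.Agent.Lib.J4V
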