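import Cfsg.Agent.Lib.J4VT

/-! Certificates. -/

set_option autoImplicit false
set_option maxRecDepth 100000

namespace Cfsg.Agent.Lib.J4V

open Cfsg.Agent.Lib.PermNet Cfsg.Agent.Lib.Words Cfsg.Agent.Lib.PermGroup Cfsg.Agent.Lib.DCE Cfsg.Agent.Lib.PermModel Cfsg.Agent.Lib.BT

def vdL0 : List (List ℕ) := [[15, 4, 11], [17, 4, 6, 1, 6, 12, 15, 7, 0, 7], [19, 16, 3, 8, 17, 0, 17], [21, 0, 3, 0, 18], [23, 15, 18, 15, 1], [25, 0, 2, 18], [27, 22, 20, 3], [29, 20, 20, 20, 3, 23], [31, 2, 22, 25]]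

theorem vd0 : allL (fixA (nat_lit 12) (nat_lit 4095) vtt (nat_lit 4096)) vdL0 = true := by decide +kernel

def vdL1 : List (List ℕ) := [[33, 21, 23, 20, 23, 21], [35, 30, 27, 28, 28, 26], [37, 26, 26, 32, 32, 27], [39, 26, 30, 32, 26], [41, 27, 29, 26, 32, 32], [43, 39, 34, 41, 39], [45, 37, 40, 39, 36], [47, 39, 40, 38, 37]]

theorem vd1 : allL (fixA (nat_lit 12) (nat_lit 4095) vtt (nat_lit 4096)) vdL1 = true := by decide +kernel

def vdL2 : List (List ℕ) := [[49, 35, 35, 36, 38], [51, 47, 48, 42], [53, 47, 44, 43], [55, 45, 42, 48, 45], [57, 43, 44, 49, 43], [59, 52, 52, 52], [61, 52, 54, 57], [63, 56, 54, 52], [65, 52, 50, 57, 51], [67, 64, 62], [69, 63, 58, 63, 60]]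

theorem vd2 : allL (fixA (nat_lit 12) (nat_lit 4095) vtt (nat_lit 4096)) vdL2 = true := by decide +kernel

def vdL3 : List (List ℕ) := [[71, 62, 60, 62], [73, 70, 68], [75, 68, 67]]

theorem vd3 : allL (fixA (nat_lit 12) (nat_lit 4095) vtt (nat_lit 4096)) vdL3 = true := by decide +kernel

theorem vc : chB (nat_lit 12) (nat_lit 4095) vtt (nat_lit 4096) (fun _ => true) vch [] = true := by decide +kernel

end Cfsg.Agent.Lib.J4V
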