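import Cfsg.Agent.Lib.J4VT

/-! Certificates. -/

set_option autoImplicit false
set_option maxRecDepth 100000

namespace Cfsg.Agent.Lib.J4V

open Cfsg.Agent.Lib.PermNet Cfsg.Agent.Lib.Words Cfsg.Agent.Lib.PermGroup Cfsg.Agent.Lib.DCE Cfsg.Agent.Lib.PermModel Cfsg.Agent.Lib.BT

noncomputable def ts_u2 : List Tst := [⟨[], [⟨0, [0], [2], [2, 2]⟩], [⟨0, [2], [10], [10]⟩, ⟨0, [3], [11], [11]⟩, ⟨0, [0, 2], [2, 10], [2, 2, 10]⟩]⟩,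
  ⟨[⟨0, [3], [11], [11]⟩], [], []⟩,
  ⟨[], [⟨0, [2], [10], [10]⟩, ⟨0, [0], [2], [2, 2]⟩], []⟩,
  ⟨[], [⟨0, [2], [10], [10]⟩], [⟨0, [0], [2], [2, 2]⟩, ⟨0, [1], [3], [3, 3]⟩, ⟨0, [0, 2], [2, 10], [2, 2, 10]⟩]⟩,
  ⟨[⟨0, [1], [3], [3, 3]⟩], [], []⟩,
  ⟨[⟨0, [1], [3], [3, 3]⟩], [], []⟩,
  ⟨[⟨0, [1], [3], [3, 3]⟩], [], []⟩,
  ⟨[⟨3, [0], [2], [2, 2]⟩], [], []⟩,
  ⟨[], [⟨0, [2], [10], [10]⟩], [⟨0, [0], [2], [2, 2]⟩, ⟨0, [1], [3], [3, 3]⟩, ⟨0, [0, 2], [2, 10], [2, 2, 10]⟩]⟩,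
  ⟨[⟨0, [1], [3], [3, 3]⟩], [], []⟩,
  ⟨[⟨0, [1], [3], [3, 3]⟩], [], []⟩,
  ⟨[⟨0, [1], [3], [3, 3]⟩], [], []⟩]

noncomputable def ct_u2 : CT := .nil

theorem s_u2 : srch vtt vch [[2], [10]] [[2, 2], [10]] [[1000, 1000, 1000, 1000], [0, 1000, 0, 1000, 0, 1000, 0, 1000, 0, 1000, 0, 1000, 0, 1000, 0, 1000, 0, 1000, 0, 1000, 0, 1000, 0, 1000, 0, 1000, 0, 1000, 0, 1000], [0, 1001, 0, 1001, 0, 1001, 0, 1001, 0, 1001, 0, 1001, 0, 1001, 0, 1001, 0, 1001, 0, 1001, 0, 1001, 0, 1001, 0, 1001, 0, 1001, 0, 1001], [0, 0, 1000, 1000, 0, 0, 1000, 1000, 0, 0, 1000, 1000, 0, 0, 1000, 1000, 0, 0, 1000, 1000, 0, 0, 1000, 1000, 0, 0, 1000, 1000, 0, 0, 1000, 1000, 0, 0, 1000, 1000]] [] (okR 0 []) (mkC []) ts_u2 ct_u2 = true := by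
  decide +kernel



end Cfsg.Agent.Lib.J4V
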