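import Cfsg.Agent.Lib.J4Fq
import Cfsg.Agent.Lib.ThCl
import Cfsg.Agent.Lib.Rk3Iso

/-! Codes modulo the central involution; counting lemmas. -/

set_option autoImplicit false
set_option maxRecDepth 100000

namespace Cfsg.Agent.Lib.J4W

open Subgroup Cfsg.Agent.Lib.PermNet Cfsg.Agent.Lib.Words Cfsg.Agent.Lib.DCE Cfsg.Agent.Lib.J4Defs
  Cfsg.Agent.Lib.J4Fq
open Cfsg.Agent.Lib.ThCl (Md)
open scoped Pointwise

variable {G : Type*} [Group G] {z : G} {Q : Subgroup G} {n f : ℕ → G} {a b c g k : G} {L L' : List ℕ}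

theorem qm_mod (a b : ℕ) : qm a b % 4096 = a % 4096 ^^^ b % 4096 := by
  change (a ^^^ b ^^^ par _ <<< 12) % 2 ^ 12 = _
  rw [Nat.xor_mod_two_pow, Nat.xor_mod_two_pow, Nat.shiftLeft_eq, Nat.mul_mod_left, Nat.xor_zero]

theorem qm_top : ∀ a < 4096, qm 4096 a = a + 4096 := fun a ha => beq_eq (allR_all
  (by decide +kernel : allR (fun a => Nat.beq (qm 4096 a) (a + 4096)) 0 4096 = true) a a.zero_le (by omega))

theorem md_trans (h : Hyp z Q) (h1 : Md z a b) (h2 : Md z b c) : Md z a c := by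
  rcases h1 with rfl | rfl <;> rcases h2 with rfl | rfl
  exacts [.inl rfl, .inr rfl, .inr rfl, .inl (by rw [← mul_assoc, h.zz, one_mul])]

theorem md_symm (h : Hyp z Q) (h1 : Md z a b) : Md z b a :=
  h1.imp Eq.symm fun e => by rw [e, ← mul_assoc, h.zz, one_mul]

theorem md_r (c : G) (h1 : Md z a b) : Md z (a * c) (b * c) :=
  h1.imp (congrArg (· * c)) fun e => by rw [e, mul_assoc]

theorem md_l (hc : c ∈ centralizer ({z} : Set G)) (h1 : Md z a b) : Md z (c * a) (c * b) :=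
  h1.imp (congrArg (c * ·)) fun e => by rw [e, ← mul_assoc, mem_centralizer_singleton_iff.1 hc, mul_assoc]

theorem mdK {K : Subgroup G} (hz : z ∈ K) (h : Md z a b) : a ∈ K ↔ b ∈ K := by
  rcases h with rfl | rfl
  exacts [Iff.rfl, mul_mem_cancel_left hz]

theorem md_mod (E : Enc z Q n) {a : ℕ} (ha : a < 8192) : Md z (n a) (n (a % 4096)) := by
  rcases lt_or_ge a 4096 with h | h
  · exact .inl (by rw [Nat.mod_eq_of_lt h])
  · exact .inr (by
      rw [← E.z12, E.mul _ (by decide) _ (by omega), qm_top _ (by omega)]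
      exact congrArg n (by omega))

theorem md_inj (E : Enc z Q n) {a b : ℕ} (ha : a < 4096) (hb : b < 4096) (h : Md z (n a) (n b)) : a = b := by
  rcases h with h | h
  · exact E.inj a (by omega) b (by omega) h
  · rw [← E.z12, E.mul _ (by decide) _ (by omega), qm_top _ hb] at h
    have := E.inj a (by omega) _ (by omega) h
    omega

theorem ncom (E : Enc z Q n) {a b : ℕ} (ha : a < 8192) (hb : b < 8192) :
    n a * n b = n b * n a ↔ qm a b = qm b a := by
  rw [E.mul a ha b hb, E.mul b hb a ha]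
  exact ⟨E.inj _ (qm_lt ha hb) _ (qm_lt hb ha), congrArg n⟩

theorem linK (E : Enc z Q n) {K : Subgroup G} (hz : z ∈ K) (L : List ℕ)
    (hL : ∀ a ∈ L, a < 8192 ∧ n a ∈ K) (m : ℕ) : n (lin L m) ∈ K := by
  induction L generalizing m with
  | nil =>
    change n (4096 * (m % 2)) ∈ K
    rcases Nat.mod_two_eq_zero_or_one m with h | h <;> rw [h]
    exacts [E.zero ▸ one_mem K, E.z12 ▸ hz]
  | cons a L ih =>
    have h := fun b hb => hL b (List.mem_cons_of_mem _ hb)
    rw [lin_cons]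
    split_ifs
    · rw [← E.mul _ (hL a List.mem_cons_self).1 _ (lin_lt (fun b hb => (h b hb).1) _)]
      exact mul_mem (hL a List.mem_cons_self).2 (ih h _)
    · exact ih h _

theorem rho (h : Hyp z Q) (E : Enc z Q n) : ∃ ρ : centralizer ({z} : Set G) →* Equiv.Perm ℕ,
    (∀ g p, 4096 ≤ p → ρ g p = p) ∧ ∀ g : centralizer ({z} : Set G), ∀ p < 4096,
      Md z (g * n p * (g : G)⁻¹) (n (ρ g p)) := by
  let _ := MulAction.compHom (Set G) (MulAut.conj.comp (centralizer ({z} : Set G)).subtype)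
  have k : ∀ (s : centralizer ({z} : Set G)) (a x : G),
      x ∈ MulAut.conj (s : G) • {x | Md z x a} ↔ Md z x (s * a * (s : G)⁻¹) :=
    fun s a x => ⟨by rintro ⟨y, hy, rfl⟩; exact md_r _ (md_l s.2 hy), fun e => ⟨(s : G)⁻¹ * x * s, by
      simpa [mul_assoc] using md_r (s : G) (md_l (inv_mem s.2) e), by
      change (s : G) * _ * (s : G)⁻¹ = x; group⟩⟩
  obtain ⟨ρ, h1, h2⟩ := Rk3Iso.exists_phi (S := centralizer ({z} : Set G)) (fun p => {x | Md z x (n p)}) (N := 4096)
    (fun a ha b hb e => md_inj E ha hb (e.le (.inl rfl))) fun s p hp => by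
      obtain ⟨a, ha, e⟩ := E.surj _ (h.nor s s.2 _ (E.mem p (by omega)))
      exact ⟨a % 4096, by omega, Set.ext fun x => by
        refine Iff.trans ?_ (k _ _ _).symm
        rw [← e]
        exact ⟨fun e => md_trans h e (md_symm h (md_mod E ha)), fun e => md_trans h e (md_mod E ha)⟩⟩
  exact ⟨ρ, h1, fun g p hp => (h2 g p hp).ge ((k _ _ _).2 (.inl rfl))⟩

theorem act_one : Act n 1 L0 := ⟨rfl, by decide, fun i hi => by
  rw [one_mul, inv_one, mul_one]
  exact congrArg n ((by decide : ∀ i < 12, 2 ^ i = L0.getD i 0) i hi)⟩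

theorem act_inv (E : Enc z Q n) (hg : g ∈ centralizer ({z} : Set G)) (A : Act n g L)
    (h : L'.length = 12 ∧ (∀ a ∈ L', a < 8192) ∧ L'.map (lin L) = L0) : Act n g⁻¹ L' :=
  ⟨h.1, h.2.1, fun i hi => by
    have h1 : i < L'.length := h.1 ▸ hi
    have := congrArg (·.getD i 0) h.2.2
    rw [List.getD_eq_getElem _ _ (by simpa using h1), List.getElem_map,
      ← (by decide : ∀ i < 12, 2 ^ i = L0.getD i 0) i hi] at this
    rw [← this, ← A.all E hg (h.2.1 _ (List.getElem_mem h1)), List.getD_eq_getElem _ _ h1]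
    group⟩

theorem same (h : Hyp z Q) (E : Enc z Q n) (hg : g ∈ centralizer ({z} : Set G))
    (hk : k ∈ centralizer ({z} : Set G)) (A : Act n g L) (B : Act n k L) : Md z g k := by
  refine (h.cen (g * k⁻¹) (mul_mem hg (inv_mem hk)) fun q hq => ?_).imp mul_inv_eq_one.1 mul_inv_eq_iff_eq_mul.1
  obtain ⟨a, ha, e⟩ := E.surj _ (h.nor _ (inv_mem hk) q hq)
  have := (A.all E hg ha).trans (B.all E hk ha).symm
  rw [e] at this
  calc _ = g * (k⁻¹ * q * k⁻¹⁻¹) * g⁻¹ * (g * k⁻¹) := by group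
    _ = _ := by rw [this]; group

/-- The action of the element with the code `p`. -/
noncomputable def ip (p : ℕ) : List ℕ := L0.map fun a => qm (qm p a) (qm p (qm p p))

theorem act_ip (h : Hyp z Q) (E : Enc z Q n) {p : ℕ} (hp : p < 8192) : Act n (n p) (ip p) := by
  have l : ∀ a ∈ L0, a < 8192 := by decide
  refine ⟨rfl, fun a ha => ?_, fun i hi => ?_⟩
  · obtain ⟨b, hb, rfl⟩ := List.mem_map.1 ha
    exact qm_lt (qm_lt hp (l b hb)) (qm_lt hp (qm_lt hp hp))
  · have hi' : i < L0.length := hi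
    obtain ⟨h1, h2⟩ := (by decide : ∀ i (h : i < L0.length), L0[i] = 2 ^ i ∧ 2 ^ i < 8192) i hi'
    rw [ip, List.getD_eq_getElem _ _ (by rw [List.length_map]; exact hi'), List.getElem_map, h1,
      ← E.mul _ (qm_lt hp h2) _ (qm_lt hp (qm_lt hp hp)), ← E.mul _ hp _ h2, ← E.mul _ hp _ (qm_lt hp hp),
      ← E.mul _ hp _ hp, mul_right_inj, inv_eq_iff_mul_eq_one, ← mul_assoc]
    rcases sq_or h (E.mem p hp) with e | e <;> rw [e]
    exacts [mul_one 1, h.zz]

theorem card_list {A : Subgroup G} (l : List G) (h : ∀ x ∈ A, x ∈ l) : Nat.card A ≤ l.length := by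
  classical
  exact (Set.ncard_le_ncard (s := (A : Set G)) (t := l.toFinset) (fun x hx => List.mem_toFinset.2 (h x hx))).trans
    ((Set.ncard_coe_finset _).trans_le (List.toFinset_card_le l))

theorem card_conj [Finite G] {A B : Subgroup G} (h : ∀ x ∈ A, g * x * g⁻¹ ∈ B) : Nat.card A ≤ Nat.card B :=
  Nat.card_le_card_of_injective (fun x : A => (⟨_, h x x.2⟩ : B)) fun x y e =>
    Subtype.ext (by simpa using congrArg Subtype.val e)

theorem card_fib [Finite G] {X A : Subgroup G} {β : Type*} [Finite β] (φ : X → β)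
    (h : ∀ x y : X, φ x = φ y → (x : G)⁻¹ * y ∈ A) : Nat.card X ≤ Nat.card β * Nat.card ↥(X ⊓ A) := by
  rw [← Nat.card_prod]
  refine Nat.card_le_card_of_injective (fun x : X => (φ x, (⟨(Function.invFun φ (φ x)).1⁻¹ * x,
    X.mul_mem (X.inv_mem (Function.invFun φ (φ x)).2) x.2, h _ _ (Function.invFun_eq ⟨x, rfl⟩)⟩ : ↥(X ⊓ A)))) fun x y e => ?_
  have e1 : φ x = φ y := congrArg Prod.fst e
  have e2 := congrArg (fun x : β × ↥(X ⊓ A) => x.2.1) e
  simp only [e1] at e2
  exact Subtype.ext (mul_left_cancel e2)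

theorem card_orb [Finite G] {X A : Subgroup G} (d : G) (h : ∀ x ∈ X, x * d * x⁻¹ * d⁻¹ ∈ A) :
    Nat.card X ≤ Nat.card A * Nat.card ↥(X ⊓ centralizer {d}) :=
  card_fib (fun x => (⟨_, h x x.2⟩ : A)) fun x y e => mem_centralizer_singleton_iff.2 (by
    have : (x : G) * d * (x : G)⁻¹ = y * d * (y : G)⁻¹ := mul_right_cancel (congrArg Subtype.val e)
    calc _ = (x : G)⁻¹ * (y * d * (y : G)⁻¹) * y := by group
      _ = _ := by rw [← this]; group)

theorem card_cos [Finite G] {X : Subgroup G} (l : List G) (h : ∀ x ∈ X, ∃ u ∈ l, u⁻¹ * x ∈ Q) :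
    Nat.card X ≤ l.length * Nat.card ↥(X ⊓ Q) := by
  choose i hi using fun x : X => show ∃ i : Fin l.length, (l.get i)⁻¹ * x ∈ Q from
    (h x x.2).elim fun u hu => (List.get_of_mem hu.1).elim fun i e => ⟨i, e ▸ hu.2⟩
  simpa using card_fib i fun x y e => by simpa [e] using mul_mem (inv_mem (hi x)) (hi y)

end Cfsg.Agent.Lib.J4W
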