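import Cfsg.Agent.Lib.J4C2
import Cfsg.Agent.Lib.J4S2

/-! The fourth Janko group from the swapping involution. -/

set_option autoImplicit false

namespace Cfsg.Agent.Lib.J4Z

open Subgroup Cfsg.Agent.Lib.J4Defs Cfsg.Agent.Lib.J4L

theorem both {G : Type*} [Group G] [Finite G] [IsSimpleGroup G] {z : G} {Q : Subgroup G} {n f : ℕ → G}
    {T : G × Spor.J4} (h : Hyp z Q) (E : Enc z Q n) (S : St z n f) (W : J4C.SW z n f T) :
    Nonempty (G ≃* Spor.J4) ∧ Cfsg.IsJ4 G ∧ ∃ x y : G, orderOf x = 2 ∧ orderOf y = 2 ∧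
      ¬ IsConj x y ∧ ∀ v : G, orderOf v = 2 → IsConj v x ∨ IsConj v y := by
  obtain ⟨X, D, B, S'⟩ := J4C.tb h E S W
  obtain ⟨ι, hι⟩ := J4S.iota B E (fun c hc => J4F.cE h E S (mem_centralizer_singleton_iff.2 hc)) J4E.idxS
  have h1 : ∀ i < 6, ι (L i) = (X i).1 := fun i hi => hι i (by omega)
  have h2 : ∀ i < 13, ι (L (6 + i)) = n (2 ^ i) := fun i hi => (hι _ (by omega)).trans (B.fst i hi)
  exact ⟨(J4Fin.fin h E S' ι h1 h2).1, J4Fin.fin' h E S' ι h1 h2⟩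

end Cfsg.Agent.Lib.J4Z
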