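/-
`J(T)`-components of a solvable group of characteristic `2` (Kurzweil–Stellmacher 12.1).
-/
import Cfsg.Agent.Lib.JComp
import Cfsg.Agent.Lib.FFMod

set_option autoImplicit false

namespace Cfsg.Agent.Lib.JTop

open Subgroup Cfsg.Agent.Lib.PCoreConj Cfsg.Agent.Lib.PCore Cfsg.Agent.Lib.PCoreResidual
  Cfsg.Agent.Lib.PReduced Cfsg.Agent.Lib.LocIdx Cfsg.Agent.Lib.LocFour Cfsg.Agent.Lib.ThompsonJ
  Cfsg.Agent.Lib.JComp Cfsg.Agent.Lib.FFMod Cfsg.Agent.Lib.PCoreMod
open Cfsg.Agent.Lib.FFSolv (Tv)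
open scoped commutatorElement

variable {G : Type*} [Group G]

/-- `V = Ω₁(Z(O₂(G)))`. -/
abbrev V (G : Type*) [Group G] : Subgroup G := omegaOneCenter 2 (pCore 2 G)

instance : (V G).Normal := normal_iff_top_le.2 (le_normalizer_omegaOneCenter le_normalizer_of_normal)

instance (p : ℕ) (C : Subgroup G) : (pCoreMod p ⊤ C).Normal :=
  normal_iff_top_le.2 (le_normalizer_pCoreMod p _ _)

/-- The projection onto `G / O₂(G)`. -/
abbrev π : G →* G ⧸ pCore 2 G := QuotientGroup.mk' (pCore 2 G)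

theorem π_eq_one {x : G} : π x = 1 ↔ x ∈ pCore 2 G := QuotientGroup.eq_one_iff x

/-- Transvections on `V` of order two modulo `O₂(G)`. -/
def Tq (t : G) : Prop := t ^ 2 ∈ pCore 2 G ∧ (centralizer ({t} : Set G)).relIndex (V G) = 2

/-- The group `[F, t] O₂(G)`. -/
def X (t : G) : Subgroup G := Xs (V G) t ⊔ pCore 2 G

/-- The `J`-component attached to a transvection. -/
def K (t : G) : Subgroup G := pResidualOf 2 (X t)

/-- The four-group attached to a transvection. -/
def W (t : G) : Subgroup G := ⁅V G, Xs (V G) t⁆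

theorem Q_le_C : pCore 2 G ≤ centralizer (V G : Set G) := le_centralizer_omegaOneCenter 2 _

theorem V_le_Q : V G ≤ pCore 2 G := omegaOneCenter_le 2 _

theorem V_sq {v : G} (hv : v ∈ V G) : v ^ 2 = 1 := (mem_omegaOneCenter_iff.1 hv).2.2

theorem Tq.tv {t : G} (h : Tq t) : Tv (V G) t := ⟨Q_le_C h.1, h.2⟩

theorem Tq.conj {t : G} (h : Tq t) (g : G) : Tq (g * t * g⁻¹) :=
  ⟨by rw [conj_pow]; exact Normal.conj_mem inferInstance _ h.1 g,
    (h.tv.conj (le_normalizer_of_normal (mem_top g))).2⟩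

theorem Tq.sq {t : G} (h : Tq t) : π t ^ 2 = 1 := by rw [← map_pow, π_eq_one]; exact h.1

theorem exists_pow_of_pow {x : G} {k : ℕ} (h : x ^ 2 ^ k ∈ pCore 2 G) : ∃ j, x ^ 2 ^ j = 1 := by
  obtain ⟨j, hj⟩ := isPGroup_iff_forall_mem.1 (pCore_isPGroup 2 G) _ h
  exact ⟨k + j, by rw [pow_add, pow_mul, hj]⟩

theorem conj_Xs (t g : G) : (Xs (V G) t) ^ᶜ g = Xs (V G) (g * t * g⁻¹) := by
  rw [Xs, Xs, conj_commutator, conj_eq_of_normal, conj_zpowers]

theorem conj_X (t g : G) : (X t) ^ᶜ g = X (g * t * g⁻¹) := by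
  rw [X, X, conj_sup, conj_Xs, conj_eq_of_normal]

theorem conj_K (t g : G) : (K t) ^ᶜ g = K (g * t * g⁻¹) := by
  rw [K, K, conj_pResidualOf, conj_X]

theorem conj_W (t g : G) : (W t) ^ᶜ g = W (g * t * g⁻¹) := by
  rw [W, W, conj_commutator, conj_eq_of_normal, conj_Xs]

theorem X_eq (t : G) : X t = ⁅(pCoreMod 3 ⊤ (centralizer (V G : Set G))).map π,
    zpowers (π t)⁆.comap π := by
  rw [← MonoidHom.map_zpowers, ← map_commutator, comap_map_eq, QuotientGroup.ker_mk']
  rfl

theorem X_le {t : G} (ht : Tq t) {N : Subgroup G} (hQ : pCore 2 G ≤ N)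
    (h : ∀ x ∈ pCoreMod 3 ⊤ (centralizer (V G : Set G)), ⁅x, t⁆ ∈ N) : X t ≤ N := by
  have e : (N.map π).comap π = N := by rw [comap_map_eq, QuotientGroup.ker_mk', sup_eq_left.2 hQ]
  rw [X_eq, ← e]
  refine comap_mono (commutator_zpowers_le ht.sq ?_)
  rintro _ ⟨x, hx, rfl⟩
  rw [← map_commutatorElement]
  exact mem_map_of_mem _ (h x hx)

theorem Q_le_X (t : G) : pCore 2 G ≤ X t := le_sup_right

theorem commutator_sup_Q (A : Subgroup G) : ⁅V G, A ⊔ pCore 2 G⁆ = ⁅V G, A⁆ :=
  le_antisymm (commutator_sup_le (normalizer_commutator_ge_right _ _)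
    (le_normalizer_of_le_centralizer (Q_le_C.trans (centralizer_anti (commutator_le_left _ _))))
    le_rfl ((commutator_eq_bot_iff_le_centralizer'.2 Q_le_C).le.trans bot_le))
    (commutator_mono le_rfl le_sup_left)

theorem W_eq (t : G) : ⁅V G, X t⁆ = W t := commutator_sup_Q _

theorem W_le (t : G) : W t ≤ V G := commutator_le_left _ _

theorem C_le_F : centralizer (V G : Set G) ≤ pCoreMod 3 ⊤ (centralizer (V G : Set G)) :=
  (le_inf le_top le_rfl).trans (inf_le_pCoreMod le_normalizer_of_normal)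

theorem X_le_F (t : G) : X t ≤ pCoreMod 3 ⊤ (centralizer (V G : Set G)) :=
  sup_le (commutator_le_left _ _) (Q_le_C.trans C_le_F)

theorem F_le_normalizer (t : G) :
    pCoreMod 3 ⊤ (centralizer (V G : Set G)) ≤ normalizer (X t : Set G) :=
  PCoreConj.le_normalizer_sup (normalizer_commutator_ge_left _ _) le_normalizer_of_normal

theorem subnormal_X (t : G) : SubnormalIn ⊤ (X t) :=
  (SubnormalIn.of_normal (X_le_F t) (F_le_normalizer t)).trans
    (SubnormalIn.of_normal le_top le_normalizer_of_normal)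

theorem subnormal_K (t : G) : SubnormalIn ⊤ (K t) :=
  (SubnormalIn.of_normal (pResidualOf_le 2 _) (le_normalizer_pResidualOf 2 _)).trans (subnormal_X t)

theorem mem_normalizer_X (t : G) : t ∈ normalizer (X t : Set G) := by
  rw [mem_normalizer_iff_conj_eq, conj_X, mul_inv_cancel_right]

theorem E_le (t : G) : X t ⊔ zpowers t ≤ normalizer (X t : Set G) :=
  sup_le le_normalizer (zpowers_le.2 (mem_normalizer_X t))

theorem normalizer_X_le (t : G) : normalizer (X t : Set G) ≤ normalizer (W t : Set G) := by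
  rw [← W_eq]
  exact PCoreConj.le_normalizer_commutator le_normalizer_of_normal le_rfl

theorem normalizer_X_le' (t : G) : normalizer (X t : Set G) ≤ normalizer (K t : Set G) :=
  normalizer_le_normalizer_pResidualOf 2 _

/-- The subgroup generated by the transvections and `O₂(G)`. -/
def Ecl (G : Type*) [Group G] : Subgroup G := closure {t : G | Tq t} ⊔ pCore 2 G

instance : (Ecl G).Normal := by
  refine normal_of_conj_le fun g => ?_
  rw [Ecl, conj_sup, conj_eq_of_normal (pCore 2 G), MonoidHom.map_closure]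
  refine sup_le_sup_right (Subgroup.closure_mono ?_) _
  rintro _ ⟨t, ht, rfl⟩
  exact Tq.conj ht g

theorem commutator_le_wOf [Finite G] {L : Subgroup G} (h1 : pResidualOf 2 L = L)
    (h2 : V G ≤ normalizer (L : Set G)) (h3 : pCoreOf 2 L ≤ pCore 2 G) : ⁅V G, L⁆ ≤ wOf L := by
  have h4 := commutator_commutator_pResidualOf (K := L)
    (isPGroup_of_isElementaryAbelian (isElementaryAbelian_omegaOneCenter 2 (pCore 2 G)))
    le_normalizer_of_normal
  rw [h1] at h4
  refine h4.ge.trans (commutator_mono (fun v hv => mem_omegaOneCenter_iff.2 ⟨inf_le_pCoreOf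
    le_normalizer_of_normal (pCore_isPGroup 2 G) (mem_inf.2 ⟨V_le_Q (commutator_le_left _ _ hv),
      commutator_le_right_of_le_normalizer h2 hv⟩), centralizer_anti h3
      (omegaOneCenter_le_centralizer 2 _ (commutator_le_left _ _ hv)),
      V_sq (commutator_le_left _ _ hv)⟩) le_rfl)

theorem J_conj_eq {T : Subgroup G} [Finite T] {g : G} (h : J 2 T ≤ T ^ᶜ g) :
    J 2 (T ^ᶜ g) = J 2 T := by
  rw [← conj_J, ← conj_J_eq_of_le (le_conj_iff_conj_inv_le.1 h), conj_inv_conj,
    conj_J_eq_of_le (le_conj_iff_conj_inv_le.1 h)]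

/-- A solvable group of characteristic `2` in which `C_G(Ω₁(Z(O₂(G))))` normalizes the Sylow
`2`-subgroup `T`. -/
structure Top (T : Subgroup G) : Prop where
  solv : Group.IsSolvable G
  syl : IsSylowIn 2 T ⊤
  cent : centralizer (V G : Set G) ≤ normalizer (T : Set G)

namespace Top

variable [Finite G] {T A L L' : Subgroup G} {s t : G} (h : Top T)
include h

theorem le_Q {R : Subgroup G} (h1 : R ≤ centralizer (V G : Set G)) (h2 : IsPGroup 2 R) :
    R ≤ pCore 2 G := by
  have h3 := h.syl.inf_normal (N := centralizer (V G : Set G)) le_top le_normalizer_of_normal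
  have h4 := PCoreConj.le_normalizer_inf h.cent (le_normalizer (H := centralizer (V G : Set G)))
  exact (h3.le_of_le_normalizer h1 h2 (h1.trans h4)).trans ((h3.eq_pCoreOf h4).le.trans
    (pCoreOf_le_pCore _))

theorem mem_Q {x : G} (h1 : x ∈ centralizer (V G : Set G)) {k : ℕ} (h2 : x ^ 2 ^ k ∈ pCore 2 G) :
    x ∈ pCore 2 G := by
  obtain ⟨j, hj⟩ := exists_pow_of_pow h2
  exact h.le_Q (zpowers_le.2 h1) (isPGroup_zpowers hj) (mem_zpowers x)

theorem comm_mem {c x : G} (hc : c ∈ centralizer (V G : Set G)) {k : ℕ}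
    (hx : x ^ 2 ^ k ∈ pCore 2 G) : ⁅c, x⁆ ∈ pCore 2 G := by
  obtain ⟨j, hj⟩ := exists_pow_of_pow hx
  obtain ⟨g, -, hg⟩ := h.syl.exists_le_conj (le_top : zpowers x ≤ ⊤) (isPGroup_zpowers hj)
  have h1 := le_normalizer_conj h.cent g
  rw [conj_eq_of_normal] at h1
  refine h.le_Q (R := centralizer (V G : Set G) ⊓ T ^ᶜ g) inf_le_left
    ((isPGroup_conj h.syl.isPGroup g).to_le inf_le_right) (mem_inf.2 ⟨?_, ?_⟩)
  · exact commutator_le_left _ ⊤ (commutator_mem_commutator hc (mem_top x))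
  · exact commutator_le_right_of_le_normalizer h1
      (commutator_mem_commutator hc (hg (mem_zpowers x)))

theorem red : Red (V G) where
  fin := inferInstance
  solv := h.solv
  sq := fun _ => V_sq
  red := by
    have h1 := pCoreMod_eq_sup (p := 2) (C := centralizer (V G : Set G)) le_normalizer_of_normal h.syl
    refine h1.ge.trans (sup_le inf_le_right (le_trans ?_ ((pCoreOf_le_pCore (pCoreMod 2 ⊤
      (centralizer (V G : Set G)))).trans Q_le_C)))
    refine le_pCoreOf inf_le_right (h1.ge.trans (sup_le ?_ le_normalizer))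
      (h.syl.isPGroup.to_le inf_le_left)
    exact PCoreConj.le_normalizer_inf (inf_le_right.trans h.cent) le_normalizer_of_normal

theorem commute {c : G} (hc : c ∈ centralizer (V G : Set G)) (ht : Tq t) : Commute (π c) (π t) := by
  rw [← commutatorElement_eq_one_iff_commute, ← map_commutatorElement, π_eq_one]
  exact h.comm_mem hc (k := 1) ht.1

theorem mem_Q_of_inverts {c : G} (hc : c ∈ centralizer (V G : Set G)) (ht : Tq t)
    (hi : π t * π c * (π t)⁻¹ = (π c)⁻¹) : c ∈ pCore 2 G := by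
  refine h.mem_Q hc (k := 1) ?_
  rw [← (h.commute hc ht).eq, mul_inv_cancel_right, eq_inv_iff_mul_eq_one] at hi
  rw [← π_eq_one, map_pow, pow_one, pow_two, hi]

theorem inverts (ht : Tq t) {x : G} (hx : x ∈ X t) : π t * π x * (π t)⁻¹ = (π x)⁻¹ := by
  have h3 := h.red.relIndex_Xs ht.tv
  obtain ⟨x₀, hx₀, hy⟩ : ∃ x ∈ pCoreMod 3 ⊤ (centralizer (V G : Set G)),
      ⁅x, t⁆ ∉ centralizer (V G : Set G) := by
    by_contra hn
    push Not at hn
    rw [relIndex_eq_one.2 (le_sup_left.trans (X_le ht Q_le_C hn))] at h3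
    omega
  have h1 : ∀ z : G, π t * π ⁅z, t⁆ * (π t)⁻¹ = (π ⁅z, t⁆)⁻¹ := fun z => by
    rw [map_commutatorElement]; exact conj_commutatorElement_of_sq ht.sq
  have h2 : ∀ u ∈ zpowers ⁅x₀, t⁆, π t * π u * (π t)⁻¹ = (π u)⁻¹ := by
    rintro _ ⟨k, rfl⟩
    rw [map_zpow, ← conj_zpow, h1, inv_zpow]
  have h4 : X t ≤ zpowers ⁅x₀, t⁆ ⊔ pCore 2 G := by
    refine X_le ht le_sup_right fun z hz => ?_
    rw [← inf_relIndex_right] at h3
    obtain ⟨u, hu, c, hc, e⟩ := (mem_sup_iff_of_le_normalizer le_normalizer_of_normal).1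
      (le_of_relIndex_prime Nat.prime_three inf_le_right h3
        (H := zpowers ⁅x₀, t⁆ ⊔ centralizer (V G : Set G)) (inf_le_left.trans le_sup_right)
        (commutator_mem_commutator hx₀ (mem_zpowers t)) (fun h' => hy h'.1)
        (mem_sup_left (mem_zpowers _)) (commutator_mem_commutator hz (mem_zpowers t)))
    rw [← e]
    refine mul_mem_sup hu (h.mem_Q_of_inverts hc ht ?_)
    have h5 : Commute (π c) (π u) := by
      obtain ⟨k, rfl⟩ := hu
      rw [map_zpow, commutatorElement_def, map_mul, map_inv]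
      exact ((h.commute hc (ht.conj x₀)).mul_right (h.commute hc ht).inv_right).zpow_right k
    have h6 := h1 z
    rw [← e, map_mul, ← conj_mul, h2 u hu, ← h5.eq, mul_inv_rev] at h6
    exact mul_left_cancel h6
  obtain ⟨u, hu, q, hq, rfl⟩ := (mem_sup_iff_of_le_normalizer le_normalizer_of_normal).1 (h4 hx)
  rw [map_mul, π_eq_one.2 hq, mul_one]
  exact h2 u hu

theorem idx_X (ht : Tq t) : (pCore 2 G).relIndex (X t) = 3 := by
  rw [X, relIndex_sup_right, ← h.red.relIndex_Xs ht.tv, ← inf_relIndex_right,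
    ← inf_relIndex_right (centralizer (V G : Set G))]
  congr 1
  exact le_antisymm (inf_le_inf_right _ Q_le_C) (le_inf (fun c hc => h.mem_Q_of_inverts hc.1 ht
    (h.inverts ht (mem_sup_left hc.2))) inf_le_right)

theorem X_le_of (ht : Tq t) {N : Subgroup G} (hQ : pCore 2 G ≤ N) {x : G} (hx : x ∈ X t)
    (hx' : x ∉ pCore 2 G) (hN : x ∈ N) : X t ≤ N :=
  le_of_relIndex_prime Nat.prime_three (Q_le_X t) (h.idx_X ht) hQ hx hx' hN

theorem X_le_F' (ht : Tq t) : X t ≤ pCoreMod 3 ⊤ (pCore 2 G) :=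
  le_pCoreMod_of_subnormalIn le_normalizer_of_normal (subnormal_X t) fun x hx =>
    ⟨1, by rw [pow_one, ← h.idx_X ht]; exact pow_relIndex_mem _ hx⟩

theorem card_W (ht : Tq t) : Nat.card (W t) = 4 := h.red.card_W ht.tv

theorem not_mem_C (ht : Tq t) : t ∉ centralizer (W t : Set G) := h.red.not_mem_centralizer_W ht.tv

theorem W_inf_of_le (ht : Tq t) (hL : X t ≤ L ⊔ pCore 2 G) : W t ⊓ centralizer (L : Set G) = ⊥ := by
  refine le_bot_iff.1 (h.red.W_inf ht.tv ▸ le_inf inf_le_left (le_centralizer_iff.1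
    (le_sup_left.trans (hL.trans (sup_le (le_centralizer_iff.1 inf_le_right) ?_)))))
  exact Q_le_C.trans (centralizer_anti (inf_le_left.trans (W_le t)))

theorem near (ht : Tq t) (hs : Tq s) (e : W t = W s) : X s = X t ∧ s ∈ X t ⊔ zpowers t := by
  obtain ⟨x, hx, hc⟩ := h.red.near ht.tv hs.tv e
  have h1 : s⁻¹ * (x * t * x⁻¹) ∈ pCore 2 G := by
    refine h.mem_Q_of_inverts hc hs ?_
    have h2 := inv_eq_self_of_sq hs.sq
    have h3 := inv_eq_self_of_sq (ht.conj x).sq
    rw [map_mul, map_inv, mul_inv_rev, h3, mul_inv_cancel_left, inv_inv, h2]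
  have h2 : π s = π (x * t * x⁻¹) := by
    rw [← inv_mul_eq_one, ← map_inv, ← map_mul, π_eq_one]; exact h1
  have h3 : x ∈ X t := mem_sup_left hx
  refine ⟨by rw [X_eq s, h2, ← X_eq, ← conj_X, conj_eq_of_mem h3], ?_⟩
  have h4 := mul_mem (mul_mem (mul_mem (mem_sup_left h3) (mem_sup_right (mem_zpowers t)))
    (inv_mem (mem_sup_left h3))) (inv_mem (mem_sup_left (Q_le_X t h1)))
  rwa [mul_inv_rev s⁻¹, mul_inv_cancel_left, inv_inv] at h4

theorem far (ht : Tq t) (hs : Tq s) (e : W s ≠ W t) {x : G} (hx : x ∈ X s ⊔ zpowers s) :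
    ⁅x, t⁆ ∈ pCore 2 G := by
  refine h.mem_Q_of_inverts ?_ ht (by
    rw [map_commutatorElement]; exact conj_commutatorElement_of_sq ht.sq)
  rw [X, sup_right_comm] at hx
  refine (commutator_comm _ _).le.trans (commutator_sup_le le_normalizer_of_normal
    le_normalizer_of_normal ((commutator_comm _ _).le.trans ((commutator_mono le_rfl
      le_sup_right).trans (h.red.far hs.tv ht.tv e))) ((commutator_le_right _ _).trans Q_le_C))
    (commutator_mem_commutator hx (mem_zpowers t))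

theorem far_le_C (ht : Tq t) (hs : Tq s) (e : W t ≠ W s) :
    X s ⊔ zpowers s ≤ centralizer (W t : Set G) := by
  rw [X, sup_right_comm]
  exact sup_le (h.red.far_le_C ht.tv hs.tv e) (Q_le_C.trans (centralizer_anti (W_le t)))

theorem Ecl_le (ht : Tq t) : Ecl G ≤ normalizer (X t : Set G) ⊓
    normalizer ((X t ⊔ zpowers t : Subgroup G) : Set G) := by
  refine sup_le ((closure_le _).2 fun s hs => ?_) (le_inf ((Q_le_X t).trans le_normalizer)
    ((Q_le_X t).trans (le_sup_left.trans le_normalizer)))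
  by_cases e : W t = W s
  · exact mem_inf.2 ⟨E_le t (h.near ht hs e).2, le_normalizer (h.near ht hs e).2⟩
  · have key : ∀ N : Subgroup G, X t ≤ N → N ≤ X t ⊔ zpowers t → s ∈ normalizer (N : Set G) :=
      fun N h1 h2 => mem_normalizer_of_conj_le (conj_le_iff.2 fun x hx => by
        rw [show s * x * s⁻¹ = ⁅x, s⁆⁻¹ * x by rw [commutatorElement_def]; group]
        exact mul_mem (inv_mem (h1 (Q_le_X t (h.far hs ht e (h2 hx))))) hx)
    exact mem_inf.2 ⟨key _ le_rfl le_sup_left, key _ le_sup_left le_rfl⟩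

theorem commutator_Ecl : ⁅Ecl G, Ecl G⁆ ≤ pCoreMod 3 ⊤ (pCore 2 G) := by
  let ρ := QuotientGroup.mk' (pCoreMod 3 ⊤ (pCore 2 G))
  have hF : ∀ x : G, pCoreMod 3 ⊤ (pCore 2 G) ≤ (centralizer {ρ x}).comap ρ := fun x y hy => by
    rw [mem_comap, show ρ y = 1 from (QuotientGroup.eq_one_iff y).2 hy]; exact one_mem _
  have hQ : pCore 2 G ≤ pCoreMod 3 ⊤ (pCore 2 G) :=
    (le_inf le_top le_rfl).trans (inf_le_pCoreMod le_normalizer_of_normal)
  have h1 : ∀ t, Tq t → Ecl G ≤ (centralizer {ρ t}).comap ρ := fun t ht => by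
    refine sup_le ((closure_le _).2 fun s hs => ?_) (hQ.trans (hF t))
    by_cases e : W t = W s
    · exact sup_le ((h.X_le_F' ht).trans (hF t)) (zpowers_le.2
        (mem_centralizer_singleton_iff.2 rfl)) (h.near ht hs e).2
    · refine mem_centralizer_singleton_iff.2 (commutatorElement_eq_one_iff_mul_comm.1 ?_)
      rw [← map_commutatorElement]
      exact (QuotientGroup.eq_one_iff _).2 (hQ (h.far ht hs (Ne.symm e)
        (mem_sup_right (mem_zpowers s))))
  refine commutator_le.2 fun x hx y hy => (QuotientGroup.eq_one_iff _).1 ?_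
  have h2 : Ecl G ≤ (centralizer {ρ y}).comap ρ := sup_le ((closure_le _).2 fun t ht =>
    mem_centralizer_singleton_iff.2 (mem_centralizer_singleton_iff.1 (h1 t ht hy)).symm)
    (hQ.trans (hF y))
  exact (map_commutatorElement ρ x y).trans (commutatorElement_eq_one_iff_mul_comm.2
    (mem_centralizer_singleton_iff.1 (h2 hx)))

theorem offender (hA : MaxAb 2 T A) :
    A ≤ closure {t | t ∈ A ∧ Tq t} ⊔ (A ⊓ pCore 2 G) ∧ MaxAb 2 T ((A ⊓ pCore 2 G) ⊔ V G) := by
  have hV : V G ≤ T := V_le_Q.trans h.syl.pCore_le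
  obtain ⟨h1, h2⟩ := h.red.offender (A := A) (fun a ha => by rw [hA.abExp.pow ha]; exact one_mem _)
    fun B hB => (card_mul_le hA hB (inf_le_left.trans hV) (fun u hu => V_sq hu.1)
      inf_le_right).trans (Nat.mul_le_mul_left _ (card_le_of_le (le_inf
        (inf_le_right.trans inf_le_left) ((inf_le_left.trans hB).trans hA.abExp.le_centralizer))))
  have e : A ⊓ centralizer (V G : Set G) = A ⊓ pCore 2 G := le_antisymm (le_inf inf_le_left
    (h.le_Q inf_le_right ((h.syl.isPGroup.to_le hA.le).to_le inf_le_left)))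
    (inf_le_inf_left _ Q_le_C)
  rw [e] at h1 h2
  have h0 : {t | t ∈ A ∧ Tv (V G) t} ⊆ {t | t ∈ A ∧ Tq t} := fun t ht => ⟨ht.1, by
    rw [hA.abExp.pow ht.1]; exact one_mem _, ht.2.2⟩
  refine ⟨h1.trans (sup_le_sup_right (Subgroup.closure_mono h0) _), hA.of_card_le
    (sup_le (inf_le_left.trans hA.le) hV) ((hA.abExp.mono inf_le_left).sup
      (abExp_of_sq fun _ => V_sq) (inf_le_right.trans Q_le_C)) ?_⟩
  have h3 := card_sup_mul_card_inf (H := A ⊓ pCore 2 G) (N := V G) le_normalizer_of_normal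
  have h4 : Nat.card (A ⊓ pCore 2 G ⊓ V G : Subgroup G) ≤
      Nat.card (V G ⊓ centralizer (A : Set G) : Subgroup G) := card_le_of_le
    (le_inf inf_le_right ((inf_le_left.trans inf_le_left).trans hA.abExp.le_centralizer))
  rw [mul_comm (Nat.card (A ⊓ pCore 2 G : Subgroup G)), ← h2] at h3
  exact Nat.le_of_mul_le_mul_right (h3.ge.trans (Nat.mul_le_mul_left _ h4)) Nat.card_pos

theorem V_le_J : V G ≤ J 2 T := by
  obtain ⟨A, hA⟩ := exists_maxAb 2 T
  exact le_sup_right.trans (h.offender hA).2.le_J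

theorem J_le_of {N : Subgroup G} (h1 : J 2 T ⊓ pCore 2 G ≤ N)
    (h2 : ∀ A, MaxAb 2 T A → ∀ t ∈ A, Tq t → t ∈ N) : J 2 T ≤ N :=
  J_le_iff.2 fun A hA => (h.offender hA).1.trans (sup_le ((closure_le _).2 fun t ht =>
    h2 A hA t ht.1 ht.2) ((inf_le_inf_right _ hA.le_J).trans h1))

theorem J_le_Ecl : J 2 T ≤ Ecl G :=
  h.J_le_of (inf_le_right.trans le_sup_right) fun _ _ _ _ ht => mem_sup_left (subset_closure ht)

theorem K_sup (ht : Tq t) : K t ⊔ pCore 2 G = X t :=
  pResidualOf_sup_of_isSylowIn (isSylowIn_of_not_dvd_relIndex (Q_le_X t) (pCore_isPGroup 2 G)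
    (by rw [h.idx_X ht]; norm_num))

theorem commutator_K (ht : Tq t) : ⁅V G, K t⁆ = W t := by
  rw [← commutator_sup_Q, h.K_sup ht, W_eq]

omit h in
theorem pCoreOf_K (t : G) : pCoreOf 2 (K t) = pCore 2 G ⊓ K t :=
  pCoreOf_eq_inf_of_isSubnormal (subnormalIn_top_iff.1 (subnormal_K t))

theorem idx_K (ht : Tq t) : (pCoreOf 2 (K t)).relIndex (K t) = 3 := by
  rw [pCoreOf_K, inf_relIndex_right, ← relIndex_sup_right, h.K_sup ht, h.idx_X ht]

/-- Transvections in `J(T)` give `J`-components. -/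
theorem jc (hA : MaxAb 2 T A) (htA : t ∈ A) (ht : Tq t) : JC (J 2 T) (K t) := by
  have hX : J 2 T ≤ normalizer (X t : Set G) := h.J_le_Ecl.trans ((h.Ecl_le ht).trans inf_le_left)
  have hK := hX.trans (normalizer_X_le' t)
  have hres : pResidualOf 2 (K t) = K t := pResidualOf_idem 2 _
  have hQ : pCoreOf 2 (K t) ≤ pCore 2 G := (pCoreOf_K t).le.trans inf_le_left
  have hKW : K t ≤ normalizer (W t : Set G) :=
    (pResidualOf_le 2 _).trans (le_normalizer.trans (normalizer_X_le t))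
  refine ⟨h.syl.isPGroup.to_le (J_le 2 T), hres, le_antisymm
    (commutator_le_left_of_le_normalizer hK) ?_, h.idx_K ht, fun S h1 h2 => ?_, ?_⟩
  · obtain ⟨y, hy, hy'⟩ : ∃ y ∈ ⁅K t, J 2 T⁆, y ∉ pCoreOf 2 (K t) := by
      refine SetLike.not_le_iff_exists.1 fun h' => h.not_mem_C ht ?_
      exact le_centralizer_of_commutator_le (h.card_W ht) (h.W_inf_of_le ht (h.K_sup ht).ge) hKW
        (h.syl.isPGroup.to_le (J_le 2 T)) (hX.trans (normalizer_X_le t))
        ((commutator_comm _ _).le.trans (h'.trans (hQ.trans (Q_le_C.trans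
          (centralizer_anti (W_le t)))))) (hA.le_J htA)
    exact hres.ge.trans ((pResidualOf_mono (le_of_not_mem (h.idx_K ht) le_sup_right
      (commutator_le_left_of_le_normalizer hK hy) hy' (mem_sup_left hy))).trans
      (pResidualOf_sup_le (pCoreOf_isPGroup 2 _) ((pCoreOf_le 2 _).trans
        (normalizer_commutator_ge_left _ _))))
  · obtain ⟨g, -, hg⟩ := h.syl.exists_le_conj le_top h1.isPGroup
    have h3 := J_conj_eq (h2.trans hg)
    rw [J_eq_of_J_le (h3.le.trans h2) hg, h3]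
  · rw [← h.card_W ht, eq_of_four (h.idx_K ht) hA
      ((wOf_le_pCoreOf _).trans (hQ.trans h.syl.pCore_le)) (fun _ => wOf_sq) (le_normalizer_wOf _)
      (hA.le_J.trans (hK.trans (normalizer_le_normalizer_wOf _))) (hA.le_J.trans hK)
      (wOf_inf (h.idx_K ht)) (pCoreOf_le_centralizer_wOf _) (h.card_W ht)
      ((h.commutator_K ht).ge.trans (commutator_le_wOf hres (V_le_Q.trans ((Q_le_X t).trans
        (le_normalizer.trans (normalizer_X_le' t)))) hQ)) hKW
      (hA.le_J.trans (hX.trans (normalizer_X_le t))) htA (h.not_mem_C ht)]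

theorem Q_le_normalizer (hL : JC (J 2 T) L) : pCore 2 G ≤ normalizer (L : Set G) :=
  hL.le_normalizer le_normalizer_of_normal (h.syl.pCore_le.trans
    (le_normalizer.trans (normalizer_le_normalizer_J 2 T)))

theorem le_F (hL : JC (J 2 T) L) : L ≤ pCoreMod 3 ⊤ (pCore 2 G) :=
  hL.comm.ge.trans ((commutator_mono (hL.comm.ge.trans ((commutator_mono le_top h.J_le_Ecl).trans
    (commutator_le_right _ _))) h.J_le_Ecl).trans h.commutator_Ecl)

/-- 12.1.4: `J`-components are subnormal. -/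
theorem subnormal (hL : JC (J 2 T) L) : SubnormalIn ⊤ L := by
  haveI := Fact.mk Nat.prime_three
  have hQ : pCore 2 G ≤ pCoreMod 3 ⊤ (pCore 2 G) :=
    (le_inf le_top le_rfl).trans (inf_le_pCoreMod le_normalizer_of_normal)
  exact ((SubnormalIn.of_normal le_sup_left (sup_le le_normalizer (h.Q_le_normalizer hL))).trans
    (subnormalIn_of_pResidualOf_le ((pResidualOf_pCoreMod_le le_normalizer_of_normal).trans
      le_sup_right) (sup_le (h.le_F hL) hQ))).trans
    (SubnormalIn.of_normal le_top le_normalizer_of_normal)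

theorem pCoreOf_le (hL : JC (J 2 T) L) : pCoreOf 2 L ≤ pCore 2 G :=
  pCoreOf_le_pCore_of_isSubnormal (subnormalIn_top_iff.1 (h.subnormal hL))

theorem wOf_eq (hL : JC (J 2 T) L) : wOf L = ⁅V G, L⁆ := by
  refine ((hL.eq_bot_or_eq (commutator_le_wOf hL.res (V_le_Q.trans (h.Q_le_normalizer hL))
    (h.pCoreOf_le hL)) (normalizer_commutator_ge_right _ _)).resolve_left fun e => ?_).symm
  refine hL.not_le (pCore_isPGroup 2 G) (hL.comm.ge.trans (commutator_le.2 fun c hc x hx => ?_))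
  obtain ⟨k, hk⟩ := isPGroup_iff_forall_mem.1 hL.pg x hx
  exact h.comm_mem (commutator_eq_bot_iff_le_centralizer'.1 e hc) (k := k) (hk ▸ one_mem _)

theorem exists_eq (hL : JC (J 2 T) L) : ∃ t, Tq t ∧ L = K t ∧ wOf L = W t := by
  by_contra hn
  push Not at hn
  refine hL.not_le_C' (h.J_le_of (inf_le_right.trans (Q_le_C.trans (centralizer_anti
    ((h.wOf_eq hL).le.trans (commutator_le_left _ _))))) fun A hA t htA ht => ?_)
  by_contra ht'
  have htJ := zpowers_le.2 (hA.le_J htA)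
  have h1 : L ≤ X t := (hL.commutator_eq (hL.pg.to_le htJ) (htJ.trans hL.norm)
    (mt zpowers_le.1 ht')).ge.trans (le_sup_of_le_left (commutator_mono ((h.le_F hL).trans
      (pCoreMod_mono_right Q_le_C)) le_rfl))
  obtain ⟨x, hx, hx'⟩ := SetLike.not_le_iff_exists.1 (hL.not_le (pCore_isPGroup 2 G))
  have h2 : L ⊔ pCore 2 G = X t := le_antisymm (sup_le h1 (Q_le_X t))
    (h.X_le_of ht le_sup_right (h1 hx) hx' (mem_sup_left hx))
  have h3 : L = K t := by
    rw [K, ← h2, hL.res_sup (pCore_isPGroup 2 G) (h.Q_le_normalizer hL)]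
  exact hn t ht h3 (by rw [h.wOf_eq hL, h3, h.commutator_K ht])

theorem eq_or (hL : JC (J 2 T) L) (hL' : JC (J 2 T) L') (g : G) : L = L' ^ᶜ g ∨
    (wOf L ⊓ wOf (L' ^ᶜ g) = ⊥ ∧ L' ^ᶜ g ≤ centralizer (wOf L : Set G)) := by
  obtain ⟨t, ht, rfl, e1⟩ := h.exists_eq hL
  obtain ⟨s, hs, rfl, e2⟩ := h.exists_eq hL'
  rw [← conj_wOf, e1, e2, conj_W, conj_K]
  by_cases e : W t = W (g * s * g⁻¹)
  · exact Or.inl (by rw [K, K, (h.near ht (hs.conj g) e).1])
  · exact Or.inr ⟨h.red.far_inf ht.tv (hs.conj g).tv e,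
      (pResidualOf_le 2 _).trans (le_sup_left.trans (h.far_le_C ht (hs.conj g) e))⟩

/-- `G` is generated by its `J(T)`-components and `N(J(T))`. -/
theorem eq_top {M : Subgroup G} (h1 : ∀ L, JC (J 2 T) L → L ≤ M)
    (h2 : normalizer (J 2 T : Set G) ≤ M) : M = ⊤ := by
  have hT : T ≤ M := le_normalizer.trans ((normalizer_le_normalizer_J 2 T).trans h2)
  have h3 := h.syl.inf_normal (N := normalClosure (J 2 T : Set G)) le_top le_normalizer_of_normal
  have h4 : J 2 (T ⊓ normalClosure (J 2 T : Set G)) = J 2 T :=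
    J_eq_of_J_le (le_inf (J_le 2 T) le_normalClosure) inf_le_left
  have h5 : ∀ g : G, ∃ e ∈ normalClosure (J 2 T : Set G), ∃ n ∈ normalizer (J 2 T : Set G),
      g = e * n := fun g => by
    obtain ⟨e, he, n, hn, rfl⟩ := h3.frattini (le_normalizer_of_normal (mem_top g))
    exact ⟨e, he, n, h4 ▸ normalizer_le_normalizer_J 2 _ hn, rfl⟩
  have h6 : normalClosure (J 2 T : Set G) ≤ M := by
    rw [← nclIn_top, nclIn_le_iff]
    intro g _
    obtain ⟨e, he, n, hn, rfl⟩ := h5 g
    rw [← conj_conj, conj_eq_of_mem_normalizer hn, conj_le_iff_le_conj_inv]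
    refine h.J_le_of (inf_le_right.trans ?_) fun A hA t htA ht => ?_
    · rw [← conj_le_iff_le_conj_inv, conj_eq_of_normal]
      exact h.syl.pCore_le.trans hT
    · rw [mem_conj_iff, inv_inv]
      refine sup_le ((h.K_sup ht).ge.trans (sup_le (h1 _ (h.jc hA htA ht))
        (h.syl.pCore_le.trans hT))) (zpowers_le.2 (hT (hA.le htA))) ((mem_normalizer_iff.1
          (h.Ecl_le ht (normalClosure_le_normal h.J_le_Ecl he)).2 t).1
          (mem_sup_right (mem_zpowers t)))
  refine eq_top_iff.2 fun g _ => ?_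
  obtain ⟨e, he, n, hn, rfl⟩ := h5 g
  exact mul_mem (h6 he) (h2 hn)

theorem le_normalizer_wOf' (h1 : pResidualOf 2 L = L) (h3 : (pCoreOf 2 L).relIndex L = 3)
    (h4 : Nat.card (wOf L) = 4) (hs : SubnormalIn (L ⊔ J 2 T) L)
    (htop : (L ⊔ J 2 T) ⊔ pCore 2 G = ⊤) : J 2 T ≤ normalizer (wOf L : Set G) := by
  have hPQ : pCoreOf 2 (L ⊔ J 2 T) ≤ pCore 2 G := le_sup_left.trans (le_pCore
    (normal_iff_top_le.2 (htop.ge.trans (sup_le (PCoreConj.le_normalizer_sup
      (le_normalizer_pCoreOf 2 _) le_normalizer_of_normal) (le_sup_right.trans le_normalizer))))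
    ((pCoreOf_isPGroup 2 _).to_sup_of_normal_right (pCore_isPGroup 2 G)))
  have hQ := (pCoreOf_le_of_subnormalIn hs).trans hPQ
  have hN : pCore 2 G ⊓ (L ⊔ J 2 T) ≤ normalizer (L : Set G) :=
    (pCore_inf_le _).trans ((pCoreOf_le_normalizer_pResidualOf hs).trans (by rw [h1]))
  have hV := commutator_le_wOf h1 ((le_inf V_le_Q (h.V_le_J.trans le_sup_right)).trans hN) hQ
  have hF : L ≤ pCoreMod 3 ⊤ (centralizer (V G : Set G)) := by
    refine le_sup_left.trans ((le_pCoreMod_of_subnormalIn le_normalizer_of_normal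
      (htop ▸ hs.sup_normal le_normalizer_of_normal) fun x hx => exists_pow_mem_of_mem_sup
        le_normalizer_of_normal (fun a ha => ⟨1, hQ ?_⟩) hx).trans (pCoreMod_mono_right Q_le_C))
    have := pow_index_mem (H := pCore 2 L) ⟨a, ha⟩
    rw [← pCoreOf_subgroupOf, ← relIndex, h3] at this
    exact this
  refine h.J_le_of (((inf_comm _ _).le.trans (inf_le_inf_left _ le_sup_right)).trans
    (hN.trans (normalizer_le_normalizer_wOf L))) fun A hA t htA ht => ?_
  have htP : t ∈ L ⊔ J 2 T := mem_sup_right (hA.le_J htA)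
  by_cases hc : ∀ k ∈ L, ⁅k, t⁆ ∈ pCore 2 G
  · refine normalizer_le_normalizer_wOf L ?_
    rw [← h1, ← pResidualOf_sup_eq ((pCore_isPGroup 2 G).to_le inf_le_left) hN]
    refine normalizer_le_normalizer_pResidualOf 2 _ (mem_normalizer_of_conj_le ?_)
    rw [conj_sup]
    refine sup_le (conj_le_iff.2 fun k hk => ?_) (le_sup_of_le_right (conj_eq_of_mem_normalizer
      (PCoreConj.le_normalizer_inf le_normalizer_of_normal le_normalizer htP)).le)
    rw [show t * k * t⁻¹ = ⁅k, t⁆⁻¹ * k by rw [commutatorElement_def]; group]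
    exact mul_mem (inv_mem (mem_sup_right (mem_inf.2 ⟨hc k hk, commutator_le_left_of_le_normalizer
      le_normalizer (commutator_mem_commutator (mem_sup_left hk) htP)⟩))) (mem_sup_left hk)
  · push Not at hc
    obtain ⟨k, hk, hk'⟩ := hc
    have hLW := hF.trans ((F_le_normalizer t).trans (normalizer_X_le t))
    have h5 : wOf L ⊓ W t ≠ ⊥ := fun e => by
      have h6 : L ≤ centralizer (W t : Set G) := commutator_eq_bot_iff_le_centralizer'.1
        (le_bot_iff.1 (e ▸ le_inf ((commutator_mono (W_le t) le_rfl).trans hV)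
          (commutator_le_left_of_le_normalizer hLW)))
      have h7 := h.X_le_of ht (Q_le_C.trans (centralizer_anti (W_le t)))
        (mem_sup_left (commutator_mem_commutator (hF hk) (mem_zpowers t))) hk'
        (commutator_le_left_of_le_normalizer (PCoreConj.le_normalizer_centralizer
          (zpowers_le.2 (normalizer_X_le t (mem_normalizer_X t))))
          (commutator_mem_commutator (h6 hk) (mem_zpowers t)))
      have h8 := h.card_W ht
      rw [le_bot_iff.1 ((le_inf le_rfl (le_centralizer_iff.1 h7)).trans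
        (h.W_inf_of_le ht le_sup_left).le), card_bot] at h8
      omega
    rw [eq_of_le_of_card_le (inf_eq_left.1 ((eq_bot_or_eq h4 (wOf_inf h3) inf_le_left
      (PCoreConj.le_normalizer_inf (le_normalizer_wOf L) hLW)).resolve_left h5))
      (by rw [h.card_W ht, h4])]
    exact normalizer_X_le t (mem_normalizer_X t)

end Top

end Cfsg.Agent.Lib.JTop
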