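/-
`J(T)`-components in a group of local characteristic `2` with solvable `2`-local subgroups
(Kurzweil–Stellmacher 12.1).
-/
import Cfsg.Agent.Lib.JTop

set_option autoImplicit false

namespace Cfsg.Agent.Lib.JGlobal

open Subgroup Cfsg.Agent.Lib.PCoreConj Cfsg.Agent.Lib.PCore Cfsg.Agent.Lib.PCoreResidual
  Cfsg.Agent.Lib.PReduced Cfsg.Agent.Lib.LocIdx Cfsg.Agent.Lib.LocFour Cfsg.Agent.Lib.ThompsonJ
  Cfsg.Agent.Lib.JComp Cfsg.Agent.Lib.JTop
open scoped commutatorElement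

variable {G : Type*} [Group G] [Finite G] {K K' L M R S T : Subgroup G}

/-- The global hypotheses. -/
structure ZN (G : Type*) [Group G] : Prop where
  char : ∀ R : Subgroup G, IsPGroup 2 R → R ≠ ⊥ → CharPIn 2 (normalizer (R : Set G))
  solv : ∀ R : Subgroup G, IsPGroup 2 R → R ≠ ⊥ → Group.IsSolvable (normalizer (R : Set G))
  cent : ∀ S : Subgroup G, IsSylowIn 2 S ⊤ →
    centralizer (omegaOneCenter 2 S : Set G) ≤ normalizer (S : Set G)

omit [Finite G] in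
theorem zn (hL : IsCharacteristicTwoType G)
    (hN : ∀ N : Subgroup G, IsTwoLocal N → Group.IsSolvable N)
    (hZ : ∀ S : Sylow 2 G, centralizer (omegaCenterOf (S : Subgroup G) : Set G) ≤
      normalizer ((S : Subgroup G) : Set G)) : ZN G :=
  ⟨fun R h1 h2 => charPIn_iff.1 (hL.2 R h1 h2), fun R h1 h2 => hN _ ⟨R, h1, h2, rfl⟩,
    fun _ h => hZ h.toSylowTop⟩

/-- `T` is a Sylow `2`-subgroup of `L` and `C_G(O₂(L)) ≤ O₂(L) ≠ 1`. -/
structure Ov (T L : Subgroup G) : Prop where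
  syl : IsSylowIn 2 T L
  ne : pCoreOf 2 L ≠ ⊥
  char : centralizer (pCoreOf 2 L : Set G) ≤ pCoreOf 2 L

theorem ov_of_mem (hT : T ≠ ⊥) (h : L ∈ jOvergroups T) : Ov T L := by
  refine ⟨isSylowTwoIn_iff.1 h.1, fun e => hT (le_bot_iff.1 ?_), h.2.2⟩
  have := h.2.2
  rw [e] at this
  exact (le_centralizer_iff.1 bot_le).trans this

omit [Finite G] in
theorem le_pCoreOf_normalizer (hR : IsPGroup 2 R) : R ≤ pCoreOf 2 (normalizer (R : Set G)) :=
  le_pCoreOf le_normalizer le_rfl hR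

omit [Finite G] in
theorem ZN.ov (h : ZN G) (hL : IsTwoLocal L) (hT : IsSylowIn 2 T L) : Ov T L := by
  obtain ⟨R, h1, h2, rfl⟩ := hL
  exact ⟨hT, fun e => h2 (le_bot_iff.1 (e ▸ le_pCoreOf_normalizer h1)), (le_inf
    ((centralizer_anti (le_pCoreOf_normalizer h1)).trans (centralizer_le_normalizer _)) le_rfl).trans
    (h.char R h1 h2)⟩

omit [Finite G] in
theorem Ov.of_le (h : Ov T L) {L' T' : Subgroup G} (h1 : IsSylowIn 2 T' L')
    (h2 : pCoreOf 2 L ≤ L') (h3 : L' ≤ L) : Ov T' L' :=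
  ⟨h1, fun e => h.ne (le_bot_iff.1 (e ▸ pCoreOf_le_of_le_of_le h2 h3)),
    (centralizer_anti (pCoreOf_le_of_le_of_le h2 h3)).trans
      (h.char.trans (pCoreOf_le_of_le_of_le h2 h3))⟩

omit [Finite G] in
theorem Ov.omega_le (h : Ov T L) (hS : T ≤ S) :
    omegaOneCenter 2 S ≤ omegaOneCenter 2 (pCoreOf 2 L) :=
  have h1 := (omegaOneCenter_le_centralizer 2 S).trans (centralizer_anti (h.syl.pCoreOf_le.trans hS))
  le_omegaOneCenter (isElementaryAbelian_omegaOneCenter 2 S) (h1.trans h.char) h1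

omit [Finite G] in
theorem Ov.inf_eq (h : Ov T L) (hS : IsPGroup 2 S) (hTS : T ≤ S) : S ⊓ L = T :=
  h.syl.eq_of_le inf_le_right (hS.to_le inf_le_left) (le_inf hTS h.syl.le)

omit [Finite G] in
theorem map_V (L : Subgroup G) : (V L).map L.subtype = omegaOneCenter 2 (pCoreOf 2 L) :=
  map_omegaOneCenter_subtype _

theorem ZN.top (h : ZN G) (hL : Ov T L) : JTop.Top (T.subgroupOf L) where
  solv := haveI := h.solv _ (pCoreOf_isPGroup 2 L) hL.ne
    CoprimeBasic.solvable_of_le (le_normalizer_pCoreOf 2 L)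
  syl := subgroupOf_self L ▸ hL.syl.subgroupOf le_rfl
  cent := by
    obtain ⟨S, h1, h2⟩ := exists_isSylowIn_ge le_top hL.syl.isPGroup
    intro x hx
    rw [centralizer_eq_subgroupOf, map_V] at hx
    rw [normalizer_eq_subgroupOf, map_subgroupOf_eq_of_le hL.syl.le, ← hL.inf_eq h1.isPGroup h2]
    exact PCoreConj.le_normalizer_inf (zpowers_le.2 (h.cent S h1 (centralizer_anti
      (hL.omega_le h2) hx))) (zpowers_le.2 (le_normalizer x.2)) (mem_zpowers _)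

omit [Finite G] in
theorem jc_sub (hL : Ov T L) (hK : K ≤ L) :
    JC (J 2 (T.subgroupOf L)) (K.subgroupOf L) ↔ JC (J 2 T) K := by
  rw [J_subgroupOf hL.syl.le, jc_subgroupOf_iff ((J_le 2 T).trans hL.syl.le) hK]

omit [Finite G] in
theorem map_wOf_subgroupOf (hK : K ≤ L) : (wOf (K.subgroupOf L)).map L.subtype = wOf K := by
  rw [map_wOf L.subtype_injective, map_subgroupOf_eq_of_le hK]

namespace ZN

variable (h : ZN G)
include h

theorem subnormal (hL : Ov T L) (hK : JC (J 2 T) K) (hKL : K ≤ L) : SubnormalIn L K :=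
  subnormalIn_iff.2 ⟨hKL, subnormalIn_top_iff.1 ((h.top hL).subnormal ((jc_sub hL hKL).2 hK))⟩

theorem wOf_eq (hL : Ov T L) (hK : JC (J 2 T) K) (hKL : K ≤ L) :
    wOf K = ⁅omegaOneCenter 2 (pCoreOf 2 L), K⁆ := by
  rw [← map_wOf_subgroupOf hKL, (h.top hL).wOf_eq ((jc_sub hL hKL).2 hK), map_commutator, map_V,
    map_subgroupOf_eq_of_le hKL]

theorem eq_or (hL : Ov T L) (hK : JC (J 2 T) K) (hKL : K ≤ L) (hK' : JC (J 2 T) K') (hKL' : K' ≤ L)
    {g : G} (hg : g ∈ L) :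
    K = K' ^ᶜ g ∨ (wOf K ⊓ wOf (K' ^ᶜ g) = ⊥ ∧ K' ^ᶜ g ≤ centralizer (wOf K : Set G)) := by
  have h1 := conj_le_of_mem hKL' hg
  rcases (h.top hL).eq_or ((jc_sub hL hKL).2 hK) ((jc_sub hL hKL').2 hK') ⟨g, hg⟩ with e | ⟨e, e'⟩
  · rw [conj_subgroupOf] at e
    left
    rw [← map_subgroupOf_eq_of_le hKL, e, map_subgroupOf_eq_of_le h1]
  · rw [conj_subgroupOf] at e e'
    rw [centralizer_eq_subgroupOf, map_wOf_subgroupOf hKL] at e'
    refine Or.inr ⟨?_, fun x hx => e' (show (⟨x, h1 hx⟩ : L) ∈ _ from hx)⟩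
    rw [← map_wOf_subgroupOf hKL, ← map_wOf_subgroupOf h1,
      ← Subgroup.map_inf _ _ _ L.subtype_injective, e, Subgroup.map_bot]

theorem le_of (hL : Ov T L) (h1 : ∀ K ≤ L, JC (J 2 T) K → K ≤ M)
    (h2 : L ⊓ normalizer (J 2 T : Set G) ≤ M) : L ≤ M := by
  refine subgroupOf_eq_top.1 ((h.top hL).eq_top (fun K hK => ?_) fun x hx => ?_)
  · rw [← map_subtype_subgroupOf K, jc_sub hL (map_subtype_le K)] at hK
    exact map_le_iff_le_comap.1 (h1 _ (map_subtype_le K) hK)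
  · rw [normalizer_eq_subgroupOf, J_subgroupOf hL.syl.le,
      map_subgroupOf_eq_of_le ((J_le 2 T).trans hL.syl.le)] at hx
    exact h2 (mem_inf.2 ⟨x.2, hx⟩)

/-- 12.1.5. -/
theorem le_normalizer (hL : Ov T L) (hK : JC (J 2 T) K) (hKL : K ≤ L)
    (hne : T ⊓ centralizer (T : Set G) ⊓ wOf K ≠ ⊥) : T ≤ normalizer (K : Set G) := fun x hx => by
  refine mem_normalizer_iff_conj_eq.2 ((h.eq_or hL hK hKL hK hKL (hL.syl.le hx)).resolve_right
    fun e => hne (le_bot_iff.1 (e.1 ▸ le_inf inf_le_right ?_))).symm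
  rw [← conj_wOf]
  intro w hw
  rw [mem_conj_iff, mul_assoc, ← mem_centralizer_iff.1 hw.1.2 x hx, inv_mul_cancel_left]
  exact hw.2

end ZN

/-- The family `𝒦₀`. -/
structure JC0 (I K : Subgroup G) : Prop where
  jc : JC I K
  syl : ∀ S, I ≤ S → IsSylowIn 2 S (normalizer (wOf K : Set G)) → J 2 S = I

theorem mem_zero_iff (hT : IsPGroup 2 T) : K ∈ jComponentsZero T ↔ JC0 (J 2 T) K := by
  simp only [jComponentsZero, Set.mem_ofPred_eq, isJComponent_iff hT, thompsonSubgroupOf_eq,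
    isSylowTwoIn_iff]
  exact ⟨fun h => ⟨h.1, h.2⟩, fun h => ⟨h.1, h.2⟩⟩

variable {I I' : Subgroup G}

omit [Finite G] in
theorem JC0.conj (h : JC0 I K) (g : G) : JC0 (I ^ᶜ g) (K ^ᶜ g) := by
  refine ⟨h.jc.conj g, fun S h1 h2 => ?_⟩
  rw [← conj_wOf, ← conj_normalizer] at h2
  have h3 := h2.conj g⁻¹
  rw [conj_conj_inv] at h3
  rw [← h.syl _ (conj_le_iff_le_conj_inv.1 h1) h3, conj_J, conj_inv_conj]

omit [Finite G] in
theorem twoLocal_W (h : JC I K) : IsTwoLocal (normalizer (wOf K : Set G)) :=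
  ⟨_, isPGroup_of_card_four h.card, h.W_ne_bot, rfl⟩

/-- 12.1.6 (a). -/
theorem ZN.normalizer_eq (h : ZN G) (hK : JC0 I K) :
    normalizer (K : Set G) = normalizer (wOf K : Set G) := by
  refine le_antisymm (normalizer_le_normalizer_wOf K) fun g hg => ?_
  obtain ⟨S, h1, h2⟩ := exists_isSylowIn_ge hK.jc.normW hK.jc.pg
  have h3 : JC (J 2 S) K := hK.syl S h2 h1 ▸ hK.jc
  refine mem_normalizer_iff_conj_eq.2 ((h.eq_or (h.ov (twoLocal_W h3) h1) h3 (le_normalizer_wOf K)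
    h3 (le_normalizer_wOf K) hg).resolve_right fun e => h3.W_ne_bot ?_).symm
  rw [← e.1, ← conj_wOf, conj_eq_of_mem_normalizer hg, inf_idem]

/-- 12.1.6 (b). -/
theorem ZN.jc_conj (h : ZN G) (hK : JC0 I K) {g : G} (hg : I ^ᶜ g ≤ normalizer (wOf K : Set G)) :
    JC (I ^ᶜ g) K := by
  obtain ⟨S, h1, h2⟩ := exists_isSylowIn_ge hK.jc.normW hK.jc.pg
  obtain ⟨l, hl, h3⟩ := h1.exists_le_conj hg (isPGroup_conj hK.jc.pg g)
  have h4 := hK.syl S h2 h1
  have h5 : I ^ᶜ g = I ^ᶜ l := by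
    obtain ⟨A, hA⟩ := exists_maxAb 2 S
    refine eq_of_le_of_card_le ?_ (by rw [card_conj, card_conj])
    have h6 : J 2 (I ^ᶜ g) = I ^ᶜ g := by rw [← conj_J, hK.jc.J_eq]
    rw [← h6, ← h4, conj_J 2 S l]
    refine J_le_iff.2 fun B hB => MaxAb.le_J ((hA.conj l).of_card_le (hB.le.trans (h4 ▸ h3))
      hB.abExp ?_)
    rw [card_conj, ← card_conj A g]
    exact hB.card_le (conj_mono g hA.le_J) (hA.abExp.map _)
  have h6 := hK.jc.conj l
  rwa [conj_eq_of_mem_normalizer (H := K) ((h.normalizer_eq hK).ge hl), ← h5] at h6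

/-- 12.1.6 (c). -/
theorem ZN.jc_of_subnormal (h : ZN G) (hL : Ov T L) (hKL : K ≤ L)
    (hs : SubnormalIn (K ⊔ J 2 T) K) {g : G} (hK : JC0 ((J 2 T) ^ᶜ g) K) : JC (J 2 T) K := by
  rw [← conj_conj_inv (J 2 T) g]
  refine h.jc_conj hK ?_
  rw [conj_conj_inv]
  have hle : (K ⊔ J 2 T) ⊔ pCoreOf 2 L ≤ L :=
    sup_le (sup_le hKL ((J_le 2 T).trans hL.syl.le)) (pCoreOf_le 2 L)
  obtain ⟨T₁, h1, h2⟩ := exists_isSylowIn_ge (H := (K ⊔ J 2 T) ⊔ pCoreOf 2 L)
    (le_sup_of_le_left le_sup_right) (hL.syl.isPGroup.to_le (J_le 2 T))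
  have h3 : J 2 T₁ = J 2 T := by
    obtain ⟨l, -, hl⟩ := hL.syl.exists_le_conj (h1.le.trans hle) h1.isPGroup
    rw [J_eq_of_J_le ((J_conj_eq (h2.trans hl)).le.trans h2) hl, J_conj_eq (h2.trans hl)]
  have hL₁ := hL.of_le h1 le_sup_right hle
  set L₁ := (K ⊔ J 2 T) ⊔ pCoreOf 2 L with hL₁'
  have hK₁ : K ≤ L₁ := le_sup_of_le_left le_sup_left
  have hJ₁ : J 2 T ≤ L₁ := le_sup_of_le_left le_sup_right
  have e : J 2 (T₁.subgroupOf L₁) = (J 2 T).subgroupOf L₁ := by rw [J_subgroupOf h1.le, h3]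
  have h4 := (h.top hL₁).le_normalizer_wOf' (L := K.subgroupOf L₁)
    (map_injective L₁.subtype_injective (by
      rw [map_pResidualOf_subgroupOf hK₁, hK.jc.res, map_subgroupOf_eq_of_le hK₁]))
    (by rw [pCoreOf_subgroupOf_of_le hK₁, relIndex_subgroupOf hK₁, hK.jc.idx])
    (by rw [← card_map_of_injective L₁.subtype_injective, map_wOf_subgroupOf hK₁, hK.jc.card])
    (by rw [e, ← subgroupOf_sup hK₁ hJ₁]; exact hs.comap _)
    (by
      rw [e, ← subgroupOf_sup hK₁ hJ₁, ← pCoreOf_subgroupOf,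
        ← subgroupOf_sup le_sup_left (pCoreOf_le 2 _), subgroupOf_eq_top]
      exact sup_le_sup_left (pCoreOf_le_of_le_of_le le_sup_right hle) _)
  rw [e, normalizer_eq_subgroupOf, map_wOf_subgroupOf hK₁] at h4
  exact fun x hx => h4 (show (⟨x, hJ₁ hx⟩ : L₁) ∈ _ from hx)

end Cfsg.Agent.Lib.JGlobal
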