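/-
The families `𝒯(M)`, `𝒯*(M)` and the uniqueness theorem (Kurzweil–Stellmacher 12.2).
-/
import Cfsg.Agent.Lib.JGlobal
import Cfsg.Agent.Lib.SubnormalJoin
import Cfsg.Agent.Lib.LocStrongEmb

set_option autoImplicit false

namespace Cfsg.Agent.Lib.JMax

open Subgroup Cfsg.Agent.Lib.PCoreConj Cfsg.Agent.Lib.PCore Cfsg.Agent.Lib.PCoreResidual
  Cfsg.Agent.Lib.PReduced Cfsg.Agent.Lib.LocIdx Cfsg.Agent.Lib.LocFour Cfsg.Agent.Lib.ThompsonJ
  Cfsg.Agent.Lib.JComp Cfsg.Agent.Lib.JGlobal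
open Cfsg.Agent.Lib.JTop (J_conj_eq)
open scoped commutatorElement

variable {G : Type*} [Group G] [Finite G] {A K K' L L' M R S T T₀ : Subgroup G}

omit [Finite G] in
theorem a_eq (hA : MaxAb 2 T A) : maxElemAbelianOrder T = Nat.card A := by
  have e : (⊤ : Subgroup T).map T.subtype = T := by rw [← MonoidHom.range_eq_map, range_subtype]
  have h1 : (fun A : Subgroup T => Nat.card A) '' maxElementaryAbelianSubgroups 2 T =
      {Nat.card A} := by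
    refine Set.eq_singleton_iff_nonempty_unique_mem.2 ⟨?_, ?_⟩
    · obtain ⟨B, hB, -⟩ := MaxAb.exists_of_map (inf_ker_of_injective T.subtype_injective ⊤)
        (e.symm ▸ hA)
      exact ⟨_, B, mem_maxElementaryAbelianSubgroups_iff.2 hB, rfl⟩
    · rintro _ ⟨B, hB, rfl⟩
      have h2 := (mem_maxElementaryAbelianSubgroups_iff.1 hB).map
        (inf_ker_of_injective T.subtype_injective ⊤)
      rw [e] at h2
      rw [← h2.card_eq hA, card_map_of_injective T.subtype_injective]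
  rw [maxElemAbelianOrder, h1, csSup_singleton]

omit [Finite G] in
theorem twoLocal_conj (h : IsTwoLocal L) (g : G) : IsTwoLocal (L ^ᶜ g) := by
  obtain ⟨R, h1, h2, rfl⟩ := h
  exact ⟨R ^ᶜ g, isPGroup_conj h1 g, mt conj_eq_bot_iff.1 h2, conj_normalizer R g⟩

omit [Finite G] in
theorem str_conj (h : T ∈ straddlingTwoSubgroups M) {m : G} (hm : m ∈ M) :
    T ^ᶜ m ∈ straddlingTwoSubgroups M := by
  obtain ⟨h1, h2, h3, L, h4, h5, h6⟩ := h
  refine ⟨isPGroup_conj h1 m, mt conj_eq_bot_iff.1 h2, conj_le_of_mem h3 hm, L ^ᶜ m,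
    twoLocal_conj h4 m, conj_mono m h5, fun h' => h6 ?_⟩
  rwa [conj_le_iff_le_conj_inv, conj_eq_of_mem (inv_mem hm)] at h'

/-- The maximality property of the members of `𝒯*(M)`. -/
structure Mx (M T : Subgroup G) : Prop where
  str : T ∈ straddlingTwoSubgroups M
  max : ∀ T₁ ∈ straddlingTwoSubgroups M, J 2 T ≤ T₁ → J 2 T₁ = J 2 T ∧ Nat.card T₁ ≤ Nat.card T

theorem mx_of_mem (h : T ∈ maxStraddlingTwoSubgroups M) : Mx M T := by
  refine ⟨h.1, fun T₁ h1 h2 => ?_⟩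
  obtain ⟨h3, h4⟩ := h.2 T₁ h1
  obtain ⟨A, hA⟩ := exists_maxAb 2 T
  obtain ⟨B, hB⟩ := exists_maxAb 2 T₁
  rw [a_eq hA, a_eq hB] at h3 h4
  simp only [thompsonSubgroupOf_eq] at h4
  obtain ⟨h5, h6⟩ := h4 (le_antisymm h3 (hB.card_le (hA.le_J.trans h2) hA.abExp))
  have h7 : J 2 T = J 2 T₁ := eq_of_le_of_card_le (J_le_iff.2 fun C hC => MaxAb.le_J
    (hB.of_card_le (hC.le_J.trans h2) hC.abExp (h3.trans (hA.card_eq hC).le))) h5
  exact ⟨h7.symm, h6 (by rw [h7])⟩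

theorem exists_mx (h : (straddlingTwoSubgroups M).Nonempty) : ∃ T, Mx M T := by
  obtain ⟨T, h1, h2⟩ := Set.exists_max_image _ (fun T : Subgroup G => toLex (maxElemAbelianOrder T,
    toLex (Nat.card (thompsonSubgroupOf 2 T), Nat.card T))) (Set.toFinite _) h
  refine ⟨T, mx_of_mem ⟨h1, fun T₁ h3 => ?_⟩⟩
  have h4 := h2 T₁ h3
  simp only [Prod.Lex.toLex_le_toLex] at h4
  omega

omit [Finite G] in
theorem Mx.conj (h : Mx M T) {m : G} (hm : m ∈ M) : Mx M (T ^ᶜ m) := by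
  refine ⟨str_conj h.str hm, fun T₁ h1 h2 => ?_⟩
  rw [← conj_J, conj_le_iff_le_conj_inv] at h2
  obtain ⟨h3, h4⟩ := h.max _ (str_conj h1 (inv_mem hm)) h2
  rw [card_conj] at h4 ⊢
  rw [← conj_J 2 T, ← h3, conj_J, conj_inv_conj]
  exact ⟨rfl, h4⟩

theorem mx_of_sylow (hS : IsSylowIn 2 S ⊤) (h : S ∈ straddlingTwoSubgroups M) : Mx M S := by
  refine ⟨h, fun T₁ h1 h2 => ⟨?_, hS.card_le le_top h1.1⟩⟩
  obtain ⟨g, -, hg⟩ := hS.exists_le_conj le_top h1.1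
  rw [J_eq_of_J_le ((J_conj_eq (h2.trans hg)).le.trans h2) hg, J_conj_eq (h2.trans hg)]

omit [Finite G] in
theorem Mx.pg (h : Mx M T) : IsPGroup 2 T := h.str.1

omit [Finite G] in
theorem Mx.le (h : Mx M T) : T ≤ M := h.str.2.2.1

theorem Mx.J_ne (h : Mx M T) : J 2 T ≠ ⊥ := J_ne_bot h.pg h.str.2.1 dvd_rfl

theorem Mx.pgJ (h : Mx M T) : IsPGroup 2 (J 2 T) := h.pg.to_le (J_le 2 T)

omit [Finite G] in
theorem le_normalizer_J (T : Subgroup G) : T ≤ normalizer (J 2 T : Set G) :=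
  le_normalizer.trans (normalizer_le_normalizer_J 2 T)

/-- `M` contains the normalizer of `J(S)` for the Sylow `2`-subgroup `S`. -/
structure Hm (M S : Subgroup G) : Prop where
  syl : IsSylowIn 2 S ⊤
  norm : normalizer (J 2 S : Set G) ≤ M

omit [Finite G] in
theorem hm_of (S : Sylow 2 G) (h : normalizer (thompsonSubgroupOf 2 (S : Subgroup G) : Set G) ≤ M) :
    Hm M S := ⟨isSylowIn_top S, thompsonSubgroupOf_eq 2 (S : Subgroup G) ▸ h⟩

omit [Finite G] in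
theorem Hm.le (h : Hm M S) : S ≤ M := (le_normalizer_J S).trans h.norm

omit [Finite G] in
theorem Hm.conj (h : Hm M S) {m : G} (hm : m ∈ M) : Hm M (S ^ᶜ m) :=
  ⟨h.syl.conj_top m, by rw [← conj_J, ← conj_normalizer]; exact conj_le_of_mem h.norm hm⟩

theorem Hm.exists_ge (h : Hm M S) (h1 : T ≤ M) (h2 : IsPGroup 2 T) : ∃ S', Hm M S' ∧ T ≤ S' := by
  obtain ⟨m, hm, h3⟩ := (h.syl.of_le h.le le_top).exists_le_conj h1 h2
  exact ⟨_, h.conj hm, h3⟩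

section

variable (hS : Hm M S) (hT : Mx M T)
include hS hT

theorem normalizer_J_le : normalizer (J 2 T : Set G) ≤ M := by
  by_contra hn
  obtain ⟨T₁, h1, h2⟩ := exists_isSylowIn_ge (le_inf hT.le (le_normalizer_J T)) hT.pg
  obtain rfl : T = T₁ := eq_of_le_of_card_le h2 (hT.max T₁ ⟨h1.isPGroup, fun e =>
    hT.str.2.1 (le_bot_iff.1 (e ▸ h2)), h1.le.trans inf_le_left, _, ⟨_, hT.pgJ, hT.J_ne, rfl⟩,
    h1.le.trans inf_le_right, hn⟩ ((J_le 2 T).trans h2)).2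
  obtain ⟨S', h3, h4⟩ := hS.exists_ge hT.le hT.pg
  have h5 := (h1.of_le (le_inf hT.le le_normalizer) (inf_le_inf_left _
    (normalizer_le_normalizer_J 2 T))).of_inf_normalizer.eq_of_le h3.le h3.syl.isPGroup h4
  exact hn (h5 ▸ h3.norm)

theorem J_eq_of_sylow (hL : IsTwoLocal L) (hLM : ¬ L ≤ M) (h0 : IsSylowIn 2 T₀ L)
    (hJ : J 2 T ≤ T₀) : J 2 T₀ = J 2 T ∧ T₀ ∈ straddlingTwoSubgroups M := by
  have h1 : T₀ ⊓ M ∈ straddlingTwoSubgroups M := ⟨h0.isPGroup.to_le inf_le_left, fun e =>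
    hT.J_ne (le_bot_iff.1 (e ▸ le_inf hJ ((J_le 2 T).trans hT.le))), inf_le_right, L, hL,
    inf_le_left.trans h0.le, hLM⟩
  have h2 := (hT.max _ h1 (le_inf hJ ((J_le 2 T).trans hT.le))).1
  have h3 : T₀ ⊓ M = T₀ := by
    by_contra hn
    refine (CoprimeSylow.lt_inf_normalizer_of_isPGroup h0.isPGroup
      (lt_of_le_of_ne inf_le_left hn)).not_ge (inf_le_inf_left _ ?_)
    exact (normalizer_le_normalizer_J 2 _).trans (h2 ▸ normalizer_J_le hS hT)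
  rw [h3] at h1 h2
  exact ⟨h2, h1⟩

theorem isSylowIn_of_le (hL : IsTwoLocal L) (hLM : ¬ L ≤ M) (h : T ≤ L) : IsSylowIn 2 T L := by
  obtain ⟨T₀, h1, h2⟩ := exists_isSylowIn_ge h hT.pg
  rwa [eq_of_le_of_card_le h2 (hT.max _ (J_eq_of_sylow hS hT hL hLM h1
    ((J_le 2 T).trans h2)).2 ((J_le 2 T).trans h2)).2]

theorem not_J_le (hLM : ¬ L ≤ M) (h0 : IsSylowIn 2 T₀ L) (e : J 2 T₀ = J 2 T) :
    ¬ J 2 T₀ ≤ pCoreOf 2 L := fun h' => hLM (by
  refine le_trans ?_ (normalizer_J_le hS hT)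
  rw [← e, ← J_eq_of_J_le h' h0.pCoreOf_le]
  exact (le_normalizer_pCoreOf 2 L).trans (normalizer_le_normalizer_J 2 _))

theorem exists_jc (h : ZN G) (hL : IsTwoLocal L) (hLM : ¬ L ≤ M) (hTL : T ≤ L) :
    ∃ K ≤ L, JC (J 2 T) K ∧ ¬ K ≤ M := by
  by_contra hn
  push Not at hn
  exact hLM (h.le_of (h.ov hL (isSylowIn_of_le hS hT hL hLM hTL)) hn
    (inf_le_right.trans (normalizer_J_le hS hT)))

theorem jc0 (hK : JC (J 2 T) K) (hKM : ¬ K ≤ M) : JC0 (J 2 T) K :=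
  ⟨hK, fun _ h1 h2 => (J_eq_of_sylow hS hT (twoLocal_W hK)
    (fun h' => hKM ((le_normalizer_wOf K).trans h')) h2 h1).1⟩

end

/-- The family `𝒦_{G∖M}(T)`. -/
structure Out (M T K : Subgroup G) : Prop where
  jc : JC (J 2 T) K
  nle : ¬ K ≤ M
  core : pCoreOf 2 (K ⊔ T) ≠ ⊥

theorem out_of_mem (hT : IsPGroup 2 T) (h : K ∈ jComponentsOutside M T) : Out M T K :=
  ⟨((mem_zero_iff hT).1 h.1).jc, h.2.1, h.2.2⟩

theorem exists_out (h : ZN G) (hS : Hm M S) (hT : Mx M T) : ∃ K, Out M T K := by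
  obtain ⟨L, h1, h2, h3⟩ := hT.str.2.2.2
  obtain ⟨K, h4, h5, h6⟩ := exists_jc hS hT h h1 h3 h2
  have h7 := h.ov h1 (isSylowIn_of_le hS hT h1 h3 h2)
  exact ⟨K, h5, h6, fun e => h7.ne (le_bot_iff.1 (e ▸ pCoreOf_le_of_le_of_le
    (h7.syl.pCoreOf_le.trans le_sup_right) (sup_le h4 h2)))⟩

/-- `L` is the unique maximal `2`-local subgroup containing `K J(T)`. -/
structure Uq (T K L : Subgroup G) : Prop where
  loc : IsTwoLocal L
  le : K ⊔ J 2 T ≤ L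
  max : ∀ L', IsTwoLocal L' → K ⊔ J 2 T ≤ L' → L' ≤ L

/-- 12.2.3: uniqueness. -/
theorem exists_uq (h : ZN G) (hS : Hm M S) (hT : Mx M T) (hK : JC (J 2 T) K) (hKM : ¬ K ≤ M) :
    ∃ L, Uq T K L := by
  have h0 := jc0 hS hT hK hKM
  have key : ∀ L, IsTwoLocal L → K ⊔ J 2 T ≤ L → ∃ T₀, Ov T₀ L ∧ J 2 T₀ = J 2 T := fun L h1 h2 => by
    obtain ⟨T₀, h3, h4⟩ := exists_isSylowIn_ge (le_sup_right.trans h2) hT.pgJ
    exact ⟨T₀, h.ov h1 h3, (J_eq_of_sylow hS hT h1 (fun h' => hKM ((le_sup_left.trans h2).trans h'))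
      h3 h4).1⟩
  have hKs : ∀ L, IsTwoLocal L → K ⊔ J 2 T ≤ L → SubnormalIn L K := fun L h1 h2 => by
    obtain ⟨T₀, h3, h4⟩ := key L h1 h2
    exact h.subnormal h3 (h4 ▸ hK) (le_sup_left.trans h2)
  obtain ⟨L, h1, h2⟩ := SubnormalJoin.exists_greatest_of_zipper
    {L | IsTwoLocal L ∧ K ⊔ J 2 T ≤ L} ⟨_, twoLocal_W hK, sup_le (le_normalizer_wOf K) hK.normW⟩
    (fun L => {B | (∃ g, B = K ^ᶜ g) ∧ SubnormalIn L B}) (fun _ _ _ hB => hB.2.le)
    (fun _ _ _ hB => (subnormalIn_iff.1 hB.2).2)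
    (by
      rintro V - _ ⟨⟨g, rfl⟩, hB⟩ x hx
      exact ⟨⟨x * g, conj_conj K g x⟩, hB.conj_of_mem (le_normalizer hx)⟩)
    (by
      rintro V hV W hW _ ⟨⟨g, rfl⟩, hB⟩ hle
      obtain ⟨T₀, h3, h4⟩ := key V hV.1 hV.2
      refine ⟨⟨g, rfl⟩, h.subnormal h3 (h.jc_of_subnormal h3 hle (g := g) ?_ ?_) hle⟩
      · rw [h4]
        exact hB.of_le le_sup_left (sup_le hB.le (le_sup_right.trans hW.2))
      · rw [h4]
        exact h0.conj g)
    (by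
      intro V hV W hW
      have h3 : K ∈ {B | (∃ g, B = K ^ᶜ g) ∧ SubnormalIn V B} ∩
          {B | (∃ g, B = K ^ᶜ g) ∧ SubnormalIn W B} :=
        ⟨⟨⟨1, (conj_one K).symm⟩, hKs V hV.1 hV.2⟩, ⟨1, (conj_one K).symm⟩, hKs W hW.1 hW.2⟩
      refine ⟨_, ⟨⟨_, pCoreOf_isPGroup 2 _, fun e => hK.W_ne_bot (le_bot_iff.1 ?_), rfl⟩,
        le_trans ?_ (normalizer_le_normalizer_pCoreOf 2 _)⟩, normalizer_le_normalizer_pCoreOf 2 _⟩
      · rw [← e]
        exact (wOf_le_pCoreOf K).trans (pCoreOf_le_of_subnormalIn ((hKs V hV.1 hV.2).of_le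
          (le_sSup h3) (sSup_le fun B hB => hB.1.2.le)))
      · refine SubnormalJoin.le_normalizer_sSup ?_
        rintro _ ⟨⟨⟨g, rfl⟩, h4⟩, -, h5⟩ x hx
        exact ⟨⟨⟨x * g, conj_conj K g x⟩, h4.conj_of_mem (le_normalizer (hV.2 hx))⟩,
          ⟨x * g, conj_conj K g x⟩, h5.conj_of_mem (le_normalizer (hW.2 hx))⟩)
  exact ⟨L, h1.1, h1.2, fun L' h3 h4 => h2 L' ⟨h3, h4⟩⟩

omit [Finite G] in
theorem uq_of_maximal (h : Uq T K L) (h1 : IsMaximalTwoLocal L') (h2 : K ⊔ J 2 T ≤ L') : L' = L :=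
  (h1.2 L h.loc (h.max L' h1.1 h2)).symm

namespace Uq

omit [Finite G]
variable (h : Uq T K L)
include h

theorem maximal : IsMaximalTwoLocal L :=
  ⟨h.loc, fun N h1 h2 => le_antisymm (h.max N h1 (h.le.trans h2)) h2⟩

theorem K_le : K ≤ L := le_sup_left.trans h.le

theorem conj (g : G) : Uq (T ^ᶜ g) (K ^ᶜ g) (L ^ᶜ g) := by
  refine ⟨twoLocal_conj h.loc g, by rw [← conj_J, ← conj_sup]; exact conj_mono g h.le,
    fun L' h1 h2 => ?_⟩
  rw [← conj_J, ← conj_sup, conj_le_iff_le_conj_inv] at h2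
  exact le_conj_iff_conj_inv_le.2 (h.max _ (twoLocal_conj h1 _) h2)

theorem congr (e : J 2 T₀ = J 2 T) : Uq T₀ K L := ⟨h.loc, e ▸ h.le, e ▸ h.max⟩

theorem normalizer_le (h1 : IsPGroup 2 R) (h2 : R ≠ ⊥)
    (h3 : K ⊔ J 2 T ≤ normalizer (R : Set G)) : normalizer (R : Set G) ≤ L :=
  h.max _ ⟨R, h1, h2, rfl⟩ h3

theorem centralizer_le {u : G} (h1 : u ^ 2 = 1) (h2 : u ≠ 1)
    (h3 : K ⊔ J 2 T ≤ centralizer ({u} : Set G)) : centralizer ({u} : Set G) ≤ L := by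
  rw [← centralizer_zpowers] at h3 ⊢
  exact (centralizer_le_normalizer _).trans (h.normalizer_le (isPGroup_zpowers (k := 1) h1)
    (mt zpowers_eq_bot.1 h2) (h3.trans (centralizer_le_normalizer _)))

theorem le' (hK : pCoreOf 2 (K ⊔ T) ≠ ⊥) : T ≤ L :=
  (le_sup_right.trans (le_normalizer_pCoreOf 2 _)).trans (h.normalizer_le (pCoreOf_isPGroup 2 _) hK
    ((sup_le_sup_left (J_le 2 T) K).trans (le_normalizer_pCoreOf 2 _)))

theorem normalizer_core_le (hL : pCoreOf 2 L ≠ ⊥) : normalizer (pCoreOf 2 L : Set G) ≤ L :=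
  h.normalizer_le (pCoreOf_isPGroup 2 L) hL (h.le.trans (le_normalizer_pCoreOf 2 L))

end Uq

theorem Uq.ov (h : ZN G) (hS : Hm M S) (hT : Mx M T) (hK : Out M T K) (hL : Uq T K L) : Ov T L :=
  h.ov hL.loc (isSylowIn_of_le hS hT hL.loc (fun h' => hK.nle (hL.K_le.trans h')) (hL.le' hK.core))

theorem Uq.mem_of_le_conj (hL : Uq T K L) (hne : pCoreOf 2 L ≠ ⊥) {g : G}
    (h : K ⊔ J 2 T ≤ L ^ᶜ g) : g ∈ L :=
  hL.normalizer_core_le hne (normalizer_le_normalizer_pCoreOf 2 L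
    (mem_normalizer_of_conj_le (hL.max _ (twoLocal_conj hL.loc g) h)))

theorem stronglyEmbedded_of_empty (hO : pCore 2 G = ⊥) (hM : IsTwoLocal M)
    (h : straddlingTwoSubgroups M = ∅) : IsStronglyPEmbedded 2 M := by
  obtain ⟨R, h1, h2, rfl⟩ := hM
  refine LocStrongEmb.of_normalizer_le (fun e => h2 (le_bot_iff.1 (hO ▸ le_pCore
    (normalizer_eq_top_iff.1 e) h1))) ((dvd_card_of_isPGroup_of_ne_bot h1 h2).trans
    (card_dvd_of_le le_normalizer)) fun Q h3 h4 h5 => ?_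
  by_contra hn
  exact Set.eq_empty_iff_forall_notMem.1 h Q ⟨h4, h5, h3, _, ⟨Q, h4, h5, rfl⟩, le_normalizer, hn⟩

/-- The involutions of a strongly embedded subgroup are conjugate in it. -/
theorem exists_conj_of_stronglyEmbedded (h : IsStronglyPEmbedded 2 M) {x y : G} (hx : x ∈ M)
    (hy : y ∈ M) (hx2 : x ^ 2 = 1) (hy2 : y ^ 2 = 1) (hx1 : x ≠ 1) (hy1 : y ≠ 1) :
    ∃ m ∈ M, m * x * m⁻¹ = y := by
  obtain ⟨g, -, hg⟩ := SetLike.not_le_iff_exists.1 (mt top_le_iff.1 h.2.1)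
  have h1 : g * y * g⁻¹ ∉ M := fun h' =>
    hg (LocStrongEmb.mem_of_conj_mem h (k := 1) hy2 hy1 hy h')
  have h2 : (g * y * g⁻¹) ^ 2 = 1 := by rw [conj_pow, hy2]; simp
  generalize hz : g * y * g⁻¹ = z at h1 h2
  have hx' := mul_self_of_sq hx2
  have hz' := mul_self_of_sq h2
  have h3 : ∀ k : ℕ, x * (x * z) ^ k * x⁻¹ = ((x * z) ^ k)⁻¹ := fun k => by
    rw [← conj_pow, ← inv_pow, mul_inv_rev, inv_eq_self_of_sq h2, ← mul_assoc, hx', one_mul]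
  obtain ⟨c, hc⟩ : ∃ c : G, c * x * c⁻¹ = z := by
    rcases Nat.even_or_odd' (orderOf (x * z)) with ⟨k, hk | hk⟩
    · have h4 : ((x * z) ^ k) ^ 2 = 1 := by rw [← pow_mul, mul_comm, ← hk, pow_orderOf_eq_one]
      have h5 : (x * z) ^ k ≠ 1 := pow_ne_one_of_lt_orderOf
        (by have := orderOf_pos (x * z); omega) (by have := orderOf_pos (x * z); omega)
      have h6 := h3 k
      rw [inv_eq_self_of_sq h4, mul_inv_eq_iff_eq_mul] at h6
      have h7 : (x * z) ^ k ∈ M := LocStrongEmb.centralizer_singleton_le h hx (k := 1) hx2 hx1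
        (mem_centralizer_singleton_iff.2 h6.symm)
      refine absurd (LocStrongEmb.centralizer_singleton_le h h7 (k := 1) h4 h5 ?_) h1
      have h8 : x * z ∈ centralizer ({(x * z) ^ k} : Set G) :=
        mem_centralizer_singleton_iff.2 (Commute.self_pow _ k).eq
      exact (mul_mem_cancel_left (mem_centralizer_singleton_iff.2 h6)).1 h8
    · refine ⟨((x * z) ^ (k + 1))⁻¹, ?_⟩
      have h4 : (x * z) ^ (k + 1) * (x * z) ^ (k + 1) = x * z := by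
        rw [← pow_add, show k + 1 + (k + 1) = 2 * k + 1 + 1 by ring, ← hk, pow_succ,
          pow_orderOf_eq_one, one_mul]
      calc _ = (x * (x * z) ^ (k + 1) * x⁻¹) * x * (x * z) ^ (k + 1) := by rw [h3, inv_inv]
        _ = x * ((x * z) ^ (k + 1) * (x * z) ^ (k + 1)) := by
            rw [inv_mul_cancel_right, mul_assoc]
        _ = z := by rw [h4, ← mul_assoc, hx', one_mul]
  refine ⟨g⁻¹ * c, LocStrongEmb.mem_of_conj_mem h (k := 1) hx2 hx1 hx ?_, ?_⟩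
  · rw [show g⁻¹ * c * x * (g⁻¹ * c)⁻¹ = g⁻¹ * (c * x * c⁻¹) * g by group, hc, ← hz]
    simpa [mul_assoc] using hy
  · rw [show g⁻¹ * c * x * (g⁻¹ * c)⁻¹ = g⁻¹ * (c * x * c⁻¹) * g by group, hc, ← hz]
    group

end Cfsg.Agent.Lib.JMax
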