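/-
The amalgam attached to a member of `𝒯*(M)` (Kurzweil–Stellmacher 12.2).
-/
import Cfsg.Agent.Lib.JMax
import Cfsg.Agent.Lib.AmalgS3

set_option autoImplicit false

namespace Cfsg.Agent.Lib.JAmalg

open Subgroup Cfsg.Agent.Lib.PCoreConj Cfsg.Agent.Lib.PCore Cfsg.Agent.Lib.PCoreResidual
  Cfsg.Agent.Lib.PReduced Cfsg.Agent.Lib.LocIdx Cfsg.Agent.Lib.LocFour Cfsg.Agent.Lib.ThompsonJ
  Cfsg.Agent.Lib.JComp Cfsg.Agent.Lib.JGlobal Cfsg.Agent.Lib.JMax
open Cfsg.Agent.Lib.AmalgS3 (Loc Pair)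
open scoped commutatorElement

variable {G : Type*} [Group G] [Finite G] {A I K K' L L' M R S T U W Z : Subgroup G}

theorem eq_of_card_two (h : Nat.card Z = 2) (h1 : U ≤ Z) (h2 : U ≠ ⊥) : U = Z :=
  eq_of_le_of_card_le h1 (h.trans (((Nat.dvd_prime Nat.prime_two).1
    (h ▸ card_dvd_of_le h1)).resolve_left (mt card_eq_one.1 h2)).symm).le

theorem zpowers_eq_of_card_two (h : Nat.card Z = 2) {z : G} (h1 : z ∈ Z) (h2 : z ≠ 1) :
    zpowers z = Z := eq_of_card_two h (zpowers_le.2 h1) (mt zpowers_eq_bot.1 h2)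

omit [Finite G] in
theorem eq_of_mem_of_card_two (h : Nat.card Z = 2) {x y : G} (hx : x ∈ Z) (hy : y ∈ Z) (h1 : x ≠ 1)
    (h2 : y ≠ 1) : x = y := by
  obtain ⟨u, -, hu⟩ := (Nat.card_eq_two_iff' (1 : Z)).1 h
  exact congrArg Subtype.val ((hu ⟨x, hx⟩ fun e => h1 (congrArg Subtype.val e)).trans
    (hu ⟨y, hy⟩ fun e => h2 (congrArg Subtype.val e)).symm)

omit [Finite G] in
theorem exists_ne_one (h : U ≠ ⊥) : ∃ u ∈ U, u ≠ 1 := (bot_or_exists_ne_one U).resolve_left h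

omit [Finite G] in
theorem relIndex_eq_two_of_four (hW : Nat.card W = 4) (hZ : Nat.card Z = 2) (h : Z ≤ W) :
    Z.relIndex W = 2 := by
  have := card_mul_relIndex h
  rw [hW, hZ] at this
  omega

theorem relIndex_dvd_two_of_res (hA : A ≤ normalizer (W : Set G)) (hW : Nat.card W = 4)
    (h : pResidualOf 2 A ≤ centralizer (W : Set G)) : (centralizer (W : Set G)).relIndex A ∣ 2 := by
  obtain ⟨k, hk⟩ := exists_pow_relIndex_pResidualOf 2 A
  obtain ⟨j, -, hj⟩ := (Nat.dvd_prime_pow Nat.prime_two).1 (hk ▸ relIndex_dvd_of_le_left A h)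
  have h1 := relIndex_centralizer_dvd_six hA hW
  rw [hj] at h1 ⊢
  exact (Nat.Coprime.pow_left j (by norm_num : Nat.Coprime 2 3)).dvd_of_dvd_mul_right h1

theorem exists_commutator_mem {p : ℕ} [Fact p.Prime] (hU : IsPGroup p U) (hS : IsPGroup p S)
    (h1 : S ≤ normalizer (U : Set G)) (h2 : S ≤ normalizer (Z : Set G))
    (h3 : U ≤ normalizer (Z : Set G)) (h4 : ¬ U ≤ Z) : ∃ u ∈ U, u ∉ Z ∧ ∀ s ∈ S, ⁅u, s⁆ ∈ Z := by
  haveI := normal_subgroupOf_of_le h3
  letI := MulAction.compHom (U ⧸ Z.subgroupOf U) (CoprimeSylow.sectionHom h1 h2)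
  have hd : p ∣ Nat.card (U ⧸ Z.subgroupOf U) := by
    rcases (hU.to_quotient (Z.subgroupOf U)).card_eq_or_dvd with h | h
    · exact absurd (relIndex_eq_one.1 h) h4
    · exact h
  obtain ⟨x, hx, hx1⟩ := hS.exists_fixed_point_of_prime_dvd_card_of_fixed_point
    (U ⧸ Z.subgroupOf U) hd (a := 1) fun s => map_one (CoprimeSylow.sectionHom h1 h2 s)
  obtain ⟨u, rfl⟩ := QuotientGroup.mk_surjective x
  refine ⟨u, u.2, fun h => hx1 ((QuotientGroup.eq_one_iff u).2 h).symm, fun s hs => ?_⟩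
  have h5 : CoprimeSylow.sectionHom h1 h2 ⟨s, hs⟩ (u : U ⧸ Z.subgroupOf U) = u := hx ⟨s, hs⟩
  rw [CoprimeSylow.sectionHom_mk, eq_comm, QuotientGroup.eq_iff_div_mem, mem_subgroupOf] at h5
  simpa [commutatorElement_def, div_eq_mul_inv, mul_assoc] using h5

theorem omega_le_Z (T : Subgroup G) : omegaOneCenter 2 T ≤ omegaOneCenter 2 (J 2 T) := by
  intro x hx
  obtain ⟨h1, h2, h3⟩ := mem_omegaOneCenter_iff.1 hx
  rw [omegaOneCenter_J]
  exact mem_ZJ_of_centralizer h1 h2 h3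

omit [Finite G] in
theorem omega_le_omega (h : Ov T L) (hS : T ≤ S) : omegaOneCenter 2 S ≤ omegaOneCenter 2 T :=
  (le_inf le_rfl ((h.omega_le hS).trans ((omegaOneCenter_le 2 _).trans h.syl.pCoreOf_le))).trans
    (omegaOneCenter_inf_le hS)

omit [Finite G] in
theorem omega_sq {z : G} (hz : z ∈ omegaOneCenter 2 T) : z ^ 2 = 1 :=
  (mem_omegaOneCenter_iff.1 hz).2.2

theorem idx_D (h : JC I K) : (centralizer (K : Set G)).relIndex (omegaOneCenter 2 I) = 2 := by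
  obtain ⟨w, hw, hw1⟩ := exists_ne_one (U := omegaOneCenter 2 I ⊓ wOf K) fun e => by
    have := h.card_Z_inf
    rw [e, card_bot] at this
    omega
  refine relIndex_eq_two_of hw.1 (fun h' => hw1 (mem_bot.1 (h.W_inf ▸ mem_inf.2 ⟨hw.2, h'⟩)))
    fun y hy hy' => ?_
  obtain ⟨v, hv, c, hc, rfl⟩ := h.Z_split hy
  rw [eq_of_mem_of_card_two h.card_Z_inf hv hw (fun e => hy' (by rw [e, one_mul]; exact hc.2)) hw1,
    mem_centralizer_iff.1 (omegaOneCenter_le_centralizer 2 I hc.1) w (omegaOneCenter_le 2 I hw.1),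
    mul_assoc, mul_self_of_sq (wOf_sq hw.2), mul_one]
  exact hc.2

theorem card_D (h : JC I K) :
    Nat.card (omegaOneCenter 2 I ⊓ centralizer (K : Set G) : Subgroup G) * 2 =
      Nat.card (omegaOneCenter 2 I) := by
  have := card_inf_mul_relIndex (centralizer (K : Set G)) (omegaOneCenter 2 I)
  rwa [idx_D h, inf_comm] at this

omit [Finite G] in
theorem le_centralizer_of_mem {u : G} (hu : u ∈ omegaOneCenter 2 I ⊓ centralizer (K : Set G)) :
    K ⊔ I ≤ centralizer ({u} : Set G) :=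
  sup_le (mem_centralizer_iff_le.1 hu.2)
    (mem_centralizer_iff_le.1 (omegaOneCenter_le_centralizer 2 I hu.1))

theorem card_four (h : JC I K) (h' : JC I K')
    (hne : omegaOneCenter 2 I ⊓ centralizer (K : Set G) ≠ ⊥)
    (hD : omegaOneCenter 2 I ⊓ centralizer (K : Set G) ⊓ centralizer (K' : Set G) = ⊥) :
    Nat.card (omegaOneCenter 2 I) = 4 := by
  have h1 := card_inf_mul_relIndex (centralizer (K' : Set G))
    (omegaOneCenter 2 I ⊓ centralizer (K : Set G))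
  rw [inf_comm, hD, card_bot, one_mul] at h1
  have h2 := relIndex_le_of_le_right (H := centralizer (K' : Set G))
    (inf_le_left : omegaOneCenter 2 I ⊓ centralizer (K : Set G) ≤ _) (relIndex_ne_zero_of_finite _ _)
  have h3 := mt card_eq_one.1 hne
  have h4 := Nat.card_pos (α := (omegaOneCenter 2 I ⊓ centralizer (K : Set G) : Subgroup G))
  rw [← card_D h]
  rw [idx_D h', h1] at h2
  omega

theorem not_le_centralizer (h : ZN G) (hK : JC I K) (hS : IsSylowIn 2 S ⊤)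
    (h2 : Nat.card (omegaOneCenter 2 S) = 2) {z : G} (hz : z ∈ omegaOneCenter 2 S) (hz1 : z ≠ 1)
    (g : G) : ¬ K ⊔ I ≤ centralizer ({g * z * g⁻¹} : Set G) := fun h' => by
  rw [← conj_centralizer_singleton, ← centralizer_zpowers, zpowers_eq_of_card_two h2 hz hz1,
    conj_centralizer, conj_omegaOneCenter] at h'
  have h3 := h'.trans (h.cent _ (hS.conj_top g))
  exact hK.not_le (hS.conj_top g).isPGroup (hK.comm.ge.trans ((commutator_mono le_rfl
    ((hS.conj_top g).le_of_le_normalizer le_top hK.pg (le_sup_right.trans h3))).trans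
    (commutator_le_right_of_le_normalizer (le_sup_left.trans h3))))

theorem not_mem_centralizer (h : ZN G) (hK : JC I K) (hS : IsSylowIn 2 S ⊤)
    (h2 : Nat.card (omegaOneCenter 2 S) = 2) {z : G} (hz : z ∈ omegaOneCenter 2 S) (hz1 : z ≠ 1)
    {g : G} (hg : g * z * g⁻¹ ∈ omegaOneCenter 2 I) : g * z * g⁻¹ ∉ centralizer (K : Set G) :=
  fun h' => not_le_centralizer h hK hS h2 hz hz1 g (le_centralizer_of_mem (mem_inf.2 ⟨hg, h'⟩))

omit [Finite G] in
theorem uq_conj (hL : Uq T K L) {g : G} (hg : g ∈ normalizer (J 2 T : Set G)) :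
    Uq T (K ^ᶜ g) (L ^ᶜ g) :=
  (hL.conj g).congr (by rw [← conj_J, conj_eq_of_mem_normalizer hg])

theorem eq_of_normalizer_le (hS : IsPGroup 2 S) (hTS : T ≤ S) (hL : Ov T L)
    (h : S ⊓ normalizer (T : Set G) ≤ L) : T = S := by
  by_contra hn
  exact (CoprimeSylow.lt_inf_normalizer_of_isPGroup hS (lt_of_le_of_ne hTS hn)).not_ge
    ((le_inf inf_le_left h).trans (hL.inf_eq hS hTS).le)

/-- The first part of 12.2.4. -/
theorem cases (h : ZN G) (hS : IsSylowIn 2 S ⊤) (hT : T ≠ ⊥) (hTS : T ≤ S) (hK : JC (J 2 T) K)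
    (hL : Uq T K L) (hov : Ov T L) :
    (omegaOneCenter 2 S = omegaOneCenter 2 (J 2 T) ∧ Nat.card (omegaOneCenter 2 (J 2 T)) = 2) ∨
    (omegaOneCenter 2 S = omegaOneCenter 2 (J 2 T) ∧ Nat.card (omegaOneCenter 2 (J 2 T)) = 4 ∧
      T = S) ∨
    (omegaOneCenter 2 T = omegaOneCenter 2 (J 2 T) ∧ Nat.card (omegaOneCenter 2 (J 2 T)) = 4 ∧
      (L ⊓ centralizer (omegaOneCenter 2 (J 2 T) : Set G)).relIndex
        (normalizer (omegaOneCenter 2 (J 2 T) : Set G)) = 2 ∧ Nat.card (omegaOneCenter 2 S) = 2) ∨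
    (T = S ∧ normalizer (J 2 T : Set G) ≤ L ∧
      omegaOneCenter 2 (J 2 T) ⊓ centralizer (K : Set G) ≠ ⊥) := by
  have hZ := (omega_le_omega hov hTS).trans (omega_le_Z T)
  have hZ1 := omegaOneCenter_ne_bot hS.isPGroup fun e => hT (le_bot_iff.1 (e ▸ hTS))
  by_cases hD : omegaOneCenter 2 (J 2 T) ⊓ centralizer (K : Set G) = ⊥
  · have h1 := card_D hK
    rw [hD, card_bot] at h1
    exact Or.inl ⟨eq_of_card_two h1.symm hZ hZ1, h1.symm⟩
  obtain ⟨d, hd, hd1⟩ := exists_ne_one hD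
  have hC : centralizer (omegaOneCenter 2 (J 2 T) : Set G) ≤ L :=
    (centralizer_le (Set.singleton_subset_iff.2 hd.1)).trans
      (hL.centralizer_le (omega_sq hd.1) hd1 (le_centralizer_of_mem hd))
  by_cases hN : normalizer (J 2 T : Set G) ≤ L
  · exact Or.inr (Or.inr (Or.inr ⟨eq_of_normalizer_le hS.isPGroup hTS hov
      (inf_le_right.trans ((normalizer_le_normalizer_J 2 T).trans hN)), hN, hD⟩))
  obtain ⟨g, hg, hg'⟩ := SetLike.not_le_iff_exists.1 hN
  have hK' := hK.conj_of_mem hg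
  have hDD : omegaOneCenter 2 (J 2 T) ⊓ centralizer (K : Set G) ⊓
      centralizer ((K ^ᶜ g : Subgroup G) : Set G) = ⊥ := by
    by_contra hn
    obtain ⟨u, hu, hu1⟩ := exists_ne_one hn
    exact hg' (hL.mem_of_le_conj hov.ne ((le_centralizer_of_mem hu.1).trans
      ((uq_conj hL hg).centralizer_le (omega_sq hu.1.1) hu1
        (le_centralizer_of_mem (mem_inf.2 ⟨hu.1.1, hu.2⟩)))))
  have h4 := card_four hK hK' hD hDD
  rcases (card_cases_of_le_four h4 hZ).resolve_left hZ1 with h2 | h2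
  · obtain ⟨z, hz, hz1⟩ := exists_ne_one hZ1
    have h3 : normalizer (omegaOneCenter 2 (J 2 T) : Set G) ≤
        centralizer (omegaOneCenter 2 S : Set G) := fun n hn => by
      have h5 := (mem_normalizer_iff.1 hn z).1 (hZ hz)
      have h6 : ∀ K' : Subgroup G, JC (J 2 T) K' → z * (n * z * n⁻¹) ∈ centralizer (K' : Set G) :=
        fun K' hK' => mul_mem_of_relIndex_two (idx_D hK') (hZ hz) h5
          (by simpa using not_mem_centralizer h hK' hS h2 hz hz1 (g := 1) (by simpa using hZ hz))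
          (not_mem_centralizer h hK' hS h2 hz hz1 h5)
      have h7 := mem_bot.1 (hDD ▸ mem_inf.2 ⟨mem_inf.2 ⟨mul_mem (hZ hz) h5, h6 K hK⟩, h6 _ hK'⟩)
      rw [mul_eq_one_iff_inv_eq, inv_eq_self_of_sq (omega_sq hz)] at h7
      rw [← zpowers_eq_of_card_two h2 hz hz1, centralizer_zpowers]
      exact mem_centralizer_singleton_iff.2 (mul_inv_eq_iff_eq_mul.1 h7.symm)
    have hgN := normalizer_le_normalizer_omegaOneCenter 2 _ hg
    have h5 : (centralizer (omegaOneCenter 2 (J 2 T) : Set G)).relIndex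
        (normalizer (omegaOneCenter 2 (J 2 T) : Set G)) = 2 := by
      refine ((Nat.dvd_prime Nat.prime_two).1 (relIndex_dvd_two_of_res le_rfl h4
        (pResidualOf_le_iff.2 fun x hx ho => mem_centralizer_of_relIndex_dvd_two
          (fun _ => omega_sq) hx (Nat.coprime_two_right.1 ho) ?_))).resolve_left
        fun e => hg' (hC (relIndex_eq_one.1 e hgN))
      exact (relIndex_dvd_of_le_left _ (mem_centralizer_iff_le.1 (h3 hx))).trans
        (relIndex_eq_two_of_four h4 h2 hZ).dvd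
    refine Or.inr (Or.inr (Or.inl ⟨le_antisymm (omega_le_Z T) (le_omegaOneCenter
      (isElementaryAbelian_omegaOneCenter 2 _) ((omegaOneCenter_le 2 _).trans (J_le 2 T))
      (le_centralizer_iff.1 fun t ht => ?_)), h4, by rw [inf_eq_right.2 hC, h5], h2⟩))
    by_contra ht'
    exact hg' (le_of_relIndex_two h5 (inf_le_left.trans hC)
      (le_normalizer_omegaOneCenter (le_normalizer_J T) ht) ht' (hov.syl.le ht) hgN)
  · refine Or.inr (Or.inl ⟨h2, h4, ?_⟩)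
    rw [← hov.inf_eq hS.isPGroup hTS, inf_eq_left]
    exact (le_centralizer_omegaOneCenter 2 S).trans (h2 ▸ hC)

theorem le_normalizer_of_omega_eq (h : ZN G) (hK : JC (J 2 T) K) (hov : Ov T L) (hKL : K ≤ L)
    (e : omegaOneCenter 2 T = omegaOneCenter 2 (J 2 T)) : T ≤ normalizer (K : Set G) := by
  refine h.le_normalizer hov hK hKL fun e' => ?_
  have h1 := hK.card_Z_inf
  rw [← e, le_bot_iff.1 ((inf_le_inf_right _ (le_inf (omegaOneCenter_le 2 T)
    (omegaOneCenter_le_centralizer 2 T))).trans e'.le), card_bot] at h1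
  omega

theorem omega_eq_of_eq (hov : Ov T L) (hTS : T ≤ S)
    (e : omegaOneCenter 2 S = omegaOneCenter 2 (J 2 T)) :
    omegaOneCenter 2 T = omegaOneCenter 2 (J 2 T) :=
  le_antisymm (omega_le_Z T) (e ▸ omega_le_omega hov hTS)

theorem loc (hK : JC (J 2 T) K) (hov : Ov T L) (hKL : K ≤ L) (hn : T ≤ normalizer (K : Set G)) :
    Loc (K ⊔ T) T := by
  have hs : IsSylowIn 2 T (K ⊔ T) := hov.syl.of_le le_sup_right (sup_le hKL hov.syl.le)
  have hp := hov.syl.isPGroup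
  have hW := hn.trans (normalizer_le_normalizer_wOf K)
  have hPK : K ⊔ T ≤ normalizer (K : Set G) := sup_le le_normalizer hn
  have hQ : pCoreOf 2 K ≤ T := (pCoreOf_le_of_normal le_sup_left hPK).trans hs.pCoreOf_le
  refine ⟨inferInstance, hs, CharPIn.of_isSylowIn_le (inf_le_right.trans hov.char) hov.syl
    le_sup_right (sup_le hKL hov.syl.le), ?_, ?_, fun h' => ?_⟩
  · have e : pCoreOf 2 (K ⊔ T) = (K ⊔ T) ⊓ centralizer (wOf K : Set G) := by
      refine le_antisymm (le_inf (pCoreOf_le 2 _) (hK.le_C (pCoreOf_isPGroup 2 _)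
        (hs.pCoreOf_le.trans hW) (le_trans ?_ (pCoreOf_le_centralizer_wOf K))))
        (le_pCoreOf inf_le_left (PCoreConj.le_normalizer_inf le_normalizer
          (PCoreConj.le_normalizer_centralizer (hPK.trans (normalizer_le_normalizer_wOf K))))
          (hK.isPGroup_C hp hn))
      exact (le_inf (commutator_le_left_of_le_normalizer (le_sup_left.trans
        (le_normalizer_pCoreOf 2 _))) (commutator_le_right_of_le_normalizer
          (hs.pCoreOf_le.trans hn))).trans (pCoreOf_inf_le le_sup_left)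
    rw [e, ← inf_relIndex_right, inf_right_comm, inf_eq_right.2 (le_sup_right : T ≤ K ⊔ T),
      inf_relIndex_left]
    exact ((Nat.dvd_prime Nat.prime_two).1 (relIndex_centralizer_dvd_two hp hW hK.card)).resolve_left
      fun e => hK.not_le_C' ((J_le 2 T).trans (relIndex_eq_one.1 e))
  · have h1 := card_sup_mul_card_inf hn
    have e : T ⊓ K = pCoreOf 2 K := le_antisymm (fun x hx => by
      by_contra hx'
      exact hK.not_le hp (le_of_not_mem hK.idx hQ hx.2 hx' hx.1)) (le_inf hQ (pCoreOf_le 2 K))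
    rw [e, sup_comm, ← card_mul_relIndex (le_sup_right : T ≤ K ⊔ T),
      ← card_mul_relIndex (pCoreOf_le 2 K), hK.idx, mul_assoc, mul_comm (Nat.card (pCoreOf 2 K))] at h1
    exact Nat.eq_of_mul_eq_mul_right Nat.card_pos (Nat.eq_of_mul_eq_mul_left Nat.card_pos h1)
  · refine CoprimeBasic.inf_centralizer_ne_bot (isPGroup_of_card_four hK.card) hp hW hK.W_ne_bot
      (le_bot_iff.1 (hK.W_inf ▸ le_inf inf_le_left (le_trans ?_ (le_centralizer_iff.1
        (le_sup_left.trans h')))))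
    exact fun w hw => mem_omegaOneCenter_iff.2 ⟨hQ (wOf_le_pCoreOf K hw.1), hw.2, wOf_sq hw.1⟩

omit [Finite G] in
theorem eq_bot_of_normal (hL : Uq T K L) (hK' : ¬ K' ≤ L) (h1 : IsPGroup 2 R)
    (h2 : K ⊔ T ≤ normalizer (R : Set G)) (h3 : K' ⊔ T ≤ normalizer (R : Set G)) : R = ⊥ := by
  by_contra hn
  exact hK' ((le_sup_left.trans h3).trans (hL.normalizer_le h1 hn
    ((sup_le_sup_left (J_le 2 T) K).trans h2)))

omit [Finite G] in
theorem pair (hL : Uq T K L) (hK' : ¬ K' ≤ L) (h1 : Loc (K ⊔ T) T) (h2 : Loc (K' ⊔ T) T) :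
    Pair (K ⊔ T) (K' ⊔ T) T :=
  ⟨h1, h2, fun _ h3 => eq_bot_of_normal hL hK' (h1.syl.isPGroup.to_le h3)⟩

omit [Finite G] in
theorem mem_or {P₁ P₂ : Subgroup G} (h : Pair P₁ P₂ T) {x : G} (hx : x ∈ T) (h2 : x ^ 2 = 1) :
    x ∈ pCoreOf 2 P₁ ∨ x ∈ pCoreOf 2 P₂ := by
  by_contra hn
  push Not at hn
  obtain ⟨a, ha, hc, ha2, ha'⟩ := h.symm.exists_a
  have h3 := h.sq (mul_mem_of_relIndex_two h.l1.idx2 hx (h.l2.Q_le ha) hn.1 ha')
  have h4 : x * a = a * x := by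
    rw [← inv_eq_self_of_sq h3, mul_inv_rev, inv_eq_self_of_sq h2, inv_eq_self_of_sq ha2]
  exact ha' (h.l1.charP (mem_inf.2 ⟨h.l1.syl.le (h.l2.Q_le ha), mem_centralizer_iff_le.2
    (h.l1.Q_le.trans (h.l2.T_le (mem_centralizer_iff_le.1 hc) hx hn.2
      (mem_centralizer_singleton_iff.2 h4)))⟩))

theorem not_le_conj (hL : Uq T K L) (hov : Ov T L) {g : G} (hg : g ∈ normalizer (T : Set G))
    (hg' : g ∉ L) : ¬ K ^ᶜ g ≤ L := fun h' =>
  hg' (hL.mem_of_le_conj hov.ne (hL.le.trans ((uq_conj hL (normalizer_le_normalizer_J 2 T hg)).max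
    L hL.loc (sup_le h' ((J_le 2 T).trans hov.syl.le)))))

omit [Finite G] in
theorem loc_conj (h : Loc (K ⊔ T) T) {g : G} (hg : g ∈ normalizer (T : Set G)) :
    Loc (K ^ᶜ g ⊔ T) T := by
  have := h.conj g
  rwa [conj_sup, conj_eq_of_mem_normalizer hg] at this

/-- The case in which every `2`-local subgroup containing `S` lies in `M`. -/
theorem not_str (h : ZN G) (hS : Hm M S) (hne : (straddlingTwoSubgroups M).Nonempty)
    (hS' : S ∉ straddlingTwoSubgroups M) : Nat.card (omegaOneCenter 2 S) = 2 ∧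
      ∀ U ≤ S, S ≤ normalizer (U : Set G) → (∀ u ∈ U, u ^ 2 = 1) → ¬ U ≤ omegaOneCenter 2 S →
        ¬ ∀ u ∈ U, u ≠ 1 → centralizer ({u} : Set G) ≤ M := by
  obtain ⟨T, hT, hTS⟩ : ∃ T, Mx M T ∧ T ≤ S := by
    obtain ⟨T, hT⟩ := exists_mx hne
    obtain ⟨m, hm, h1⟩ := (hS.syl.of_le hS.le le_top).exists_conj_le hT.le hT.pg
    exact ⟨_, hT.conj hm, h1⟩
  obtain ⟨K, hK⟩ := exists_out h hS hT
  obtain ⟨L, hL⟩ := exists_uq h hS hT hK.jc hK.nle
  have hov := hL.ov h hS hT hK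
  have hne' : T ≠ S := fun e => hS' (e ▸ hT.str)
  obtain ⟨h1, h2⟩ : omegaOneCenter 2 T = omegaOneCenter 2 (J 2 T) ∧
      Nat.card (omegaOneCenter 2 S) = 2 := by
    rcases cases h hS.syl hT.str.2.1 hTS hK.jc hL hov with h1 | h1 | h1 | h1
    · exact ⟨omega_eq_of_eq hov hTS h1.1, h1.1 ▸ h1.2⟩
    · exact absurd h1.2.2 hne'
    · exact ⟨h1.1, h1.2.2.2⟩
    · exact absurd h1.1 hne'
  refine ⟨h2, fun U hU hSU hsq hUZ hC => ?_⟩
  have hl := loc hK.jc hov hL.K_le (le_normalizer_of_omega_eq h hK.jc hov hL.K_le h1)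
  obtain ⟨g, hg, hg'⟩ := SetLike.not_le_iff_exists.1 (mt (eq_of_normalizer_le hS.syl.isPGroup hTS hov) hne')
  have hp := pair hL (not_le_conj hL hov hg.2 hg') hl (loc_conj hl hg.2)
  have hSZ : S ≤ normalizer (omegaOneCenter 2 S : Set G) := le_normalizer_omegaOneCenter le_normalizer
  obtain ⟨u, hu, hu', huZ⟩ := exists_commutator_mem (hS.syl.isPGroup.to_le hU) hS.syl.isPGroup hSU hSZ
    (hU.trans hSZ) hUZ
  have hZU : omegaOneCenter 2 S ≤ U := (eq_of_card_two h2 inf_le_right (inf_omegaOneCenter_ne_bot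
    hS.syl.isPGroup hU hSU fun e => hUZ (e.le.trans bot_le))).ge.trans inf_le_left
  have huT : u ∈ T := by
    rw [← hov.inf_eq hS.syl.isPGroup hTS]
    refine mem_inf.2 ⟨hU hu, hL.normalizer_core_le hov.ne (mem_normalizer_of_conj_le
      (conj_le_iff.2 fun x hx => ?_))⟩
    rw [show u * x * u⁻¹ = ⁅u, x⁆ * x by rw [commutatorElement_def]; group]
    exact mul_mem (omegaOneCenter_le 2 _ (hov.omega_le hTS (huZ x (hTS (hov.syl.pCoreOf_le hx))))) hx
  have hZ1 := (omega_le_omega hov hTS).trans ((omegaOneCenter_le_of_charPIn hp.l1.charP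
    hp.l1.syl).trans (omegaOneCenter_le 2 _))
  have hZ2 := (omega_le_omega hov hTS).trans ((omegaOneCenter_le_of_charPIn hp.l2.charP
    hp.l2.syl).trans (omegaOneCenter_le 2 _))
  have hiff : u ∈ pCoreOf 2 (K ^ᶜ g ⊔ T) ↔ u ∈ pCoreOf 2 (K ⊔ T) := by
    rw [← conj_eq_of_mem_normalizer hg.2, ← conj_sup, ← conj_pCoreOf, mem_conj_iff,
      conj_eq_of_mem_normalizer hg.2,
      show g⁻¹ * u * g = ⁅u, g⁻¹⁆⁻¹ * u by rw [commutatorElement_def]; group]
    exact mul_mem_cancel_left (inv_mem (hZ1 (huZ _ (inv_mem (mem_inf.1 hg).1))))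
  have hu1 := (mem_or hp huT (hsq u hu)).elim id hiff.1
  obtain ⟨z, hz, hz1⟩ := exists_ne_one (U := omegaOneCenter 2 S) fun e => by
    rw [e, card_bot] at h2; omega
  have key : ∀ x ∈ U, x ≠ 1 → x ∉ pCoreOf 2 (K ⊔ T) ⊓ centralizer ((K ⊔ T : Subgroup G) : Set G) :=
    fun x hx hx1 hx' => hK.nle ((le_sup_left.trans (mem_centralizer_iff_le.1 hx'.2)).trans
      (hC x hx hx1))
  exact key _ (mul_mem hu (hZU hz)) (fun e => hu' (by
    rw [mul_eq_one_iff_eq_inv.1 e]; exact inv_mem hz)) (mul_mem_of_relIndex_two hp.idx'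
      (mem_inf.2 ⟨hu1, hiff.2 hu1⟩) (mem_inf.2 ⟨hZ1 hz, hZ2 hz⟩)
      (key u hu fun e => hu' (e ▸ one_mem _)) (key z (hZU hz) hz1))

theorem str_nonempty (hO : pCore 2 G = ⊥) (hL : IsTwoLocal L) (hov : Ov T L)
    (hK : JC (J 2 T) K) (hKL : K ≤ L) : (straddlingTwoSubgroups L).Nonempty := by
  by_contra hn
  have hs := stronglyEmbedded_of_empty hO hL (Set.not_nonempty_iff_eq_empty.1 hn)
  have h1 : ¬ J 2 T ≤ pCoreOf 2 L := fun h' => hK.not_le (pCoreOf_isPGroup 2 L)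
    (hK.comm.ge.trans ((commutator_mono le_rfl h').trans
      (commutator_le_right_of_le_normalizer (hKL.trans (le_normalizer_pCoreOf 2 L)))))
  rw [J_le_iff] at h1
  push Not at h1
  obtain ⟨A, hA, h2⟩ := h1
  obtain ⟨t, ht, ht'⟩ := SetLike.not_le_iff_exists.1 h2
  obtain ⟨w, hw, hw1⟩ := exists_ne_one (omegaOneCenter_ne_bot (pCoreOf_isPGroup 2 L) hov.ne)
  have hw' := omegaOneCenter_le 2 _ hw
  obtain ⟨m, hm, e⟩ := exists_conj_of_stronglyEmbedded hs (pCoreOf_le 2 L hw')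
    (hov.syl.le (hA.le ht)) (omega_sq hw) (hA.abExp.pow ht) hw1 (fun e => ht' (e ▸ one_mem _))
  exact ht' (e ▸ (mem_normalizer_iff.1 (le_normalizer_pCoreOf 2 L hm) w).1 hw')

/-- The last case of 12.2.4. -/
theorem last_case (h : ZN G) (hO : pCore 2 G = ⊥) (hS : Hm L S) (hK : JC (J 2 S) K)
    (hL : Uq S K L) (hov : Ov S L) (hD : omegaOneCenter 2 (J 2 S) ⊓ centralizer (K : Set G) ≠ ⊥) :
    omegaOneCenter 2 S = omegaOneCenter 2 (J 2 S) ∧ Nat.card (omegaOneCenter 2 (J 2 S)) = 4 := by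
  have hZ := omega_le_Z S
  have hS1 : S ≠ ⊥ := fun e => hov.ne (le_bot_iff.1 (e ▸ hov.syl.pCoreOf_le))
  have hZ1 := omegaOneCenter_ne_bot hS.syl.isPGroup hS1
  obtain ⟨z, hz, hz1⟩ := exists_ne_one hZ1
  obtain ⟨d, hd, hd1⟩ := exists_ne_one hD
  have hn : Nat.card (omegaOneCenter 2 S) = 2 → ∀ K' : Subgroup G, JC (J 2 S) K' →
      ∀ z ∈ omegaOneCenter 2 S, z ≠ 1 → z ∉ centralizer (K' : Set G) := fun h2 K' hK' z hz hz1 => by
    simpa using not_mem_centralizer h hK' hS.syl h2 hz hz1 (g := 1) (by simpa using hZ hz)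
  have hKs : ∀ s ∈ S, JC (J 2 S) (K ^ᶜ s) := fun s hs => hK.conj_of_mem (le_normalizer_J S hs)
  have hC : ∀ s ∈ S, ∀ u ∈ omegaOneCenter 2 (J 2 S) ⊓ centralizer ((K ^ᶜ s : Subgroup G) : Set G),
      u ≠ 1 → centralizer ({u} : Set G) ≤ L := fun s hs u hu hu1 => by
    have h1 := uq_conj hL (le_normalizer_J S hs)
    rw [conj_eq_of_mem (hS.le hs)] at h1
    exact h1.centralizer_le (omega_sq (mem_inf.1 hu).1) hu1 (le_centralizer_of_mem hu)
  by_cases hs : S ∈ straddlingTwoSubgroups L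
  · obtain ⟨K', hK'⟩ := exists_out h hS (mx_of_sylow hS.syl hs)
    have h1 : ∀ s ∈ S, ∀ u ∈ omegaOneCenter 2 (J 2 S) ⊓
        centralizer ((K ^ᶜ s : Subgroup G) : Set G), u ≠ 1 → u ∉ centralizer (K' : Set G) :=
      fun s hs u hu hu1 hu' => hK'.nle ((mem_centralizer_iff_le.1 hu').trans (hC s hs u hu hu1))
    have h4 : Nat.card (omegaOneCenter 2 (J 2 S)) = 4 := by
      refine card_four hK hK'.jc hD (eq_bot_iff.2 fun u hu => ?_)
      by_contra hu1
      exact h1 1 (one_mem S) u (by rw [conj_one]; exact (mem_inf.1 hu).1) hu1 (mem_inf.1 hu).2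
    refine ⟨((card_cases_of_le_four h4 hZ).resolve_left hZ1).resolve_left fun h2 => ?_, h4⟩
    have h5 : Nat.card (omegaOneCenter 2 (J 2 S) ⊓ centralizer (K' : Set G) : Subgroup G) = 2 := by
      have := card_D hK'.jc
      omega
    have h6 : ∀ s ∈ S, s * d * s⁻¹ ∈ omegaOneCenter 2 (J 2 S) ⊓
        centralizer ((K ^ᶜ s : Subgroup G) : Set G) := fun s hs => mem_inf.2
      ⟨(mem_normalizer_iff.1 (le_normalizer_omegaOneCenter (le_normalizer_J S) hs) d).1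
        (mem_inf.1 hd).1, by rw [← conj_centralizer]; exact conj_mem_conj s (mem_inf.1 hd).2⟩
    have h7 : ∀ s ∈ S, z * (s * d * s⁻¹) ∈ omegaOneCenter 2 (J 2 S) ⊓ centralizer (K' : Set G) ∧
        z * (s * d * s⁻¹) ≠ 1 := fun s hs =>
      ⟨mem_inf.2 ⟨mul_mem (hZ hz) (mem_inf.1 (h6 s hs)).1, mul_mem_of_relIndex_two (idx_D hK'.jc)
        (hZ hz) (mem_inf.1 (h6 s hs)).1 (hn h2 K' hK'.jc z hz hz1)
        (h1 s hs _ (h6 s hs) (by simpa using hd1))⟩, fun e => hn h2 _ (hKs s hs) z hz hz1 (by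
          rw [mul_eq_one_iff_eq_inv.1 e]; exact inv_mem (mem_inf.1 (h6 s hs)).2)⟩
    refine hn h2 K hK d (mem_omegaOneCenter_iff.2 ⟨J_le 2 S (omegaOneCenter_le 2 _ (mem_inf.1 hd).1),
      mem_centralizer_iff.2 fun s hs => ?_, omega_sq (mem_inf.1 hd).1⟩) hd1 (mem_inf.1 hd).2
    have h8 := mul_left_cancel (eq_of_mem_of_card_two h5 (h7 s hs).1 (h7 1 (one_mem S)).1
      (h7 s hs).2 (h7 1 (one_mem S)).2)
    rw [one_mul, inv_one, mul_one] at h8
    exact mul_inv_eq_iff_eq_mul.1 h8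
  · obtain ⟨h2, h3⟩ := not_str h hS (str_nonempty hO hL.loc hov hK hL.K_le) hs
    refine absurd (fun u hu hu1 => ?_) (h3 _ ((omegaOneCenter_le 2 _).trans (J_le 2 S))
      (le_normalizer_omegaOneCenter (le_normalizer_J S)) (fun _ => omega_sq)
      fun h' => hn h2 K hK d (h' (mem_inf.1 hd).1) hd1 (mem_inf.1 hd).2)
    by_cases h4 : ∃ s ∈ S, u ∈ centralizer ((K ^ᶜ s : Subgroup G) : Set G)
    · obtain ⟨s, hs, h4⟩ := h4
      exact hC s hs u (mem_inf.2 ⟨hu, h4⟩) hu1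
    push Not at h4
    have h5 : omegaOneCenter 2 (J 2 S) ⊓ centralizer (nclIn K S : Set G) = ⊥ := by
      by_contra h5
      obtain ⟨v, hv, hv1⟩ := exists_ne_one (inf_omegaOneCenter_ne_bot hS.syl.isPGroup
        (inf_le_left.trans ((omegaOneCenter_le 2 _).trans (J_le 2 S)))
        (PCoreConj.le_normalizer_inf (le_normalizer_omegaOneCenter (le_normalizer_J S))
          (PCoreConj.le_normalizer_centralizer (le_normalizer_nclIn K S))) h5)
      exact hn h2 K hK v (mem_inf.1 hv).2 hv1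
        (centralizer_le (le_nclIn K S) (mem_inf.1 (mem_inf.1 hv).1).2)
    have h6 : u * z = 1 := mem_bot.1 (h5 ▸ mem_inf.2 ⟨mul_mem hu (hZ hz),
      mem_centralizer_iff_le.2 (nclIn_le_iff.2 fun s hs => mem_centralizer_iff_le.1
        (mul_mem_of_relIndex_two (idx_D (hKs s hs)) hu (hZ hz) (h4 s hs)
          (hn h2 _ (hKs s hs) z hz hz1)))⟩)
    rw [mul_eq_one_iff_eq_inv.1 h6, inv_eq_self_of_sq (omega_sq hz), ← centralizer_zpowers,
      zpowers_eq_of_card_two h2 hz hz1]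
    exact (h.cent S hS.syl).trans ((normalizer_le_normalizer_J 2 S).trans hS.norm)

/-- 12.2.4. -/
theorem cases' (h : ZN G) (hO : pCore 2 G = ⊥) (hS : IsSylowIn 2 S ⊤) (hT : T ≠ ⊥) (hTS : T ≤ S)
    (hK : JC (J 2 T) K) (hL : Uq T K L) (hov : Ov T L) :
    (omegaOneCenter 2 S = omegaOneCenter 2 (J 2 T) ∧ Nat.card (omegaOneCenter 2 (J 2 T)) = 2) ∨
    (omegaOneCenter 2 S = omegaOneCenter 2 (J 2 T) ∧ Nat.card (omegaOneCenter 2 (J 2 T)) = 4 ∧
      T = S) ∨
    (omegaOneCenter 2 T = omegaOneCenter 2 (J 2 T) ∧ Nat.card (omegaOneCenter 2 (J 2 T)) = 4 ∧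
      (L ⊓ centralizer (omegaOneCenter 2 (J 2 T) : Set G)).relIndex
        (normalizer (omegaOneCenter 2 (J 2 T) : Set G)) = 2) := by
  rcases cases h hS hT hTS hK hL hov with h1 | h1 | h1 | ⟨rfl, h1, h2⟩
  · exact Or.inl h1
  · exact Or.inr (Or.inl h1)
  · exact Or.inr (Or.inr ⟨h1.1, h1.2.1, h1.2.2.1⟩)
  · obtain ⟨h3, h4⟩ := last_case h hO ⟨hS, h1⟩ hK hL hov h2
    exact Or.inr (Or.inl ⟨h3, h4, rfl⟩)

/-- A `J(T)`-component `K` with its maximal `2`-local subgroup `L`. -/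
structure Good (T K L : Subgroup G) : Prop where
  jc : JC (J 2 T) K
  uq : Uq T K L
  ov : Ov T L
  om : omegaOneCenter 2 T = omegaOneCenter 2 (J 2 T)

theorem exists_good (h : ZN G) (hO : pCore 2 G = ⊥) (hS : Hm M S) (hT : Mx M T) (hK : Out M T K) :
    ∃ L, Good T K L := by
  obtain ⟨L, hL⟩ := exists_uq h hS hT hK.jc hK.nle
  have hov := hL.ov h hS hT hK
  obtain ⟨S', h1, h2⟩ := hS.exists_ge hT.le hT.pg
  refine ⟨L, hK.jc, hL, hov, ?_⟩
  rcases cases' h hO h1.syl hT.str.2.1 h2 hK.jc hL hov with h3 | h3 | h3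
  · exact omega_eq_of_eq hov h2 h3.1
  · exact omega_eq_of_eq hov h2 h3.1
  · exact h3.1

theorem Good.norm (h : ZN G) (hK : Good T K L) : T ≤ normalizer (K : Set G) :=
  le_normalizer_of_omega_eq h hK.jc hK.ov hK.uq.K_le hK.om

theorem Good.loc (h : ZN G) (hK : Good T K L) : Loc (K ⊔ T) T :=
  JAmalg.loc hK.jc hK.ov hK.uq.K_le (hK.norm h)

omit [Finite G] in
theorem Good.le (hK : Good T K L) : K ⊔ T ≤ L := sup_le hK.uq.K_le hK.ov.syl.le

theorem four_cases (hW : Nat.card W = 4) (hsq : ∀ w ∈ W, w ^ 2 = 1) {a b u : G} (ha : a ∈ W)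
    (hb : b ∈ W) (hu : u ∈ W) (ha1 : a ≠ 1) (hb1 : b ≠ 1) (hu1 : u ≠ 1) (hab : b ≠ a) :
    u = a ∨ u = b ∨ u = a * b := by
  have h1 := relIndex_eq_two_of_four hW (Z := zpowers a)
    (by rw [Nat.card_zpowers, orderOf_eq_prime (hsq a ha) ha1]) (zpowers_le.2 ha)
  by_cases h2 : u ∈ zpowers a
  · exact Or.inl ((eq_one_or_eq_of_mem_zpowers (hsq a ha) h2).resolve_left hu1)
  refine Or.inr ((eq_one_or_eq_of_mem_zpowers (hsq a ha) (mul_mem_of_relIndex_two h1 hu hb h2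
    fun h3 => (eq_one_or_eq_of_mem_zpowers (hsq a ha) h3).elim hb1 hab)).imp (fun e => ?_)
    fun e => ?_)
  · rw [mul_eq_one_iff_eq_inv.1 e, inv_eq_self_of_sq (hsq b hb)]
  · rw [← e, mul_assoc, mul_self_of_sq (hsq b hb), mul_one]

theorem exists_conj_W (hK : JC I K) {u z : G} (hz : z ∈ wOf K) (hu : u ∈ wOf K) (hz1 : z ≠ 1)
    (hu1 : u ≠ 1) : ∃ k ∈ K, k * z * k⁻¹ = u := by
  obtain ⟨y, hy, hy3, hy'⟩ := exists_three hK.idx
  have h2 : ∀ y ∈ K, ∀ w ∈ wOf K, y * w * y⁻¹ ∈ wOf K := fun y hy w hw =>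
    (mem_normalizer_iff.1 (le_normalizer_wOf K hy) w).1 hw
  have h3 : ∀ y ∈ K, y ∉ pCoreOf 2 K → ∀ w ∈ wOf K, w ≠ 1 → y * w * y⁻¹ ≠ w :=
    fun y hy hy' w hw hw1 e => hw1 (mem_bot.1 (inf_centralizer_eq_bot hK.idx hK.W_inf
      (pCoreOf_le_centralizer_wOf K) hy hy' ▸ mem_inf.2
        ⟨hw, mem_centralizer_singleton_iff.2 (mul_inv_eq_iff_eq_mul.1 e).symm⟩))
  have h4 : y * z * y⁻¹ ≠ 1 := by simpa using hz1
  have h5 := fun v hv hv1 => four_cases hK.card (fun _ => wOf_sq) (u := v) hz (h2 y hy z hz) hv hz1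
    h4 hv1 (h3 y hy hy' z hz hz1)
  rcases h5 u hu hu1 with e | e | e
  · exact ⟨1, one_mem K, by simp [e]⟩
  · exact ⟨y, hy, e.symm⟩
  · refine ⟨y * y, mul_mem hy hy, ?_⟩
    rcases h5 _ (h2 _ (mul_mem hy hy) z hz) (by rw [Ne, conj_eq_one_iff]; exact hz1) with e' | e' | e'
    · refine absurd e' (h3 _ (mul_mem hy hy) (fun h6 => hy' ?_) z hz hz1)
      rw [show y = y * y * (y * y) * (y ^ 3)⁻¹ by group, ← hy3, pow_orderOf_eq_one, inv_one, mul_one]
      exact mul_mem h6 h6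
    · exact absurd (by rw [← e']; nth_rw 1 [e']; group) (h3 y hy hy' _ (h2 y hy z hz) h4)
    · exact e'.trans e.symm

omit [Finite G] in
theorem Good.conj (hK : Good T K L) {g : G} (hg : g ∈ normalizer (T : Set G)) :
    Good T (K ^ᶜ g) (L ^ᶜ g) := by
  have hg' := normalizer_le_normalizer_J 2 T hg
  refine ⟨hK.jc.conj_of_mem hg', uq_conj hK.uq hg', ⟨?_, ?_, ?_⟩, hK.om⟩
  · have := hK.ov.syl.conj g
    rwa [conj_eq_of_mem_normalizer hg] at this
  · rw [← conj_pCoreOf]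
    exact mt conj_eq_bot_iff.1 hK.ov.ne
  · rw [← conj_pCoreOf, ← conj_centralizer]
    exact conj_mono g hK.ov.char

theorem normalizer_omega_le (h : ZN G) (hS : IsSylowIn 2 S ⊤) :
    normalizer (omegaOneCenter 2 S : Set G) ≤ normalizer (S : Set G) := by
  have h1 := (hS.of_le (le_centralizer_omegaOneCenter 2 S) le_top).eq_pCoreOf (h.cent S hS)
  refine (normalizer_le_normalizer_centralizer _).trans ?_
  nth_rw 2 [h1]
  exact normalizer_le_normalizer_pCoreOf 2 _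

/-- 12.2.5: the amalgam. -/
theorem exists_pair (h : ZN G) (hO : pCore 2 G = ⊥) (hS : Hm M S) (hT : Mx M T) :
    ∃ K₁ L₁ K₂ L₂, Good T K₁ L₁ ∧ Good T K₂ L₂ ∧ ¬ K₂ ≤ L₁ := by
  obtain ⟨K, hK⟩ := exists_out h hS hT
  obtain ⟨L, hL⟩ := exists_good h hO hS hT hK
  refine ⟨K, L, ?_⟩
  by_cases hN : normalizer (T : Set G) ≤ L
  swap
  · obtain ⟨g, hg, hg'⟩ := SetLike.not_le_iff_exists.1 hN
    exact ⟨_, _, hL, hL.conj hg, not_le_conj hL.uq hL.ov hg hg'⟩
  obtain ⟨S', h1, h2⟩ := hS.exists_ge hT.le hT.pg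
  obtain rfl := eq_of_normalizer_le h1.syl.isPGroup h2 hL.ov (inf_le_right.trans hN)
  have h3 : Hm L T := ⟨h1.syl, (normalizer_le_normalizer_omegaOneCenter 2 _).trans
    (hL.om ▸ (normalizer_omega_le h h1.syl).trans hN)⟩
  by_cases hs : T ∈ straddlingTwoSubgroups L
  · have h4 := mx_of_sylow h1.syl hs
    obtain ⟨K', hK'⟩ := exists_out h h3 h4
    obtain ⟨L', hL'⟩ := exists_good h hO h3 h4 hK'
    exact ⟨K', L', hL, hL', hK'.nle⟩
  obtain ⟨h4, h5⟩ := not_str h h3 (str_nonempty hO hL.uq.loc hL.ov hL.jc hL.uq.K_le) hs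
  have hn := hL.norm h
  refine absurd (fun u hu hu1 => ?_) (h5 (wOf K) ((wOf_le_pCoreOf K).trans
    ((pCoreOf_le_of_normal le_sup_left (sup_le le_normalizer hn)).trans (hL.loc h).Q_le))
    (hn.trans (normalizer_le_normalizer_wOf K)) (fun _ => wOf_sq) fun h' => ?_)
  · obtain ⟨z, hz, hz1⟩ := exists_ne_one (U := omegaOneCenter 2 (J 2 T) ⊓ wOf K) fun e => by
      have := hL.jc.card_Z_inf
      rw [e, card_bot] at this
      omega
    obtain ⟨k, hk, rfl⟩ := exists_conj_W hL.jc (mem_inf.1 hz).2 hu hz1 hu1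
    rw [← conj_centralizer_singleton, ← centralizer_zpowers,
      zpowers_eq_of_card_two h4 (hL.om ▸ (mem_inf.1 hz).1) hz1]
    exact conj_le_of_mem ((h.cent T h1.syl).trans hN) (hL.uq.K_le hk)
  · have := card_le_of_le h'
    rw [h4, hL.jc.card] at this
    omega

theorem Good.pair (h : ZN G) (hK : Good T K L) (hK' : Good T K' L') (hn : ¬ K' ≤ L) :
    Pair (K ⊔ T) (K' ⊔ T) T := JAmalg.pair hK.uq hn (hK.loc h) (hK'.loc h)

/-- 12.2.6: the maximal `2`-local subgroup is `KT`. -/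
theorem Good.eq (h : ZN G) (hK : Good T K L) (hp : Pair (K ⊔ T) M T) : L = K ⊔ T := by
  have hl := hp.l1
  have hQ : pCoreOf 2 L = pCoreOf 2 (K ⊔ T) := by
    have h1 : pCoreOf 2 L ≤ pCoreOf 2 (K ⊔ T) :=
      pCoreOf_le_of_le_of_le (hK.ov.syl.pCoreOf_le.trans le_sup_right) hK.le
    exact le_antisymm h1 (hp.Q_le_C.trans ((centralizer_le h1).trans hK.ov.char))
  have hW : ∀ K' ≤ L, JC (J 2 T) K' → wOf K' ≤ pCoreOf 2 (K ⊔ T) := fun K' h1 h2 => by
    rw [h.wOf_eq hK.ov h2 h1, ← hQ]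
    exact (commutator_le_left_of_le_normalizer (h1.trans (le_normalizer_omegaOneCenter
      (le_normalizer_pCoreOf 2 L)))).trans (omegaOneCenter_le 2 _)
  have hU : ∀ K' ≤ L, JC (J 2 T) K' → K' = K := fun K' h1 h2 => by
    rcases h.eq_or hK.ov hK.jc hK.uq.K_le h2 h1 (one_mem L) with e | ⟨e, -⟩
    · rw [e, conj_one]
    rw [conj_one] at e
    have h3 := hW K hK.uq.K_le hK.jc
    have h4 := hW K' h1 h2
    have h5 := card_sup_mul_card_inf (le_normalizer_of_le_centralizer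
      (h3.trans (hp.Q_le_C.trans (centralizer_le h4))))
    have h6 := card_le_of_le (sup_le h3 h4)
    have h7 := card_mul_relIndex (inf_le_left : pCoreOf 2 (K ⊔ T) ⊓
      centralizer ((K ⊔ T : Subgroup G) : Set G) ≤ _)
    have h8 := Nat.le_of_dvd two_pos hp.card_C_dvd
    rw [e, card_bot, hK.jc.card, h2.card] at h5
    rw [hp.idx4] at h7
    omega
  refine le_antisymm (h.le_of hK.ov (fun K' h1 h2 => (hU K' h1 h2).le.trans le_sup_left) ?_) hK.le
  rw [← pResidualOf_sup_of_isSylowIn (hK.ov.syl.of_le (le_inf hK.ov.syl.le (le_normalizer_J T))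
    inf_le_left)]
  refine sup_le (pResidualOf_le_iff.2 fun x hx ho => ?_) le_sup_right
  have ho' := Nat.coprime_two_right.1 ho
  obtain ⟨hx1, hx2⟩ := mem_inf.1 hx
  have hxK : x ∈ normalizer (K : Set G) := mem_normalizer_iff_conj_eq.2
    (hU _ (conj_le_of_mem hK.uq.K_le hx1) (hK.jc.conj_of_mem hx2))
  have hxZ := normalizer_le_normalizer_omegaOneCenter 2 _ hx2
  have hZQ : omegaOneCenter 2 (J 2 T) ≤ pCoreOf 2 (K ⊔ T) := by
    rw [← hK.om, ← hQ]
    exact (hK.ov.omega_le le_rfl).trans (omegaOneCenter_le 2 _)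
  have hC : pCoreOf 2 (K ⊔ T) ⊓ centralizer ((K ⊔ T : Subgroup G) : Set G) =
      omegaOneCenter 2 (J 2 T) ⊓ centralizer (K : Set G) := by
    refine le_antisymm (le_inf (fun y hy => hK.om ▸ mem_omegaOneCenter_iff.2
      ⟨hl.Q_le (mem_inf.1 hy).1, centralizer_le (le_sup_right : T ≤ K ⊔ T) (mem_inf.1 hy).2,
        hp.sq (mem_inf.1 hy).1⟩) (inf_le_right.trans (centralizer_le (le_sup_left : K ≤ K ⊔ T))))
      (le_inf (inf_le_left.trans hZQ) (le_centralizer_iff.1 (sup_le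
        (le_centralizer_iff.1 inf_le_right) (le_centralizer_iff.1 (inf_le_left.trans ?_)))))
    rw [← hK.om]
    exact omegaOneCenter_le_centralizer 2 T
  have h1 : x ∈ centralizer ((omegaOneCenter 2 (J 2 T) ⊓ centralizer (K : Set G) : Subgroup G) :
      Set G) := mem_centralizer_of_relIndex_dvd_two (fun _ hy => omega_sq (mem_inf.1 hy).1)
    (PCoreConj.le_normalizer_inf (zpowers_le.2 hxZ) (PCoreConj.le_normalizer_centralizer
      (zpowers_le.2 hxK)) (mem_zpowers x)) ho' ((relIndex_dvd_card _ _).trans (hC ▸ hp.card_C_dvd))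
  have h2 := mem_centralizer_of_card_two hK.jc.card_Z_inf (PCoreConj.le_normalizer_inf
    (zpowers_le.2 hxZ) (zpowers_le.2 (normalizer_le_normalizer_wOf K hxK)) (mem_zpowers x))
  obtain ⟨w, hw, hw1⟩ := exists_ne_one (U := omegaOneCenter 2 (J 2 T) ⊓ wOf K) fun e => by
    have := hK.jc.card_Z_inf
    rw [e, card_bot] at this
    omega
  have h3 := hp.idx4
  rw [hC] at h3
  have h4 : omegaOneCenter 2 (J 2 T) ⊓ centralizer (K : Set G) ≤
      pCoreOf 2 (K ⊔ T) ⊓ centralizer ({x} : Set G) :=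
    le_inf (inf_le_left.trans hZQ) (mem_centralizer_iff_le.1 h1)
  rw [← relIndex_mul_relIndex _ _ _ h4 inf_le_left, inf_relIndex_left] at h3
  have h5 : (omegaOneCenter 2 (J 2 T) ⊓ centralizer (K : Set G)).relIndex
      (pCoreOf 2 (K ⊔ T) ⊓ centralizer ({x} : Set G)) ≠ 1 := fun e => hw1 (mem_bot.1 (hK.jc.W_inf ▸
    mem_inf.2 ⟨(mem_inf.1 hw).2, (mem_inf.1 (relIndex_eq_one.1 e (mem_inf.2
      ⟨hZQ (mem_inf.1 hw).1, mem_centralizer_iff_le.1 h2 hw⟩))).2⟩))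
  have h6 : x ∈ centralizer (pCoreOf 2 (K ⊔ T) : Set G) := by
    refine mem_centralizer_of_relIndex_dvd_two (fun _ => hp.sq)
      (hQ ▸ le_normalizer_pCoreOf 2 L hx1) ho' ?_
    generalize (centralizer ({x} : Set G)).relIndex (pCoreOf 2 (K ⊔ T)) = a at h3
    have h7 : a ≤ 4 := Nat.le_of_dvd (by norm_num) (Dvd.intro_left _ h3)
    interval_cases a <;> omega
  rw [← hQ] at h6
  exact mem_sup_right (hK.ov.syl.pCoreOf_le (hK.ov.char h6))

end Cfsg.Agent.Lib.JAmalg
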