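import Cfsg.Agent.Lib.FacNil
import Cfsg.Agent.Lib.BurnsidePQ
import Cfsg.Agent.Lib.CoprimeSylow

/-!
The Kegel-Wielandt theorem: a finite product of two nilpotent subgroups is solvable.
-/

set_option autoImplicit false
set_option linter.unusedSectionVars false

namespace Cfsg.Agent.Lib.KegelWielandt

open Subgroup Cfsg Cfsg.Agent.Lib.PCoreConj Cfsg.Agent.Lib.PCore Cfsg.Agent.Lib.PCoreResidual
open Cfsg.Agent.Lib.Factorized Cfsg.Agent.Lib.FacNil
open scoped Pointwise commutatorElement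

universe u

variable {G : Type u} [Group G] [Finite G] {A B H K L M N V X Y : Subgroup G} {p q t : ℕ}

/-- the configuration of a minimal counterexample -/
structure Cfg (A B : Subgroup G) : Prop where
  fac : Fac A B
  nA : Group.IsNilpotent A
  nB : Group.IsNilpotent B
  cop : (Nat.card A).Coprime (Nat.card B)
  twoA : ∀ p : ℕ, ∃ r : ℕ, r.Prime ∧ r ≠ p ∧ r ∣ Nat.card A
  twoB : ∀ p : ℕ, ∃ r : ℕ, r.Prime ∧ r ≠ p ∧ r ∣ Nat.card B
  ih : ∀ L X Y : Subgroup G, L ≠ ⊤ → FacIn X Y L → X ≤ L → Y ≤ L → Group.IsNilpotent X →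
    Group.IsNilpotent Y → Group.IsSolvable L
  simple : ∀ N : Subgroup G, N.Normal → N = ⊥ ∨ N = ⊤

namespace Cfg

theorem symm (h : Cfg A B) : Cfg B A :=
  ⟨h.fac.symm, h.nB, h.nA, h.cop.symm, h.twoB, h.twoA, h.ih, h.simple⟩

theorem conj (h : Cfg A B) (g : G) : Cfg A (B ^ᶜ g) :=
  ⟨h.fac.conj_right g, h.nA, nil_conj h.nB g, by rw [card_conj]; exact h.cop, h.twoA,
    by rw [card_conj]; exact h.twoB, h.ih, h.simple⟩

theorem not_dvd (h : Cfg A B) (hp : p.Prime) (h1 : p ∣ Nat.card A) : ¬ p ∣ Nat.card B := fun h2 =>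
  hp.one_lt.ne' (Nat.eq_one_of_dvd_coprimes h.cop h1 h2)

theorem sylow [hp : Fact p.Prime] (h : Cfg A B) (h1 : ¬ p ∣ Nat.card B) : IsSylowIn p (pCoreOf p A) ⊤ :=
  (isSylowIn_pCoreOf h.nA p).trans_of_not_dvd le_top fun h2 => h1 (by
    rw [relIndex_top_right] at h2; exact h2.trans h.fac.index_dvd)

theorem inf_eq_bot (h : Cfg A B) : A ⊓ B = ⊥ := disjoint_iff.mp (disjoint_of_coprime_natCard h.cop)

theorem normalizer_ne [hp : Fact p.Prime] (h : Cfg A B) (hV : IsPGroup p V) (h1 : V ≠ ⊥) :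
    normalizer (V : Set G) ≠ ⊤ := fun e => by
  obtain rfl := (h.simple V (normalizer_eq_top_iff.mp e)).resolve_left h1
  obtain ⟨r, hr, hrp, hd⟩ := h.twoA p
  exact hrp (SolvBasic.eq_of_prime_dvd_card_of_isPGroup (hV.to_le (le_top (a := A))) hr hd)

theorem solv (h : Cfg A B) (hL : L ≠ ⊤) (hf : FacIn (A ⊓ L) (B ⊓ L) L) : Group.IsSolvable L :=
  h.ih L _ _ hL hf inf_le_right inf_le_right (SystemNormalizer.isNilpotent_of_le h.nA inf_le_left)
    (SystemNormalizer.isNilpotent_of_le h.nB inf_le_left)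

theorem eq_top_of_le (h : Cfg A B) (hX : X ≠ ⊥) (h1 : A ≤ normalizer (X : Set G)) (h2 : X ≤ M) (h3 : B ≤ M) :
    M = ⊤ := by
  have h4 : nclIn X ⊤ ≤ M := nclIn_le_iff.mpr fun g _ => by
    obtain ⟨b, hb, a, ha, rfl⟩ := h.fac.symm g
    rw [← conj_conj, conj_eq_of_mem_normalizer (h1 ha)]
    exact conj_le_of_mem h2 (h3 hb)
  rcases h.simple (nclIn X ⊤) (normal_iff_top_le.mpr (le_normalizer_nclIn X ⊤)) with e | e
  · exact absurd (le_bot_iff.mp (e ▸ le_nclIn X ⊤)) hX
  · exact top_le_iff.mp (e ▸ h4)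

theorem normalizer_sup_ne (h : Cfg A B) (hY : Y ≠ ⊥) (h1 : X ⊔ Y ≠ ⊤) :
    normalizer ((X ⊔ Y : Subgroup G) : Set G) ≠ ⊤ := fun e => by
  rcases h.simple _ (normalizer_eq_top_iff.mp e) with e | e
  · exact hY (le_bot_iff.mp (e ▸ le_sup_right))
  · exact h1 e

theorem sup_eq_top [hp : Fact p.Prime] [hq : Fact q.Prime] (h : Cfg A B) (h1 : p ∣ Nat.card A)
    (h2 : q ∣ Nat.card B) : pCoreOf p A ⊔ pCoreOf q B = ⊤ := by
  by_contra hne
  have hf := h.fac.normalizer_sup (le_normalizer_pCoreOf p A) (le_normalizer_pCoreOf q B)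
  set L := normalizer ((pCoreOf p A ⊔ pCoreOf q B : Subgroup G) : Set G)
  have := h.solv (h.normalizer_sup_ne (pCoreOf_ne_bot h.nB h2) hne) hf
  have l1 : pCoreOf p A ≤ L := le_sup_left.trans le_normalizer
  have l2 : pCoreOf q B ≤ L := le_sup_right.trans le_normalizer
  have c : ∀ (r : ℕ) [Fact r.Prime] (P : Subgroup G), IsSylowIn r P ⊤ → P ≤ L →
      (Nat.card (P.subgroupOf L)).Coprime (P.subgroupOf L).index := fun r _ P hP hl => by
    rw [SolvBasic.card_subgroupOf hl]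
    exact coprime_card_of_isPGroup hP.isPGroup (hP.of_le hl le_top).coprime_relIndex
  have h3 := (hf.subgroupOf'.perm_of_hall (le_normalizer_subgroupOf (le_normalizer_pCoreOf p A) L)
    (le_normalizer_subgroupOf (le_normalizer_pCoreOf q B) L) (c p _ (h.sylow (h.not_dvd hp.out h1)) l1)
    (c q _ (h.symm.sylow (h.symm.not_dvd hq.out h2)) l2)).map L.subtype
  rw [Subgroup.map_sup, subgroupOf_map_subtype_of_le l1, subgroupOf_map_subtype_of_le l2] at h3
  have h4 : ∀ g : G, Perm (pCoreOf p A) (TransferAlperin.conjSub g (pCoreOf q B)) := fun g => by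
    obtain ⟨a, ha, b, hb, rfl⟩ := h.fac g
    have h5 := Perm.conj h3 a
    rw [show TransferAlperin.conjSub a (pCoreOf p A) = pCoreOf p A from
      conj_eq_of_mem_normalizer (le_normalizer_pCoreOf p A ha)] at h5
    rwa [TransferAlperin.conjSub_mul, show TransferAlperin.conjSub b (pCoreOf q B) = pCoreOf q B from
      conj_eq_of_mem_normalizer (le_normalizer_pCoreOf q B hb)]
  have c2 : ∀ P : Subgroup G, P ≠ ⊥ → normalClosure (P : Set G) = ⊤ := fun P hP =>
    (h.simple _ inferInstance).resolve_left fun e => hP (le_bot_iff.mp (e ▸ le_normalClosure))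
  rcases kegel h4 (fun h5 => hne h5.sup_eq_top) with e | e
  · exact e (c2 _ (pCoreOf_ne_bot h.nA h1))
  · exact e (c2 _ (pCoreOf_ne_bot h.nB h2))

theorem star [hp : Fact p.Prime] [hq : Fact q.Prime] (h : Cfg A B) (h1 : p ∣ Nat.card A)
    (h2 : ¬ q ∣ Nat.card A) (hV : IsPGroup q V) (h3 : pCoreOf p A ≤ normalizer (V : Set G)) : V = ⊥ := by
  by_contra hne
  obtain ⟨g, -, hg⟩ := (h.symm.sylow h2).exists_le_conj le_top hV
  rw [conj_pCoreOf] at hg
  obtain ⟨t, ht, htq, hd⟩ := (h.conj g).twoB q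
  have : Fact t.Prime := ⟨ht⟩
  refine h.normalizer_ne hV hne (top_le_iff.mp ?_)
  rw [← (h.conj g).sup_eq_top h1 hd]
  exact sup_le h3 (le_normalizer_of_le_centralizer (le_centralizer_of_nil (h.conj g).nB htq (pCoreOf_le _ _)
    (pCoreOf_isPGroup _ _) (hg.trans (pCoreOf_le _ _)) hV))

/-- the cores of a factorized subgroup containing a Sylow subgroup of `B` lie in `B` -/
theorem pCoreOf_le_B [ht : Fact t.Prime] (h : Cfg A B) (hf : FacIn (A ⊓ L) (B ⊓ L) L) (h1 : t ∣ Nat.card B)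
    (h2 : pCoreOf t B ≤ L) (u : ℕ) [Fact u.Prime] : pCoreOf u L ≤ B := by
  by_cases hu : u ∣ Nat.card A
  · exact (h.symm.star h1 (h.not_dvd Fact.out hu) (pCoreOf_isPGroup u L)
      (h2.trans (le_normalizer_pCoreOf u L))).le.trans bot_le
  · exact (le_of_not_dvd hf inf_le_right inf_le_right (fun h3 => hu (h3.trans (card_dvd_of_le inf_le_left)))
      (pCoreOf_le u L) (le_normalizer_pCoreOf u L) (pCoreOf_isPGroup u L)).trans inf_le_left

theorem sup_eq_top' [ht : Fact t.Prime] (h : Cfg A B) (hX : X ≠ ⊥) (h1 : A ≤ normalizer (X : Set G))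
    (h2 : t ∣ Nat.card B) : X ⊔ pCoreOf t B = ⊤ := by
  by_contra hne
  have hf := h.fac.normalizer_sup h1 (le_normalizer_pCoreOf t B)
  set L := normalizer ((X ⊔ pCoreOf t B : Subgroup G) : Set G)
  have hs := h.solv (h.normalizer_sup_ne (pCoreOf_ne_bot h.nB h2) hne) hf
  have l1 : X ≤ L := le_sup_left.trans le_normalizer
  have l2 : pCoreOf t B ≤ L := le_sup_right.trans le_normalizer
  have c : ∀ (u : ℕ) [Fact u.Prime], u ≠ t → pCoreOf u B ≤ centralizer (pCoreOf t L : Set G) ∧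
      pCoreOf t B ≤ centralizer (pCoreOf u L : Set G) := fun u _ hu =>
    ⟨le_centralizer_of_nil h.nB hu (pCoreOf_le _ _) (pCoreOf_isPGroup _ _) (h.pCoreOf_le_B hf h2 l2 t)
      (pCoreOf_isPGroup _ _), le_centralizer_of_nil h.nB hu.symm (pCoreOf_le _ _) (pCoreOf_isPGroup _ _)
      (h.pCoreOf_le_B hf h2 l2 u) (pCoreOf_isPGroup _ _)⟩
  have h3 : pCoreOf t L ≠ ⊥ := fun e => pCoreOf_ne_bot h.nB h2 (le_bot_iff.mp (e ▸
    le_pCoreOf_of_centralizes hs l2 (pCoreOf_isPGroup t B) fun u _ => by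
      by_cases hu : u = t
      · rw [hu, e, centralizer_bot']; exact le_top
      · exact (c u hu).2))
  refine h.normalizer_ne (pCoreOf_isPGroup t L) h3 (h.eq_top_of_le hX h1 (l1.trans (le_normalizer_pCoreOf t L))
    (le_of_forall_pCoreOf h.nB fun u _ _ => ?_))
  by_cases hu : u = t
  · exact hu ▸ l2.trans (le_normalizer_pCoreOf t L)
  · exact le_normalizer_of_le_centralizer (c u hu).1

theorem centralizer_ne [hp : Fact p.Prime] (h : Cfg A B) {y : G} (hy : orderOf y = p) :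
    centralizer ({y} : Set G) ≠ ⊤ := fun e =>
  h.normalizer_ne (isPGroup_zpowers_of_orderOf (hy.trans (pow_one p).symm))
    (fun e2 => hp.out.one_lt.ne' (hy.symm.trans (orderOf_eq_one_iff.mpr (zpowers_eq_bot.mp e2))))
    (top_le_iff.mp (le_normalizer_of_le_centralizer (by rw [zpowers_eq_closure, centralizer_closure, e])))

theorem le_centralizer_elt [hp : Fact p.Prime] [hq : Fact q.Prime] (h : Cfg A B) {y : G} (hy : orderOf y = p)
    (hA : y ∈ A) (hqp : q ≠ p) : pCoreOf q A ≤ centralizer ({y} : Set G) :=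
  (le_centralizer_of_nil h.nA hqp (pCoreOf_le _ _) (pCoreOf_isPGroup _ _) (zpowers_le.mpr hA)
    (isPGroup_zpowers_of_orderOf (hy.trans (pow_one p).symm))).trans
    (centralizer_le (Set.singleton_subset_iff.mpr (mem_zpowers y)))

theorem le_normalizer_B [hq : Fact q.Prime] [ht : Fact t.Prime] (h : Cfg A B) (hL : L ≠ ⊤)
    (hf : FacIn (A ⊓ L) (B ⊓ L) L) (h1 : t ∣ Nat.card B) (h2 : q ∣ Nat.card B) (hqt : t ≠ q)
    (h3 : pCoreOf t B ≤ L) (h4 : pCoreOf q B ⊓ centralizer (pCoreOf q B : Set G) ≤ L) :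
    L ≤ normalizer (pCoreOf t B : Set G) := by
  set Z := pCoreOf q B ⊓ centralizer (pCoreOf q B : Set G)
  have hZ : IsPGroup q Z := (pCoreOf_isPGroup q B).to_le inf_le_left
  have h5 : Z ≤ pCoreOf q L := le_pCoreOf_of_centralizes (h.solv hL hf) h4 hZ fun u _ => by
    by_cases hu : u = q
    · subst hu
      exact inf_le_right.trans (centralizer_anti (le_pCoreOf_of_nil h.nB (h.pCoreOf_le_B hf h1 h3 u)
        (pCoreOf_isPGroup _ _)))
    · exact le_centralizer_of_nil h.nB (Ne.symm hu) (inf_le_left.trans (pCoreOf_le _ _)) hZ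
        (h.pCoreOf_le_B hf h1 h3 u) (pCoreOf_isPGroup _ _)
  set U := L ⊓ centralizer (pCoreOf q L : Set G)
  have hU : L ≤ normalizer (U : Set G) :=
    le_normalizer_inf le_normalizer (le_normalizer_centralizer (le_normalizer_pCoreOf q L))
  have h6 : A ⊓ L ⊓ U = ⊥ := by
    by_contra hne
    obtain ⟨r, hr, hd⟩ := Nat.exists_prime_and_dvd (mt card_eq_one.mp hne)
    have : Fact r.Prime := ⟨hr⟩
    obtain ⟨y, hy, ho⟩ := exists_mem_orderOf_eq hd
    obtain ⟨s, hs, hsr, hd2⟩ := h.twoA r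
    have : Fact s.Prime := ⟨hs⟩
    refine h.centralizer_ne ho (top_le_iff.mp ?_)
    rw [← h.symm.sup_eq_top' (center_ne_bot (pCoreOf_isPGroup q B) (pCoreOf_ne_bot h.nB h2))
      (le_normalizer_inf (le_normalizer_pCoreOf q B) (le_normalizer_centralizer (le_normalizer_pCoreOf q B))) hd2]
    exact sup_le (fun z hz => mem_centralizer_singleton_iff.mpr (hy.2.2 z (h5 hz)))
      (h.le_centralizer_elt ho hy.1.1 hsr)
  have h7 : U ≤ B := (le_of_inf_eq_bot hf inf_le_right inf_le_right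
    (coprime_card_of_le inf_le_left (coprime_card_of_le inf_le_left h.cop.symm).symm) inf_le_left hU h6).trans
    inf_le_left
  rw [← pCoreOf_eq_of_le h.nB (le_inf h3 (le_centralizer_of_nil h.nB hqt (pCoreOf_le _ _) (pCoreOf_isPGroup _ _)
    (h.pCoreOf_le_B hf h1 h3 q) (pCoreOf_isPGroup _ _))) h7]
  exact le_normalizer_pCoreOf_of hU

theorem normalizer_le [hq : Fact q.Prime] (h : Cfg A B) (h1 : q ∣ Nat.card B) :
    normalizer (pCoreOf q B : Set G) ≤ normalizer (B : Set G) := by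
  refine le_normalizer_of_forall_pCoreOf h.nB fun t _ ht => ?_
  by_cases e : t = q
  · exact e ▸ le_rfl
  have l := le_normalizer_pCoreOf q B
  exact h.le_normalizer_B (h.normalizer_ne (pCoreOf_isPGroup q B) (pCoreOf_ne_bot h.nB h1))
    (((h.fac.symm.inf_right l).mono (le_inf le_rfl l) le_rfl le_rfl).symm) ht h1 e ((pCoreOf_le t B).trans l)
    (inf_le_left.trans le_normalizer)

theorem centralizer_le_normalizer [hq : Fact q.Prime] (h : Cfg A B) {y : G} (hy : orderOf y = q) (h1 : y ∈ B)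
    (h2 : y ∈ normalizer (A : Set G)) : centralizer ({y} : Set G) ≤ normalizer (B : Set G) := by
  obtain ⟨t, ht, htq, hd⟩ := h.twoB q
  have : Fact t.Prime := ⟨ht⟩
  refine (h.le_normalizer_B (h.centralizer_ne hy) (fun g hg => ?_) hd (hy ▸ orderOf_dvd_natCard B h1) htq
    (h.symm.le_centralizer_elt hy h1 htq) (inf_le_right.trans (centralizer_le (Set.singleton_subset_iff.mpr
      (le_pCoreOf_of_nil h.nB (zpowers_le.mpr h1) (isPGroup_zpowers_of_orderOf (hy.trans (pow_one q).symm))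
        (mem_zpowers y)))))).trans (h.normalizer_le hd)
  obtain ⟨a, ha, b, hb, rfl⟩ := h.fac g
  have e := mem_centralizer_singleton_iff.mp hg
  have e1 : a⁻¹ * (y * a * y⁻¹) = b * y * b⁻¹ * y⁻¹ := by
    rw [show a⁻¹ * (y * a * y⁻¹) = a⁻¹ * (y * (a * b)) * b⁻¹ * y⁻¹ by group, ← e]; group
  have h3 : b * y * b⁻¹ * y⁻¹ ∈ A ⊓ B :=
    ⟨e1 ▸ A.mul_mem (inv_mem ha) ((mem_normalizer_iff.mp h2 a).mp ha),
      B.mul_mem (B.mul_mem (B.mul_mem hb h1) (inv_mem hb)) (inv_mem h1)⟩
  rw [h.inf_eq_bot, mem_bot] at h3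
  have h4 : b ∈ centralizer ({y} : Set G) := mem_centralizer_singleton_iff.mpr (by
    rw [mul_inv_eq_one, mul_inv_eq_iff_eq_mul] at h3; exact h3)
  exact ⟨a, ⟨ha, ((centralizer _).mul_mem_cancel_right h4).mp hg⟩, b, ⟨hb, h4⟩, rfl⟩

theorem mem_normalizer_of_le [hq : Fact q.Prime] (h : Cfg A B) (h1 : q ∣ Nat.card A) {w : G}
    (h2 : pCoreOf q A ≤ normalizer ((A ^ᶜ w : Subgroup G) : Set G)) : w ∈ normalizer (A : Set G) := by
  have h3 := (h.sylow (h.not_dvd hq.out h1)).conj_top w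
  refine h.symm.normalizer_le h1 (mem_normalizer_iff_conj_eq.mpr ((h.sylow (h.not_dvd hq.out h1)).eq_of_le le_top
    h3.isPGroup (h3.le_of_le_normalizer le_top (pCoreOf_isPGroup _ _) ?_)))
  rw [conj_pCoreOf]
  exact le_normalizer_pCoreOf_of h2

theorem false_of_lt (h : Cfg A B) (hlt : Nat.card B < Nat.card A) : False := by
  obtain ⟨D, ⟨hD0, p, hp, hD, w, hw, h1, h2⟩, hmax⟩ := (Set.toFinite {D : Subgroup G | D ≠ ⊥ ∧
      ∃ p : ℕ, p.Prime ∧ IsPGroup p D ∧ ∃ w ∉ normalizer (A : Set G), D ≤ A ∧ D ≤ A ^ᶜ w}).exists_maximal (by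
    obtain ⟨r, hr, -, hd⟩ := h.twoA 0
    obtain ⟨s, hs, -, hd'⟩ := h.twoB 0
    obtain ⟨w, hw⟩ : ∃ w, w ∉ normalizer (A : Set G) := by
      by_contra hc
      push Not at hc
      rcases h.simple A (normalizer_eq_top_iff.mp ((eq_top_iff' _).mpr hc)) with e | e
      · rw [e, card_bot] at hd; exact hr.one_lt.ne' (Nat.dvd_one.mp hd)
      · exact h.not_dvd hs (hd'.trans (card_dvd_of_le (e ▸ le_top))) hd'
    have h3 : A ⊓ A ^ᶜ w ≠ ⊥ := fun e => by
      have h4 := card_inf_mul_relIndex A (A ^ᶜ w)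
      rw [e, card_bot, one_mul, card_conj] at h4
      have h5 : A.relIndex (A ^ᶜ w) ≤ A.relIndex ⊤ :=
        relIndex_le_of_le_right le_top (by rw [relIndex_top_right]; exact index_ne_zero_of_finite)
      rw [relIndex_top_right, h4] at h5
      exact absurd (h5.trans (Nat.le_of_dvd Nat.card_pos h.fac.index_dvd)) hlt.not_ge
    obtain ⟨p, hp, hpd⟩ := Nat.exists_prime_and_dvd (mt card_eq_one.mp h3)
    have : Fact p.Prime := ⟨hp⟩
    obtain ⟨T, hT⟩ := exists_isSylowIn p (A ⊓ A ^ᶜ w)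
    exact ⟨T, hT.ne_bot hpd, p, hp, hT.isPGroup, w, hw, hT.le.trans inf_le_left, hT.le.trans inf_le_right⟩)
  have : Fact p.Prime := ⟨hp⟩
  have hpA : p ∣ Nat.card A := (dvd_card_of_isPGroup_of_ne_bot hD hD0).trans (card_dvd_of_le h1)
  obtain ⟨r, hr, hrp, hrA⟩ := h.twoA p
  have : Fact r.Prime := ⟨hr⟩
  have hw' : Cfg B (A ^ᶜ w) := h.symm.conj w
  have hcn : centralizer (D : Set G) ⊓ normalizer (A : Set G) ≤ A := by
    refine CoprimeSylow.le_of_forall_sylow_le fun t _ ht => ?_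
    obtain ⟨T⟩ : Nonempty (Sylow t (centralizer (D : Set G) ⊓ normalizer (A : Set G) : Subgroup G)) :=
      inferInstance
    have hT := isSylowIn_map_subtype T
    by_cases htA : t ∣ Nat.card A
    · exact ⟨T, ((h.sylow (h.not_dvd Fact.out htA)).le_of_le_normalizer le_top hT.isPGroup
        (le_normalizer_pCoreOf_of (hT.le.trans inf_le_right))).trans (pCoreOf_le _ _)⟩
    exfalso
    obtain ⟨y, hy, ho⟩ := exists_mem_orderOf_eq ht
    obtain ⟨g, -, hg⟩ := (h.symm.sylow htA).exists_le_conj le_top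
      (isPGroup_zpowers_of_orderOf (ho.trans (pow_one t).symm))
    have h3 := (h.conj g).centralizer_le_normalizer ho (conj_mono g (pCoreOf_le _ _) (hg (mem_zpowers y))) hy.2
    obtain ⟨d, hd, hod⟩ := exists_mem_orderOf_eq (dvd_card_of_isPGroup_of_ne_bot hD hD0)
    have h4 := ((h.conj g).symm.conj w).centralizer_le_normalizer hod (h2 hd)
      (h3 (mem_centralizer_singleton_iff.mpr (hy.1 d hd)))
    exact hw (h.mem_normalizer_of_le hrA ((h.le_centralizer_elt hod (h1 hd) hrp).trans h4))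
  have hlt' : D < pCoreOf p A := (le_pCoreOf_of_nil h.nA h1 hD).lt_of_ne fun e =>
    hw (h.mem_normalizer_of_le hpA (e ▸ h2.trans le_normalizer))
  have hP := lt_inf_normalizer (pCoreOf_isPGroup p A) hlt'
  set P := pCoreOf p A ⊓ normalizer (D : Set G)
  have hPA : P ≤ A := inf_le_left.trans (pCoreOf_le _ _)
  set L := P ⊔ centralizer (D : Set G)
  have hLA : L ⊓ normalizer (A : Set G) ≤ L ⊓ A := le_inf inf_le_left (by
    rw [sup_inf_of_le_normalizer (le_normalizer_centralizer inf_le_right) (hPA.trans le_normalizer)]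
    exact sup_le hPA hcn)
  have hH : Group.IsNilpotent (L ⊓ A : Subgroup G) := SystemNormalizer.isNilpotent_of_le h.nA inf_le_right
  have c1 : ∀ (u : ℕ) [Fact u.Prime], u ≠ p → pCoreOf u A ≤ L ⊓ A := fun u _ hu =>
    le_inf ((le_centralizer_of_nil h.nA hu (pCoreOf_le _ _) (pCoreOf_isPGroup _ _) h1 hD).trans le_sup_right)
      (pCoreOf_le _ _)
  have c2 : ∀ u : ℕ, u.Prime → u ∣ Nat.card A → u ∣ Nat.card (L ⊓ A : Subgroup G) := fun u hu hd => by
    have : Fact u.Prime := ⟨hu⟩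
    by_cases e : u = p
    · exact e ▸ (dvd_card_of_isPGroup_of_ne_bot hD hD0).trans
        (card_dvd_of_le (le_inf (hP.le.trans le_sup_left) h1))
    · exact (dvd_card_of_isPGroup_of_ne_bot (pCoreOf_isPGroup _ _) (pCoreOf_ne_bot h.nA hd)).trans
        (card_dvd_of_le (c1 u e))
  obtain ⟨K, k1, k2, k3⟩ := wielandt_in hH inf_le_left (fun s => by
    obtain ⟨v, hv, hvs, hd⟩ := h.twoA s
    exact ⟨v, hv, hvs, c2 v hv hd⟩) fun u _ hu => by
      refine (inf_le_inf_left L ?_).trans hLA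
      by_cases e : u = p
      · subst e
        intro g hg
        by_contra hg'
        have h3 : P ≤ pCoreOf u (L ⊓ A) := le_pCoreOf_of_nil hH (le_inf le_sup_left hPA)
          ((pCoreOf_isPGroup u A).to_le inf_le_left)
        have h4 : pCoreOf u (L ⊓ A) ≤ A := (pCoreOf_le _ _).trans inf_le_right
        exact (hP.trans_le h3).not_ge (hmax ⟨fun e => hD0 (le_bot_iff.mp (e ▸ hP.le.trans h3)), u, hp,
          pCoreOf_isPGroup _ _, g, hg', h4, conj_eq_of_mem_normalizer hg ▸ conj_mono g h4⟩ (hP.le.trans h3))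
      · rw [pCoreOf_eq_of_le h.nA (c1 u e) inf_le_right]
        exact h.symm.normalizer_le (hu.trans (card_dvd_of_le inf_le_right))
  have k4 : K ≠ ⊥ := fun e => by
    rw [e, bot_sup_eq] at k3
    have h3 : pCoreOf r (A ^ᶜ w) ≤ A := ((le_centralizer_of_nil hw'.nB hrp (pCoreOf_le _ _) (pCoreOf_isPGroup _ _)
      h2 hD).trans le_sup_right).trans (k3.ge.trans inf_le_right)
    refine hw (h.symm.normalizer_le hrA (mem_normalizer_of_conj_le ?_))
    rw [conj_pCoreOf]
    exact le_pCoreOf_of_nil h.nA h3 (pCoreOf_isPGroup _ _)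
  obtain ⟨u, hu, hud⟩ := Nat.exists_prime_and_dvd (mt card_eq_one.mp k4)
  have : Fact u.Prime := ⟨hu⟩
  have := (pCoreOf_isPGroup r A).isNilpotent
  obtain ⟨T, hT⟩ := CoprimeSylow.exists_invariant_sylow u ((c1 r hrp).trans (inf_le_left.trans k1))
    (coprime_card_of_le (c1 r hrp) k2.symm) (Or.inl inferInstance)
  exact (isSylowIn_map_subtype T).ne_bot hud (h.star hrA (fun h3 => hu.one_lt.ne'
    (Nat.eq_one_of_dvd_coprimes k2 hud (c2 u hu h3))) (isSylowIn_map_subtype T).isPGroup hT)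

theorem elim (h : Cfg A B) : False := by
  rcases lt_trichotomy (Nat.card B) (Nat.card A) with e | e | e
  · exact h.false_of_lt e
  · obtain ⟨r, hr, -, hd⟩ := h.twoA 0
    exact h.not_dvd hr hd (e ▸ hd)
  · exact h.symm.false_of_lt e

end Cfg

theorem isSolvable_aux (G : Type u) [Group G] [Finite G] : ∀ A B : Subgroup G, Group.IsNilpotent A →
    Group.IsNilpotent B → Fac A B → Group.IsSolvable G := by
  refine SolvBasic.card_induction (P := fun G _ _ => ∀ A B : Subgroup G, Group.IsNilpotent A →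
    Group.IsNilpotent B → Fac A B → Group.IsSolvable G) ?_ G
  intro G _ _ ih A B hA hB h
  by_contra hns
  have ih1 : ∀ L X Y : Subgroup G, L ≠ ⊤ → FacIn X Y L → X ≤ L → Y ≤ L → Group.IsNilpotent X →
      Group.IsNilpotent Y → Group.IsSolvable L := fun L X Y hL hf h1 _ hX hY =>
    ih L (SolvBasic.card_lt_of_ne_top hL) _ _ (nil_subgroupOf hX L) (nil_subgroupOf hY L) (hf.subgroupOf h1)
  have ih2 : ∀ (N : Subgroup G) [N.Normal], N ≠ ⊥ → Group.IsSolvable (G ⧸ N) := fun N _ hN =>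
    ih _ (SolvBasic.card_quotient_lt hN) _ _ (SystemNormalizer.isNilpotent_map hA _)
      (SystemNormalizer.isNilpotent_map hB _) (h.map (QuotientGroup.mk'_surjective N))
  have a : ∀ (N : Subgroup G) [N.Normal], Group.IsSolvable N → N = ⊥ := fun N _ hN => by
    by_contra hne
    exact hns (BurnsidePQ.isSolvable_of_normal N hN (ih2 N hne))
  have b : ∀ (N : Subgroup G) [N.Normal], N ≠ ⊥ → (A ⊔ N) ⊓ (B ⊔ N) = ⊤ := fun N _ hN => by
    by_contra hne
    have := ih1 _ _ _ hne (facIn_factorizer h N) inf_le_right inf_le_right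
      (SystemNormalizer.isNilpotent_of_le hA inf_le_left) (SystemNormalizer.isNilpotent_of_le hB inf_le_left)
    exact hN (a N (Group.isSolvable_of_isSolvable_injective (inclusion_injective
      (le_inf le_sup_right le_sup_right : N ≤ (A ⊔ N) ⊓ (B ⊔ N)))))
  have c : (Nat.card A).Coprime (Nat.card B) := Nat.coprime_of_dvd fun p hp d1 d2 => by
    have : Fact p.Prime := ⟨hp⟩
    obtain ⟨A₁, h1, -, -, h2, h3⟩ := exists_normalized_ge (B := pCoreOf p B) (fun X => IsPGroup p X)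
      (fun X Y hX _ hp' ⟨g, hg⟩ => by
        obtain ⟨k, hk⟩ := hp'.exists_card_eq
        obtain ⟨l, hl⟩ := (isPGroup_conj (pCoreOf_isPGroup p B) g).exists_card_eq
        have h4 := FacIn.card_dvd (hX g) le_sup_left le_sup_right
        rw [hk, hl, ← pow_add] at h4
        obtain ⟨m, -, hm⟩ := (Nat.dvd_prime_pow hp).mp h4
        exact (IsPGroup.of_card hm).to_le hg) (A := pCoreOf p A) (fun g => by
        obtain ⟨R, -, r1, r2, r3⟩ := exists_sylow_nil (p := p) (h.conj_right g) hA (nil_conj hB g)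
        rw [← conj_pCoreOf] at r2 r3
        exact r3.perm r1 r2) (pCoreOf_isPGroup p A)
    set N := normalClosure (pCoreOf p B : Set G)
    have hN : N ≠ ⊥ := fun e => pCoreOf_ne_bot hB d2 (le_bot_iff.mp (e ▸ le_normalClosure))
    have := (pCore_isPGroup p G).isNilpotent
    have h4 : A₁ ⊓ N = ⊥ := le_bot_iff.mp (((inf_le_pCoreOf h3 h2).trans (pCoreOf_le_pCore N)).trans
      (a (pCore p G) inferInstance).le)
    have h5 : A₁ ≤ centralizer (N : Set G) := commutator_eq_bot_iff_le_centralizer.mp (le_bot_iff.mp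
      (h4 ▸ le_inf (commutator_le_left_of_le_normalizer h3) (commutator_le_right A₁ N)))
    have h6 : centralizer (N : Set G) ⊓ N = ⊥ := a _ (CoprimeSylow.solvable_of_isMulCommutative
      (isMulCommutative_iff_forall.mpr fun x hx y hy => hy.1 x hx.2))
    have := ih2 N hN
    refine pCoreOf_ne_bot hA d1 (le_bot_iff.mp ((h1.trans h5).trans (a _ (Group.isSolvable_of_isSolvable_injective
      (f := (QuotientGroup.mk' N).comp (centralizer (N : Set G)).subtype) ?_)).le))
    rw [← MonoidHom.ker_eq_bot_iff, eq_bot_iff]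
    intro x hx
    have : (x : G) ∈ centralizer (N : Set G) ⊓ N := ⟨x.2, (QuotientGroup.eq_one_iff _).mp hx⟩
    rw [h6, mem_bot] at this
    exact mem_bot.mpr (Subtype.ext this)
  have two : ∀ A B : Subgroup G, Group.IsNilpotent B → Fac A B → ∀ p : ℕ,
      ∃ r : ℕ, r.Prime ∧ r ≠ p ∧ r ∣ Nat.card A := fun A B hB h p => by
    by_contra hc
    push Not at hc
    by_cases e : Nat.card A = 1
    · exact hns (BurnsidePQ.isSolvable_of_nilpotent_index G Nat.prime_two B 0 (by rw [pow_zero, ← e]; exact h.symm.index_dvd))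
    obtain ⟨r, hr, hd⟩ := Nat.exists_prime_and_dvd e
    obtain rfl : r = p := by by_contra h; exact hc r hr h hd
    have : Fact r.Prime := ⟨hr⟩
    obtain ⟨k, hk⟩ := (SolvBasic.isPGroup_of_forall_prime (G := A) (p := r) fun q hq hqd => by
      by_contra h; exact hc q hq h hqd).exists_card_eq
    exact hns (BurnsidePQ.isSolvable_of_nilpotent_index G hr B k (hk ▸ h.symm.index_dvd))
  refine Cfg.elim ⟨h, hA, hB, c, two A B hB h, two B A hA h.symm, ih1, fun N hN => ?_⟩
  refine or_iff_not_imp_left.mpr fun hne => index_eq_one.mp (Nat.eq_one_of_dvd_coprimes c ?_ ?_)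
  · rw [← relIndex_top_right, ← top_le_iff.mp ((b N hne).ge.trans inf_le_left), relIndex_sup_right]
    exact relIndex_dvd_card N A
  · rw [← relIndex_top_right, ← top_le_iff.mp ((b N hne).ge.trans inf_le_right), relIndex_sup_right]
    exact relIndex_dvd_card N B

/-- the Kegel-Wielandt theorem -/
theorem isSolvable (hA : Group.IsNilpotent A) (hB : Group.IsNilpotent B) (h : Fac A B) :
    Group.IsSolvable G := isSolvable_aux G A B hA hB h

end Cfsg.Agent.Lib.KegelWielandt
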