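import Mathlib
import Cfsg.Agent.Lib.FormStab
import Cfsg.Agent.Lib.FormSymp

/-!
Stabilisers of subspaces in the general linear group.
-/

set_option autoImplicit false

namespace Cfsg.Agent.Lib.LinStab

open Module Cfsg.Agent.Lib.FormWitt Cfsg.Agent.Lib.FormPerp Cfsg.Agent.Lib.FormBasis
  Cfsg.Agent.Lib.FormMatrix Cfsg.Agent.Lib.FormStab Cfsg.Agent.Lib.FormSymp

variable {F V : Type*} [Field F] [AddCommGroup V] [Module F V]

/-- A dilatransvection fixing `H` pointwise and sending `a` to `b`. -/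
theorem exists_dil_map (H : Submodule F V) {a b : V} (ha : a ∉ H) (hb : b ∉ H) :
    ∃ (t : V ≃ₗ[F] V) (φ : V →ₗ[F] F), (∀ x, t x = x + φ x • (b - a)) ∧ (∀ x ∈ H, t x = x) ∧
      t a = b := by
  obtain ⟨φ, h1, h2, h3⟩ := exists_functional₂ H a b ha hb
  have hu : IsUnit (1 + φ (b - a)) := by simpa [h2] using h3
  refine ⟨LinearEquiv.dilatransvection hu, φ, fun x => LinearEquiv.dilatransvection.apply,
    fun x hx => ?_, ?_⟩
  · rw [LinearEquiv.dilatransvection.apply, h1 x hx]; simp
  · rw [LinearEquiv.dilatransvection.apply, h2]; simp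

/-- A subgroup containing all dilatransvections is everything. -/
theorem eq_top_of_dil [FiniteDimensional F V] (H : Subgroup (V ≃ₗ[F] V))
    (hH : ∀ (t : V ≃ₗ[F] V) (φ : V →ₗ[F] F) (v : V), (∀ x, t x = x + φ x • v) → t ∈ H) : H = ⊤ := by
  have := eq_top_of_step ⊤ (H.subgroupOf ⊤) (fun g hg => by
    obtain ⟨x, hx⟩ : ∃ x, g.1 x ≠ x := by
      by_contra hcon
      push Not at hcon
      exact hg (Subtype.ext (LinearEquiv.ext hcon))
    obtain ⟨t, φ, h1, h2, h3⟩ := exists_dil_map (fix g.1) (a := x) (b := g.1 x) hx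
      (fun h => hx (g.1.injective h))
    exact ⟨⟨t, trivial⟩, hH t φ _ h1, x, hx, h3, h2⟩)
  exact top_le_iff.mp (Subgroup.subgroupOf_eq_top.mp this)

theorem exists_equiv_of_linearIndependent {ι : Type*} [Finite ι] {a b : ι → V}
    (ha : LinearIndependent F a) (hb : LinearIndependent F b) :
    ∃ g : V ≃ₗ[F] V, ∀ i, g (a i) = b i := by
  have : FiniteDimensional F (Submodule.span F (Set.range a)) :=
    FiniteDimensional.span_of_finite F (Set.finite_range _)
  obtain ⟨g, hg⟩ := Submodule.exists_linearEquiv_restrict_eq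
    ((Basis.span ha).equiv (Basis.span hb) (Equiv.refl ι))
  refine ⟨g, fun i => ?_⟩
  have := hg (Basis.span ha i)
  rw [Basis.equiv_apply, Basis.span_apply, Basis.span_apply] at this
  exact this.symm

theorem exists_mem_stab_map {W : Submodule F V} {a b : V} (ha : a ∉ W) (hb : b ∉ W) :
    ∃ g ∈ stab W, g a = b := by
  obtain ⟨t, φ, -, h2, h3⟩ := exists_dil_map W ha hb
  refine ⟨t, mem_stab_iff_map.mpr ?_, h3⟩
  ext v
  exact ⟨by rintro ⟨w, hw, rfl⟩; rw [LinearEquiv.coe_coe, h2 w hw]; exact hw,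
    fun hv => ⟨v, hv, h2 v hv⟩⟩

theorem le_of_stab_le {U W : Submodule F V} (h : stab U ≤ stab W) (hW : W ≠ ⊤) : W ≤ U := by
  by_contra hcon
  obtain ⟨a, haW, haU⟩ := SetLike.not_le_iff_exists.mp hcon
  have key : ∀ b, b ∉ U → b ∈ W := fun b hb => by
    obtain ⟨g, hg, rfl⟩ := exists_mem_stab_map haU hb
    exact (h hg a).mp haW
  apply hW
  rw [eq_top_iff]
  intro v _
  by_cases hv : v ∈ U
  · simpa using W.sub_mem (key (v + a) fun h0 => haU (by simpa using U.sub_mem h0 hv)) haW
  · exact key v hv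

theorem conj_mem_stab_map {W : Submodule F V} (g h : V ≃ₗ[F] V) :
    g * h * g⁻¹ ∈ stab (W.map g.toLinearMap) ↔ h ∈ stab W := by
  simp only [mem_stab, Submodule.mem_map_equiv]
  constructor
  · intro H v
    simpa using H (g v)
  · intro H v
    simpa using H (g.symm v)

theorem isCoatom_stab [FiniteDimensional F V] {W : Submodule F V} (h0 : W ≠ ⊥) (h1 : W ≠ ⊤) :
    IsCoatom (stab W) := by
  obtain ⟨w, hwW, hw0⟩ := Submodule.exists_mem_ne_zero_of_ne_bot h0
  obtain ⟨a, haW⟩ : ∃ a, a ∉ W := by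
    by_contra hcon
    push Not at hcon
    exact h1 (eq_top_iff.mpr fun v _ => hcon v)
  constructor
  · intro htop
    obtain ⟨g, -, -, -, hg⟩ := exists_dil_map (⊥ : Submodule F V) (a := w) (b := a) hw0
      (by rintro rfl; exact haW W.zero_mem)
    have : g ∈ stab W := by rw [htop]; trivial
    exact haW (hg ▸ (this w).mp hwW)
  · intro H hH
    obtain ⟨g, hgH, hg⟩ := SetLike.exists_of_lt hH
    obtain ⟨b, hbW, hb⟩ : ∃ b ∈ W, g b ∉ W := by
      by_contra hcon
      push Not at hcon
      exact hg (mem_stab_of_le hcon)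
    have key : ∀ (k t : V ≃ₗ[F] V) (φ : V →ₗ[F] F) (v : V), k ∈ H → v ∈ W →
        (∀ x, t x = x + φ x • k v) → t ∈ H := fun k t φ v hk hv ht => by
      have h2 : k⁻¹ * t * k ∈ stab W := mem_stab_of_le fun x hx => by
        show k.symm (t (k x)) ∈ W
        rw [ht]
        simpa using W.add_mem hx (W.smul_mem _ hv)
      simpa [mul_assoc] using mul_mem (mul_mem hk (hH.le h2)) (inv_mem hk)
    refine eq_top_of_dil H fun t φ v ht => ?_
    by_cases hv : v ∈ W
    · exact key 1 t φ v (one_mem H) hv ht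
    · obtain ⟨p, hp, rfl⟩ := exists_mem_stab_map hb hv
      exact key (p * g) t φ b (mul_mem (hH.le hp) hgH) hbW ht

theorem card_linearEquiv [Fintype F] [FiniteDimensional F V] {n : ℕ} (hn : finrank F V = n) :
    Nat.card (V ≃ₗ[F] V) = ∏ i : Fin n, (Fintype.card F ^ n - Fintype.card F ^ (i : ℕ)) := by
  obtain ⟨e, hli, hspan⟩ := exists_family (⊤ : Submodule F V) (k := n) (by simpa using hn)
  have := card_eq_orbit_mul ⊤ ⊥ e {b : Fin n → V | LinearIndependent F b ∧ ∀ i, b i ∈ (⊤ : Submodule F V)}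
    (fun g => ⟨by rintro rfl; simp, fun hg => LinearEquiv.ext fun x =>
      LinearMap.eqOn_span (f := g.toLinearMap) (g := LinearMap.id) (s := Set.range e)
        (by rintro _ ⟨i, rfl⟩; exact hg.2 i) (by rw [hspan]; trivial)⟩)
    (fun b => ⟨fun hb => by
      obtain ⟨g, hg⟩ := exists_equiv_of_linearIndependent hli hb.1
      exact ⟨g, trivial, hg⟩, by
      rintro ⟨g, -, hb⟩
      obtain rfl : b = g ∘ e := funext fun i => (hb i).symm
      exact ⟨hli.map' g.toLinearMap g.ker, fun i => trivial⟩⟩)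
  rw [card_independent ⊤ (by simp [hn]), Subgroup.card_top, finrank_top, hn] at this
  simpa using this

/-- The order of the stabiliser of a subspace. -/
theorem card_stab [Fintype F] [FiniteDimensional F V] {n k : ℕ} (hn : finrank F V = n)
    {W : Submodule F V} (hk : finrank F W = k) :
    Nat.card (stab W) = Fintype.card F ^ (k * (n - k)) *
      (∏ i : Fin k, (Fintype.card F ^ k - Fintype.card F ^ (i : ℕ))) *
      ∏ i : Fin (n - k), (Fintype.card F ^ (n - k) - Fintype.card F ^ (i : ℕ)) := by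
  obtain ⟨e, hli, hspan⟩ := exists_family W hk
  have hmem : ∀ i, e i ∈ W := fun i => hspan ▸ Submodule.subset_span ⟨i, rfl⟩
  have hkn : k ≤ n := hk ▸ hn ▸ Submodule.finrank_le W
  have hst : ∀ g : V ≃ₗ[F] V, (∀ i, g (e i) ∈ W) → g ∈ stab W := fun g hg =>
    mem_stab_of_le fun v hv => by
      rw [← hspan] at hv
      have : (Submodule.span F (Set.range e)).map g.toLinearMap ≤ W := by
        rw [Submodule.map_span_le]
        rintro _ ⟨i, rfl⟩
        exact hg i
      exact this ⟨v, hv, rfl⟩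
  let K := MulAction.stabilizer (V ≃ₗ[F] V) e
  have hK : ∀ g, g ∈ K ↔ ∀ i, g (e i) = e i := fun g => by
    rw [MulAction.mem_stabilizer_iff, funext_iff]; rfl
  have h1 := card_eq_orbit_mul ⊤ K e
    {b : Fin k → V | LinearIndependent F b ∧ ∀ i, b i ∈ (⊤ : Submodule F V)}
    (fun g => by simp [hK])
    (fun b => ⟨fun hb => by
      obtain ⟨g, hg⟩ := exists_equiv_of_linearIndependent hli hb.1
      exact ⟨g, trivial, hg⟩, by
      rintro ⟨g, -, hb⟩
      obtain rfl : b = g ∘ e := funext fun i => (hb i).symm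
      exact ⟨hli.map' g.toLinearMap g.ker, fun i => trivial⟩⟩)
  have h2 := card_eq_orbit_mul (stab W) K e {b : Fin k → V | LinearIndependent F b ∧ ∀ i, b i ∈ W}
    (fun g => by
      rw [hK]
      exact ⟨fun hg => ⟨hst g fun i => by rw [hg]; exact hmem i, hg⟩, fun hg => hg.2⟩)
    (fun b => ⟨fun hb => by
      obtain ⟨g, hg⟩ := exists_equiv_of_linearIndependent hli hb.1
      exact ⟨g, hst g fun i => by rw [hg]; exact hb.2 i, hg⟩, by
      rintro ⟨g, hg, hb⟩
      obtain rfl : b = g ∘ e := funext fun i => (hb i).symm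
      exact ⟨hli.map' g.toLinearMap g.ker, fun i => (hg _).mp (hmem i)⟩⟩)
  rw [card_independent ⊤ (by simp [hn, hkn]), Subgroup.card_top, finrank_top, hn,
    card_linearEquiv hn] at h1
  rw [h2, card_independent W hk.ge, hk]
  set q := Fintype.card F
  have hq : 1 < q := Fintype.one_lt_card
  have h3 : Nat.card K = q ^ (k * (n - k)) * ∏ i : Fin (n - k), (q ^ (n - k) - q ^ (i : ℕ)) := by
    obtain ⟨r, rfl⟩ : ∃ r, n = k + r := ⟨n - k, by omega⟩
    rw [Fin.prod_univ_add] at h1
    simp only [Fin.val_castAdd, Fin.val_natAdd] at h1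
    have h4 := Nat.eq_of_mul_eq_mul_left (Finset.prod_pos fun i _ =>
      Nat.sub_pos_of_lt (Nat.pow_lt_pow_right hq (by omega))) h1
    rw [← h4, Nat.add_sub_cancel_left]
    simp only [pow_add, ← mul_tsub, Finset.prod_mul_distrib]
    simp [pow_mul]
  rw [h3]; ring

/-- The coordinate subspace spanned by the first `k` basis vectors. -/
def coord (F : Type*) [Field F] (n k : ℕ) : Submodule F (Fin n → F) where
  carrier := {v : Fin n → F | ∀ i : Fin n, k ≤ (i : ℕ) → v i = 0}
  add_mem' ha hb i hi := by simp [ha i hi, hb i hi]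
  zero_mem' _ _ := rfl
  smul_mem' c v hv i hi := by simp [hv i hi]

theorem mem_coord {n k : ℕ} {v : Fin n → F} :
    v ∈ coord F n k ↔ ∀ i : Fin n, k ≤ (i : ℕ) → v i = 0 := Iff.rfl

theorem finrank_coord {n k : ℕ} (hk : k ≤ n) : finrank F (coord F n k) = k := by
  have e : coord F n k ≃ₗ[F] (Fin k → F) :=
    { toFun := fun v i => v.1 (Fin.castLE hk i)
      invFun := fun w => ⟨fun i => if h : (i : ℕ) < k then w ⟨i, h⟩ else 0,
        fun i hi => dif_neg (by omega)⟩
      map_add' := fun _ _ => rfl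
      map_smul' := fun _ _ => rfl
      left_inv := fun v => by
        ext i
        by_cases h : (i : ℕ) < k
        · simp [h]
        · simp [h, v.2 i (by omega)]
      right_inv := fun w => by ext i; simp }
  rw [e.finrank_eq]; simp

theorem mem_stabilizing_iff {ι : Type} [Fintype ι] [DecidableEq ι] (W : Submodule F (ι → F))
    (g : Matrix.GeneralLinearGroup ι F) :
    g ∈ Cfsg.stabilizing (Cfsg.glToMat ι F) (W : Set (ι → F)) ↔ glEquiv ι F g ∈ stab W := Iff.rfl

theorem mem_stab_coord {n k : ℕ} (g : Matrix.GeneralLinearGroup (Fin n) F) :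
    glEquiv (Fin n) F g ∈ stab (coord F n k) ↔
      ∀ i j : Fin n, k ≤ (i : ℕ) → (j : ℕ) < k → g.1 i j = 0 := by
  constructor
  · intro h i j hi hj
    have := (h (Pi.single j 1)).mp (fun l hl => Pi.single_eq_of_ne (by rintro rfl; omega) _) i hi
    simpa [glEquiv_apply] using this
  · intro h
    refine mem_stab_of_le fun v hv i hi => ?_
    rw [glEquiv_apply, Matrix.mulVec, dotProduct]
    refine Finset.sum_eq_zero fun j _ => ?_
    by_cases hj : (j : ℕ) < k
    · rw [h i j hi hj, zero_mul]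
    · rw [hv j (by omega), mul_zero]

end Cfsg.Agent.Lib.LinStab
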