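import Cfsg.Agent.Lib.PermModel
import Cfsg.Agent.Lib.GF4

/-! Kernel computations with matrices over a small finite ring: products, relations, straight line
programs and stabiliser chains on vectors.  A vector is coded by its digits in base `b`. -/

set_option autoImplicit false

namespace Cfsg.Agent.Lib.MatChk

open Cfsg.Agent.Lib.PermNet Cfsg.Agent.Lib.Words Matrix

/-- Arithmetic on codes. -/
structure Ar where
  /-- the base -/
  b : ℕ
  /-- the dimension -/
  n : ℕ
  /-- addition -/
  ad : ℕ → ℕ → ℕ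
  /-- multiplication -/
  mu : ℕ → ℕ → ℕ

/-- A matrix is a list of rows. -/
abbrev Mat := List (List ℕ)

section comp

variable (a : Ar)

/-- The product of a row and a vector. -/
noncomputable def dot (r : List ℕ) : ℕ → ℕ :=
  List.rec (motive := fun _ => ℕ → ℕ) (fun _ => nat_lit 0)
    (fun x _ ih v => a.ad (a.mu x (Nat.mod v a.b)) (force (Nat.div v a.b) ih)) r

/-- The product of a matrix and a vector. -/
noncomputable def mv (M : Mat) (v : ℕ) : ℕ :=
  List.rec (motive := fun _ => ℕ) (nat_lit 0) (fun r _ ih => Nat.add (dot a r v) (Nat.mul a.b ih)) M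

/-- The matrix with a given number. -/
noncomputable def gm (ms : List Mat) : ℕ → Mat :=
  List.rec (motive := fun _ => ℕ → Mat) (fun _ => [])
    (fun M _ ih i => Nat.rec (motive := fun _ => Mat) M (fun j _ => ih j) i) ms

/-- Apply the reverse of a word to a vector. -/
noncomputable def apR (ms : List Mat) (w : List ℕ) : ℕ → ℕ :=
  List.rec (motive := fun _ => ℕ → ℕ) (fun v => v)
    (fun l _ ih v => force (mv a (gm ms l) v) ih) w

/-- The products along `u` and `v` agree up to the scalar `s`. -/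
noncomputable def eqB (ms : List Mat) (u v : List ℕ) (s : ℕ) : Bool :=
  Nat.rec (motive := fun _ => Bool) true
    (fun j ih => band (Nat.beq (apR a ms u.reverse (Nat.pow a.b j))
      (apR a ms v.reverse (Nat.mul s (Nat.pow a.b j)))) ih) a.n

/-- All rows are short enough. -/
def wf (ms : List Mat) : Bool := ms.all fun M => M.all fun r => Nat.ble r.length a.n

/-- A straight line program: the step `(k, u, v)` says `u * k = v`. -/
noncomputable def slp (ms : List Mat) (st : List (ℕ × List ℕ × List ℕ)) : List ℕ → Bool :=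
  List.rec (motive := fun _ => List ℕ → Bool) (fun _ => true)
    (fun s _ ih kn => band ((s.2.1 ++ s.2.2).all kn.contains)
      (band (eqB a ms (s.2.1 ++ [s.1]) s.2.2 1) (ih (s.1 :: kn)))) st

/-- The word has no inverse letters, and its letters are known. -/
def evenB (kn w : List ℕ) : Bool := w.all fun l => Nat.beq (l % 2) 0 && kn.contains (l / 2)

/-- The products along the words are scalars from the list `xs`. -/
noncomputable def relsB (ms : List Mat) (kn : List ℕ) (K : List (List ℕ)) (xs : List ℕ) : Bool :=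
  K.all fun w => evenB kn w && xs.any fun x => Nat.blt x a.b && eqB a ms (w.map (· / 2)) [] x

/-- A search tree of vectors, each with a rank and a letter. -/
inductive T where
  | lf : T
  | nd (l : T) (x r g : ℕ) (t : T) : T

/-- The rank of a vector of the tree, and `d` for the other vectors. -/
noncomputable def T.find (t : T) (d y : ℕ) : ℕ :=
  T.rec (motive := fun _ => ℕ) d (fun _ x r _ _ il ir =>
    @Bool.rec (fun _ => ℕ) (@Bool.rec (fun _ => ℕ) ir il (Nat.ble y x)) r (Nat.beq y x)) t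

/-- The vectors increase and lie in `[lo, hi)`. -/
noncomputable def T.srt (t : T) : ℕ → ℕ → Bool :=
  T.rec (motive := fun _ => ℕ → ℕ → Bool) (fun lo hi => Nat.ble lo hi)
    (fun _ x _ _ _ il ir lo hi => band (il lo x) (ir (Nat.succ x) hi)) t

/-- The number of nodes. -/
noncomputable def T.size (t : T) : ℕ :=
  T.rec (motive := fun _ => ℕ) (nat_lit 0) (fun _ _ _ _ _ il ir => Nat.succ (Nat.add il ir)) t

/-- Every vector but `b` is moved by its letter to a vector of smaller rank. -/
noncomputable def T.ok (ms : List Mat) (S : List ℕ) (t₀ : T) (b : ℕ) (t : T) : Bool :=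
  T.rec (motive := fun _ => Bool) true (fun _ x r g _ il ir =>
    band (@Bool.rec (fun _ => Bool) (band (S.contains g) (forceB (mv a (gm ms g) x)
      fun y => Nat.ble (Nat.succ (t₀.find r y)) r)) true (Nat.beq x b)) (band il ir)) t

/-- One level of a stabiliser chain. -/
noncomputable def level (ms : List Mat) (S bs : List ℕ) (b : ℕ) (t : T) (n : ℕ) : Bool :=
  band (S.all fun g => bs.all fun x => Nat.beq (mv a (gm ms g) x) x)
    (band (t.srt (nat_lit 0) (Nat.pow a.b a.n)) (band (Nat.ble n t.size) (T.ok a ms S t b t)))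

end comp

theorem gm_eq (ms : List Mat) (i : ℕ) : gm ms i = ms.getD i [] := by
  induction ms generalizing i with
  | nil => rfl
  | cons M ms ih =>
    cases i with
    | zero => rfl
    | succ i => exact ih i

/-- The meaning of the codes. -/
structure Sem (a : Ar) (R : Type*) [CommRing R] (ι : Type*) where
  /-- the ring element with a given code -/
  c : ℕ → R
  /-- the numbering of the coordinates -/
  e : ι ≃ Fin a.n
  one_lt : 1 < a.b
  c_zero : c 0 = 0
  c_one : c 1 = 1
  c_inj : ∀ x < a.b, ∀ y < a.b, c x = c y → x = y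
  ad_lt : ∀ x < a.b, ∀ y < a.b, a.ad x y < a.b
  mu_lt : ∀ x, ∀ y < a.b, a.mu x y < a.b
  c_ad : ∀ x < a.b, ∀ y < a.b, c (a.ad x y) = c x + c y
  c_mu : ∀ x, ∀ y < a.b, c (a.mu x y) = c x * c y

namespace Sem

variable {a : Ar} {R : Type*} [CommRing R] {ι : Type*} (s : Sem a R ι)

/-- The vector with a given code. -/
def vec (v : ℕ) : ι → R := fun i => s.c (v / a.b ^ (s.e i : ℕ) % a.b)

/-- The matrix with a given code. -/
def mat (M : Mat) : Matrix ι ι R := Matrix.of fun i j => s.c ((M.getD (s.e i) []).getD (s.e j) 0)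

include s in
theorem pos : 0 < a.b := lt_trans one_pos s.one_lt

include s in
theorem dot_lt (r : List ℕ) (v : ℕ) : dot a r v < a.b := by
  induction r generalizing v with
  | nil => exact s.pos
  | cons x r ih => exact s.ad_lt _ (s.mu_lt _ _ (Nat.mod_lt _ s.pos)) _ (ih _)

theorem c_dot (r : List ℕ) (v n : ℕ) (h : r.length ≤ n) :
    s.c (dot a r v) = ∑ k ∈ Finset.range n, s.c (r.getD k 0) * s.c (v / a.b ^ k % a.b) := by
  induction r generalizing v n with
  | nil => simp [s.c_zero, show dot a [] v = 0 from rfl]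
  | cons x r ih =>
    obtain ⟨n, rfl⟩ : ∃ m, n = m + 1 := ⟨n - 1, by simp at h; omega⟩
    have : dot a (x :: r) v = a.ad (a.mu x (v % a.b)) (dot a r (v / a.b)) := rfl
    rw [this, s.c_ad _ (s.mu_lt _ _ (Nat.mod_lt _ s.pos)) _ (s.dot_lt _ _),
      s.c_mu _ _ (Nat.mod_lt _ s.pos), ih _ n (by simpa using h), Finset.sum_range_succ', add_comm]
    simp [pow_succ', Nat.div_div_eq_div_mul]

include s in
theorem digit_mv (M : Mat) (v k : ℕ) : mv a M v / a.b ^ k % a.b = dot a (M.getD k []) v := by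
  induction M generalizing k with
  | nil => simp [show mv a [] v = 0 from rfl, show dot a [] v = 0 from rfl]
  | cons r M ih =>
    have : mv a (r :: M) v = dot a r v + a.b * mv a M v := rfl
    rw [this]
    cases k with
    | zero => simp [Nat.mod_eq_of_lt (s.dot_lt r v)]
    | succ k =>
      rw [pow_succ', ← Nat.div_div_eq_div_mul, Nat.add_mul_div_left _ _ s.pos,
        Nat.div_eq_of_lt (s.dot_lt r v), zero_add, ih]
      rfl

theorem vec_inj {x y : ℕ} (hx : x < a.b ^ a.n) (hy : y < a.b ^ a.n) (h : s.vec x = s.vec y) :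
    x = y := by
  have key : ∀ n x y, x < a.b ^ n → y < a.b ^ n →
      (∀ k < n, x / a.b ^ k % a.b = y / a.b ^ k % a.b) → x = y := by
    intro n
    induction n with
    | zero => intro x y hx hy _; simp at hx hy; omega
    | succ n ih =>
      intro x y hx hy h
      have h0 := h 0 (by omega)
      have h1 := ih (x / a.b) (y / a.b) (Nat.div_lt_of_lt_mul (by rwa [← pow_succ']))
        (Nat.div_lt_of_lt_mul (by rwa [← pow_succ'])) fun k hk => by
          simpa [pow_succ', Nat.div_div_eq_div_mul] using h (k + 1) (by omega)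
      simp only [pow_zero, Nat.div_one] at h0
      rw [← Nat.div_add_mod x a.b, ← Nat.div_add_mod y a.b, h0, h1]
  refine key _ x y hx hy fun k hk => s.c_inj _ (Nat.mod_lt _ s.pos) _ (Nat.mod_lt _ s.pos) ?_
  simpa [vec] using congrFun h (s.e.symm ⟨k, hk⟩)

variable [Fintype ι] [DecidableEq ι]

theorem vec_pow {x : ℕ} (hx : x < a.b) (j : ι) :
    s.vec (x * a.b ^ (s.e j : ℕ)) = Pi.single j (s.c x) := by
  ext i
  rw [vec, Pi.single_apply]
  rcases lt_trichotomy (s.e i : ℕ) (s.e j) with h | h | h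
  · rw [if_neg (by rintro rfl; omega), ← s.c_zero]
    obtain ⟨d, hd⟩ := Nat.exists_eq_add_of_lt h
    rw [hd, add_assoc, pow_add, mul_left_comm, Nat.mul_div_cancel_left _ (pow_pos s.pos _), pow_succ,
      ← mul_assoc, Nat.mul_mod_left]
  · rw [if_pos (s.e.injective (Fin.ext h)), h, Nat.mul_div_cancel _ (pow_pos s.pos _),
      Nat.mod_eq_of_lt hx]
  · rw [if_neg (by rintro rfl; omega), ← s.c_zero, Nat.div_eq_of_lt, Nat.zero_mod]
    calc x * a.b ^ (s.e j : ℕ) < a.b * a.b ^ (s.e j : ℕ) := Nat.mul_lt_mul_of_pos_right hx (pow_pos s.pos _)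
      _ ≤ _ := by rw [← pow_succ']; exact Nat.pow_le_pow_right s.pos h

omit [DecidableEq ι] in
theorem ncard_le (hc : Nat.card R = a.b) (S : Set (ι → R)) (p : ℕ → Bool)
    (h : ∀ v, s.vec v ∈ S → p v = true) : S.ncard ≤ ((List.range (a.b ^ a.n)).filter p).length := by
  have : Finite R := Nat.finite_of_card_ne_zero (hc ▸ s.pos.ne')
  have h1 : Function.Bijective fun v : Fin (a.b ^ a.n) => s.vec v :=
    (Nat.bijective_iff_injective_and_card _).2 ⟨fun x y e => Fin.ext (s.vec_inj x.2 y.2 e), by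
      rw [Nat.card_fun, hc, Nat.card_congr s.e]; simp⟩
  refine le_trans ?_ (List.toFinset_card_le _)
  rw [← Set.ncard_coe_finset]
  refine le_trans (Set.ncard_le_ncard (fun w hw => ?_)) (Set.ncard_image_le (f := s.vec))
  obtain ⟨v, rfl⟩ := h1.2 w
  exact ⟨v, by simpa using h v hw, rfl⟩

variable {ms : List Mat} (hw : wf a ms = true)
include hw

omit [DecidableEq ι] in
theorem vec_mv (l v : ℕ) : s.vec (mv a (gm ms l) v) = s.mat (gm ms l) *ᵥ s.vec v := by
  ext i
  have hl : ((gm ms l).getD (s.e i) []).length ≤ a.n := by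
    simp only [wf, List.all_eq_true, Nat.ble_eq] at hw
    rw [gm_eq]
    rcases lt_or_ge l ms.length with h | h
    · rw [List.getD_eq_getElem _ _ h]
      rcases lt_or_ge (s.e i : ℕ) ms[l].length with h' | h'
      · rw [List.getD_eq_getElem _ _ h']
        exact hw _ (List.getElem_mem h) _ (List.getElem_mem h')
      · rw [List.getD_eq_default _ _ h']; exact Nat.zero_le _
    · rw [List.getD_eq_default _ _ h]; exact Nat.zero_le _
  rw [vec, s.digit_mv, s.c_dot _ _ _ hl, Finset.sum_range, ← s.e.sum_comp]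
  rfl

omit hw in
/-- The product along a word. -/
noncomputable def wm (ms : List Mat) (w : List ℕ) : Matrix ι ι R := (w.map fun l => s.mat (gm ms l)).prod

theorem vec_apR (w : List ℕ) (v : ℕ) : s.vec (apR a ms w v) = s.wm ms w.reverse *ᵥ s.vec v := by
  induction w generalizing v with
  | nil => simp [wm, show apR a ms [] v = v from rfl]
  | cons l w ih =>
    have : apR a ms (l :: w) v = apR a ms w (mv a (gm ms l) v) := rfl
    rw [this, ih, s.vec_mv hw, mulVec_mulVec]
    simp [wm]

theorem wm_eq {u v : List ℕ} {x : ℕ} (hx : x < a.b) (h : eqB a ms u v x = true) :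
    s.wm ms u = s.c x • s.wm ms v := by
  have key : ∀ n, Nat.rec (motive := fun _ => Bool) true
      (fun j ih => band (Nat.beq (apR a ms u.reverse (Nat.pow a.b j))
        (apR a ms v.reverse (Nat.mul x (Nat.pow a.b j)))) ih) n = true → ∀ j < n,
      apR a ms u.reverse (a.b ^ j) = apR a ms v.reverse (x * a.b ^ j) := by
    intro n
    induction n with
    | zero => intro _ j hj; omega
    | succ n ih =>
      intro h j hj
      obtain ⟨h1, h2⟩ := band_eq h
      rcases Nat.lt_succ_iff_lt_or_eq.1 hj with hj | rfl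
      · exact ih h2 j hj
      · exact Nat.eq_of_beq_eq_true h1
  ext i j
  have := congrFun (congrArg s.vec (key _ h _ (s.e j).2)) i
  rw [s.vec_apR hw, s.vec_apR hw, s.vec_pow hx, ← one_mul (a.b ^ _), s.vec_pow s.one_lt] at this
  simpa [s.c_one, mul_comm] using this

theorem wm_eq_one {u v : List ℕ} (h : eqB a ms u v 1 = true) : s.wm ms u = s.wm ms v := by
  rw [s.wm_eq hw s.one_lt h, s.c_one, one_smul]

variable {X : Type*} [Group X] (ρ : X →* Matrix ι ι R)

omit hw in
theorem map_prod {F : ℕ → X} {k : ℕ} (h : ∀ l < k, ρ (F l) = s.mat (gm ms l)) {w : List ℕ}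
    (hk : w.all (fun l => decide (l < k)) = true) : ρ (w.map F).prod = s.wm ms w := by
  rw [map_list_prod, List.map_map, wm]
  congr 1
  exact List.map_congr_left fun l hl => h l (by simpa using List.all_eq_true.1 hk l hl)

omit hw in
/-- The letter `l` is the matrix of an element of `A`. -/
def Rep (ms : List Mat) (A : Subgroup X) (l : ℕ) : Prop := ∃ x ∈ A, ρ x = s.mat (gm ms l)

omit hw in
theorem exists_wm {A : Subgroup X} {w : List ℕ} (h : ∀ l ∈ w, s.Rep ρ ms A l) :
    ∃ x ∈ A, ρ x = s.wm ms w := by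
  induction w with
  | nil => exact ⟨1, A.one_mem, by simp [wm]⟩
  | cons l w ih =>
    obtain ⟨x, hx, e⟩ := h l List.mem_cons_self
    obtain ⟨y, hy, e'⟩ := ih fun k hk => h k (List.mem_cons_of_mem _ hk)
    exact ⟨x * y, A.mul_mem hx hy, by rw [map_mul, e, e']; simp [wm]⟩

theorem rep_of_slp {A : Subgroup X} (st : List (ℕ × List ℕ × List ℕ)) {kn : List ℕ}
    (hk : ∀ l ∈ kn, s.Rep ρ ms A l) (h : slp a ms st kn = true) :
    ∀ l ∈ (st.map Prod.fst).reverse ++ kn, s.Rep ρ ms A l := by
  induction st generalizing kn with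
  | nil => simpa using hk
  | cons t st ih =>
    obtain ⟨h1, h2⟩ := band_eq h
    obtain ⟨h2, h3⟩ := band_eq h2
    simp only [List.all_eq_true, List.contains_iff_mem, List.mem_append] at h1
    obtain ⟨x, hx, e⟩ := s.exists_wm ρ (w := t.2.1) fun l hl => hk l (h1 l (Or.inl hl))
    obtain ⟨y, hy, e'⟩ := s.exists_wm ρ (w := t.2.2) fun l hl => hk l (h1 l (Or.inr hl))
    have h4 : ρ x * s.mat (gm ms t.1) = ρ y := by
      rw [e', ← s.wm_eq_one hw h2, e]; simp [wm]
    have := ih (kn := t.1 :: kn) (List.forall_mem_cons.2 ⟨⟨x⁻¹ * y, A.mul_mem (A.inv_mem hx) hy, by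
      rw [map_mul, ← h4, ← mul_assoc, ← map_mul, inv_mul_cancel, map_one, one_mul]⟩, hk⟩) h3
    simpa using this

omit hw in
theorem Rep.sub {A : Subgroup X} {kn S : List ℕ} (hk : ∀ l ∈ kn, s.Rep ρ ms A l)
    (h : S.all kn.contains = true) : ∀ l ∈ S, s.Rep ρ ms A l := by
  simp only [List.all_eq_true, List.contains_iff_mem] at h
  exact fun l hl => hk l (h l hl)

omit hw in
theorem rho_wval {f : ℕ → X} {kn : List ℕ} (hf : ∀ l ∈ kn, ρ (f l) = s.mat (gm ms l)) {w : List ℕ}
    (h : evenB kn w = true) : ρ (wval f w) = s.wm ms (w.map (· / 2)) := by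
  rw [wval, map_list_prod, List.map_map, wm, List.map_map]
  congr 1
  refine List.map_congr_left fun l hl => ?_
  have := List.all_eq_true.1 h l hl
  simp only [Bool.and_eq_true, Nat.beq_eq, List.contains_iff_mem] at this
  simp [lval, this.1, hf _ this.2]

theorem rels_scalar {f : ℕ → X} {kn : List ℕ} (hf : ∀ l ∈ kn, ρ (f l) = s.mat (gm ms l))
    {K : List (List ℕ)} {xs : List ℕ} (h : relsB a ms kn K xs = true) :
    ∀ w ∈ K, ∃ x ∈ xs, ρ (wval f w) = s.c x • 1 := by
  intro w hK
  have := List.all_eq_true.1 h w hK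
  simp only [Bool.and_eq_true, List.any_eq_true, Nat.blt_eq] at this
  obtain ⟨h1, x, hx, h2, h3⟩ := this
  exact ⟨x, hx, by rw [s.rho_wval ρ hf h1, s.wm_eq hw h2 h3]; rfl⟩

theorem rels_one (hρ : Function.Injective ρ) {f : ℕ → X} {kn : List ℕ}
    (hf : ∀ l ∈ kn, ρ (f l) = s.mat (gm ms l)) {K : List (List ℕ)}
    (h : relsB a ms kn K [1] = true) : ∀ w ∈ K, wval f w = 1 := by
  intro w hK
  obtain ⟨x, hx, e⟩ := s.rels_scalar hw ρ hf h w hK
  rw [List.mem_singleton.1 hx, s.c_one, one_smul, ← map_one ρ] at e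
  exact hρ e

theorem rels_center (hρ : Function.Injective ρ) {f : ℕ → X} {kn : List ℕ}
    (hf : ∀ l ∈ kn, ρ (f l) = s.mat (gm ms l)) {K : List (List ℕ)} {xs : List ℕ}
    (h : relsB a ms kn K xs = true) : ∀ w ∈ K, wval f w ∈ Subgroup.center X := by
  intro w hK
  obtain ⟨x, -, e⟩ := s.rels_scalar hw ρ hf h w hK
  exact Subgroup.mem_center_iff.2 fun g => hρ (by simp [e])

omit hw in
open Classical in
/-- The element of `A` with a given matrix. -/
noncomputable def el (ms : List Mat) (A : Subgroup X) (l : ℕ) : X :=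
  if h : s.Rep ρ ms A l then h.choose else 1

omit hw in
theorem el_mem (A : Subgroup X) (l : ℕ) : s.el ρ ms A l ∈ A := by
  unfold el
  split_ifs with h
  exacts [h.choose_spec.1, A.one_mem]

omit hw in
theorem rho_el {A : Subgroup X} {kn : List ℕ} (h : ∀ l ∈ kn, s.Rep ρ ms A l) :
    ∀ l ∈ kn, ρ (s.el ρ ms A l) = s.mat (gm ms l) := fun l hl => by
  rw [el, dif_pos (h l hl)]
  exact (h l hl).choose_spec.2

omit hw in
theorem rep_gp {f : ℕ → X} {kn : List ℕ} (hf : ∀ l ∈ kn, ρ (f l) = s.mat (gm ms l)) :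
    ∀ l ∈ kn, s.Rep ρ ms (gp f (kn.map fun l => [2 * l])) l := fun l hl =>
  ⟨f l, wval_single f l ▸ mem_gp (List.mem_map_of_mem hl), hf l hl⟩

theorem mul_eq_one {k l : ℕ} (h : eqB a ms [k, l] [] 1 = true) :
    s.mat (gm ms k) * s.mat (gm ms l) = 1 := by
  simpa [wm] using s.wm_eq_one hw h

/-- The invertible matrix with a given code. -/
noncomputable def unit {k l : ℕ} (h : eqB a ms [k, l] [] 1 = true) : GL ι R :=
  ⟨_, _, s.mul_eq_one hw h, mul_eq_one_comm.1 (s.mul_eq_one hw h)⟩

end Sem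

/-! ### Stabiliser chains -/

section chain

variable {X V : Type*} [Group X] [MulAction X V]

/-- The elements of `A` fixing each listed point. -/
def fixer (A : Subgroup X) (bs : List V) : Subgroup X where
  carrier := {g | g ∈ A ∧ ∀ b ∈ bs, g • b = b}
  one_mem' := ⟨A.one_mem, fun _ _ => one_smul _ _⟩
  mul_mem' {g h} hg hh := ⟨A.mul_mem hg.1 hh.1, fun b hb => by rw [mul_smul, hh.2 b hb, hg.2 b hb]⟩
  inv_mem' {g} hg := ⟨A.inv_mem hg.1, fun b hb => by rw [inv_smul_eq_iff, hg.2 b hb]⟩

theorem fixer_nil (A : Subgroup X) : fixer A ([] : List V) = A := by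
  ext g; simp [fixer]

theorem card_fixer (A : Subgroup X) (bs : List V) (b : V) : Nat.card (fixer A bs) =
    (MulAction.orbit (fixer A bs) b).ncard * Nat.card (fixer A (b :: bs)) := by
  rw [← MulAction.index_stabilizer, ← Subgroup.index_mul_card (MulAction.stabilizer (fixer A bs) b)]
  congr 1
  refine Nat.card_congr ⟨fun g => ⟨g.1.1, g.1.2.1, fun c hc => ?_⟩,
    fun g => ⟨⟨g.1, g.2.1, fun c hc => g.2.2 c (List.mem_cons_of_mem _ hc)⟩,
      g.2.2 b List.mem_cons_self⟩, fun _ => rfl, fun _ => rfl⟩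
  rcases List.mem_cons.1 hc with rfl | hc
  · exact g.2
  · exact g.1.2.2 c hc

end chain

/-- The nodes of a tree. -/
def T.nodes : T → List (ℕ × ℕ × ℕ)
  | .lf => []
  | .nd l x r g t => l.nodes ++ (x, r, g) :: t.nodes

theorem T.length_nodes (t : T) : t.nodes.length = t.size := by
  induction t with
  | lf => rfl
  | nd l x r g t il ir =>
    have : (T.nd l x r g t).size = l.size + t.size + 1 := rfl
    simp [T.nodes, il, ir, this, add_assoc]

theorem T.of_srt {t : T} {lo hi : ℕ} (h : t.srt lo hi = true) : lo ≤ hi ∧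
    (∀ p ∈ t.nodes, lo ≤ p.1 ∧ p.1 < hi) ∧ (t.nodes.map Prod.fst).Nodup := by
  induction t generalizing lo hi with
  | lf => exact ⟨Nat.le_of_ble_eq_true h, by simp [T.nodes]⟩
  | nd l x r g t il ir =>
    obtain ⟨h1, h2⟩ := band_eq h
    obtain ⟨a1, a2, a3⟩ := il h1
    obtain ⟨b1, b2, b3⟩ := ir h2
    refine ⟨by omega, fun p hp => ?_, ?_⟩
    · rcases List.mem_append.1 hp with hp | hp
      · have := a2 p hp; omega
      · rcases List.mem_cons.1 hp with rfl | hp
        · exact ⟨a1, b1⟩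
        · have := b2 p hp; omega
    · rw [T.nodes, List.map_append, List.map_cons, List.nodup_append, List.nodup_cons]
      refine ⟨a3, ⟨fun hx => ?_, b3⟩, fun u hu v hv => ?_⟩
      · obtain ⟨p, hp, e⟩ := List.mem_map.1 hx
        have := b2 p hp; omega
      · obtain ⟨p, hp, rfl⟩ := List.mem_map.1 hu
        have := a2 p hp
        rcases List.mem_cons.1 hv with rfl | hv
        · omega
        · obtain ⟨q, hq, rfl⟩ := List.mem_map.1 hv
          have := b2 q hq; omega

theorem T.of_find {t : T} {d y : ℕ} (h : t.find d y ≠ d) : ∃ g, (y, t.find d y, g) ∈ t.nodes := by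
  induction t with
  | lf => exact absurd rfl h
  | nd l x r g t il ir =>
    have e : (T.nd l x r g t).find d y = @Bool.rec (fun _ => ℕ)
      (@Bool.rec (fun _ => ℕ) (t.find d y) (l.find d y) (Nat.ble y x)) r (Nat.beq y x) := rfl
    rw [e] at h ⊢
    cases h1 : Nat.beq y x
    · rw [h1] at h
      cases h2 : Nat.ble y x
      · rw [h2] at h
        obtain ⟨k, hk⟩ := ir h
        exact ⟨k, List.mem_append_right _ (List.mem_cons_of_mem _ hk)⟩
      · rw [h2] at h
        obtain ⟨k, hk⟩ := il h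
        exact ⟨k, List.mem_append_left _ hk⟩
    · obtain rfl := Nat.eq_of_beq_eq_true h1
      exact ⟨g, List.mem_append_right _ List.mem_cons_self⟩

theorem T.of_ok {a : Ar} {ms : List Mat} {S : List ℕ} {t₀ t : T} {b : ℕ}
    (h : T.ok a ms S t₀ b t = true) : ∀ p ∈ t.nodes, p.1 = b ∨
      (p.2.2 ∈ S ∧ t₀.find p.2.1 (mv a (gm ms p.2.2) p.1) < p.2.1) := by
  induction t with
  | lf => simp [T.nodes]
  | nd l x r g t il ir =>
    obtain ⟨h1, h2⟩ := band_eq h
    obtain ⟨h2, h3⟩ := band_eq h2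
    intro p hp
    rcases List.mem_append.1 hp with hp | hp
    · exact il h2 p hp
    rcases List.mem_cons.1 hp with rfl | hp
    · cases h4 : Nat.beq x b
      · rw [h4] at h1
        obtain ⟨h5, h6⟩ := band_eq h1
        exact Or.inr ⟨by simpa using h5, Nat.le_of_ble_eq_true h6⟩
      · exact Or.inl (Nat.eq_of_beq_eq_true h4)
    · exact ir h3 p hp

/-- The action on vectors through a matrix representation. -/
@[reducible] def act {R ι X : Type*} [CommRing R] [Fintype ι] [DecidableEq ι] [Group X]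
    (ρ : X →* Matrix ι ι R) : MulAction X (ι → R) where
  smul x v := ρ x *ᵥ v
  one_smul v := by change ρ 1 *ᵥ v = v; simp
  mul_smul x y v := by change ρ (x * y) *ᵥ v = ρ x *ᵥ ρ y *ᵥ v; simp

namespace Sem

variable {a : Ar} {R : Type*} [CommRing R] {ι : Type*} (s : Sem a R ι) [Fintype ι] [DecidableEq ι]
  {X : Type*} [Group X] (ρ : X →* Matrix ι ι R)

/-- The elements of `A` fixing the vectors with the listed codes. -/
def fx (A : Subgroup X) (bs : List ℕ) : Subgroup X :=
  letI := act ρ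
  fixer A (bs.map s.vec)

theorem fx_nil (A : Subgroup X) : s.fx ρ A [] = A :=
  letI := act ρ
  fixer_nil A

theorem one_le {A : Subgroup X} [Finite A] (bs : List ℕ) : 1 ≤ Nat.card (s.fx ρ A bs) := by
  have := Finite.of_injective _ (Subgroup.inclusion_injective
    (show s.fx ρ A bs ≤ A from fun _ h => h.1))
  exact Nat.card_pos

theorem le_card {ms : List Mat} (hw : wf a ms = true) {A : Subgroup X} [Finite A] {S : List ℕ}
    (hS : ∀ l ∈ S, s.Rep ρ ms A l) {bs : List ℕ} {b : ℕ} {t : T} {n : ℕ}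
    (h : level a ms S bs b t n = true) {m : ℕ} (hm : m ≤ Nat.card (s.fx ρ A (b :: bs))) :
    n * m ≤ Nat.card (s.fx ρ A bs) := by
  letI := act ρ
  obtain ⟨h1, h⟩ := band_eq h
  obtain ⟨h2, h⟩ := band_eq h
  obtain ⟨h3, h4⟩ := band_eq h
  obtain ⟨-, h5, h6⟩ := T.of_srt h2
  have : Finite (fixer A (bs.map s.vec)) := Finite.of_injective _ (Subgroup.inclusion_injective
    (show fixer A (bs.map s.vec) ≤ A from fun _ h => h.1))
  have key : ∀ r, ∀ p ∈ t.nodes, p.2.1 = r →
      s.vec p.1 ∈ MulAction.orbit (fixer A (bs.map s.vec)) (s.vec b) := by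
    intro r
    induction r using Nat.strong_induction_on with
    | _ r ih =>
      intro p hp hr
      rcases T.of_ok h4 p hp with e | ⟨e1, e2⟩
      · rw [e]; exact MulAction.mem_orbit_self _
      · obtain ⟨g, hg⟩ := T.of_find e2.ne
        obtain ⟨y, hy⟩ := ih _ (hr ▸ e2) _ hg rfl
        obtain ⟨x, hx, ex⟩ := hS _ e1
        have hx' : x ∈ fixer A (bs.map s.vec) := ⟨hx, fun v hv => by
          obtain ⟨c, hc, rfl⟩ := List.mem_map.1 hv
          simp only [List.all_eq_true, Nat.beq_eq] at h1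
          change ρ x *ᵥ _ = _
          rw [ex, ← s.vec_mv hw, h1 _ e1 c hc]⟩
        refine ⟨(⟨x, hx'⟩ : fixer A (bs.map s.vec))⁻¹ * y, ?_⟩
        simp only at hy ⊢
        rw [mul_smul, hy, inv_smul_eq_iff, s.vec_mv hw, ← ex]
        rfl
  change _ ≤ Nat.card (fixer A (bs.map s.vec))
  rw [card_fixer _ _ (s.vec b)]
  refine Nat.mul_le_mul ((Nat.le_of_ble_eq_true h3).trans ?_) hm
  rw [← T.length_nodes, ← List.length_map (f := Prod.fst), ← List.toFinset_card_of_nodup h6,
    ← Set.ncard_coe_finset]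
  refine Set.ncard_le_ncard_of_injOn s.vec (fun x hx => ?_) (fun x hx y hy => s.vec_inj ?_ ?_)
    (Set.finite_range _)
  · obtain ⟨p, hp, rfl⟩ := List.mem_map.1 (List.mem_toFinset.1 hx)
    exact key _ p hp rfl
  · obtain ⟨p, hp, rfl⟩ := List.mem_map.1 (List.mem_toFinset.1 hx)
    exact (h5 p hp).2
  · obtain ⟨p, hp, rfl⟩ := List.mem_map.1 (List.mem_toFinset.1 hy)
    exact (h5 p hp).2

end Sem

/-! ### Concrete arithmetic -/

/-- Arithmetic modulo `p`. -/
def arZ (p n : ℕ) : Ar := ⟨p, n, fun x y => Nat.mod (Nat.add x y) p, fun x y => Nat.mod (Nat.mul x y) p⟩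

/-- The meaning of the arithmetic modulo `p`. -/
def semZ (p n : ℕ) (hp : 1 < p) {ι : Type*} (e : ι ≃ Fin n) : Sem (arZ p n) (ZMod p) ι where
  c := Nat.cast
  e := e
  one_lt := hp
  c_zero := Nat.cast_zero
  c_one := Nat.cast_one
  c_inj x hx y hy h := Nat.ModEq.eq_of_lt_of_lt ((ZMod.natCast_eq_natCast_iff _ _ _).1 h) hx hy
  ad_lt _ _ _ _ := Nat.mod_lt _ (lt_trans one_pos hp)
  mu_lt _ _ _ := Nat.mod_lt _ (lt_trans one_pos hp)
  c_ad x _ y _ := (ZMod.natCast_mod (x + y) p).trans (Nat.cast_add x y)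
  c_mu x y _ := (ZMod.natCast_mod (x * y) p).trans (Nat.cast_mul x y)

/-- Multiplication in the field with four elements. -/
def mu4 (x y : ℕ) : ℕ :=
  Nat.land (Nat.shiftRight (nat_lit 0x9c78e400) (Nat.add (Nat.mul 8 x) (Nat.mul 2 y))) 3

theorem mu4_of_le {x : ℕ} (hx : 4 ≤ x) (y : ℕ) : mu4 x y = 0 := by
  have : (0x9c78e400 : ℕ) >>> (8 * x + 2 * y) = 0 := by
    rw [Nat.shiftRight_eq_div_pow]
    exact Nat.div_eq_of_lt (lt_of_lt_of_le (by norm_num : _ < 2 ^ 32)
      (Nat.pow_le_pow_right (by norm_num) (by omega)))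
  change (0x9c78e400 : ℕ) >>> (8 * x + 2 * y) &&& 3 = 0
  rw [this]; rfl

/-- Arithmetic in the field with four elements. -/
def ar4 (n : ℕ) : Ar := ⟨4, n, Nat.xor, mu4⟩

/-- The element with a given code. -/
def c4 : ℕ → GF4.K4
  | 1 => .i
  | 2 => .w
  | 3 => .v
  | _ => .o

/-- The meaning of the arithmetic in the field with four elements. -/
def sem4 (n : ℕ) {ι : Type*} (e : ι ≃ Fin n) : Sem (ar4 n) GF4.K4 ι where
  c := c4
  e := e
  one_lt := show 1 < 4 by norm_num
  c_zero := rfl
  c_one := rfl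
  c_inj := show ∀ x < 4, ∀ y < 4, c4 x = c4 y → x = y by decide
  ad_lt := show ∀ x < 4, ∀ y < 4, Nat.xor x y < 4 by decide
  mu_lt x y _ := Nat.lt_succ_of_le Nat.and_le_right
  c_ad := show ∀ x < 4, ∀ y < 4, c4 (Nat.xor x y) = c4 x + c4 y by decide
  c_mu x := by
    rcases lt_or_ge x 4 with hx | hx
    · revert x
      exact show ∀ x < 4, ∀ y < 4, c4 (mu4 x y) = c4 x * c4 y by decide
    · intro y _
      obtain ⟨x, rfl⟩ := Nat.exists_eq_add_of_le' hx
      exact (congrArg c4 (mu4_of_le hx y)).trans (zero_mul (c4 y)).symm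

end Cfsg.Agent.Lib.MatChk
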