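import Cfsg.Agent.Lib.McTaP

set_option autoImplicit false
set_option maxRecDepth 100000

namespace Cfsg.Agent.Lib.McTa
open Cfsg.Agent.Lib.TCCore

theorem k0 : P.RowsS 0 10 := P.rowsS_of_chk _ _ [nat_lit 0x200c0808040c040c0410080404100c04040404040c080404080001030401010001c040c0c04041008040804040408100404040404080408040c000102020101010601010103010201030101000040414041404140408041410040c0400010301010301040104010301040000410040404041008081004100408040001010302060000804180414040c040808041404040804040500014000500014000500014000500] (by decide +kernel)
theorem s0 : P.RowsS 0 10 := k0

end Cfsg.Agent.Lib.McTa
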