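import Cfsg.Agent.Lib.TCGroup
import Cfsg.Agent.Lib.McTaC0

set_option autoImplicit false
set_option maxRecDepth 100000

namespace Cfsg.Agent.Lib.McTa
open Cfsg.Agent.Lib.TCCore

theorem rowsS : P.RowsS 0 P.N := s0

theorem rowsT : P.RowsT P.N P.M := Par.RowsT.empty P 10

def base : List (List Nat) := [
  [0, 1],
  [2, 3],
  [4, 5],
  [6, 7],
  [8, 9],
  [10, 11],
  [12, 13],
  [14, 15],
  [0, 0, 0, 0],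
  [2, 0, 5, 1],
  [4, 0, 3, 3, 1],
  [6, 0, 7, 7, 1],
  [8, 0, 11, 11, 1],
  [10, 0, 9, 1],
  [12, 0, 13, 13, 1],
  [2, 2, 2],
  [4, 2, 5, 3],
  [6, 2, 13, 11, 11, 7, 3],
  [8, 2, 9, 3],
  [10, 2, 13, 11, 3],
  [12, 2, 13, 3],
  [4, 4, 4],
  [6, 4, 13, 9, 7, 5],
  [8, 4, 13, 13, 9, 5],
  [10, 4, 11, 5],
  [12, 4, 13, 5],
  [6, 6, 6],
  [8, 6, 9, 7],
  [10, 6, 11, 7],
  [12, 6, 13, 7],
  [8, 8, 8],
  [10, 8, 11, 9],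
  [12, 8, 13, 9],
  [10, 10, 10],
  [12, 10, 13, 11],
  [12, 12, 12],
  [14, 0, 15, 1, 1, 1],
  [14, 6, 15, 13],
  [14, 8, 15, 9, 9],
  [14, 10, 15, 11],
  [14, 12, 15, 7],
  [14, 14],
  [14, 4, 14, 5, 5, 15, 5, 5],
  [14, 4, 4, 14, 5, 15, 5],
  [14, 2, 14, 3, 1, 1, 15, 3],
  [14, 2, 4, 14, 5, 3, 3, 1, 1, 1, 15, 5, 3, 3],
  [14, 2, 4, 4, 14, 5, 5, 3, 3, 1, 15, 5, 5, 3, 3],
  [14, 2, 2, 14, 3, 3, 1, 1, 15, 3, 3],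
  [14, 2, 2, 4, 14, 5, 3, 1, 15, 5, 3],
  [14, 2, 2, 4, 4, 14, 5, 5, 3, 1, 1, 1, 15, 5, 5, 3]]

theorem static_ok : TCGroup.static P base [1, 0, 3, 2, 5, 4, 7, 6, 9, 8, 11, 10, 13, 12, 15, 14] 16 16 [0, 2, 4, 6, 8, 10, 12] = true := by decide +kernel

theorem bound {G : Type*} [Group G] (y : Nat → G) (H : Subgroup G)
    (hrel : ∀ r ∈ base, (r.map y).prod = 1) (hinv : ∀ i < 16, y (List.getD [1, 0, 3, 2, 5, 4, 7, 6, 9, 8, 11, 10, 13, 12, 15, 14] i i) = (y i)⁻¹)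
    (hsub : ∀ i ∈ ([0, 2, 4, 6, 8, 10, 12] : List Nat), y i ∈ H) :
    H.relIndex (Subgroup.closure (y '' {i | i < 16})) ≠ 0 ∧
      H.relIndex (Subgroup.closure (y '' {i | i < 16})) ≤ 10 :=
  TCGroup.relIndex_le y 16 16 base [1, 0, 3, 2, 5, 4, 7, 6, 9, 8, 11, 10, 13, 12, 15, 14] [0, 2, 4, 6, 8, 10, 12] P H hrel hinv hsub static_ok rowsS rowsT

end Cfsg.Agent.Lib.McTa
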