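import Cfsg.Agent.Lib.TCGroup
import Cfsg.Agent.Lib.McTbC0

set_option autoImplicit false
set_option maxRecDepth 100000

namespace Cfsg.Agent.Lib.McTb
open Cfsg.Agent.Lib.TCCore

theorem rowsS : P.RowsS 0 P.N := s0

theorem rowsT : P.RowsT P.N P.M := Par.RowsT.empty P 112

def base : List (List Nat) := [
  [0, 1],
  [2, 3],
  [4, 5],
  [6, 7],
  [8, 9],
  [10, 11],
  [12, 13],
  [14, 15],
  [16, 17],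
  [0, 0, 0, 0],
  [2, 0, 5, 1],
  [4, 0, 3, 3, 1],
  [6, 0, 7, 7, 1],
  [8, 0, 11, 11, 1],
  [10, 0, 9, 1],
  [12, 0, 13, 13, 1],
  [2, 2, 2],
  [4, 2, 5, 3],
  [6, 2, 13, 11, 11, 7, 3],
  [8, 2, 9, 3],
  [10, 2, 13, 11, 3],
  [12, 2, 13, 3],
  [4, 4, 4],
  [6, 4, 13, 9, 7, 5],
  [8, 4, 13, 13, 9, 5],
  [10, 4, 11, 5],
  [12, 4, 13, 5],
  [6, 6, 6],
  [8, 6, 9, 7],
  [10, 6, 11, 7],
  [12, 6, 13, 7],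
  [8, 8, 8],
  [10, 8, 11, 9],
  [12, 8, 13, 9],
  [10, 10, 10],
  [12, 10, 13, 11],
  [12, 12, 12],
  [14, 0, 15, 1, 1, 1],
  [14, 6, 15, 13],
  [14, 8, 15, 9, 9],
  [14, 10, 15, 11],
  [14, 12, 15, 7],
  [16, 0, 17, 1, 1, 1],
  [16, 2, 17, 11, 11],
  [16, 4, 17, 9],
  [16, 8, 17, 5, 5],
  [16, 10, 17, 3],
  [16, 12, 17, 13],
  [14, 14],
  [16, 16, 1, 1],
  [14, 4, 14, 5, 5, 15, 5, 5],
  [14, 4, 4, 14, 5, 15, 5],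
  [14, 2, 14, 3, 1, 1, 15, 3],
  [14, 2, 4, 14, 5, 3, 3, 1, 1, 1, 15, 5, 3, 3],
  [14, 2, 4, 4, 14, 5, 5, 3, 3, 1, 15, 5, 5, 3, 3],
  [14, 2, 2, 14, 3, 3, 1, 1, 15, 3, 3],
  [14, 2, 2, 4, 14, 5, 3, 1, 15, 5, 3],
  [14, 2, 2, 4, 4, 14, 5, 5, 3, 1, 1, 1, 15, 5, 5, 3],
  [16, 6, 16, 7, 7, 1, 1, 17, 7, 7],
  [16, 6, 6, 16, 7, 17, 7],
  [14, 16, 14, 16, 15, 17, 15, 17]]

theorem static_ok : TCGroup.static P base [1, 0, 3, 2, 5, 4, 7, 6, 9, 8, 11, 10, 13, 12, 15, 14, 17, 16] 18 18 [0, 2, 4, 6, 8, 10, 12, 14] = true := by decide +kernel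

theorem bound {G : Type*} [Group G] (y : Nat → G) (H : Subgroup G)
    (hrel : ∀ r ∈ base, (r.map y).prod = 1) (hinv : ∀ i < 18, y (List.getD [1, 0, 3, 2, 5, 4, 7, 6, 9, 8, 11, 10, 13, 12, 15, 14, 17, 16] i i) = (y i)⁻¹)
    (hsub : ∀ i ∈ ([0, 2, 4, 6, 8, 10, 12, 14] : List Nat), y i ∈ H) :
    H.relIndex (Subgroup.closure (y '' {i | i < 18})) ≠ 0 ∧
      H.relIndex (Subgroup.closure (y '' {i | i < 18})) ≤ 112 :=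
  TCGroup.relIndex_le y 18 18 base [1, 0, 3, 2, 5, 4, 7, 6, 9, 8, 11, 10, 13, 12, 15, 14, 17, 16] [0, 2, 4, 6, 8, 10, 12, 14] P H hrel hinv hsub static_ok rowsS rowsT

end Cfsg.Agent.Lib.McTb
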