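import Cfsg.Agent.Lib.ONAR

set_option autoImplicit false
set_option maxRecDepth 100000

namespace Cfsg.Agent.Lib.ONA
open Cfsg.Agent.Lib.PermNet

theorem rels0_9 : RelsOn nets 122760 17 rels0 9 10 :=
  relsOn_of_B _ _ _ _ _ 1 _ (by decide +kernel) (by decide +kernel)

theorem rels0_10 : RelsOn nets 122760 17 rels0 10 11 :=
  relsOn_of_B _ _ _ _ _ 1 _ (by decide +kernel) (by decide +kernel)

theorem rels0_11 : RelsOn nets 122760 17 rels0 11 12 :=
  relsOn_of_B _ _ _ _ _ 1 _ (by decide +kernel) (by decide +kernel)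

theorem rels0_12 : RelsOn nets 122760 17 rels0 12 13 :=
  relsOn_of_B _ _ _ _ _ 1 _ (by decide +kernel) (by decide +kernel)

theorem rels0_13 : RelsOn nets 122760 17 rels0 13 14 :=
  relsOn_of_B _ _ _ _ _ 1 _ (by decide +kernel) (by decide +kernel)

theorem rels0_14 : RelsOn nets 122760 17 rels0 14 15 :=
  relsOn_of_B _ _ _ _ _ 1 _ (by decide +kernel) (by decide +kernel)

theorem rels0_15 : RelsOn nets 122760 17 rels0 15 16 :=
  relsOn_of_B _ _ _ _ _ 1 _ (by decide +kernel) (by decide +kernel)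

theorem rels0_16 : RelsOn nets 122760 17 rels0 16 17 :=
  relsOn_of_B _ _ _ _ _ 1 _ (by decide +kernel) (by decide +kernel)

theorem rels1_0 : RelsOn nets 122760 17 rels1 0 3 :=
  relsOn_of_B _ _ _ _ _ 3 _ (by decide +kernel) (by decide +kernel)

theorem rels1_3 : RelsOn nets 122760 17 rels1 3 6 :=
  relsOn_of_B _ _ _ _ _ 3 _ (by decide +kernel) (by decide +kernel)

theorem rels1_6 : RelsOn nets 122760 17 rels1 6 9 :=
  relsOn_of_B _ _ _ _ _ 3 _ (by decide +kernel) (by decide +kernel)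

theorem rels1_9 : RelsOn nets 122760 17 rels1 9 12 :=
  relsOn_of_B _ _ _ _ _ 3 _ (by decide +kernel) (by decide +kernel)

theorem rels1_12 : RelsOn nets 122760 17 rels1 12 15 :=
  relsOn_of_B _ _ _ _ _ 3 _ (by decide +kernel) (by decide +kernel)

theorem rels1_15 : RelsOn nets 122760 17 rels1 15 17 :=
  relsOn_of_B _ _ _ _ _ 2 _ (by decide +kernel) (by decide +kernel)

end Cfsg.Agent.Lib.ONA
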