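import Cfsg.Agent.Lib.ONAR

set_option autoImplicit false
set_option maxRecDepth 100000

namespace Cfsg.Agent.Lib.ONA
open Cfsg.Agent.Lib.PermNet

theorem rels3_14 : RelsOn nets 122760 17 rels3 14 15 :=
  relsOn_of_B _ _ _ _ _ 1 _ (by decide +kernel) (by decide +kernel)

theorem rels3_15 : RelsOn nets 122760 17 rels3 15 16 :=
  relsOn_of_B _ _ _ _ _ 1 _ (by decide +kernel) (by decide +kernel)

theorem rels3_16 : RelsOn nets 122760 17 rels3 16 17 :=
  relsOn_of_B _ _ _ _ _ 1 _ (by decide +kernel) (by decide +kernel)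

theorem rels4_0 : RelsOn nets 122760 17 rels4 0 1 :=
  relsOn_of_B _ _ _ _ _ 1 _ (by decide +kernel) (by decide +kernel)

theorem rels4_1 : RelsOn nets 122760 17 rels4 1 2 :=
  relsOn_of_B _ _ _ _ _ 1 _ (by decide +kernel) (by decide +kernel)

theorem rels4_2 : RelsOn nets 122760 17 rels4 2 3 :=
  relsOn_of_B _ _ _ _ _ 1 _ (by decide +kernel) (by decide +kernel)

theorem rels4_3 : RelsOn nets 122760 17 rels4 3 4 :=
  relsOn_of_B _ _ _ _ _ 1 _ (by decide +kernel) (by decide +kernel)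

theorem rels4_4 : RelsOn nets 122760 17 rels4 4 5 :=
  relsOn_of_B _ _ _ _ _ 1 _ (by decide +kernel) (by decide +kernel)

theorem rels4_5 : RelsOn nets 122760 17 rels4 5 6 :=
  relsOn_of_B _ _ _ _ _ 1 _ (by decide +kernel) (by decide +kernel)

theorem rels4_6 : RelsOn nets 122760 17 rels4 6 7 :=
  relsOn_of_B _ _ _ _ _ 1 _ (by decide +kernel) (by decide +kernel)

theorem rels4_7 : RelsOn nets 122760 17 rels4 7 8 :=
  relsOn_of_B _ _ _ _ _ 1 _ (by decide +kernel) (by decide +kernel)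

theorem rels4_8 : RelsOn nets 122760 17 rels4 8 9 :=
  relsOn_of_B _ _ _ _ _ 1 _ (by decide +kernel) (by decide +kernel)

theorem rels4_9 : RelsOn nets 122760 17 rels4 9 10 :=
  relsOn_of_B _ _ _ _ _ 1 _ (by decide +kernel) (by decide +kernel)

theorem rels4_10 : RelsOn nets 122760 17 rels4 10 11 :=
  relsOn_of_B _ _ _ _ _ 1 _ (by decide +kernel) (by decide +kernel)

end Cfsg.Agent.Lib.ONA
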