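import Cfsg.Prelude.Def_Spor_ON
import Cfsg.Agent.Lib.PermGroup

/-! The presented group `ON` in terms of numbered generators. -/

set_option autoImplicit false

namespace Cfsg.Agent.Lib.ONBase

open Cfsg.Agent.Lib.PermNet Cfsg.Agent.Lib.Words

def gen : ℕ → Spor.ON.Gen
  | 0 => .a
  | 1 => .b
  | 2 => .c
  | 3 => .d
  | 4 => .e
  | 5 => .f
  | _ => .g

def idx : Spor.ON.Gen → ℕ
  | .a => 0
  | .b => 1
  | .c => 2
  | .d => 3
  | .e => 4
  | .f => 5
  | .g => 6

def es : List E := [(.mul (.mul (.g 0) (.g 5)) (.inv (.pow (.g 6) 2))),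
  (.mul (.mul (.g 0) (.g 5)) (.inv (.pow (.mul (.g 2) (.g 3)) 4))),
  (.mul (.g 2) (.mul (.mul (.inv (.mul (.mul (.mul (.g 3) (.g 6)) (.g 3)) (.g 6))) (.g 2)) (.mul (.mul (.mul (.g 3) (.g 6)) (.g 3)) (.g 6)))),
  (.mul (.g 3) (.mul (.mul (.inv (.mul (.mul (.mul (.g 2) (.g 6)) (.g 2)) (.g 6))) (.g 3)) (.mul (.mul (.mul (.g 2) (.g 6)) (.g 2)) (.g 6)))),
  (.pow (.mul (.mul (.mul (.g 1) (.g 2)) (.g 3)) (.g 6)) 5),
  (.mul (.mul (.mul (.mul (.g 6) (.g 1)) (.mul (.mul (.inv (.g 2)) (.g 6)) (.g 2))) (.mul (.mul (.inv (.g 1)) (.g 6)) (.g 1))) (.mul (.mul (.inv (.g 2)) (.g 6)) (.g 2))),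
  (.mul (.mul (.mul (.mul (.g 6) (.g 4)) (.mul (.mul (.inv (.g 3)) (.g 6)) (.g 3))) (.mul (.mul (.inv (.g 4)) (.g 6)) (.g 4))) (.mul (.mul (.inv (.g 3)) (.g 6)) (.g 3)))]

/-- The generators a, b, c, d, e, f, g, numbered from 0. -/
def y (i : ℕ) : Spor.ON := PresentedGroup.of (gen i)

/-- The defining relators as words. -/
def K : List (List ℕ) := allK Spor.ON.edges idx es

/-- The generators that are involutions by a defining relator. -/
def I : List ℕ := [0, 1, 2, 3, 4, 5]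

theorem hgi (x : Spor.ON.Gen) : gen (idx x) = x := by cases x <;> rfl

theorem hex : Spor.ON.extra = es.map (E.eval fun i => FreeGroup.of (gen i)) := by
  simp only [Spor.ON.extra, es, List.map_cons, List.map_nil, E.eval, gen]

theorem hK : ∀ w ∈ K, wval y w = 1 := cox_rels hgi hex

theorem exists_hom {H : Type*} [Group H] (f : ℕ → H) (hf : ∀ w ∈ K, wval f w = 1) :
    ∃ φ : Spor.ON →* H, ∀ i < 7, φ (y i) = f i :=
  cox_hom 7 (by decide) hex (by decide +kernel) f hf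

theorem gp_top {ws : List (List ℕ)} (h : (List.range 7).all (fun i => ws.contains [2 * i]) = true) :
    gp y ws = ⊤ := by
  simp only [List.all_eq_true, List.contains_iff_mem, List.mem_range] at h
  exact cox_gp_top hgi fun x => h _ (by cases x <;> decide)

theorem map_closure (fs : List E) (S : Set (FreeGroup Spor.ON.Gen))
    (hS : S = {x | x ∈ fs.map (E.eval fun i => FreeGroup.of (gen i))}) :
    (Subgroup.closure S).map (PresentedGroup.mk
      (Spor.coxRelators Spor.ON.edges ∪ {r | r ∈ Spor.ON.extra})) = gp y (fs.map E.toW) :=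
  cox_map_closure fs S hS

end Cfsg.Agent.Lib.ONBase
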