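import Cfsg.Agent.Lib.ONA
import Cfsg.Agent.Lib.BT7

/-! Single points followed through the networks of the O'Nan group. -/

set_option autoImplicit false
set_option maxRecDepth 100000

namespace Cfsg.Agent.Lib.ONE

open Subgroup Cfsg.Agent.Lib.PermNet Cfsg.Agent.Lib.Words Cfsg.Agent.Lib.PermGroup Cfsg.Agent.Lib.DCE
  Cfsg.Agent.Lib.BT Cfsg.Agent.Lib.ONA Cfsg.Agent.Lib.ONBase

noncomputable def sp (s m i : ℕ) : ℕ :=
  @Bool.rec (fun _ => ℕ)
    (@Bool.rec (fun _ => ℕ) i (Nat.sub i s) (band (Nat.ble s i) (bitB m (Nat.sub i s))))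
    (Nat.add i s) (bitB m i)

noncomputable def pF (n : Net) : ℕ → ℕ :=
  Net.rec (motive := fun _ => ℕ → ℕ) (fun x => x) (fun s m _ ih x => force (ih x) (sp s m)) n

noncomputable def pB (n : Net) : ℕ → ℕ :=
  Net.rec (motive := fun _ => ℕ → ℕ) (fun x => x) (fun s m _ ih x => force (sp s m x) ih) n

/-- The preimage of a point under a word. -/
noncomputable def pW (w : List ℕ) : ℕ → ℕ :=
  List.rec (motive := fun _ => ℕ → ℕ) (fun x => x)
    (fun l _ ih x => force (@Bool.rec (fun _ => ℕ) (pF (nets.get (Nat.shiftRight l (nat_lit 1))) x)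
      (pB (nets.get (Nat.shiftRight l (nat_lit 1))) x)
      (Nat.beq (Nat.land l (nat_lit 1)) (nat_lit 0))) ih) w

theorem sp_eq (s m i : ℕ) : sp s m i = sIdx s m i := by
  unfold sp sIdx
  rw [bitB_eq, bitB_eq]
  cases m.testBit i
  · by_cases h : s ≤ i
    · rw [Nat.ble_eq_true_of_le h]
      change @Bool.rec (fun _ => ℕ) i (i - s) (m.testBit (i - s)) = _
      cases m.testBit (i - s) <;> simp [h]
    · rw [show Nat.ble s i = false by simpa [← Bool.not_eq_true] using h]
      simp [h]
  · rfl

theorem pF_eq {N : ℕ} (n : Net) (h : n.Valid N) (i : ℕ) : pF n i = n.perm i := by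
  induction n with
  | nil => rfl
  | cons s m r ih =>
    change sp s m (pF r i) = _
    rw [ih h.2.2, sp_eq, Net.perm, Equiv.Perm.mul_apply, sPerm_apply h.1]

theorem pB_eq {N : ℕ} (n : Net) (h : n.Valid N) (i : ℕ) : pB n i = n.perm⁻¹ i := by
  induction n generalizing i with
  | nil => rfl
  | cons s m r ih =>
    change pB r (sp s m i) = _
    rw [ih h.2.2, sp_eq, Net.perm, mul_inv_rev, Equiv.Perm.mul_apply, sPerm_inv, sPerm_apply h.1]

theorem pW_eq (w : List ℕ) (i : ℕ) : pW w i = (phi (wval Y w))⁻¹ i := by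
  rw [map_wval' hphi w]
  induction w generalizing i with
  | nil => rfl
  | cons l w ih =>
    refine (ih _).trans ?_
    rw [wval_cons, mul_inv_rev, Equiv.Perm.mul_apply, lval,
      show Nat.shiftRight l (nat_lit 1) = l / 2 from Nat.shiftRight_one l,
      show Nat.land l (nat_lit 1) = l % 2 from Nat.and_one_is_mod l]
    rcases Nat.mod_two_eq_zero_or_one l with h | h
    · rw [h, if_pos rfl]
      exact congrArg _ (pB_eq _ (NL.valid_get nets hv _) i)
    · rw [h, if_neg (by omega), inv_inv]
      exact congrArg _ (pF_eq _ (NL.valid_get nets hv _) i)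

theorem fix_of {w : List ℕ} {p : ℕ} (h : Nat.beq (pW w p) p = true) : phi (wval Y w) p = p := by
  have := beq_eq h
  rwa [pW_eq, Equiv.Perm.inv_eq_iff_eq, eq_comm] at this

theorem base {g : Spor.ON} (h0 : phi g 0 = 0) (h1 : phi g 1 = 1) (h2 : phi g 247 = 247) : g = 1 := by
  by_contra hne
  have hf := finite_map phi (L := gp Y hs) (by rw [card_hs]; norm_num)
  have hc : Nat.card ((gp Y hs).map phi) ≤ 3753792 :=
    card_hs ▸ Nat.card_le_card_of_surjective _ (phi.subgroupMap_surjective _)
  have hg : phi g ∈ (gp Y hs).map phi := mem_map_of_mem _ ((index_hs.2 g).2 h0)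
  rw [map_gp' hphi] at hf hc hg
  have := finite_fixer (A := gp nets.perm hs) [247, 1]
  have h3 : 2 ≤ Nat.card (fixer (gp nets.perm hs) [247, 1]) := Finite.one_lt_card_iff_nontrivial.2
    ⟨⟨phi g, hg, by simp [h1, h2]⟩, 1, fun e => hne (phi_eq_one (congrArg Subtype.val e))⟩
  have := le_card_fixer hv _ (mem_gp_of_lettersIn (by decide +kernel)) _ _ _ _ _ _ sub_0
    (le_card_fixer hv _ (mem_gp_of_lettersIn (by decide +kernel)) _ _ _ _ _ _ sub_1 h3)
  rw [fixer_nil] at this
  omega

/-- The words fix the base. -/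
noncomputable def oneB (R : List (List ℕ)) : Bool :=
  allL (fun w => allL (fun p => Nat.beq (pW w p) p) [nat_lit 0, nat_lit 1, nat_lit 247]) R

theorem one_of {R : List (List ℕ)} (h : oneB R = true) : ∀ w ∈ R, wval Y w = 1 := fun w hw =>
  base (fix_of (allL_all (allL_all h w hw) 0 (by simp))) (fix_of (allL_all (allL_all h w hw) 1 (by simp)))
    (fix_of (allL_all (allL_all h w hw) 247 (by simp)))

/-- The images of the generators under an outer automorphism. -/
def al : List (List ℕ) := [[0], [13, 2, 12], [13, 4, 12], [6], [8], [10], [4, 6, 13, 6, 4, 0]]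

theorem al0 : oneB ((K.take 21).map (subst al)) = true := by decide +kernel

theorem al1 : oneB ((K.drop 21).map (subst al)) = true := by decide +kernel

theorem eq_of {L : List (List ℕ × List ℕ)} (h : oneB (relW L) = true) :
    ∀ e ∈ L, wval Y e.1 = wval Y e.2 := fun e he => by
  have := one_of h _ (List.mem_map_of_mem he)
  rwa [wval_append, wval_invW, mul_inv_eq_one] at this

theorem exists_al : ∃ α : Spor.ON ≃* Spor.ON, ∀ w, w.all (· < 14) = true →
    α (wval Y w) = wval Y (subst al w) := by
  obtain ⟨φ, h⟩ := exists_hom (fun i => wval Y (al.getD i [])) fun w hw => by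
    rw [← wval_subst]
    rcases List.mem_append.1 ((List.take_append_drop 21 K).symm ▸ hw) with h | h
    exacts [one_of al0 _ (List.mem_map_of_mem h), one_of al1 _ (List.mem_map_of_mem h)]
  have := simple
  have h1 : φ.ker = ⊥ := (IsSimpleGroup.eq_bot_or_eq_top_of_normal φ.ker inferInstance).resolve_right
    fun e => by
      have e1 : wval Y [8] = 1 := (h 4 (by decide)).symm.trans (e.ge (mem_top _))
      have := pW_eq [8] 247
      rw [e1, map_one] at this
      exact absurd this (by decide +kernel : pW [8] 247 ≠ 247)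
  refine ⟨.ofBijective φ (Finite.injective_iff_bijective.1 ((MonoidHom.ker_eq_bot_iff φ).1 h1)),
    fun w hw => ?_⟩
  rw [wval_subst, MulEquiv.ofBijective_apply, map_wval]
  exact wval_congr (n := 7) (fun i hi => (congrArg φ (ext_of_lt y defs hi)).trans (h i hi))
    (by simpa using hw)

/-- The letters of the model as generators. -/
def cv : List (List ℕ) := [[], [], [], [], [0], [10], [4], [6], [12], [2]]

def w1 : List ℕ := [8, 6, 10, 8]

def w2 : List ℕ := [12, 6, 12, 8, 6, 10, 8]

def x1 : List ℕ := [14, 12, 17, 18, 17, 14, 8, 18, 12, 8]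

def x2 : List ℕ := [14, 12, 16, 18, 16, 14, 12, 8]

theorem hw : ∀ e ∈ [(w1 ++ [10], [6] ++ w1), (w1 ++ [6], [10] ++ w1), (w2 ++ [10], [6, 10] ++ w2),
    (w2 ++ [6], [10] ++ w2), (subst al (subst cv x1), subst cv x2)], wval Y e.1 = wval Y e.2 :=
  eq_of (by decide +kernel)

theorem fx2 : phi (wval Y (subst cv x2)) 121056 = 121056 := fix_of (by decide +kernel)

noncomputable def kB (u : List ℕ) : Bool :=
  bif' (Nat.beq (pW u (nat_lit 121056)) (nat_lit 121056)) true
    (bnot (Nat.beq (pW ((subst cv x2 ++ u ++ invW (subst cv x2)) ++ u) (nat_lit 0))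
      (pW (u ++ (subst cv x2 ++ u ++ invW (subst cv x2))) (nat_lit 0))))

theorem kB_sound {u : List ℕ} (h : kB u = true) (hc : Commute
    (wval Y (subst cv x2) * wval Y u * (wval Y (subst cv x2))⁻¹) (wval Y u)) :
    phi (wval Y u) 121056 = 121056 := by
  unfold kB at h
  cases e : Nat.beq (pW u (nat_lit 121056)) (nat_lit 121056) <;> rw [e] at h
  · have := bnot_true h
    rw [pW_eq, pW_eq, wval_append, wval_append _ u, wval_append, wval_append, wval_invW, hc.eq,
      Nat.beq_refl] at this
    cases this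
  · exact fix_of e

end Cfsg.Agent.Lib.ONE
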