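import Cfsg.Agent.Lib.ONE2
import Cfsg.Agent.Lib.ONE3

/-! Certificates. -/

set_option autoImplicit false
set_option maxRecDepth 100000

namespace Cfsg.Agent.Lib.ONE

open Cfsg.Agent.Lib.PermNet Cfsg.Agent.Lib.Words Cfsg.Agent.Lib.DCE

theorem k10 : allR (fun j => kB (w1 ++ subst cv (getW gens j) ++ invW w1)) 0 8 = true := by
  decide +kernel

theorem k11 : allR (fun j => kB (w1 ++ subst cv (getW gens j) ++ invW w1)) 8 8 = true := by
  decide +kernel

theorem k12 : allR (fun j => kB (w1 ++ subst cv (getW gens j) ++ invW w1)) 16 8 = true := by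
  decide +kernel

theorem k1 : ∀ j < 24, kB (w1 ++ subst cv (getW gens j) ++ invW w1) = true := fun j hj =>
  ((allR_of 0 8 8 rfl k10).trans ((allR_of 8 8 16 rfl k11).trans (allR_of 16 8 24 rfl k12))) j
    (Nat.zero_le _) hj

theorem k20 : allR (fun j => kB (w2 ++ subst cv (getW gens j) ++ invW w2)) 0 8 = true := by
  decide +kernel

theorem k21 : allR (fun j => kB (w2 ++ subst cv (getW gens j) ++ invW w2)) 8 8 = true := by
  decide +kernel

theorem k22 : allR (fun j => kB (w2 ++ subst cv (getW gens j) ++ invW w2)) 16 8 = true := by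
  decide +kernel

theorem k2 : ∀ j < 24, kB (w2 ++ subst cv (getW gens j) ++ invW w2) = true := fun j hj =>
  ((allR_of 0 8 8 rfl k20).trans ((allR_of 8 8 16 rfl k21).trans (allR_of 16 8 24 rfl k22))) j
    (Nat.zero_le _) hj

end Cfsg.Agent.Lib.ONE
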