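import Mathlib

/-! Elements of `SL₃(7)`. -/

set_option autoImplicit false
set_option maxRecDepth 100000

namespace Cfsg.Agent.Lib.ONE

open Matrix Matrix.SpecialLinearGroup

instance prime7 : Fact (Nat.Prime 7) := ⟨by norm_num⟩

abbrev S := SpecialLinearGroup (Fin 3) (ZMod 7)

def dg (a b c : ZMod 7) (h : a * b * c = 1 := by decide) : S :=
  ⟨diagonal ![a, b, c], by rw [det_diagonal, Fin.prod_univ_three]; exact h⟩

def mU : S := dg 6 6 1
def mV : S := dg 1 6 6
def mT : S := dg 2 4 1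
def X1 : S := transvection (i := 0) (j := 1) (by decide) 1
def X2 : S := transvection (i := 1) (j := 2) (by decide) 1
def X3 : S := transvection (i := 2) (j := 0) (by decide) 1

theorem tv7 {i j : Fin 3} (h : i ≠ j) (n : ℕ) :
    transvection h (1 : ZMod 7) ^ n = transvection h (n : ZMod 7) := by
  induction n with
  | zero => simp
  | succ n ih => rw [pow_succ, ih, ← transvection_add, Nat.cast_succ]

theorem pow7 {i j : Fin 3} (h : i ≠ j) : transvection h (1 : ZMod 7) ^ 7 = 1 :=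
  (tv7 h 7).trans (transvection_coeff_zero h)

theorem cmm : mV * mU = mU * mV ∧ mT * mU = mU * mT ∧ mT * mV = mV * mT ∧ X1 * mU = mU * X1 ∧
    X2 * mV = mV * X2 ∧ X3 * (mV * mU) = mV * mU * X3 := by
  refine ⟨?_, ?_, ?_, ?_, ?_, ?_⟩ <;> exact Subtype.ext (by decide +kernel)

theorem ncm : X2 * mU ≠ mU * X2 ∧ X1 * mV ≠ mV * X1 ∧ X1 * (mV * mU) ≠ mV * mU * X1 ∧
    X1 * mT ≠ mT * X1 ∧ X2 * X1 ≠ X1 * X2 ∧ X1 * X3 ≠ X3 * X1 := by
  refine ⟨?_, ?_, ?_, ?_, ?_, ?_⟩ <;> exact mt (congrArg Subtype.val) (by decide +kernel)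

theorem one : mU * mU = 1 ∧ mV * mV = 1 ∧ mT * (mT * mT) = 1 ∧ mV * X1 * mV * X1 = 1 ∧
    mU * X2 * mU * X2 = 1 ∧ mU * X3 * mU * X3 = 1 := by
  refine ⟨?_, ?_, ?_, ?_, ?_, ?_⟩ <;> exact Subtype.ext (by decide +kernel)

theorem cR : Commute (X1 * X2 * X1⁻¹) X2 ∧ Commute (X1 * X3 * X1⁻¹) X3 := by
  rw [show X1⁻¹ = _ from transvection_inv _ _]
  constructor <;> exact Subtype.ext (by decide +kernel)

theorem dec {i j : Fin 3} (h : i ≠ j) {x : ZMod 7} (hx : x ≠ 0) :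
    diag2n h x hx * (transvection h 1 * transvection h.symm (-1)) * transvection h (1 - x) =
      transvection h x * transvection h.symm (-x ^ 5) := Subtype.ext (by
  simp only [coe_mul, diag2n_coe, transvection_coe, show x⁻¹ = x ^ 5 from
    inv_eq_of_mul_eq_one_right ((by decide : ∀ x : ZMod 7, x ≠ 0 → x * x ^ 5 = 1) x hx)]
  revert i j x
  decide +kernel)

theorem com : transvection (i := 0) (j := 2) (by decide) 1 * (X2 * X1) = X1 * X2 ∧
    transvection (i := 1) (j := 0) (by decide) 1 * (X3 * X2) = X2 * X3 ∧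
    transvection (i := 2) (j := 1) (by decide) 1 * (X1 * X3) = X3 * X1 := by
  refine ⟨?_, ?_, ?_⟩ <;> exact Subtype.ext (by decide +kernel)

theorem gen3 {K : Subgroup S} (h1 : X1 ∈ K) (h2 : X2 ∈ K) (h3 : X3 ∈ K) (s : S) : s ∈ K := by
  have a : ∀ {x y z : S}, x ∈ K → y ∈ K → z * (y * x) = x * y → z ∈ K := fun hx hy e =>
    (mul_mem_cancel_right (mul_mem hy hx)).1 (by rw [e]; exact mul_mem hx hy)
  have b : ∀ (i j : Fin 3) (h : i ≠ j), transvection h (1 : ZMod 7) ∈ K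
    | 0, 0, h => absurd rfl h
    | 0, 1, _ => h1
    | 0, 2, _ => a h1 h2 com.1
    | 1, 0, _ => a h2 h3 com.2.1
    | 1, 1, h => absurd rfl h
    | 1, 2, _ => h2
    | 2, 0, _ => h3
    | 2, 1, _ => a h3 h1 com.2.2
    | 2, 2, h => absurd rfl h
  have c : ∀ (i j : Fin 3) (h : i ≠ j) (x : ZMod 7), transvection h x ∈ K := fun i j h x => by
    rw [← ZMod.natCast_zmod_val x, ← tv7]
    exact pow_mem (b i j h) _
  refine diagonal_transvection_induction' (· ∈ K) s (fun i j h x hx => ?_) c fun _ _ => mul_mem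
  have := mul_mem (c _ _ h x) (c _ _ h.symm (-x ^ 5))
  rw [← dec h hx] at this
  exact (mul_mem_cancel_right (mul_mem (c _ _ _ _) (c _ _ _ _))).1
    ((mul_mem_cancel_right (c _ _ _ _)).1 this)

end Cfsg.Agent.Lib.ONE
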