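import Cfsg.Agent.Lib.ONPHT
import Cfsg.Agent.Lib.ONPK

/-! Certificates. -/

set_option autoImplicit false
set_option maxRecDepth 100000

namespace Cfsg.Agent.Lib.ONP

open Cfsg.Agent.Lib.PermNet Cfsg.Agent.Lib.Words Cfsg.Agent.Lib.PermGroup Cfsg.Agent.Lib.DCE Cfsg.Agent.Lib.PermModel Cfsg.Agent.Lib.BT

theorem hok_id : idB (nat_lit 1078) (nat_lit 11) (nat_lit 2047) hid = true := by decide +kernel

theorem hok_0 : allR (fun i => okT (nat_lit 1078) (nat_lit 11) (nat_lit 2047) (htt.get (2 * i)) (htt.get (2 * i + 1))) (nat_lit 0) (nat_lit 13) = true := by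
  decide +kernel

def hdL0 : List (List ℕ) := [[9, 4, 1, 5, 1, 4, 0, 0, 0], [11, 0, 4, 0, 4, 0, 4, 0, 4, 0, 4], [13, 4, 1, 5, 0, 0, 5, 1, 4, 0, 0], [15, 6, 1, 5, 1, 1, 4, 1], [17, 6, 5, 0, 4, 0, 0, 4, 1, 4], [19, 5, 2, 1, 4, 0, 5, 3, 0, 5, 1], [21, 0, 2, 4, 0, 2, 4, 0, 2, 4, 0, 2, 4, 0, 2, 4], [23, 5, 0, 4, 2, 0, 4, 1], [25, 16, 12, 16, 9]]

theorem hd0 : allL (fixA (nat_lit 11) (nat_lit 2047) htt (nat_lit 1078)) hdL0 = true := by decide +kernel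

def hkL0 : List (List ℕ) := [[0, 0, 0, 0, 0, 0, 0], [2, 2, 2], [4, 4, 4], [2, 0, 3, 1, 1], [2, 4, 3, 5], [0, 5, 0, 5, 0, 5, 0, 5, 0, 2, 1, 4, 1, 4, 1, 4, 1, 4, 1, 3], [0, 5, 1, 5, 0, 4, 1, 4, 0, 2, 1, 5, 0, 5, 1, 4, 0, 4, 1, 2], [0, 4, 0, 4, 0, 4, 0, 4, 0, 2, 1, 5, 1, 5, 1, 5, 1, 5, 1, 3], [1, 2, 4, 0, 5, 1, 4, 3, 0, 4, 1, 2, 5, 0, 4, 1, 5, 3, 0, 2], [1, 2, 4, 0, 5, 1, 4, 3, 0, 2, 1, 2, 5, 0, 4, 1, 5, 3, 0, 5], [0, 2, 4, 0, 2, 4, 0, 2, 4, 0, 2, 4, 0, 2, 4, 5, 2, 1, 5, 2, 1, 5, 2, 1, 5, 2, 1, 5, 2, 1], [6, 0, 7, 0], [6, 2, 7, 3], [6, 4, 7, 5], [6, 6]]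

theorem hk0 : allL (fixA (nat_lit 11) (nat_lit 2047) htt (nat_lit 1078)) hkL0 = true := by decide +kernel

theorem hc : chB (nat_lit 11) (nat_lit 2047) htt (nat_lit 1078) (fun _ => true) hch [] = true := by decide +kernel

theorem fx : fxB (nat_lit 11) (nat_lit 2047) htt (hch.map Lv.b) [8] [4, 5, 6, 7, 8, 10, 12] hch = true := by decide +kernel

theorem hok : TabsOK (nat_lit 1078) (nat_lit 11) (nat_lit 2047) (nat_lit 13) hth hid := ⟨hok_id, (allR_of 0 13 13 (by decide) hok_0)⟩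

theorem hTM : TM 4 (nat_lit 1078) (nat_lit 11) (nat_lit 2047) (nat_lit 13) hid 161280 hth hdefs hch :=
  ⟨hok, (hok.relsA _ hd0), hc, by decide +kernel⟩

theorem hK : ∀ w ∈ KH, wval (tp (nat_lit 1078) (nat_lit 11) (nat_lit 2047) htt) w = 1 := (hok.relsA _ hk0)

end Cfsg.Agent.Lib.ONP
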