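import Cfsg.Agent.Lib.ONE2
import Cfsg.Agent.Lib.ONPHC

/-! Certificates. -/

set_option autoImplicit false
set_option maxRecDepth 100000

namespace Cfsg.Agent.Lib.ONE

open Cfsg.Agent.Lib.PermNet Cfsg.Agent.Lib.Words Cfsg.Agent.Lib.DCE Cfsg.Agent.Lib.ONP Cfsg.Agent.Lib.ONA

def BW : List (List ℕ) := [[2, 13, 2, 6, 4, 12, 2, 6, 4, 6, 4, 2, 12], [2, 4, 6, 12, 4, 12, 2, 4, 6, 4, 2, 6, 4, 13], [4, 2, 6, 13, 2, 13, 4, 2, 6, 12, 2, 4, 2, 13], [4, 12, 2, 4, 13, 2, 6, 4, 2, 12, 2, 13]]

theorem mK0 : oneB (((KH.drop 0).take 5).map (subst BW)) = true := by decide +kernel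

theorem mK1 : oneB (((KH.drop 5).take 1).map (subst BW)) = true := by decide +kernel

theorem mK2 : oneB (((KH.drop 6).take 1).map (subst BW)) = true := by decide +kernel

theorem mK3 : oneB (((KH.drop 7).take 1).map (subst BW)) = true := by decide +kernel

theorem mK4 : oneB (((KH.drop 8).take 1).map (subst BW)) = true := by decide +kernel

theorem mK5 : oneB (((KH.drop 9).take 1).map (subst BW)) = true := by decide +kernel

theorem mK6 : oneB (((KH.drop 10).take 2).map (subst BW)) = true := by decide +kernel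

theorem mK7 : oneB (((KH.drop 12).take 3).map (subst BW)) = true := by decide +kernel

theorem mK : ∀ w ∈ KH.map (subst BW), wval Y w = 1 :=
  (all_append (one_of mK0) (all_append (one_of mK1) (all_append (one_of mK2) (all_append (one_of mK3) (all_append (one_of mK4) (all_append (one_of mK5) (all_append (one_of mK6) (one_of mK7))))))))

theorem mL0 : ∀ e ∈ [0, 1, 2].map fun i => (subst BW (ONP.hdefs.getD i []), cv.getD (4 + i) []),
    wval Y e.1 = wval Y e.2 := eq_of (by decide +kernel)

theorem mL1 : ∀ e ∈ [3, 4, 5].map fun i => (subst BW (ONP.hdefs.getD i []), cv.getD (4 + i) []),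
    wval Y e.1 = wval Y e.2 := eq_of (by decide +kernel)

end Cfsg.Agent.Lib.ONE
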