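import Cfsg.Agent.Lib.ONPK
import Cfsg.Agent.Lib.MatChk
import Cfsg.Agent.Lib.LinearOrders

/-! Generators and relations for a perfect central extension of `L₃(4)` by a cyclic group of
order four. -/

set_option autoImplicit false
set_option maxRecDepth 100000

namespace Cfsg.Agent.Lib.ONP

open Subgroup Cfsg.Agent.Lib.PermNet Cfsg.Agent.Lib.Words Cfsg.Agent.Lib.PermGroup Cfsg.Agent.Lib.DCE
  Cfsg.Agent.Lib.MatChk Cfsg.Agent.Lib.GF4 Cfsg.Agent.Lib.BT Matrix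

open scoped commutatorElement

/-- The matrices. -/
def ms : List Mat :=
  [[[0,0,1], [1,0,1], [0,1,0]],
   [[1,1,0], [0,0,1], [1,0,0]],
   [[0,0,1], [0,1,0], [1,1,1]],
   [[1,1,1], [0,1,0], [1,0,0]],
   [[0,0,1], [1,2,3], [2,2,2]],
   [[2,2,2], [3,2,1], [1,0,0]],
   [[1,2,2], [0,2,0], [0,2,3]],
   [[1,2,1], [0,0,3], [0,2,1]],
   [[1,0,3], [0,1,0], [0,0,1]],
   [[1,0,0], [0,1,1], [0,0,1]],
   [[1,0,1], [0,1,3], [0,0,1]],
   [[1,0,1], [0,1,1], [0,0,1]]]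

theorem hw : wf (ar4 3) ms = true := by decide +kernel

/-- The straight line program. -/
def st : List (ℕ × List ℕ × List ℕ) :=
  [(6, [], [0, 4, 4, 1, 5, 5]), (7, [], [1, 5, 0, 2, 4, 0]), (8, [], [6, 7, 6, 7, 6, 6, 7, 6, 7,
  6]), (9, [], [6, 6, 7, 7, 6, 7, 6, 7, 6, 6, 7]), (10, [], [6, 6, 7, 6, 7, 6, 7, 6, 6, 7, 6, 6,
  7, 6]), (11, [], [7, 6, 6, 7, 6, 7, 6, 7, 7, 6, 6])]

theorem hst : slp (ar4 3) ms st (List.range 6) = true := by decide +kernel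

def t0 : T :=
  (.nd (.nd (.nd (.nd (.nd (.nd .lf 1 0 0 .lf) 2 4 4 (.nd .lf 3 4 5 .lf)) 4 1 1 (.nd (.nd .lf 5 2
  2 .lf) 6 2 4 (.nd .lf 7 2 2 .lf))) 8 3 3 (.nd (.nd (.nd .lf 9 2 5 .lf) 10 2 4 (.nd .lf 11 3 2
  .lf)) 12 3 5 (.nd (.nd .lf 13 2 3 .lf) 14 3 3 (.nd .lf 15 4 2 .lf)))) 16 1 3 (.nd (.nd (.nd
  (.nd .lf 17 1 0 .lf) 18 3 4 (.nd .lf 19 3 0 .lf)) 20 2 3 (.nd (.nd .lf 21 2 0 .lf) 22 3 2 (.nd
  .lf 23 3 1 .lf))) 24 2 4 (.nd (.nd (.nd .lf 25 3 3 .lf) 26 2 1 (.nd .lf 27 3 2 .lf)) 28 3 2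
  (.nd (.nd .lf 29 3 2 .lf) 30 1 4 (.nd .lf 31 3 4 .lf))))) 32 3 0 (.nd (.nd (.nd (.nd (.nd .lf
  33 3 5 .lf) 34 3 5 (.nd .lf 35 3 0 .lf)) 36 1 5 (.nd (.nd .lf 37 2 0 .lf) 38 3 3 (.nd .lf 39 3
  2 .lf))) 40 2 5 (.nd (.nd (.nd .lf 41 3 2 .lf) 42 3 1 (.nd .lf 43 3 5 .lf)) 44 2 2 (.nd (.nd
  .lf 45 2 5 .lf) 46 3 4 (.nd .lf 47 3 0 .lf)))) 48 3 5 (.nd (.nd (.nd (.nd .lf 49 4 3 .lf) 50 3
  0 (.nd .lf 51 3 4 .lf)) 52 3 3 (.nd (.nd .lf 53 4 0 .lf) 54 2 3 (.nd .lf 55 4 0 .lf))) 56 3 3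
  (.nd (.nd (.nd .lf 57 3 3 .lf) 58 3 5 (.nd .lf 59 3 1 .lf)) 60 4 3 (.nd (.nd .lf 61 2 1 .lf) 62
  3 1 (.nd .lf 63 4 4 .lf))))))

theorem tl0 : level (ar4 3) ms [0, 1, 2, 3, 4, 5] [] 1 t0 63 = true := by decide +kernel

def t1 : T :=
  (.nd (.nd (.nd (.nd (.nd (.nd .lf 4 0 6 .lf) 5 7 6 (.nd .lf 6 8 7 .lf)) 7 5 6 (.nd (.nd .lf 8 4
  7 .lf) 9 5 7 (.nd .lf 10 5 6 .lf))) 11 4 6 (.nd (.nd (.nd .lf 12 5 7 .lf) 13 4 6 (.nd .lf 14 5
  6 .lf)) 15 4 7 (.nd (.nd .lf 16 5 6 .lf) 17 4 6 (.nd .lf 18 3 7 .lf)))) 19 7 7 (.nd (.nd (.nd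
  (.nd .lf 20 3 6 .lf) 21 7 6 (.nd .lf 22 5 7 .lf)) 23 4 7 (.nd (.nd .lf 24 2 7 .lf) 25 6 6 (.nd
  .lf 26 5 6 .lf))) 27 6 6 (.nd (.nd (.nd .lf 28 6 7 .lf) 29 5 7 (.nd .lf 30 6 7 .lf)) 31 2 6
  (.nd (.nd .lf 32 7 7 .lf) 33 4 6 .lf)))) 34 2 7 (.nd (.nd (.nd (.nd (.nd .lf 35 6 6 .lf) 36 1 7
  (.nd .lf 37 6 6 .lf)) 38 6 6 (.nd (.nd .lf 39 6 7 .lf) 40 7 6 (.nd .lf 41 4 7 .lf))) 42 2 6
  (.nd (.nd (.nd .lf 43 6 7 .lf) 44 6 7 (.nd .lf 45 6 6 .lf)) 46 1 6 (.nd (.nd .lf 47 6 7 .lf) 48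
  5 6 .lf))) 49 7 7 (.nd (.nd (.nd (.nd .lf 50 4 7 .lf) 51 3 6 (.nd .lf 52 5 6 .lf)) 53 3 7 (.nd
  (.nd .lf 54 6 6 .lf) 55 5 6 (.nd .lf 56 5 7 .lf))) 57 3 6 (.nd (.nd (.nd .lf 58 6 7 .lf) 59 5 7
  (.nd .lf 60 3 7 .lf)) 61 4 6 (.nd (.nd .lf 62 7 6 .lf) 63 5 7 .lf)))))

theorem tl1 : level (ar4 3) ms [6, 7] [1] 4 t1 60 = true := by decide +kernel

def t2 : T :=
  (.nd (.nd (.nd (.nd (.nd .lf 16 2 11 .lf) 17 0 8 .lf) 18 1 8 (.nd .lf 19 3 11 .lf)) 20 1 11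
  (.nd (.nd .lf 21 1 9 .lf) 22 2 9 (.nd .lf 23 2 11 .lf))) 24 2 10 (.nd (.nd (.nd .lf 25 2 11
  .lf) 26 3 11 (.nd .lf 27 3 10 .lf)) 28 1 10 (.nd (.nd .lf 29 3 11 .lf) 30 4 11 (.nd .lf 31 2 10
  .lf))))

theorem tl2 : level (ar4 3) ms [8, 9, 10, 11] [4, 1] 17 t2 16 = true := by decide +kernel

/-- The meaning of the codes. -/
def sm : Sem (ar4 3) K4 (Fin 3) := sem4 3 (Equiv.refl _)

/-- The special linear group. -/
abbrev S := SpecialLinearGroup (Fin 3) K4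

/-- The matrix of an element. -/
def ρ : S →* Matrix (Fin 3) (Fin 3) K4 := SpecialLinearGroup.coeMonoidHom

theorem ρ_inj : Function.Injective ρ := Subtype.val_injective

theorem rep_top : ∀ l ∈ [0, 2, 4], sm.Rep ρ ms ⊤ l := fun l hl =>
  ⟨⟨sm.mat (gm ms l), by rw [gm_eq, det_fin_three]; revert l; decide +kernel⟩, trivial, rfl⟩

/-- The generators. -/
noncomputable def f (i : ℕ) : S := sm.el ρ ms ⊤ (2 * i)

theorem hF : ∀ l < 6, ρ (lval f l) = sm.mat (gm ms l) := fun l hl => by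
  have h1 : ρ (f (l / 2)) = sm.mat (gm ms (2 * (l / 2))) :=
    sm.rho_el ρ rep_top _ ((by decide : ∀ l < 6, 2 * (l / 2) ∈ [0, 2, 4]) l hl)
  unfold lval
  split_ifs with h
  · rw [h1, show 2 * (l / 2) = l by omega]
  · have h2 := sm.mul_eq_one hw (k := 2 * (l / 2)) (l := 2 * (l / 2) + 1)
      ((by decide +kernel : ∀ i < 3, eqB (ar4 3) ms [2 * i, 2 * i + 1] [] 1 = true) (l / 2) (by omega))
    rw [show 2 * (l / 2) + 1 = l by omega, ← h1] at h2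
    rw [← mul_one (ρ _), ← h2, ← mul_assoc, ← map_mul, inv_mul_cancel, map_one, one_mul]

/-- Three choices of generators. -/
def V (k : ℕ) : List (List ℕ) := [[0], [2], [[4], [2, 4], [3, 4]].getD k []]

/-- Relators of the simple group. -/
def KQ : List (List ℕ) := [z1, z2, z3] ++ (List.range 3).flatMap fun k => KE.map (subst (V k))

theorem hf : ∀ w ∈ KQ, wval f w ∈ center S := fun w hw' => by
  have := sm.rels_center hw ρ ρ_inj (f := lval f) (kn := List.range 6)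
    (fun l hl => hF l (List.mem_range.1 hl)) (K := KQ.map (List.map (2 * ·))) (xs := [1, 2, 3])
    (by decide +kernel) _ (List.mem_map_of_mem hw')
  rwa [wval, List.map_map, show (lval (lval f) ∘ fun x => 2 * x) = lval f from
    funext fun l => by simp [lval]] at this

theorem card_S : Nat.card S = 60480 := by
  have h := LinearOrders.card_SL_mul (F := K4) (n := Fin 3)
  rw [Matrix.card_GL_field, K4.card_eq] at h
  rw [show (∏ i : Fin 3, (4 ^ 3 - 4 ^ (i : ℕ))) = 181440 by decide +kernel] at h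
  exact Nat.eq_of_mul_eq_mul_right (show 0 < 4 - 1 by norm_num) (h.trans (by norm_num))

theorem gp_top : gp f (sing 3) = ⊤ := by
  have h := sm.rep_of_slp hw ρ st (kn := List.range 6) (A := gp f (sing 3)) (fun l hl => ⟨lval f l, by
    have := List.mem_range.1 hl
    have h1 : f (l / 2) ∈ gp f (sing 3) := mem_sing f (by omega)
    unfold lval
    split_ifs
    exacts [h1, inv_mem h1], hF l (List.mem_range.1 hl)⟩) hst
  refine Subgroup.eq_top_of_le_card _ (card_S.trans_le ?_)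
  rw [← sm.fx_nil ρ (gp _ _)]
  exact (sm.le_card ρ hw (Sem.Rep.sub _ _ h (by decide)) tl0
    (sm.le_card ρ hw (Sem.Rep.sub _ _ h (by decide)) tl1
    (sm.le_card ρ hw (Sem.Rep.sub _ _ h (by decide)) tl2
    (sm.one_le ρ _))))

theorem card_P : Nat.card (S ⧸ center S) = 20160 := by
  have h := LinearOrders.card_PSL_mul (F := K4) (n := Fin 3)
  rw [card_S, K4.card_eq, Fintype.card_fin] at h
  exact Nat.eq_of_mul_eq_mul_right (show 0 < Nat.gcd 3 (4 - 1) by norm_num) (h.trans (by norm_num))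

section
variable {M : Type*} [Group M] (h4 : ∀ g ∈ center M, g ^ 4 = 1)
include h4

theorem rigid4 {a b : M} (h1 : a ^ 21 = 1) (h2 : b ^ 21 = 1) (h : a * b⁻¹ ∈ center M) : a = b := by
  have h3 : (a * b⁻¹) ^ 21 * b ^ 21 = 1 := by
    rw [← Commute.mul_pow (mem_center_iff.1 h b).symm, inv_mul_cancel_right, h1]
  rw [h2, mul_one, show 21 = 4 * 5 + 1 from rfl, pow_succ, pow_mul, h4 _ h, one_pow, one_mul] at h3
  exact mul_inv_eq_one.1 h3

/-- The orders of the generators. -/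
def o (i : ℕ) : ℕ := [7, 3, 3].getD i 0

theorem rel_of {y : ℕ → M} (y3 : ∀ i < 3, y i ^ o i = 1) (hq : ∀ w ∈ KE, wval y w ∈ center M) :
    ∀ w ∈ KE, wval y w = 1 := by
  have l3 : ∀ l < 6, wval y [l] ^ 21 = 1 := fun l hl => by
    obtain ⟨k, -, hk⟩ := (by decide : ∀ i < 3, ∃ k < 8, 21 = o i * k) (l / 2) (by omega)
    have : y (l / 2) ^ 21 = 1 := by rw [hk, pow_mul, y3 _ (by omega), one_pow]
    rw [wval_cons, wval_nil, mul_one, lval]
    split_ifs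
    · exact this
    · rw [inv_pow, this, inv_one]
  have l4 : ∀ g ∈ [0, 0] :: (List.range 6).map fun l => [l], wval y g ^ 21 = 1 :=
    List.forall_mem_cons.2 ⟨by
      rw [show [0, 0] = rep 2 [0] from rfl, wval_rep, ← pow_mul, mul_comm, pow_mul, l3 0 (by decide),
        one_pow], List.forall_mem_map.2 fun l hl => l3 l (List.mem_range.1 hl)⟩
  rw [show KE = (List.range 3).map (fun i => rep (o i) [2 * i]) ++
    RB.map (fun r => (r.1 ++ r.2.1 ++ invW r.1) ++ invW r.2.2) by decide, List.forall_mem_append,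
    List.forall_mem_map, List.forall_mem_map] at hq ⊢
  refine ⟨fun i hi => by rw [wval_rep, wval_single, y3 i (List.mem_range.1 hi)], fun r hr => ?_⟩
  obtain ⟨a1, a2⟩ := (by decide : ∀ r ∈ RB,
    r.2.1 ∈ ([0, 0] :: (List.range 6).map fun l => [l]) ∧
    r.2.2 ∈ ([0, 0] :: (List.range 6).map fun l => [l])) r hr
  have := hq.2 r hr
  rw [wval_append, wval_invW] at this ⊢
  rw [mul_inv_eq_one]
  refine rigid4 h4 ?_ (l4 _ a2) this
  rw [wval_append, wval_append, wval_invW, conj_pow, l4 _ a1]; simp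

end

theorem wz {M : Type*} [Group M] (y : ℕ → M) : wval y z1 = (y 0 * y 2) ^ 5 ∧
    wval y z2 = (y 0 * y 1 * y 2) ^ 5 ∧ wval y z3 = (y 0 * (y 1)⁻¹ * y 2) ^ 5 := by
  refine ⟨?_, ?_, ?_⟩ <;> simp [z1, z2, z3, wval, lval, pow_succ, mul_assoc]

theorem exists_lift {M : Type*} [Group M] [Finite M] (hZc : IsCyclic (center M))
    (hZ4 : Nat.card (center M) = 4) (hperf : commutator M = ⊤) {F : Type} [Field F] [Fintype F]
    (hF : Fintype.card F = 4) (e : M ⧸ center M ≃* ProjectiveSpecialLinearGroup (Fin 3) F) :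
    Nat.card M = 80640 ∧ ∃ y : ℕ → M, gp y (sing 3) = ⊤ ∧ ((∀ w ∈ K1, wval y w = 1) ∨
      (∀ w ∈ K2, wval y w = 1) ∨ ∀ w ∈ K3, wval y w = 1) := by
  obtain ⟨r⟩ := nonempty_equiv hF
  let e' : M ⧸ center M ≃* S ⧸ center S := e.trans (quotCenterCongr (LinearCongr.slCongr r))
  let π : M →* S ⧸ center S := e'.toMonoidHom.comp (QuotientGroup.mk' _)
  have hs : Function.Surjective π := e'.surjective.comp (QuotientGroup.mk'_surjective _)
  have hk : ∀ g, π g = 1 ↔ g ∈ center M := fun g =>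
    (map_eq_one_iff e' e'.injective).trans (QuotientGroup.eq_one_iff g)
  have h4 : ∀ g ∈ center M, g ^ 4 = 1 := fun g hg =>
    congrArg Subtype.val (hZ4 ▸ pow_card_eq_one' (x := (⟨g, hg⟩ : center M)))
  refine ⟨by rw [card_eq_card_quotient_mul_card_subgroup (center M), Nat.card_congr e'.toEquiv,
    card_P, hZ4], ?_⟩
  let p : ℕ → S ⧸ center S := fun i => QuotientGroup.mk' _ (f i)
  have hp : ∀ w ∈ KQ, wval p w = 1 := fun w hw => (map_wval (QuotientGroup.mk' _) f w).symm.trans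
    ((QuotientGroup.eq_one_iff _).2 (hf w hw))
  have h1 : ∀ i < 3, ∃ y : M, π y = p i ∧ y ^ o i = 1 := fun i hi => by
    obtain ⟨x, hx⟩ := hs (p i)
    obtain ⟨a1, k, -, a2⟩ := (by decide : ∀ i < 3, rep (o i) [2 * i] ∈ KQ ∧ ∃ k < 3, o i + 1 = 4 * k) i hi
    have f3 := hp _ a1
    rw [wval_rep, wval_single] at f3
    refine ⟨x ^ (o i + 1), by rw [map_pow, hx, pow_succ, f3, one_mul], ?_⟩
    rw [← pow_mul, mul_comm, pow_mul, a2, pow_mul, h4 _ ((hk _).1 (by rw [map_pow, hx, f3])), one_pow]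
  choose! y hy y3 using h1
  have hc : ∀ w ∈ KQ, wval y w ∈ center M := fun w hw => (hk _).1 ((map_wval π y w).trans
    ((wval_congr hy (by simpa using (by decide : ∀ w ∈ KQ, lt2 3 w = true) w hw)).trans (hp w hw)))
  have top : gp y (sing 3) = ⊤ := by
    have sur : ∀ g : M, ∃ x ∈ gp y (sing 3), ∃ z ∈ center M, g = z * x := fun g => by
      have : π g ∈ (gp y (sing 3)).map π := by
        rw [map_gp, gp_congr hy (by decide), ← map_gp, gp_top, map_top_of_surjective _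
          (QuotientGroup.mk'_surjective _)]
        exact mem_top _
      obtain ⟨x, hx, e⟩ := this
      exact ⟨x, hx, _, (hk (g * x⁻¹)).1 (by rw [map_mul, map_inv, e, mul_inv_cancel]), by simp⟩
    rw [eq_top_iff, ← hperf]
    refine commutator_le.2 fun g _ h _ => ?_
    obtain ⟨x, hx, z, hz, rfl⟩ := sur g
    obtain ⟨u, hu, v, hv, rfl⟩ := sur h
    have : ⁅z * x, v * u⁆ = x * u * x⁻¹ * u⁻¹ := by
      have a1 := mem_center_iff.1 hz
      have a2 := mem_center_iff.1 hv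
      calc _ = z * (x * v * u * x⁻¹) * z⁻¹ * (u⁻¹ * v⁻¹) := by rw [commutatorElement_def]; group
        _ = v * (x * u * x⁻¹ * u⁻¹) * v⁻¹ := by rw [← a1, a2 x]; group
        _ = _ := by rw [← a2]; group
    exact this ▸ mul_mem (mul_mem (mul_mem hx hu) (inv_mem hx)) (inv_mem hu)
  have hE : ∀ k < 3, ∀ w ∈ KE, wval (fun i => wval y ((V k).getD i [])) w ∈ center M :=
    fun k hk w hw => wval_subst y (V k) w ▸ hc _ (List.mem_append_right _ (List.mem_flatMap.2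
      ⟨k, List.mem_range.2 hk, List.mem_map_of_mem hw⟩))
  have r0 := rel_of h4 y3 fun w hw => hc w ((by decide : ∀ w ∈ KE, w ∈ KQ) w hw)
  have cm : Commute (y 1) (y 2) := show y 1 * y 2 = y 2 * y 1 by
    simpa [wval, lval, ← mul_assoc, mul_inv_eq_one, mul_inv_eq_iff_eq_mul] using r0 [2, 4, 3, 5] (by decide)
  have b3 : y 1 ^ 3 = 1 := y3 1 (by decide)
  have d3 : y 2 ^ 3 = 1 := y3 2 (by decide)
  have bb : y 1 * y 1 = (y 1)⁻¹ := eq_inv_of_mul_eq_one_left (by rw [← b3, pow_succ, sq])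
  have key : ∀ k < 3, ∀ u : M, wval y ((V k).getD 2 []) = u * y 2 → u ∈ zpowers (y 1) →
      ∀ n1 n2 n3, ∀ ζ : M, ζ ^ 4 = 1 → ζ ^ n1 = (y 0 * (u * y 2)) ^ 5 →
      ζ ^ n2 = (y 0 * y 1 * (u * y 2)) ^ 5 → ζ ^ n3 = (y 0 * (y 1)⁻¹ * (u * y 2)) ^ 5 →
      (n1 = 0 ∨ n2 = n3 ∨ n2 + n3 = 4) → ∃ y : ℕ → M, gp y (sing 3) = ⊤ ∧
      ((∀ w ∈ K1, wval y w = 1) ∨ (∀ w ∈ K2, wval y w = 1) ∨ ∀ w ∈ K3, wval y w = 1) := by
    intro k hk u e2 hu n1 n2 n3 ζ z4 a1 a2 a3 h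
    set x := fun i => wval y ((V k).getD i []) with hx
    have e0 : x 0 = y 0 := wval_single y 0
    have e1 : x 1 = y 1 := wval_single y 1
    have e2 : x 2 = u * y 2 := e2
    obtain ⟨j, rfl⟩ := mem_zpowers_iff.1 hu
    have r := rel_of h4 (y := x) (fun i hi => by
      interval_cases i
      · exact e0 ▸ y3 0 hi
      · exact e1 ▸ b3
      · rw [e2, (cm.zpow_left j).mul_pow, ← zpow_natCast, ← _root_.zpow_mul, mul_comm j, _root_.zpow_mul,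
          zpow_natCast]
        exact show (y 1 ^ 3) ^ j * y 2 ^ 3 = 1 by rw [b3, d3]; simp) (hE k hk)
    obtain ⟨w1, w2, w3⟩ := wz x
    rw [e0, e2] at w1 w2 w3
    rw [e1] at w2 w3
    refine ⟨x, eq_top_iff.2 (top.ge.trans (gp_le.2 fun w hw => ?_)), h.imp (fun h => ?_)
      (.imp (fun h => ?_) fun h => ?_)⟩
    · have m1 : y 1 ∈ gp x (sing 3) := e1 ▸ mem_sing x (by decide)
      obtain ⟨i, hi, rfl⟩ := (by decide : ∀ w ∈ sing 3, ∃ i < 3, w = [2 * i]) w hw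
      rw [wval_single]
      interval_cases i
      exacts [e0 ▸ mem_sing x hi, m1, ((gp x (sing 3)).mul_mem_cancel_left (zpow_mem m1 j)).1
        (e2 ▸ mem_sing x hi)]
    · exact List.forall_mem_append.2 ⟨r, List.forall_mem_singleton.2 (by rw [w1, ← a1, h, pow_zero])⟩
    · exact List.forall_mem_append.2 ⟨r, List.forall_mem_singleton.2 (by
        rw [wval_append, wval_invW, w2, w3, ← a2, ← a3, h, mul_inv_cancel])⟩
    · exact List.forall_mem_append.2 ⟨r, List.forall_mem_singleton.2 (by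
        rw [wval_append, w2, w3, ← a2, ← a3, ← pow_add, h, z4])⟩
  obtain ⟨ζ, hζ⟩ := hZc.exists_generator
  have hn : ∀ g ∈ center M, ∃ n < 4, (ζ : M) ^ n = g := fun g hg => by
    classical
    have := (mem_zpowers_iff_mem_range_orderOf (x := ζ)).1 (hζ ⟨g, hg⟩)
    rw [orderOf_eq_card_of_forall_mem_zpowers hζ, hZ4] at this
    simpa [Subtype.ext_iff] using this
  obtain ⟨w1, w2, w3⟩ := wz y
  obtain ⟨n1, a1, c1⟩ := hn _ (w1 ▸ hc z1 (by decide))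
  obtain ⟨n2, a2, c2⟩ := hn _ (w2 ▸ hc z2 (by decide))
  obtain ⟨n3, a3, c3⟩ := hn _ (w3 ▸ hc z3 (by decide))
  have z4 := h4 _ ζ.2
  rcases (by omega : (n1 = 0 ∨ n2 = n3 ∨ n2 + n3 = 4) ∨ (n2 = 0 ∨ n3 = n1 ∨ n3 + n1 = 4) ∨
    (n3 = 0 ∨ n1 = n2 ∨ n1 + n2 = 4)) with h | h | h
  · exact key 0 (by decide) 1 (by simp [V, wval, lval]) (one_mem _) _ _ _ _ z4 (by simpa using c1)
      (by simpa using c2) (by simpa using c3) h
  · exact key 1 (by decide) (y 1) (by simp [V, wval, lval]) (mem_zpowers _) _ _ _ _ z4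
      (by rw [c2, mul_assoc]) (by rw [c3, ← bb]; simp only [mul_assoc]) (by rw [c1]; simp) h
  · exact key 2 (by decide) (y 1)⁻¹ (by simp [V, wval, lval]) (inv_mem (mem_zpowers _)) _ _ _ _ z4
      (by rw [c3, mul_assoc]) (by rw [c1]; simp) (by
        rw [c2, mul_assoc (y 0) (y 1)⁻¹, ← mul_assoc (y 1)⁻¹, ← _root_.mul_inv_rev, bb, inv_inv, mul_assoc]) h

end Cfsg.Agent.Lib.ONP
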