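import Cfsg.Agent.Lib.ZStar

/-! Fusion of involutions in a group with an involution centraliser `H` that has a subgroup `M` of
index two with a central element `i` of order four. -/

set_option autoImplicit false

namespace Cfsg.Agent.Lib.ONP

open Subgroup

variable {G : Type*} [Group G]

/-- The classes of involutions of the centraliser of `t`. -/
structure Ab (t i x c : G) (M : Subgroup G) : Prop where
  le : ∀ m ∈ M, m * t = t * m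
  nor : ∀ h, h * t = t * h → ∀ m ∈ M, h * m * h⁻¹ ∈ M
  idx : ∀ g h, g * t = t * g → h * t = t * h → g ∉ M → h ∉ M → g * h ∈ M
  iM : i ∈ M
  xM : x ∈ M
  cH : c * t = t * c
  cM : c ∉ M
  i2 : i * i = t
  t2 : t * t = 1
  t1 : t ≠ 1
  ic : ∀ m ∈ M, m * i = i * m
  x2 : x * x = 1
  x1 : x ≠ 1
  xt : x ≠ t
  xZ : x ∉ zpowers i
  xxt : ∃ h ∈ M, h * x * h⁻¹ = x * t
  cls : ∀ y, y * t = t * y → y * y = 1 → ∃ h, h * t = t * h ∧ ∃ z ∈ zpowers i,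
    h * y * h⁻¹ = z ∨ h * y * h⁻¹ = x * z ∨ h * y * h⁻¹ = c * z

theorem cm_mul {a b t : G} (h1 : a * t = t * a) (h2 : b * t = t * b) : a * b * t = t * (a * b) :=
  (Commute.mul_left h1 h2).eq

theorem cm_inv {a t : G} (h : a * t = t * a) : a⁻¹ * t = t * a⁻¹ := (Commute.inv_left h).eq

theorem cm_cj {a b : G} (g : G) (h : a * b = b * a) :
    g * a * g⁻¹ * (g * b * g⁻¹) = g * b * g⁻¹ * (g * a * g⁻¹) := by rw [conj_mul, conj_mul, h]

theorem cm_back {a b g : G} (h : a * (g * b * g⁻¹) = g * b * g⁻¹ * a) :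
    g⁻¹ * a * g⁻¹⁻¹ * b = b * (g⁻¹ * a * g⁻¹⁻¹) := by
  simpa [mul_assoc] using cm_cj g⁻¹ h

theorem sq_cj {a : G} (g : G) (h : a * a = 1) : g * a * g⁻¹ * (g * a * g⁻¹) = 1 := by
  rw [conj_mul, h, mul_one, mul_inv_cancel]

namespace Ab
variable {t i x c : G} {M : Subgroup G} (A : Ab t i x c M)
include A

theorem zM {z : G} (hz : z ∈ zpowers i) : z ∈ M := zpowers_le.2 A.iM hz

theorem zc {z m : G} (hz : z ∈ zpowers i) (hm : m ∈ M) : m * z = z * m := by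
  obtain ⟨k, rfl⟩ := mem_zpowers_iff.1 hz
  exact (Commute.zpow_right (A.ic m hm) k).eq

theorem tM : t ∈ M := A.i2 ▸ M.mul_mem A.iM A.iM

theorem zq {z : G} (hz : z ∈ zpowers i) (h : z * z = 1) : z = 1 ∨ z = t := by
  obtain ⟨k, rfl⟩ := mem_zpowers_iff.1 hz
  have h2 : i ^ (2 : ℤ) = t := (zpow_two i).trans A.i2
  have h3 : t ^ (2 : ℤ) = 1 := (zpow_two t).trans A.t2
  have h4 : ∀ j : ℤ, t ^ j = 1 ∨ t ^ j = t := fun j => by
    rcases Int.even_or_odd' j with ⟨l, rfl | rfl⟩ <;> simp [zpow_add, zpow_mul, h3]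
  rcases Int.even_or_odd' k with ⟨l, rfl | rfl⟩
  · rw [zpow_mul, h2]; exact h4 l
  · rw [← zpow_add, show 2 * l + 1 + (2 * l + 1) = 2 * (2 * l + 1) by ring, zpow_mul, h2, zpow_add,
      zpow_mul, h3] at h
    exact absurd (by simpa using h) A.t1

theorem back {h y : G} (hh : h * t = t * h) (hy : h * y * h⁻¹ ∈ M) : y ∈ M := by
  simpa [mul_assoc] using A.nor _ (cm_inv hh) _ hy

theorem inner {y : G} (hy : y ∈ M) (h2 : y * y = 1) (h1 : y ≠ 1) (ht : y ≠ t) :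
    ∃ h, h * t = t * h ∧ h * y * h⁻¹ = x := by
  obtain ⟨h, hh, z, hz, e⟩ := A.cls y (A.le y hy) h2
  have s := sq_cj h h2
  rcases e with e | e | e
  · rcases A.zq hz (e ▸ s) with rfl | rfl
    · exact absurd (conj_eq_one_iff.1 e) h1
    · exact absurd (mul_left_cancel ((mul_inv_eq_iff_eq_mul.1 e).trans hh.symm)) ht
  · rw [e, mul_assoc, ← mul_assoc z, ← A.zc hz A.xM, mul_assoc, ← mul_assoc, A.x2, one_mul] at s
    rcases A.zq hz s with rfl | rfl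
    · exact ⟨h, hh, e.trans (mul_one _)⟩
    · obtain ⟨k, hk, e'⟩ := A.xxt
      exact ⟨k⁻¹ * h, cm_mul (cm_inv (A.le k hk)) hh, by
        rw [show k⁻¹ * h * y * (k⁻¹ * h)⁻¹ = k⁻¹ * (h * y * h⁻¹) * k by group, e, ← e']; group⟩
  · exact absurd ((M.mul_mem_cancel_right (A.zM hz)).1 (e ▸ A.nor h hh y hy)) A.cM

theorem outer {y : G} (hy : y * t = t * y) (hM : y ∉ M) (h2 : y * y = 1) :
    ∃ h, h * t = t * h ∧ ∃ z ∈ zpowers i, h * y * h⁻¹ = c * z := by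
  obtain ⟨h, hh, z, hz, e | e | e⟩ := A.cls y hy h2
  exacts [absurd (A.back hh (e ▸ A.zM hz)) hM,
    absurd (A.back hh (e ▸ M.mul_mem A.xM (A.zM hz))) hM, ⟨h, hh, z, hz, e⟩]

theorem sqM {h : G} (hh : h * t = t * h) : h * h ∈ M := by
  by_cases e : h ∈ M
  exacts [M.mul_mem e e, A.idx h h hh hh e e]

theorem act {h : G} (hh : h * t = t * h) (hM : h ∉ M) : h * i * h⁻¹ = c * i * c⁻¹ := by
  have := A.ic _ (A.idx c⁻¹ h (cm_inv A.cH) hh (mt M.inv_mem_iff.1 A.cM) hM)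
  calc _ = c * (c⁻¹ * h * i) * h⁻¹ := by group
    _ = _ := by rw [this]; group

theorem swap (h : IsConj t x) : ∃ n, n * t * n⁻¹ = x ∧ n * x * n⁻¹ = t := by
  obtain ⟨g, e⟩ := isConj_iff.1 h
  have h1 := A.sqM (cm_back (a := i) (b := t) (g := g) (e ▸ (A.ic x A.xM).symm))
  rw [conj_mul, A.i2] at h1
  obtain ⟨k, hk, e'⟩ := A.inner h1 (sq_cj _ A.t2) (mt conj_eq_one_iff.1 A.t1)
    fun e' => A.xt (by rw [← e]; nth_rw 1 [← e']; group)
  refine ⟨g * k⁻¹, ?_, by rw [← e']; group⟩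
  rw [mul_assoc g, cm_inv hk, ← e]; group

theorem zs [Finite G] [IsSimpleGroup G] :
    ∃ g, g * t * g⁻¹ * t = t * (g * t * g⁻¹) ∧ g * t * g⁻¹ ≠ t := by
  by_contra! h
  have h2 := ZStar.zstar G t (by rw [sq, A.t2]) fun g hg => h g hg.eq.symm
  have o2 : orderOf t = 2 := orderOf_eq_prime (by rw [sq, A.t2]) A.t1
  rcases IsSimpleGroup.eq_bot_or_eq_top_of_normal (Cfsg.pPrimeCore 2 G) inferInstance with h3 | h3
  · have h4 : (zpowers t).Normal := ⟨fun n hn g => by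
      obtain ⟨k, rfl⟩ := mem_zpowers_iff.mp hn
      have h5 := h2 g
      rw [h3, mem_bot, mul_inv_eq_one] at h5
      rw [← conj_zpow, h5]; exact hn⟩
    rcases IsSimpleGroup.eq_bot_or_eq_top_of_normal _ h4 with h5 | h5
    · exact A.t1 (zpowers_eq_bot.mp h5)
    · exact A.xZ (zpowers_le.2 (A.i2 ▸ mul_mem (mem_zpowers i) (mem_zpowers i)) (h5.ge (mem_top x)))
  · have h4 := PCoreResidual.coprime_card_pPrimeCore 2 G
    rw [h3, card_top] at h4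
    exact absurd (Nat.eq_one_of_dvd_coprimes h4 (o2 ▸ orderOf_dvd_natCard t) dvd_rfl) (by decide)

theorem cen (hc : c * i * c⁻¹ = i) {h : G} (hh : h * t = t * h) : h * i = i * h := by
  by_cases e : h ∈ M
  exacts [A.ic h e, mul_inv_eq_iff_eq_mul.1 ((A.act hh e).trans hc)]

theorem killC [Finite G] [IsSimpleGroup G] (hc : c * i * c⁻¹ = i)
    (no : ∀ j, j * t = t * j → j * j = x → ¬ ∀ q, q * x = x * q → q * j = j * q) : False := by
  have key : ∀ g q : G, q * (g * t * g⁻¹) = g * t * g⁻¹ * q →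
      q * (g * i * g⁻¹) = g * i * g⁻¹ * q := fun g q h => by
    simpa [mul_assoc] using cm_cj g (A.cen hc (cm_back h))
  obtain ⟨g, h1, h2⟩ := A.zs
  have h3 := A.sqM (key g t h1.symm).symm
  rw [conj_mul, A.i2] at h3
  obtain ⟨k, -, e⟩ := A.inner h3 (sq_cj _ A.t2) (mt conj_eq_one_iff.1 A.t1) h2
  have e' : k * g * t * (k * g)⁻¹ = x := by rw [← e]; group
  exact no _ (key (k * g) t (e' ▸ (A.le x A.xM).symm)).symm (by rw [conj_mul, A.i2, e'])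
    fun q hq => key _ q (e' ▸ hq)

theorem fus [Finite G] [IsSimpleGroup G] (hc : c * i * c⁻¹ = i⁻¹) {m j : G} (hm : m ∈ M)
    (hj : m * (c * m⁻¹ * c⁻¹) = j) (j2 : j * j = 1) (j1 : j ≠ 1) (jt : j ≠ t) : IsConj t x := by
  obtain ⟨g, h1, h2⟩ := A.zs
  by_cases h3 : g * t * g⁻¹ ∈ M
  · obtain ⟨k, -, e⟩ := A.inner h3 (sq_cj _ A.t2) (mt conj_eq_one_iff.1 A.t1) h2
    exact isConj_iff.2 ⟨k * g, by rw [← e]; group⟩
  obtain ⟨k, hk, z, hz, e⟩ := A.outer h1 h3 (sq_cj _ A.t2)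
  have e' : k * g * t * (k * g)⁻¹ = c * z := by rw [← e]; group
  generalize k * g = g at e'
  have jM : j ∈ M := hj ▸ M.mul_mem hm (A.nor c A.cH _ (M.inv_mem hm))
  have key : ∀ v u : G, v * v = 1 → u * (c * z) * u⁻¹ = v * (c * z) →
      g⁻¹ * v * g⁻¹⁻¹ * t = t * (g⁻¹ * v * g⁻¹⁻¹) ∧
      (v ∈ M → v ≠ 1 → g⁻¹ * v * g⁻¹⁻¹ ∈ M → IsConj t x) := fun v u v2 e1 => by
    have s1 : c * z * (c * z) = 1 := e' ▸ sq_cj g A.t2
    have s2 := sq_cj u s1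
    rw [e1] at s2
    have c1 : v * (c * z) = c * z * v := by
      rw [eq_inv_of_mul_eq_one_left s2, mul_inv_rev, inv_eq_of_mul_eq_one_left s1,
        inv_eq_of_mul_eq_one_left v2]
    refine ⟨cm_back (e' ▸ c1), fun vM v1 h => ?_⟩
    have e2 : g⁻¹ * v * g⁻¹⁻¹ * t = g⁻¹ * u * g * t * (g⁻¹ * u * g)⁻¹ := by
      calc _ = g⁻¹ * (v * (g * t * g⁻¹)) * g := by group
        _ = _ := by rw [e', ← e1, ← e']; group
    obtain ⟨l, -, e3⟩ := A.inner (M.mul_mem h A.tM) (e2 ▸ sq_cj _ A.t2)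
      (e2 ▸ mt conj_eq_one_iff.1 A.t1) fun e => v1 (conj_eq_one_iff.1 (mul_eq_right.1 e))
    exact isConj_iff.2 ⟨l * (g⁻¹ * u * g), by rw [← e3, e2]; group⟩
  have a1 : i * (c * z) * i⁻¹ = t * (c * z) := by
    rw [← A.i2, mul_assoc i, mul_assoc c, ← A.zc hz (M.inv_mem A.iM)]
    calc _ = i * (c * i * c⁻¹)⁻¹ * (c * z) := by group
      _ = _ := by rw [hc, inv_inv]
  have a2 : m * (c * z) * m⁻¹ = j * (c * z) := by
    rw [← hj, mul_assoc m, mul_assoc c, ← A.zc hz (M.inv_mem hm)]; group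
  have k1 := key t i A.t2 a1
  have k2 := key j m j2 a2
  have k3 := key (j * t) (i * m) (by
      rw [mul_assoc, ← mul_assoc t, ← A.le j jM, mul_assoc, A.t2, mul_one, j2]) (by
    calc _ = i * (m * (c * z) * m⁻¹) * i⁻¹ := by group
      _ = j * (i * (c * z) * i⁻¹) := by rw [a2, ← mul_assoc i, ← A.ic j jM]; group
      _ = _ := by rw [a1, ← mul_assoc])
  by_contra hn
  refine hn (k3.2 (M.mul_mem jM A.tM) (fun e => jt ?_) ?_)
  · rw [eq_inv_of_mul_eq_one_left e, inv_eq_of_mul_eq_one_left A.t2]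
  · rw [← conj_mul]
    exact A.idx _ _ k2.1 k1.1 (fun h => hn (k2.2 jM j1 h)) fun h => hn (k1.2 A.tM A.t1 h)

variable (hc : c * i * c⁻¹ = i⁻¹) {n : G} (n1 : n * t * n⁻¹ = x) (n2 : n * x * n⁻¹ = t)
include hc n1

theorem jn {q : G} (h : q * x = x * q) : q * (n * i * n⁻¹) * q⁻¹ = n * i * n⁻¹ ∨
    n⁻¹ * q * n⁻¹⁻¹ ∉ M ∧ q * (n * i * n⁻¹) * q⁻¹ = (n * i * n⁻¹)⁻¹ := by
  by_cases e : n⁻¹ * q * n⁻¹⁻¹ ∈ M
  · exact .inl (mul_inv_eq_iff_eq_mul.2 (by simpa [mul_assoc] using cm_cj n (A.ic _ e)))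
  · refine .inr ⟨e, ?_⟩
    rw [conj_inv, ← hc, ← A.act (cm_back (n1 ▸ h)) e]; group

include n2

theorem jM : n * i * n⁻¹ ∈ M ∧ n * i * n⁻¹ * (n * i * n⁻¹) = x := by
  have j2 : n * i * n⁻¹ * (n * i * n⁻¹) = x := by rw [conj_mul, A.i2, n1]
  refine ⟨by_contra fun h => ?_, j2⟩
  have e := mul_inv_eq_iff_eq_mul.1 ((A.act (n2 ▸ (cm_cj n (A.ic x A.xM)).symm) h).trans hc)
  have := A.jn hc n1 (A.ic x A.xM).symm
  generalize n * i * n⁻¹ = j at *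
  rcases this with e1 | ⟨-, e1⟩
  · rw [← mul_inv_eq_iff_eq_mul.1 e1, mul_left_inj] at e
    exact A.t1 (by rw [← A.i2]; nth_rw 1 [e]; exact inv_mul_cancel i)
  · refine A.xt ?_
    have e2 : j = i * j * i := by rw [mul_assoc, e]; group
    rw [← j2, ← A.i2]
    nth_rw 2 [e2]
    rw [mul_inv_eq_iff_eq_mul.1 e1]; group

theorem outI {y : G} (y2 : y * y = 1) (yM : y ∈ M) (yx : y * x = x * y)
    (yj : y * (n * i * n⁻¹) ≠ n * i * n⁻¹ * y) : c * c = 1 ∧ ∃ k, k * t = t * k ∧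
      k * c * k⁻¹ * c⁻¹ ∈ zpowers i ∧ k * k ∉ zpowers i ∧ k * k * (k * k) = 1 := by
  have nz : ∀ h, h * t = t * h → ∀ z ∈ zpowers i, h * z * h⁻¹ ∈ zpowers i := fun h hh z hz => by
    obtain ⟨k, rfl⟩ := mem_zpowers_iff.1 hz
    rw [← conj_zpow]
    refine zpow_mem ?_ k
    by_cases e : h ∈ M
    · rw [A.ic h e, mul_inv_cancel_right]; exact mem_zpowers i
    · rw [A.act hh e, hc]; exact inv_mem (mem_zpowers i)
  obtain ⟨h, hh, z, hz, e⟩ := A.outer (cm_back (n1 ▸ yx))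
    ((A.jn hc n1 yx).resolve_left (mt mul_inv_eq_iff_eq_mul.1 yj)).1 (sq_cj _ y2)
  have s := sq_cj h (sq_cj n⁻¹ y2)
  have kH := cm_mul (cm_mul hh (cm_back (a := i) (b := t) (g := n) (n1 ▸ (A.ic x A.xM).symm)))
    (cm_inv hh)
  have kc := cm_cj h (cm_cj n⁻¹ (A.ic y yM))
  have k2 : h * (n⁻¹ * i * n⁻¹⁻¹) * h⁻¹ * (h * (n⁻¹ * i * n⁻¹⁻¹) * h⁻¹) = h * x * h⁻¹ := by
    rw [conj_mul, conj_mul, A.i2, ← n2]; group
  rw [e] at s kc
  refine ⟨?_, _, kH, ?_, k2 ▸ fun h' => A.xZ ?_, k2 ▸ sq_cj h A.x2⟩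
  · obtain ⟨k, rfl⟩ := mem_zpowers_iff.1 hz
    have : c * i ^ k * c⁻¹ = (i ^ k)⁻¹ := by rw [← conj_zpow, hc, inv_zpow]
    have e1 := sq_cj c⁻¹ s
    rw [← e1, show c⁻¹ * (c * i ^ k) * c⁻¹⁻¹ * (c⁻¹ * (c * i ^ k) * c⁻¹⁻¹) =
      i ^ k * (c * i ^ k * c⁻¹) * (c * c) by group, this, mul_inv_cancel, one_mul]
  · generalize h * (n⁻¹ * i * n⁻¹⁻¹) * h⁻¹ = k at *
    have := nz c A.cH _ (mul_mem hz (nz k kH _ (inv_mem hz)))
    rwa [show c * (z * (k * z⁻¹ * k⁻¹)) * c⁻¹ = c * z * k * z⁻¹ * k⁻¹ * c⁻¹ by group, kc,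
      show k * (c * z) * z⁻¹ * k⁻¹ * c⁻¹ = k * c * k⁻¹ * c⁻¹ by group] at this
  · simpa [mul_assoc] using nz _ (cm_inv hh) _ h'

end Ab

end Cfsg.Agent.Lib.ONP
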