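import Cfsg.Agent.Lib.BT7
import Cfsg.Agent.Lib.ONPB

/-! Checks for the amalgam of two involution centralisers that are interchanged by an element. -/

set_option autoImplicit false

namespace Cfsg.Agent.Lib.ONP

open Subgroup Cfsg.Agent.Lib.PermNet Cfsg.Agent.Lib.Words Cfsg.Agent.Lib.PermGroup Cfsg.Agent.Lib.DCE
  Cfsg.Agent.Lib.BT

/-- A product that normalises the common centraliser but does not act like one of its elements. -/
structure Kl where
  vs : List (List ℕ)
  cs : List (List ℕ)
  sz : List (List ℕ × List ℕ)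
  sy : List (List ℕ × List ℕ)
  ks : List (List ℕ × List (List ℕ × List ℕ) × List ℕ)
  xs : List (List ℕ)
  ys : List (List ℕ)
  ts : List Tst

section defs
variable (wb mask : ℕ) (tt : TT) (B : List ℕ)

noncomputable def klB (N : ℕ) (ch : List Lv) (z y : List ℕ) (us : List (List ℕ)) (k : Kl) : Bool :=
  band (solveB wb mask tt N 500 B (fun _ => true) ch 1 [] k.xs k.ys (prEq 500 k.xs k.ys ++ []) [] []
      (fun _ => false) id k.ts .nil)
    (band (allL (actB wb mask tt B us k.vs k.cs) ((z, k.sz, z) :: (y, k.sy, y) :: k.ks))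
      (band (eqLL (k.ks.map (·.1)) k.xs) (band (eqLL (k.ks.map (·.2.2)) k.ys)
        ((k.xs ++ k.ys).all (lt2 500)))))

/-- Generation by conjugates of `k` that belong to conjugates of `a` already found. -/
noncomputable def cenB (a k goal p : List ℕ) : List (List ℕ × List ℕ) → List (List ℕ) → Bool
  | [], Kn => fixW wb mask tt B (goal ++ invW (subst Kn p))
  | e :: r, Kn => band (fixW wb mask tt B ((e.1 ++ a ++ invW e.1) ++ invW (subst Kn e.2)))
      (cenB a k goal p r ((e.1 ++ k ++ invW e.1) :: Kn))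

/-- A relator lies in one of the two centralisers or is the commutator of letters `1` and `4`. -/
noncomputable def relB (U U' : List (List ℕ)) (w : List ℕ) : Bool :=
  bif' (allL (okL [0, 1, 2, 3, 5, 6]) w) (fixW wb mask tt B (subst U w))
    (bif' (allL (okL [0, 2, 3, 4, 5, 6]) w) (fixW wb mask tt B (subst U' w))
      (memLL [[2, 8, 2, 8], [8, 2, 8, 2]] w))

end defs

variable {G : Type*} [Group G] {F : ℕ → G} {H : Subgroup G} {N wb mask : ℕ} {tt : TT}
  {B : List ℕ} {T : ℕ} (M : Model F H ⊥ N wb mask tt B T)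

theorem kill {M : Model F H ⊥ N wb mask tt B T} {ch : List Lv} {z y : List ℕ} (S : M.SC ch z y)
    {us : List (List ℕ)} {L : List Kl} (h : allL (klB wb mask tt B N ch z y us) L = true) {t : G}
    {vs : List (List ℕ)} (hv : vs ∈ L.map Kl.vs) : ¬ Cj t F us vs := fun C => by
  obtain ⟨k, hk, rfl⟩ := List.mem_map.1 hv
  obtain ⟨h1, h2⟩ := band_eq (allL_all h k hk)
  obtain ⟨u, hu, -⟩ := S.power C _ _ _ _ h1 h2
  cases hu

theorem subst_mem {K : Subgroup G} {Kn : List (List ℕ)} (h : ∀ w ∈ Kn, wval F w ∈ K) (p : List ℕ) :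
    wval F (subst Kn p) ∈ K := by
  rw [wval_subst]
  refine wval_mem fun l _ => ?_
  rw [← getW_eq]
  rcases getW_mem_or Kn (l / 2) with e | e
  exacts [h _ e, e ▸ K.one_mem]

include M in
theorem cen_sound {K : Subgroup G} {a k goal p : List ℕ} (hK : ∀ u ∈ H, u * wval F a * u⁻¹ ∈ K →
    u * wval F k * u⁻¹ ∈ K) (st : List (List ℕ × List ℕ)) (Kn : List (List ℕ))
    (h1 : ∀ w ∈ Kn, wval F w ∈ K) (h : cenB wb mask tt B a k goal p st Kn = true) :
    wval F goal ∈ K := by
  induction st generalizing Kn with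
  | nil => exact M.eq _ _ h ▸ subst_mem h1 p
  | cons e r ih =>
    refine ih _ (List.forall_mem_cons.2 ⟨?_, h1⟩) (band_eq h).2
    rw [wval_append, wval_append, wval_invW]
    exact hK _ (M.mem _) (M.cj _ _ _ (band_eq h).1 ▸ subst_mem h1 _)

theorem wval_okL {y z : ℕ → G} {L w : List ℕ} (h : ∀ i ∈ L, y i = z i) (hw : allL (okL L) w = true) :
    wval y w = wval z w := by
  induction w with
  | nil => rfl
  | cons l w ih =>
    have := memL_mem (band_eq hw).1
    rw [show Nat.shiftRight l (nat_lit 1) = l / 2 from Nat.shiftRight_one l] at this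
    rw [wval_cons, wval_cons, ih (band_eq hw).2, lval, lval, h _ this]

/-- The seven generators. -/
def Yn (n : G) (F : ℕ → G) (U : List (List ℕ)) : ℕ → G :=
  Function.update (fun i => wval F (U.getD i [])) 4 (n * wval F (U.getD 1 []) * n⁻¹)

variable {n : G} {a b c d f g g' k i : List ℕ}
  (C : Cj n F [f, d, c, a, g', k] [a, c, d, f, g, i])
include C

theorem Yn_cj : ∀ j ∈ [0, 2, 3, 4, 5, 6], Yn n F [a, b, c, d, [], f, g] j =
    n * wval F ([f, [], d, c, b, a, g'].getD j []) * n⁻¹ := by
  simp only [List.forall_mem_cons]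
  exact ⟨(mul_inv_eq_iff_eq_mul.2 (C 0)).symm, (mul_inv_eq_iff_eq_mul.2 (C 1)).symm,
    (mul_inv_eq_iff_eq_mul.2 (C 2)).symm, rfl, (mul_inv_eq_iff_eq_mul.2 (C 3)).symm,
    (mul_inv_eq_iff_eq_mul.2 (C 4)).symm, by simp⟩

include M

theorem rels (hH : ∀ x, x * wval F f = wval F f * x → x * x * wval F i = wval F i * (x * x))
    (p : List ℕ) (st : List (List ℕ × List ℕ)) {K : List (List ℕ)}
    (h : (band (cenB wb mask tt B a k b p st [a, c]) (band (allL (fixW wb mask tt B)
      [rep 3 (a ++ b), b ++ b, ((a ++ b) ++ f) ++ invW (f ++ (a ++ b)),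
        ((a ++ b) ++ d) ++ invW (d ++ (a ++ b)), (b ++ f) ++ invW (f ++ b)])
      (allL (relB wb mask tt B [a, b, c, d, [], f, g] [f, [], d, c, b, a, g']) K))) = true) :
    ∀ w ∈ K, wval (Yn n F [a, b, c, d, [], f, g]) w = 1 := by
  obtain ⟨h1, h⟩ := band_eq h
  obtain ⟨h2, h3⟩ := band_eq h
  have r3 := M.pow _ 3 (allL_all h2 _ List.mem_cons_self)
  have b2 := M.one (b ++ b) (allL_all h2 _ (by simp))
  have e3 := mul_inv_eq_iff_eq_mul.2 (C 3)
  have key : ∀ {x y : G}, x * y = y * x → n⁻¹ * y * n⁻¹⁻¹ ∈ centralizer {n⁻¹ * x * n⁻¹⁻¹} :=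
    fun h => mem_centralizer_singleton_iff.2 (cm_cj _ h.symm)
  have hb := cen_sound M (K := centralizer {n⁻¹ * wval F (a ++ b) * n⁻¹⁻¹}) (fun u _ hu => by
      have h4 := hH ((n * u * n⁻¹)⁻¹ * wval F (a ++ b) * (n * u * n⁻¹)⁻¹⁻¹) (by
        have := cm_cj (n * u⁻¹) (mem_centralizer_singleton_iff.1 hu)
        rw [← show _ = wval F f from e3]
        simpa [mul_assoc] using this.symm)
      have h5 := (Commute.mul_left h4 h4).eq
      rw [conj_mul, conj_mul, ← sq (wval F (a ++ b)), ← pow_add, pow_succ _ 3, r3, one_mul,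
        ← show _ = wval F i from mul_inv_eq_iff_eq_mul.2 (C 5)] at h5
      rw [mem_centralizer_singleton_iff]
      simpa [mul_assoc] using (cm_cj (u * n⁻¹) h5).symm) st _ (by
      have a1 := key (M.comm (a ++ b) f (allL_all h2 _ (by simp)))
      have a2 := key (M.comm (a ++ b) d (allL_all h2 _ (by simp)))
      rw [← show _ = wval F f from e3] at a1
      rw [← show _ = wval F d from mul_inv_eq_iff_eq_mul.2 (C 2)] at a2
      exact List.forall_mem_cons.2 ⟨by simpa [mul_assoc] using a1,
        List.forall_mem_singleton.2 (by simpa [mul_assoc] using a2)⟩) h1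
  have eb : Commute (n * wval F b * n⁻¹) (wval F b) := by
    have a1 : Commute (n * wval F b * n⁻¹) (wval F a * wval F b) := by
      have := cm_cj n (mem_centralizer_singleton_iff.1 hb)
      rw [wval_append] at this
      exact show _ * _ = _ * _ by simpa [mul_assoc] using this
    have a2 : Commute (n * wval F b * n⁻¹) (wval F a) :=
      (show _ = wval F a from mul_inv_eq_iff_eq_mul.2 (C 0)) ▸
        cm_cj n (M.comm b f (allL_all h2 _ (by simp)))
    simpa using a2.inv_right.mul_right a1
  rw [wval_append] at b2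
  intro w hw
  have := allL_all h3 w hw
  unfold relB at this
  cases c1 : allL (okL [0, 1, 2, 3, 5, 6]) w <;> rw [c1] at this
  · cases c2 : allL (okL [0, 2, 3, 4, 5, 6]) w <;> rw [c2] at this
    · have e1 : Yn n F [a, b, c, d, [], f, g] 1 = wval F b := rfl
      have e4 : Yn n F [a, b, c, d, [], f, g] 4 = n * wval F b * n⁻¹ := rfl
      have s := sq_cj n b2
      rcases List.mem_pair.1 (memLL_mem this) with rfl | rfl <;>
        simp only [wval_cons, wval_nil, lval, Nat.reduceMod, Nat.reduceDiv, if_true, e1, e4, mul_one]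
      · generalize n * wval F b * n⁻¹ = e at eb s
        rw [← mul_assoc e, eb.eq, mul_assoc, s, mul_one, b2]
      · generalize n * wval F b * n⁻¹ = e at eb s
        rw [← mul_assoc (wval F b), ← eb.eq, mul_assoc, b2, mul_one, s]
    · rw [wval_okL (Yn_cj C) c2]
      refine Eq.trans (map_wval (MulAut.conj n).toMonoidHom _ w).symm ?_
      rw [← wval_subst, M.one _ this, map_one]
  · rw [wval_okL (z := fun j => wval F ([a, b, c, d, [], f, g].getD j [])) (fun j hj =>
      Function.update_of_ne (by rintro rfl; simp at hj) _ _) c1, ← wval_subst, M.one _ this]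

end Cfsg.Agent.Lib.ONP
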