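import Cfsg.Agent.Lib.ONPA
import Cfsg.Agent.Lib.ONPB
import Cfsg.Agent.Lib.ONPCu
import Cfsg.Agent.Lib.ONPCv
import Cfsg.Agent.Lib.ONPCx
import Cfsg.Agent.Lib.SuzG1

/-! The involution centraliser of a simple group of O'Nan type. -/

set_option autoImplicit false
set_option maxRecDepth 100000

namespace Cfsg.Agent.Lib.ONP

open Subgroup Cfsg.Agent.Lib.PermNet Cfsg.Agent.Lib.Words Cfsg.Agent.Lib.PermGroup Cfsg.Agent.Lib.DCE
  Cfsg.Agent.Lib.BT

universe u

variable {G : Type u} [Group G]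

/-- A model of a quotient from a presentation. -/
theorem qmodel {f : ℕ → G} {H Z : Subgroup G} {n0 N wb mask m idT T : ℕ} {th : TT}
    {defs : List (List ℕ)} {ch : List Lv} (D : TM n0 N wb mask m idT T th defs ch)
    (hH : gp f (sing n0) = H) [(Z.subgroupOf H).Normal] {K : List (List ℕ)}
    (hK : ∀ w ∈ K, wval f w ∈ Z) (hl : K.all (lt2 n0) = true)
    (hn : ∀ w ∈ K, wval (tp N wb mask (tabs m th idT)) w = 1)
    (hub : ∀ z : ℕ → (H ⧸ Z.subgroupOf H) × Equiv.Perm ℕ, (∀ w ∈ K, wval z w = 1) →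
      Nat.card (gp z (sing n0)) ≠ 0 ∧ Nat.card (gp z (sing n0)) ≤ T)
    (hT : T ≤ Nat.card (H ⧸ Z.subgroupOf H)) :
    Nonempty (Model (ext f n0 defs) H Z N wb mask (tabs m th idT) (ch.map Lv.b) T) := by
  have h0 := D.h0
  simp only [Bool.and_eq_true, decide_eq_true_eq] at h0
  let y : ℕ → H := fun i => if h : i < n0 then ⟨f i, hH ▸ mem_sing f h⟩ else 1
  have hy : ∀ i < n0, (y i : G) = f i := fun i hi => by simp [y, hi]
  let q := QuotientGroup.mk' (Z.subgroupOf H)
  have hs : Function.Surjective q := QuotientGroup.mk'_surjective _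
  have t1 : gp y (sing n0) = ⊤ := by
    apply map_injective H.subtype_injective
    rw [map_gp, ← MonoidHom.range_eq_map, range_subtype]
    exact (gp_congr hy (by simp [sing])).trans hH
  obtain ⟨M⟩ := D.fmodel (f := fun i => q (y i)) (H := ⊤)
    (by rw [← map_gp, t1, map_top_of_surjective _ hs]) (fun w hw => by
      rw [← map_wval]
      refine (QuotientGroup.eq_one_iff _).2 (mem_subgroupOf.2 ?_)
      have e : ((wval y w : H) : G) = wval f w := (map_wval H.subtype y w).trans (wval_congr hy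
        (by simpa using List.all_eq_true.1 hl w hw))
      exact e ▸ hK w hw) hn hub (by rwa [card_top])
  let r := q.codRestrict ⊤ fun _ => mem_top _
  have hr : ∀ i, r (ext y n0 defs i) = M.y i := fun i => Subtype.ext ((map_ext' q y _
    (fun i hi => (ext_of_lt (fun i => q (y i)) defs hi).symm) (ext_rels _ n0 defs h0.1.1) h0.1.1
    (fun i hi => ext_out _ hi) i).trans (M.hy i).symm)
  refine ⟨⟨M.π.comp r, ext y n0 defs, map_ext' H.subtype y _ (fun i hi => by
      rw [ext_of_lt _ _ hi]; exact hy i hi) (ext_rels f n0 defs h0.1.1) h0.1.1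
      (fun i hi => ext_out _ hi), fun l p hp => ?_, fun g => M.lt _, fun g => M.faith _, M.hB,
    fun g => (M.ker _).trans (mem_bot.trans (QuotientGroup.eq_one_iff g)), ?_⟩⟩
  · rw [MonoidHom.comp_apply, map_lval r, funext hr]
    exact M.good l p hp
  · rw [MonoidHom.range_comp, (MonoidHom.range_eq_top (f := r)).2
      (fun x => (hs x.1).imp fun _ h => Subtype.ext h),
      ← MonoidHom.range_eq_map]
    exact M.card

/-- The hypotheses on the centraliser of `t`. -/
structure St (t : G) (M : Subgroup G) : Prop where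
  le : ∀ m ∈ M, m * t = t * m
  nor : ∀ h, h * t = t * h → ∀ m ∈ M, h * m * h⁻¹ ∈ M
  idx : ∀ g h, g * t = t * g → h * t = t * h → g ∉ M → h ∉ M → g * h ∈ M
  t2 : t * t = 1
  t1 : t ≠ 1
  ex : ∃ c, c * t = t * c ∧ c ∉ M
  card : Nat.card M = 80640
  cardH : Nat.card (centralizer ({t} : Set G)) = 161280
  hout : ∀ g, g * t = t * g → (∀ m ∈ M, m * g = g * m) → g ∈ M
  cen : Nat.card (center M) = 4

/-- The commutator of two words. -/
abbrev cw (u v : List ℕ) : List ℕ := (u ++ v) ++ invW (v ++ u)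

def rA (k : ℕ) : List ℕ := rep ([0, 2, 1, 1, 2, 0].getD k 0) [2]

def eA (k : ℕ) : ℕ := [0, 0, 1, 0, 1, 1].getD k 0

/-- Relations in both covering groups. -/
def RM : List (List ℕ) := KE ++ [rep 7 [0], rep 4 z2, xw ++ xw, ([2] ++ [0] ++ invW [2]) ++ invW [0, 0],
  (wt ++ xw ++ invW wt) ++ invW (xw ++ (z2 ++ z2)), cw [4] [2], [2, 2, 2]] ++
  (List.range 3).map (fun j => cw [2 * j] z1) ++ (List.range 3).map (fun j => cw [2 * j] z2) ++
  (List.range 6).map (fun k => (rA k ++ rep (k + 1) [0] ++ invW (rA k)) ++ invW [eA k]) ++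
  qs.map (cw · xw) ++ pat.map (subst [[4], [0], [2]])

/-- Non-relations in both covering groups. -/
def NM : List (List ℕ) := [[0], xw, z2 ++ z2, xw ++ invW (z2 ++ z2), cw [0] xw]

/-- A search in the whole group. -/
def Sr (N wb mask : ℕ) (tt : TT) (B : List ℕ) (T : ℕ) (xs ys eqs neqs : List (List ℕ))
    (okU : List ℕ → Bool) (mk : List ℕ → List ℕ) : Prop :=
  ∃ ch ts ct, band (chB wb mask tt N (fun _ => true) ch [])
    (decide (T ≤ (ch.map fun l => l.T.length).prod)) = true ∧
    solveB wb mask tt N 500 B (fun _ => true) ch 0 [] xs ys (prEq 500 xs ys ++ eqs) neqs [] okU mk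
      ts ct = true

theorem Sr.find {F : ℕ → G} {H Z : Subgroup G} {N wb mask : ℕ} {tt : TT} {B : List ℕ} {T : ℕ}
    {xs ys eqs neqs : List (List ℕ)} {okU : List ℕ → Bool} {mk : List ℕ → List ℕ}
    (h : Sr N wb mask tt B T xs ys eqs neqs okU mk) (D : Model F H Z N wb mask tt B T)
    (h0 : (xs ++ ys).all (lt2 500) = true) {c : G} (hc : c ∈ H)
    (h1 : List.Forall₂ (fun x y => c * wval F x * c⁻¹ * (wval F y)⁻¹ ∈ Z) xs ys)
    (h2 : ∀ u ∈ eqs, wval (Function.update F 500 c) u ∈ Z)
    (h3 : ∀ u ∈ neqs, wval (Function.update F 500 c) u ∉ Z) :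
    ∃ u, okU u = true ∧ ∃ z ∈ Z, c = wval F (mk u) * z := by
  obtain ⟨ch, ts, ct, a, b⟩ := h
  exact D.find (D.ch_top ch a) b h0 hc (by simp) h1 h2 h3

theorem sq_upd (F : ℕ → G) (c : G) {w : List ℕ} (h : lt2 500 w = true) :
    wval (Function.update F 500 c) ([1000, 1000] ++ invW w) = c * c * (wval F w)⁻¹ := by
  rw [wval_append, wval_invW, wval_upd c h, wval_cons, wval_cons, lval_upd (nv := 500), wval_nil,
    mul_one]

/-- The checks in a model of a covering group. -/
structure MD (N wb mask : ℕ) (tt : TT) (B : List ℕ) : Prop where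
  r : allL (fixW wb mask tt B) RM = true
  n : allL (fun w => bnot (fixW wb mask tt B w)) NM = true
  s1 : Sr N wb mask tt B 80640 [[0]] [[0, 0]] [[1000, 1000, 1000]] [] (allL (okL [0]))
    fun u => u ++ [2] ++ invW u
  s2 : ∀ e < 2, Sr N wb mask tt B 80640 [[2]] [[2]] (pat.map (subst [[2 * 500], [e], [2]])) []
    (memLL [[4], [5]]) id

theorem uMD : MD (nat_lit 480) (nat_lit 9) (nat_lit 511) utt (uch.map Lv.b) :=
  ⟨by decide +kernel, by decide +kernel, ⟨_, _, _, ucha_top, s_u1⟩, fun e he => by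
    interval_cases e
    exacts [⟨_, _, _, uchb_top, s_u20⟩, ⟨_, _, _, uchb_top, s_u21⟩]⟩

theorem vMD : MD (nat_lit 224) (nat_lit 8) (nat_lit 255) vtt (vch.map Lv.b) :=
  ⟨by decide +kernel, by decide +kernel, ⟨_, _, _, vcha_top, s_v1⟩, fun e he => by
    interval_cases e
    exacts [⟨_, _, _, vchb_top, s_v20⟩, ⟨_, _, _, vchb_top, s_v21⟩]⟩

/-- The element acts on the generators by the words `W`. -/
def Act (c : G) (F : ℕ → G) (W : List (List ℕ)) : Prop := ∀ j < 3, c * F j * c⁻¹ = wval F (W.getD j [])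

section
variable [Finite G] {t : G} {M : Subgroup G} (S : St t M) {F : ℕ → G} {N wb mask : ℕ} {tt : TT}
  {B : List ℕ} (D : Model F M ⊥ N wb mask tt B 80640) (h : MD N wb mask tt B)
  (top : gp F (sing 3) = M)

omit [Finite G] in
include top in
theorem allM {g : G} (hg : ∀ j < 3, F j * g = g * F j) : ∀ m ∈ M, m * g = g * m := fun _ hm =>
  mem_centralizer_singleton_iff.1 ((gp_le.2 fun w hw => by
    obtain ⟨j, hj, rfl⟩ := (by decide : ∀ w ∈ sing 3, ∃ j < 3, w = [2 * j]) w hw
    rw [wval_single]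
    exact mem_centralizer_singleton_iff.2 (hg j hj) : gp F (sing 3) ≤ centralizer {g}) (top.ge hm))

include S D h

theorem stepA : ∃ c, c * t = t * c ∧ c ∉ M ∧ ∃ e < 2, c * wval F [0] = wval F [e] * c := by
  obtain ⟨c, cH, cM⟩ := S.ex
  have h7 := D.pow [0] 7 (allL_all h.r _ (by decide))
  have h1 := D.ne_one [0] (allL_all h.n _ (by decide))
  obtain ⟨g, hg, e⟩ := SuzG1.sylow_conj (p := 7) (by norm_num) (by rw [S.card]; decide) (D.mem [0])
    (S.nor c cH _ (D.mem [0])) h7 h1 (by rw [conj_pow, h7]; simp) (by rwa [Ne, conj_eq_one_iff])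
  obtain ⟨k, hk, e1⟩ : ∃ k < 7, wval F [0] ^ k = g * (c * wval F [0] * c⁻¹) * g⁻¹ := by
    classical
    have := Fact.mk (show Nat.Prime 7 by norm_num)
    simpa [orderOf_eq_prime h7 h1] using
      (mem_zpowers_iff_mem_range_orderOf (x := wval F [0])).1 (e.le (mem_zpowers _))
  cases k with
  | zero => exact absurd (conj_eq_one_iff.1 (conj_eq_one_iff.1 (e1.symm.trans (pow_zero _)))) h1
  | succ k =>
    obtain ⟨a1, a2⟩ := (by decide : ∀ k < 6, eA k < 2 ∧
      (rA k ++ rep (k + 1) [0] ++ invW (rA k)) ++ invW [eA k] ∈ RM) k (by omega)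
    have e2 := D.cj _ _ _ (allL_all h.r _ a2)
    rw [wval_rep F (k + 1), e1] at e2
    have m1 := M.mul_mem (D.mem (rA k)) hg
    refine ⟨wval F (rA k) * g * c, cm_mul (S.le _ m1) cH,
      fun h' => cM ((M.mul_mem_cancel_left m1).1 h'), _, a1, ?_⟩
    rw [← e2]
    group

theorem stepB : ∃ c, c * t = t * c ∧ c ∉ M ∧ ∃ e < 2, Cj c F [[0], [2]] [[e], [2]] := by
  obtain ⟨c, cH, cM, e, he, h0⟩ := stepA S D h
  have e0 := D.cj [2] [0] [0, 0] (allL_all h.r _ (by decide))
  have e3 := D.one [2, 2, 2] (allL_all h.r _ (by decide))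
  obtain ⟨u, hu, z, hz, e1⟩ := h.s1.find D (by decide) (S.nor c cH _ (D.mem [2])) (.cons (by
      have e2 := congrArg (fun x => c * x * c⁻¹) e0
      have e4 := mul_inv_eq_iff_eq_mul.2 h0
      simp only [wval_cons, wval_nil, mul_one, ← conj_mul, conj_inv] at e2 e4 ⊢
      rw [e4] at e2
      interval_cases e
      · exact mul_inv_eq_one.2 (by rw [← e2])
      · rw [show lval F 1 = (lval F 0)⁻¹ from rfl, ← mul_inv_rev, eq_comm, inv_eq_iff_eq_inv] at e2
        exact mul_inv_eq_one.2 (by rw [e2]; group)) .nil)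
    (List.forall_mem_singleton.2 (by
      simp only [wval_cons, wval_nil, mul_one, lval_upd (nv := 500), conj_mul] at e3 ⊢
      rw [e3]; simp)) (by simp)
  have e2 := comm_word (F := F) (c := wval F [e]) [0] (by
    interval_cases e <;> simp [wval, lval]) hu
  rw [mem_bot.1 hz, mul_one, wval_append, wval_append, wval_invW] at e1
  have m1 := M.inv_mem (D.mem u)
  refine ⟨(wval F u)⁻¹ * c, cm_mul (S.le _ m1) cH, fun h' => cM ((M.mul_mem_cancel_left m1).1 h'),
    e, he, .cons ?_ (.cons ?_ .nil)⟩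
  · rw [mul_assoc, h0, ← mul_assoc, ← mul_assoc, (Commute.inv_left e2).eq]
  · rw [mul_assoc, mul_inv_eq_iff_eq_mul.1 e1]; group

include top

theorem stepC : ∃ c, c * t = t * c ∧ c ∉ M ∧ (Act c F W21 ∨ Act c F W22 ∨ Act c F W23) := by
  obtain ⟨c, cH, cM, e, he, hj⟩ := stepB S D h
  have e0 := D.comm [4] [2] (allL_all h.r _ (by decide))
  obtain ⟨u, hu, z, hz, e1⟩ := (h.s2 e he).find D (by decide) (S.nor c cH _ (D.mem [4]))
    (comm_pairs _ (List.forall_mem_singleton.2 (hj.comm [2] e0)))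
    (hj.transport [4] 500 _ (fun w hw => D.one w (allL_all h.r _
      ((by decide : ∀ w ∈ pat.map (subst [[4], [0], [2]]), w ∈ RM) w hw)))
      (by interval_cases e <;> decide)) (by simp)
  have h3 : Act c F [[e], [2], u] := fun j hj' => by
    rw [← wval_single F j]
    interval_cases j
    exacts [mul_inv_eq_iff_eq_mul.2 (hj 0), mul_inv_eq_iff_eq_mul.2 (hj 1),
      e1.trans (mul_eq_left.2 hz)]
  refine ⟨c, cH, cM, ?_⟩
  rcases List.mem_pair.1 (memLL_mem hu) with rfl | rfl <;> interval_cases e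
  · refine absurd (S.hout c cH (allM top fun j hj => (mul_inv_eq_iff_eq_mul.1 ?_).symm)) cM
    rw [h3 j hj, ← wval_single F j]
    interval_cases j <;> rfl
  exacts [.inl h3, .inr (.inl h3), .inr (.inr h3)]

omit S [Finite G] in
theorem ic : ∀ m ∈ M, m * wval F z2 = wval F z2 * m := allM top fun j hj =>
  wval_single F j ▸ D.comm _ _ (allL_all h.r _ ((by decide : ∀ j < 3, cw [2 * j] z2 ∈ RM) j hj))

omit S top [Finite G] in
theorem oi : orderOf (wval F z2) = 4 :=
  orderOf_eq_prime_pow (p := 2) (n := 1) (by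
    rw [pow_one, sq, ← wval_append]; exact D.ne_one _ (allL_all h.n _ (by decide)))
    (D.pow z2 4 (allL_all h.r _ (by decide)))

theorem cenZ {g : G} (gH : g * t = t * g) (hg : ∀ j < 3, F j * g = g * F j) :
    g ∈ zpowers (wval F z2) := by
  have e : zpowers (⟨_, D.mem z2⟩ : M) = center M := eq_of_le_of_card_ge
    (zpowers_le.2 (mem_center_iff.2 fun m => Subtype.ext (ic D h top m m.2)))
    (by rw [S.cen, Nat.card_zpowers, ← orderOf_submonoid, oi D h])
  obtain ⟨k, hk⟩ := e.ge (mem_center_iff.2 fun m => Subtype.ext (allM top hg m m.2) :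
    (⟨g, S.hout g gH (allM top hg)⟩ : M) ∈ center M)
  exact ⟨k, congrArg Subtype.val hk⟩

theorem i2 : wval F z2 * wval F z2 = t := by
  classical
  have o := oi D h
  obtain ⟨k, hk, e⟩ : ∃ k < 4, wval F z2 ^ k = t := by
    simpa [o] using mem_zpowers_iff_mem_range_orderOf.1
      (cenZ S D h top rfl fun j _ => S.le _ (D.lmem j))
  have h2 : 4 ∣ k + k := o ▸ orderOf_dvd_of_pow_eq_one (by rw [pow_add, e, S.t2])
  have h0 : k ≠ 0 := fun h0 => S.t1 (by rw [← e, h0, pow_zero])
  rw [← e, show k = 2 by omega, sq]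

omit D h [Finite G] in
theorem topH {c : G} (cH : c * t = t * c) (cM : c ∉ M) :
    gp (Function.update F 3 c) (sing 4) = centralizer {t} := by
  have h3 : gp (Function.update F 3 c) (sing 3) = M :=
    (gp_congr (n := 3) (fun _ hi => Function.update_of_ne hi.ne _ _) (by decide)).trans top
  have h4 : M ≤ gp (Function.update F 3 c) (sing 4) := h3 ▸ gp_mono (by decide)
  have h5 : c ∈ gp (Function.update F 3 c) (sing 4) := by
    simpa using mem_sing (Function.update F 3 c) (show 3 < 4 by decide)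
  refine le_antisymm (gp_le.2 fun w hw => ?_) fun g hg => ?_
  · obtain ⟨j, hj, rfl⟩ := (by decide : ∀ w ∈ sing 4, ∃ j < 4, w = [2 * j]) w hw
    rw [wval_single, mem_centralizer_singleton_iff]
    by_cases e : j = 3
    · rw [e, Function.update_self, cH]
    · exact S.le _ (h3 ▸ mem_sing _ (by omega))
  · by_cases e : g ∈ M
    · exact h4 e
    · exact (mul_mem_cancel_right h5).1
        (h4 (S.idx g c (mem_centralizer_singleton_iff.1 hg) cH e cM))

omit S D h top [Finite G] in
theorem cr_one {c : G} {W : List (List ℕ)} (hW : Act c F W) (hl : W.all (lt2 3) = true) :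
    ∀ w ∈ (cr W).take 3, wval (Function.update F 3 c) w = 1 := by
  have key : ∀ j < 3, wval (Function.update F 3 c) ([6, 2 * j, 7] ++ invW (W.getD j [])) = 1 :=
    fun j hj => by
      rw [wval_append, wval_invW, wval_upd c (w := W.getD j []) (by
        rw [← getW_eq]
        rcases getW_mem_or W j with h | h
        exacts [List.all_eq_true.1 hl _ h, by rw [h]; rfl]), ← hW j hj, mul_inv_eq_one]
      simp [wval, lval, Function.update_of_ne hj.ne, mul_assoc]
  simpa [cr] using ⟨key 0 (by decide), key 1 (by decide), key 2 (by decide)⟩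

theorem xmodel {c : G} (cH : c * t = t * c) (cM : c ∉ M) {W : List (List ℕ)} (hW : Act c F W)
    (hl : W.all (lt2 3) = true ∧ (KL ++ cr W).all (lt2 4) = true ∧
      ∀ j < 3, lt2 3 (W.getD j []) = true ∧ subst W (W.getD j []) = [2 * j])
    {N' wb' mask' m idT : ℕ} {th : TT} {defs : List (List ℕ)} {ch : List Lv}
    (T : TM 4 N' wb' mask' m idT 40320 th defs ch)
    (hn : ∀ w ∈ KL ++ cr W, wval (tp N' wb' mask' (tabs m th idT)) w = 1)
    (hub : ∀ {X : Type u} [Group X] (z : ℕ → X × Equiv.Perm ℕ), (∀ w ∈ KL ++ cr W, wval z w = 1) →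
      Nat.card (gp z (sing 4)) ≠ 0 ∧ Nat.card (gp z (sing 4)) ≤ 40320) :
    Nonempty (Model (ext (Function.update F 3 c) 4 defs) (centralizer {t}) (zpowers (wval F z2))
      N' wb' mask' (tabs m th idT) (ch.map Lv.b) 40320) := by
  have le : zpowers (wval F z2) ≤ centralizer {t} :=
    zpowers_le.2 (mem_centralizer_singleton_iff.2 (S.le _ (D.mem _)))
  have : ((zpowers (wval F z2)).subgroupOf (centralizer {t})).Normal := ⟨fun z hz g => by
    obtain ⟨k, hk⟩ := mem_zpowers_iff.1 (mem_subgroupOf.1 hz)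
    have gH := mem_centralizer_singleton_iff.1 g.2
    refine mem_subgroupOf.2 (cenZ S D h top (mem_centralizer_singleton_iff.1 (g * z * g⁻¹).2)
      fun j _ => ?_)
    have := cm_cj g.1 (Commute.zpow_right (ic D h top _ (S.nor _ (cm_inv gH) _ (D.lmem j))) k).eq
    simpa [hk, mul_assoc] using this⟩
  refine qmodel T (topH S top cH cM) (fun w hw => ?_) hl.2.1 hn hub ?_
  · rcases List.mem_append.1 hw with hw | hw
    · rw [wval_upd c ((by decide : ∀ w ∈ KL, lt2 3 w = true) w hw)]
      rcases List.mem_append.1 hw with hw | hw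
      · exact D.one w (allL_all h.r _ ((by decide : ∀ w ∈ KE, w ∈ RM) w hw)) ▸ one_mem _
      · rcases List.mem_pair.1 hw with rfl | rfl
        · exact cenZ S D h top (S.le _ (D.mem _)) fun j hj => wval_single F j ▸
            D.comm _ _ (allL_all h.r _ ((by decide : ∀ j < 3, cw [2 * j] z1 ∈ RM) j hj))
        · exact mem_zpowers _
    · rcases List.mem_append.1 (show w ∈ (cr W).take 3 ++ [[6, 6]] from hw) with hw | hw
      · exact cr_one hW hl.1 w hw ▸ one_mem _
      · rw [List.mem_singleton.1 hw, show wval (Function.update F 3 c) [6, 6] = c * c by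
          simp [wval, lval]]
        refine cenZ S D h top (cm_mul cH cH) fun j hj => (mul_inv_eq_iff_eq_mul.1 ?_).symm
        rw [show c * c * F j * (c * c)⁻¹ = c * (c * F j * c⁻¹) * c⁻¹ by group, hW j hj,
          conj_word hW (hl.2.2 j hj).1, (hl.2.2 j hj).2, wval_single]
  · have := card_eq_card_quotient_mul_card_subgroup
      ((zpowers (wval F z2)).subgroupOf (centralizer {t}))
    rw [S.cardH, Nat.card_congr (subgroupOfEquivOfLe le).toEquiv, Nat.card_zpowers, oi D h] at this
    omega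

omit S D h top [Finite G] in
theorem wx (c : G) (defs : List (List ℕ)) {w : List ℕ} (hw : lt2 3 w = true) :
    wval (ext (Function.update F 3 c) 4 defs) w = wval F w :=
  wval_congr (n := 3) (fun i hi => by rw [ext_of_lt _ _ (by omega), Function.update_of_ne hi.ne])
    (by simpa using hw)

omit S D h top [Finite G] in
theorem wc (c : G) (defs : List (List ℕ)) : wval (ext (Function.update F 3 c) 4 defs) [6] = c := by
  rw [wval_single _ 3, ext_of_lt _ _ (by decide), Function.update_self]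

theorem mkAb {c : G} (cH : c * t = t * c) (cM : c ∉ M) {N' wb' mask' : ℕ} {tt' : TT}
    {defs : List (List ℕ)} {ch : List Lv} {ts : List Tst} {ct : CT}
    (X : Model (ext (Function.update F 3 c) 4 defs) (centralizer {t}) (zpowers (wval F z2))
      N' wb' mask' tt' (ch.map Lv.b) 40320)
    (hc : chB wb' mask' tt' N' (fun _ => true) ch [] = true)
    (h1 : 40320 ≤ (ch.map fun l => l.T.length).prod ∧
      (ch.take 1).all (fun l => decide (¬ 2 ∣ l.T.length)) = true)
    (s : solveB wb' mask' tt' N' 500 (ch.map Lv.b) (fun _ => true) ch 1 [] [] []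
      (prEq 500 [] [] ++ [[1000, 1000]]) [] [] (fun u => Nat.blt (u.headD 0) 3)
      (mkC [[], xw, [6]]) ts ct = true) : Ab t (wval F z2) (wval F xw) c M := by
  have e2 := i2 S D h top
  refine ⟨S.le, S.nor, S.idx, D.mem _, D.mem _, cH, cM, e2, S.t2, S.t1, ic D h top,
    wval_append F xw xw ▸ D.one _ (allL_all h.r _ (by decide)),
    D.ne_one _ (allL_all h.n _ (by decide)),
    e2 ▸ wval_append F z2 z2 ▸ D.ne _ _ (allL_all h.n _ (by decide)), fun ⟨k, hk⟩ => ?_,
    ⟨_, D.mem wt, by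
      rw [← e2, ← wval_append F z2, ← wval_append F xw]
      exact D.cj wt xw (xw ++ (z2 ++ z2)) (allL_all h.r _ (by decide))⟩,
    fun y hy y2 => ?_⟩
  · refine D.ne ([0] ++ xw) (xw ++ [0]) (allL_all h.n _ (by decide)) ?_
    rw [wval_append, wval_append, ← hk]
    exact (Commute.zpow_right (ic D h top _ (D.mem _)) k).eq
  · have hv := mem_centralizer_singleton_iff.2 hy
    have ch' := X.ch_top ch (by rw [hc]; exact decide_eq_true h1.1)
    obtain ⟨k, -, hk⟩ := X.pfix ch' hc (j := 1) Nat.prime_two 1 h1.2 hv hv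
      (by rw [pow_one, sq, y2]; exact one_mem _)
    obtain ⟨u, hu, z, hz, e⟩ := X.find ch' s (by decide) (k * ⟨y, hv⟩ * k⁻¹).2 hk .nil
      (List.forall_mem_singleton.2 (by
        rw [wval_cons, wval_cons, lval_upd (nv := 500), wval_nil, mul_one]
        exact (sq_cj k.1 y2).symm ▸ one_mem _)) (by simp)
    rw [wval_mkC] at e
    have vH := X.mem u.tail
    generalize wval (ext (Function.update F 3 c) 4 defs) u.tail = v at e vH
    have e' : v⁻¹ * k * y * (v⁻¹ * k)⁻¹ = wval (ext (Function.update F 3 c) 4 defs)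
        ([[], xw, [6]].getD (u.headD 0) []) * (v⁻¹ * z * v⁻¹⁻¹) := by
      calc _ = v⁻¹ * (k * ⟨y, hv⟩ * k⁻¹ : centralizer {t}) * v := by simp [mul_assoc]
        _ = _ := by rw [e]; group
    obtain ⟨j, rfl⟩ := mem_zpowers_iff.1 hz
    have vH' := cm_inv (mem_centralizer_singleton_iff.1 vH)
    refine ⟨_, cm_mul vH' (mem_centralizer_singleton_iff.1 k.2), _, cenZ S D h top
      (S.le _ (S.nor _ vH' _ (M.zpow_mem (D.mem z2) j))) (fun l _ => by
        simpa [mul_assoc] using cm_cj v⁻¹ (Commute.zpow_right (ic D h top _ (S.nor _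
          (mem_centralizer_singleton_iff.1 vH) _ (D.lmem l))) j).eq), ?_⟩
    rw [e']
    have := blt_lt hu
    generalize u.headD 0 = i at this
    interval_cases i
    · exact .inl (one_mul _)
    · exact .inr (.inl (congrArg (· * _) (wx c defs (w := xw) (by decide))))
    · exact .inr (.inr (congrArg (· * _) (wc c defs)))

omit S top in
theorem killX [IsSimpleGroup G] {c : G} (A : Ab t (wval F z2) (wval F xw) c M) {W : List (List ℕ)}
    (hW : Act c F W) (e : fixW wb mask tt B (subst W z2 ++ invW z2) = true) {N' wb' mask' : ℕ}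
    {tt' : TT} {defs : List (List ℕ)} {B' : List ℕ}
    (X : Model (ext (Function.update F 3 c) 4 defs) (centralizer {t}) (zpowers (wval F z2))
      N' wb' mask' tt' B' 40320)
    (s : Sr N' wb' mask' tt' B' 40320 qs qs [[1000, 1000] ++ invW xw] [] (fun _ => false) id) :
    False := A.killC ((conj_word hW (by decide)).trans (D.eq _ _ e)) fun j jH j2 hq => by
  obtain ⟨u, hu, -⟩ := s.find X (by decide) (mem_centralizer_singleton_iff.2 jH)
    (comm_pairs _ fun q hq' => by
      obtain ⟨a1, a2⟩ := (by decide : ∀ q ∈ qs, lt2 3 q = true ∧ cw q xw ∈ RM) q hq'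
      rw [wx c defs a1]
      exact (hq _ (D.comm _ _ (allL_all h.r _ a2))).symm)
    (List.forall_mem_singleton.2 (by
      rw [sq_upd _ _ (by decide), wx c defs (by decide), j2, mul_inv_cancel]; exact one_mem _))
    (by simp)
  cases hu

omit S h top in
theorem swapX [IsSimpleGroup G] {c : G} (A : Ab t (wval F z2) (wval F xw) c M) {W : List (List ℕ)}
    (hW : Act c F W) (m : List ℕ) (e : (band (lt2 3 (invW m))
      (band (fixW wb mask tt B (subst W z2 ++ invW (invW z2)))
      (band (fixW wb mask tt B ((m ++ subst W (invW m)) ++ (m ++ subst W (invW m))))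
      (band (bnot (fixW wb mask tt B (m ++ subst W (invW m))))
      (bnot (fixW wb mask tt B ((m ++ subst W (invW m)) ++ invW (z2 ++ z2)))))))) = true) :
    c * wval F z2 * c⁻¹ = (wval F z2)⁻¹ ∧ ∃ n, n * t * n⁻¹ = wval F xw ∧ n * wval F xw * n⁻¹ = t := by
  obtain ⟨a1, e⟩ := band_eq e
  obtain ⟨a2, e⟩ := band_eq e
  obtain ⟨a3, e⟩ := band_eq e
  obtain ⟨a4, a5⟩ := band_eq e
  have hc := (conj_word hW (by decide)).trans ((D.eq _ _ a2).trans (wval_invW F z2))
  exact ⟨hc, A.swap (A.fus hc (D.mem m) (j := wval F (m ++ subst W (invW m)))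
    (by rw [wval_append, ← conj_word hW a1, wval_invW]) (wval_append F _ _ ▸ D.one _ a3)
    (D.ne_one _ a4) (A.i2 ▸ wval_append F z2 z2 ▸ D.ne _ _ a5))⟩

theorem cases [IsSimpleGroup G] :
    ∃ c, Ab t (wval F z2) (wval F xw) c M ∧ (Act c F W21 ∨
      Act c F W22 ∧ fixW wb mask tt B (subst W22 z2 ++ invW z2) ≠ true ∨
      Act c F W23 ∧ fixW wb mask tt B (subst W23 z2 ++ invW z2) ≠ true ∧ ∀ k, k * t = t * k →
        k * c * k⁻¹ * c⁻¹ ∈ zpowers (wval F z2) → k * k * (k * k) = 1 → k * k ∈ zpowers (wval F z2)) := by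
  obtain ⟨c, cH, cM, hW | hW | hW⟩ := stepC S D h top
  · obtain ⟨X⟩ := xmodel S D h top cH cM hW (by decide) xaTM xaK fun z => le21 z
    exact ⟨c, mkAb S D h top cH cM X xac (by decide +kernel) s_xai, .inl hW⟩
  · obtain ⟨X⟩ := xmodel S D h top cH cM hW (by decide) xbTM xbK fun z => le22 z
    have A := mkAb S D h top cH cM X xbc (by decide +kernel) s_xbi
    exact ⟨c, A, .inr (.inl ⟨hW, fun e => killX D h A hW e X ⟨_, _, _, xbchc_top, s_xbc⟩⟩)⟩
  · obtain ⟨X⟩ := xmodel S D h top cH cM hW (by decide) xcTM xcK fun z => le23 z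
    have A := mkAb S D h top cH cM X xcc (by decide +kernel) s_xci
    refine ⟨c, A, .inr (.inr ⟨hW, fun e => killX D h A hW e X ⟨_, _, _, xcchc_top, s_xcc⟩,
      fun k kH k1 k2 => by_contra fun k3 => ?_⟩)⟩
    obtain ⟨u, hu, -⟩ := Sr.find ⟨_, _, _, xcch4_top, s_xc4⟩ X (by decide)
      (mem_centralizer_singleton_iff.2 kH) (.cons (by rwa [wc]) .nil)
      (List.forall_mem_singleton.2 (by
        simp only [wval_cons, wval_nil, mul_one, lval_upd (nv := 500)]
        rw [← mul_assoc, k2]; exact one_mem _))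
      (List.forall_mem_singleton.2 (by
        simpa only [wval_cons, wval_nil, mul_one, lval_upd (nv := 500)] using k3))
    cases hu

end

section
variable [Finite G] [IsSimpleGroup G] {t : G} {M : Subgroup G} (S : St t M) {F : ℕ → G}
  (top : gp F (sing 3) = M)
include S top

theorem typeI (D : Model F M ⊥ (nat_lit 480) (nat_lit 9) (nat_lit 511) utt (uch.map Lv.b) 80640) :
    False := by
  obtain ⟨c, A, h⟩ := cases S D uMD top
  have : c * wval F z2 * c⁻¹ = (wval F z2)⁻¹ ∧
      ∃ n, n * t * n⁻¹ = wval F xw ∧ n * wval F xw * n⁻¹ = t := by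
    rcases h with h | h | h
    exacts [swapX D A h [0, 4, 3, 1, 4, 0, 0] (by decide +kernel),
      swapX D A h.1 [4, 0, 5, 0, 4] (by decide +kernel), absurd (by decide +kernel) h.2.1]
  obtain ⟨hc, n, n1, n2⟩ := this
  obtain ⟨j1, j2⟩ := A.jM hc n1 n2
  have j3 := fun q => A.jn hc n1 (q := q)
  generalize n * wval F z2 * n⁻¹ = j at j1 j2 j3
  obtain ⟨u, hu, e⟩ := D.find1 (D.ch_top _ uchj_top) s_uj (by decide) j1 (by simp)
    (comm_pairs _ (List.forall_mem_singleton.2 (j2 ▸ (mul_assoc _ _ _).symm)))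
    (List.forall_mem_singleton.2 (by rw [sq_upd _ _ (by decide), j2, mul_inv_cancel]; exact one_mem _))
    (by simp)
  refine Bool.noConfusion ((bnot_true hu).symm.trans (allL_of fun q hq => ?_))
  have e1 := j3 _ (D.comm q xw (allL_all uMD.r _ ((by decide : ∀ q ∈ qs, cw q xw ∈ RM) q hq)))
  rw [e, id, ← wval_invW, ← wval_invW, ← wval_append, ← wval_append] at e1
  cases h1 : fixW (nat_lit 9) (nat_lit 511) utt (uch.map Lv.b) ((q ++ u ++ invW q) ++ invW u)
  · cases h2 : fixW (nat_lit 9) (nat_lit 511) utt (uch.map Lv.b)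
      ((q ++ u ++ invW q) ++ invW (invW u))
    · exact absurd e1 (not_or.2 ⟨D.ne _ _ (by rw [h1]; rfl), fun h => D.ne _ _ (by rw [h2]; rfl) h.2⟩)
    · rfl
  · rfl

theorem typeII (D : Model F M ⊥ (nat_lit 224) (nat_lit 8) (nat_lit 255) vtt (vch.map Lv.b) 80640) :
    ∃ c, Ab t (wval F z2) (wval F xw) c M ∧ Act c F W21 ∧ c * c = 1 ∧
      c * wval F z2 * c⁻¹ = (wval F z2)⁻¹ ∧
      ∃ n, n * t * n⁻¹ = wval F xw ∧ n * wval F xw * n⁻¹ = t := by
  obtain ⟨c, A, h⟩ := cases S D vMD top
  have : c * wval F z2 * c⁻¹ = (wval F z2)⁻¹ ∧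
      ∃ n, n * t * n⁻¹ = wval F xw ∧ n * wval F xw * n⁻¹ = t := by
    rcases h with h | h | h
    exacts [swapX D A h [0, 4, 3, 1, 4, 0, 0] (by decide +kernel), absurd (by decide +kernel) h.2,
      swapX D A h.1 [4, 0, 4, 0, 0] (by decide +kernel)]
  obtain ⟨hc, n, n1, n2⟩ := this
  obtain ⟨j1, j2⟩ := A.jM hc n1 n2
  obtain ⟨y, hy, e⟩ : ∃ y ∈ ys, wval F y * (n * wval F z2 * n⁻¹) ≠ n * wval F z2 * n⁻¹ * wval F y := by
    by_contra! hn
    obtain ⟨u, hu, -⟩ := D.find1 (D.ch_top _ vchj_top) s_vj (by decide) j1 (by simp)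
      (comm_pairs _ fun y hy => (hn y hy).symm) (List.forall_mem_singleton.2 (by
        rw [sq_upd _ _ (by decide), j2, mul_inv_cancel]; exact one_mem _)) (by simp)
    cases hu
  obtain ⟨a1, a2⟩ := (by decide +kernel : ∀ y ∈ ys,
    fixW (nat_lit 8) (nat_lit 255) vtt (vch.map Lv.b) (y ++ y) = true ∧
    fixW (nat_lit 8) (nat_lit 255) vtt (vch.map Lv.b) (cw y xw) = true) y hy
  obtain ⟨c2, k, k1, k2, k3, k4⟩ := A.outI hc n1 n2 (wval_append F y y ▸ D.one _ a1) (D.mem y)
    (D.comm _ _ a2) e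
  rcases h with h | h | h
  exacts [⟨c, A, h, c2, hc, n, n1, n2⟩, absurd (by decide +kernel) h.2, absurd (h.2.2 k k1 k2 k4) k3]

end

theorem mkSt [Finite G] {t : G} (ht : orderOf t = 2) (M : Subgroup (centralizer ({t} : Set G)))
    [M.Normal] (hM : M.index = 2) (hout : centralizer (M : Set (centralizer ({t} : Set G))) ≤ M)
    (hZ4 : Nat.card (center M) = 4) (hc : Nat.card M = 80640) :
    St t (M.map (centralizer {t}).subtype) := by
  have e := M.equivMapOfInjective _ (centralizer {t}).subtype_injective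
  have key : ∀ {g : G} (h : g * t = t * g), g ∈ M.map (centralizer {t}).subtype ↔
      (⟨g, mem_centralizer_singleton_iff.2 h⟩ : centralizer {t}) ∈ M := fun h =>
    mem_map_iff_mem (f := (centralizer {t}).subtype) (centralizer {t}).subtype_injective
      (x := ⟨_, mem_centralizer_singleton_iff.2 h⟩)
  refine ⟨?_, fun h hh => ?_, fun g h gH hH h1 h2 => (key (cm_mul gH hH)).2
    ((mul_mem_iff_of_index_two hM (a := ⟨g, _⟩) (b := ⟨h, _⟩)).2
      (iff_of_false (mt (key gH).2 h1) (mt (key hH).2 h2))),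
    by rw [← sq, ← ht, pow_orderOf_eq_one], by rintro rfl; simp at ht, ?_,
    (Nat.card_congr e.toEquiv).symm.trans hc, by rw [← M.index_mul_card, hM, hc],
    fun g gH h => (key gH).2 (hout fun m hm => Subtype.ext (h m (mem_map_of_mem _ hm))),
    (Nat.card_congr (centerCongr e).toEquiv).symm.trans hZ4⟩
  · rintro _ ⟨m, -, rfl⟩
    exact mem_centralizer_singleton_iff.1 m.2
  · rintro _ ⟨m, hm, rfl⟩
    exact ⟨_, (inferInstance : M.Normal).conj_mem m hm ⟨h, mem_centralizer_singleton_iff.2 hh⟩, rfl⟩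
  · obtain ⟨c, c1⟩ : ∃ c, c ∉ M := by
      by_contra h
      rw [show M = ⊤ from eq_top_iff.2 fun g _ => not_not.1 (not_exists.1 h g), index_top] at hM
      omega
    exact ⟨c, mem_centralizer_singleton_iff.1 c.2,
      mt (key (mem_centralizer_singleton_iff.1 c.2)).1 c1⟩

/-- Generators of the centraliser of `t`, and an element that interchanges `t` with an involution
of the centraliser. -/
structure SB (t n : G) (f : ℕ → G) (M : Subgroup G) : Prop where
  top : gp f (sing 4) = centralizer {t}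
  rel : ∀ w ∈ KH, wval f w = 1
  card : Nat.card (centralizer ({t} : Set G)) = 161280
  ab : Ab t (wval f z2) (wval f xw) (f 3) M
  hc : f 3 * wval f z2 * (f 3)⁻¹ = (wval f z2)⁻¹
  n1 : n * t * n⁻¹ = wval f xw
  n2 : n * wval f xw * n⁻¹ = t

theorem exists_SB [Finite G] [IsSimpleGroup G] {t : G} (ht : orderOf t = 2)
    (M : Subgroup (centralizer ({t} : Set G))) [M.Normal] (hM : M.index = 2)
    (hout : centralizer (M : Set (centralizer ({t} : Set G))) ≤ M) (hZc : IsCyclic (center M))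
    (hZ4 : Nat.card (center M) = 4) (hperf : commutator M = ⊤) {F : Type} [Field F] [Fintype F]
    (hF : Fintype.card F = 4) (e : M ⧸ center M ≃* Matrix.ProjectiveSpecialLinearGroup (Fin 3) F) :
    ∃ n f M', SB t n f M' := by
  obtain ⟨hc, y, h1, h2⟩ := exists_lift hZc hZ4 hperf hF e
  have S := mkSt ht M hM hout hZ4 hc
  let φ := (centralizer {t}).subtype.comp M.subtype
  have top : gp (fun i => φ (y i)) (sing 3) = M.map (centralizer {t}).subtype := by
    rw [← map_gp, h1, ← map_map, ← MonoidHom.range_eq_map, range_subtype]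
  have key : ∀ {K : List (List ℕ)}, (∀ w ∈ K, wval y w = 1) → ∀ w ∈ K, wval (fun i => φ (y i)) w = 1 :=
    fun h w hw => by rw [← map_wval, h w hw, map_one]
  rcases h2 with h | h | h
  · obtain ⟨D⟩ := uTM.fmodel top (key h) uK1 (fun z => le1 z) S.card.ge
    exact (typeI S ((gp_ext _ 3 udefs _ (by decide)).trans top) D).elim
  · obtain ⟨D⟩ := vTM.fmodel top (key h) vK2 (fun z => le2 z) S.card.ge
    rw [← gp_ext _ 3 vdefs _ (by decide)] at top
    have rel : ∀ w ∈ K2, wval (ext (fun i => φ (y i)) 3 vdefs) w = 1 := fun w hw =>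
      (wval_ext _ 3 vdefs w ((by decide : ∀ w ∈ K2, lt2 3 w = true) w hw)).trans (key h w hw)
    generalize ext (fun i => φ (y i)) 3 vdefs = F at D top rel
    obtain ⟨c, A, hW, c2, hc, n, n1, n2⟩ := typeII S top D
    rw [← wval_upd (F := F) (nv := 3) c (w := xw) (by decide)] at A n1 n2
    rw [← wval_upd (F := F) (nv := 3) c (w := z2) (by decide)] at A hc
    refine ⟨n, Function.update F 3 c, _, topH S top A.cH A.cM, fun w hw => ?_, S.cardH,
      by rwa [Function.update_self], by rwa [Function.update_self], n1, n2⟩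
    rcases List.mem_append.1 hw with hw | hw
    · exact (wval_upd c ((by decide : ∀ w ∈ K2, lt2 3 w = true) w hw)).trans (rel w hw)
    · rcases List.mem_append.1 (show w ∈ (cr W21).take 3 ++ [[6, 6]] from hw) with hw | hw
      · exact cr_one hW (by decide) w hw
      · rw [List.mem_singleton.1 hw, ← c2]
        simp [wval, lval]
  · obtain ⟨D⟩ := uTM.fmodel top (key h) uK3 (fun z => le3 z) S.card.ge
    exact (typeI S ((gp_ext _ 3 udefs _ (by decide)).trans top) D).elim

end Cfsg.Agent.Lib.ONP
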