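import Cfsg.Agent.Lib.TCON3P

set_option autoImplicit false
set_option maxRecDepth 100000

namespace Cfsg.Agent.Lib.TCON3
open Cfsg.Agent.Lib.TCCore

theorem k0 : P.RowsS 0 28 := P.rowsS_of_chk _ _ [nat_lit 0x8040810040c0410000201030400004040c10000000804080404100400010301020000404040800010100018040804040001020500004040c100400010200008040c14000104020401000040c0c04050040100, nat_lit 0x80408040410080003030102000180404080001020303010000002010105010001404040400010301000041004100404000102040100014040404000101] (by decide +kernel)
theorem s0 : P.RowsS 0 28 := k0

end Cfsg.Agent.Lib.TCON3
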