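import Cfsg.Agent.Lib.TCON4P

set_option autoImplicit false
set_option maxRecDepth 100000

namespace Cfsg.Agent.Lib.TCON4
open Cfsg.Agent.Lib.TCCore

theorem k0 : P.RowsS 0 24 := P.rowsS_of_chk _ _ [nat_lit 0x1020000804000101010000400010200008040400010000404040c00010000404040001000040804000000404040400010101, nat_lit 0x80804000303000040400010201000040c000201000040400] (by decide +kernel)
theorem s0 : P.RowsS 0 24 := k0

end Cfsg.Agent.Lib.TCON4
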