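import Cfsg.Agent.Lib.TCGroup
import Cfsg.Agent.Lib.TCON4C0

set_option autoImplicit false
set_option maxRecDepth 100000

namespace Cfsg.Agent.Lib.TCON4
open Cfsg.Agent.Lib.TCCore

theorem rowsS : P.RowsS 0 P.N := s0

theorem rowsT : P.RowsT P.N P.M := Par.RowsT.empty P 24

def base : List (List Nat) := [
  [0, 0],
  [1, 1],
  [2, 2],
  [0, 1, 0, 1, 0, 1],
  [0, 2, 0, 2],
  [1, 2, 1, 2, 1, 2]]

theorem static_ok : TCGroup.static P base [0, 1, 2] 3 3 [] = true := by decide +kernel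

theorem bound {G : Type*} [Group G] (y : Nat → G) (H : Subgroup G)
    (hrel : ∀ r ∈ base, (r.map y).prod = 1) (hinv : ∀ i < 3, y (List.getD [0, 1, 2] i i) = (y i)⁻¹)
    (hsub : ∀ i ∈ ([] : List Nat), y i ∈ H) :
    H.relIndex (Subgroup.closure (y '' {i | i < 3})) ≠ 0 ∧
      H.relIndex (Subgroup.closure (y '' {i | i < 3})) ≤ 24 :=
  TCGroup.relIndex_le y 3 3 base [0, 1, 2] [] P H hrel hinv hsub static_ok rowsS rowsT

end Cfsg.Agent.Lib.TCON4
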