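import Cfsg.Agent.Lib.ONBase
import Cfsg.Agent.Lib.TCON1
import Cfsg.Agent.Lib.TCON2
import Cfsg.Agent.Lib.TCON3
import Cfsg.Agent.Lib.TCON4

/-! Upper bounds for indices and orders in the presented O'Nan group. -/

set_option autoImplicit false
set_option maxRecDepth 100000

namespace Cfsg.Agent.Lib.ONTC

open Cfsg.Agent.Lib.PermNet Cfsg.Agent.Lib.Words Cfsg.Agent.Lib.PermGroup Cfsg.Agent.Lib.ONBase

theorem b1 : (gp y [[0], [2], [4], [6], [8], [10]]).relIndex (gp y [[0], [2], [4], [6], [8], [10], [12]]) ≠ 0 ∧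
    (gp y [[0], [2], [4], [6], [8], [10]]).relIndex (gp y [[0], [2], [4], [6], [8], [10], [12]]) ≤ 122760 :=
  tc_wrap I hK [[0], [2], [4], [6], [8], [10], [12], [13]] TCON1.bound _ _ (by decide +kernel)

theorem b2 : (gp y [[0], [2], [4], [6], [10]]).relIndex (gp y [[0], [2], [4], [6], [8], [10]]) ≠ 0 ∧
    (gp y [[0], [2], [4], [6], [10]]).relIndex (gp y [[0], [2], [4], [6], [8], [10]]) ≤ 5586 :=
  tc_wrap I hK [[0], [2], [4], [6], [8], [10]] TCON2.bound _ _ (by decide +kernel)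

theorem b3 : (gp y [[0], [2], [4]]).relIndex (gp y [[0], [2], [4], [6], [10]]) ≠ 0 ∧
    (gp y [[0], [2], [4]]).relIndex (gp y [[0], [2], [4], [6], [10]]) ≤ 28 :=
  tc_wrap I hK [[0], [2], [4], [6], [10]] TCON3.bound _ _ (by decide +kernel)

theorem b4 : (gp y []).relIndex (gp y [[0], [2], [4]]) ≠ 0 ∧
    (gp y []).relIndex (gp y [[0], [2], [4]]) ≤ 24 :=
  tc_wrap I hK [[0], [2], [4]] TCON4.bound _ _ (by decide +kernel)

theorem index1 : (gp y [[0], [2], [4], [6], [8], [10]]).index ≠ 0 ∧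
    (gp y [[0], [2], [4], [6], [8], [10]]).index ≤ 122760 := by
  have := b1
  rwa [gp_top (ws := [[0], [2], [4], [6], [8], [10], [12]]) (by decide), Subgroup.relIndex_top_right] at this

theorem card_hs : Nat.card (gp y [[0], [2], [4], [6], [8], [10]]) ≠ 0 ∧
    Nat.card (gp y [[0], [2], [4], [6], [8], [10]]) ≤ 3753792 :=
  (card_le_of_relIndex (gp_mono (by decide)) b2
    (card_le_of_relIndex (gp_mono (by decide)) b3
    (card_le_of_relIndex (gp_mono (by decide)) b4
    (card_gp_nil y))))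

theorem card_top : Nat.card (gp y [[0], [2], [4], [6], [8], [10], [12]]) ≠ 0 ∧
    Nat.card (gp y [[0], [2], [4], [6], [8], [10], [12]]) ≤ 460815505920 :=
  card_le_of_relIndex (gp_mono (by decide)) b1 card_hs

end Cfsg.Agent.Lib.ONTC
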