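import Cfsg.Agent.Lib.DCE2

/-! Transfer of a double coset enumeration from a model group to an abstract group. -/

set_option autoImplicit false

namespace Cfsg.Agent.Lib.PairFin

open Cfsg.Agent.Lib.PermNet Cfsg.Agent.Lib.Words Cfsg.Agent.Lib.PermGroup Cfsg.Agent.Lib.DCE

theorem wval_gp {X : Type*} [Group X] (z : ℕ → X) {n : ℕ} {w : List ℕ}
    (hw : w.all (fun l => decide (l < 2 * n)) = true) : wval z w ∈ gp z (sing n) := by
  apply wval_mem
  intro l hl
  have := List.all_eq_true.1 hw l hl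
  simp only [decide_eq_true_eq] at this
  exact mem_sing z (by omega)

/-- If `f` and the model `p` satisfy the relators of the enumeration, the model generates `X` and
the order of `⟨f⟩` does not divide the order of the enumerated subgroup, then `X` embeds with
image `⟨f⟩`. -/
theorem pair {d : Dat} (h : d.OK) (K : List (List ℕ)) (hN : ∀ w ∈ K, wval d.nets.perm w = 1)
    {G X : Type*} [Group G] [Group X] (f : ℕ → G) (p : ℕ → X)
    (hub : ∀ z : ℕ → gp (fun i => (f i, p i)) (sing (d.n0 + 1)) × Equiv.Perm ℕ,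
      (∀ w ∈ K, wval z w = 1) →
        Nat.card (gp z (sing d.n0)) ≠ 0 ∧ Nat.card (gp z (sing d.n0)) ≤ d.T)
    (hL : (K ++ d.R).all (fun w => w.all fun l => decide (l < 2 * (d.n0 + 1))) = true)
    (hf : ∀ w ∈ K ++ d.R, wval f w = 1) (hp : ∀ w ∈ K ++ d.R, wval p w = 1)
    (g : List ℕ) (hg : g.all (fun l => decide (l < 2 * (d.n0 + 1))) = true) {q : ℕ} (hq : q.Prime)
    (hqT : ¬ q ∣ d.T) (htot : 1 < d.tot) (h1 : wval p g ^ q = 1) (h2 : wval p g ≠ 1)
    (hd : ¬ Nat.card (gp f (sing (d.n0 + 1))) ∣ d.T)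
    (hX : Nat.card (gp p (sing (d.n0 + 1))) = d.tot * d.T → gp p (sing (d.n0 + 1)) = ⊤) :
    Nat.card X = d.tot * d.T ∧ ∃ ι : X →* G, Function.Injective ι ∧
      ι.range = gp f (sing (d.n0 + 1)) ∧
      ∀ w : List ℕ, w.all (fun l => decide (l < 2 * (d.n0 + 1))) = true →
        ι (wval p w) = wval f w := by
  classical
  set P : ℕ → G × X := fun i => (f i, p i) with hP
  set D := gp P (sing (d.n0 + 1)) with hD
  let F : ℕ → D := fun i => if hi : i < d.n0 + 1 then ⟨P i, mem_sing P hi⟩ else 1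
  have hF : ∀ i < d.n0 + 1, D.subtype (F i) = P i := fun i hi => by
    simp only [F, dif_pos hi]; rfl
  have hFw : ∀ w : List ℕ, w.all (fun l => decide (l < 2 * (d.n0 + 1))) = true →
      D.subtype (wval F w) = wval P w := fun w hw => by
    rw [map_wval]; exact wval_congr hF (by simpa using hw)
  have hs : ∀ n ≤ d.n0 + 1, (sing n).all
      (fun w => w.all (fun l => decide (l < 2 * (d.n0 + 1)))) = true := fun n hn => by
    simp only [sing, List.all_eq_true, List.mem_map, List.mem_range, decide_eq_true_eq]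
    rintro _ ⟨i, hi, rfl⟩ l hl
    rw [List.mem_singleton.1 hl]; omega
  have hrel : ∀ w ∈ K ++ d.R, wval F w = 1 := fun w hw => D.subtype_injective (by
    rw [hFw w (List.all_eq_true.1 hL w hw), map_one]; exact rels_pair hf hp w hw)
  have htop : gp F (sing (d.n0 + 1)) = ⊤ := by
    apply Subgroup.map_injective D.subtype_injective
    rw [map_gp, gp_congr hF (hs _ le_rfl), ← MonoidHom.range_eq_map, Subgroup.range_subtype]
  have hR : ∀ w ∈ d.R, wval F w = 1 := fun w hw => hrel w (List.mem_append_right _ hw)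
  have hb : Nat.card (WW F d.nets d.n0) ≠ 0 ∧ Nat.card (WW F d.nets d.n0) ≤ d.T :=
    hub _ (rels_pair (fun w hw => hrel w (List.mem_append_left _ hw)) hN)
  let σ : D →* X := (MonoidHom.snd G X).comp D.subtype
  let ψ : D →* G := (MonoidHom.fst G X).comp D.subtype
  have hσ : ∀ w : List ℕ, w.all (fun l => decide (l < 2 * (d.n0 + 1))) = true →
      σ (wval F w) = wval p w := fun w hw => by
    rw [MonoidHom.comp_apply, hFw w hw, map_wval]; rfl
  have hψ : ∀ w : List ℕ, w.all (fun l => decide (l < 2 * (d.n0 + 1))) = true →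
      ψ (wval F w) = wval f w := fun w hw => by
    rw [MonoidHom.comp_apply, hFw w hw, map_wval]; rfl
  have rσ : σ.range = gp p (sing (d.n0 + 1)) := by
    rw [MonoidHom.range_comp, Subgroup.range_subtype, hD, map_gp]; rfl
  have rψ : ψ.range = gp f (sing (d.n0 + 1)) := by
    rw [MonoidHom.range_comp, Subgroup.range_subtype, hD, map_gp]; rfl
  obtain ⟨r1, r2, r3, r4, -⟩ := h.final F hR htop hb σ (wval F g) hq hqT (by omega)
    (by rw [hσ g hg]; exact h1) (by rw [hσ g hg]; exact h2)
  obtain ⟨-, c1, -, c2, -⟩ := h.main F hR htop hb fun _ ht => by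
    have : gp F (sing d.n0) = ⊤ := top_le_iff.1 (htop ▸ gp_le.2 fun w hw => by
      obtain ⟨i, hi, rfl⟩ := List.mem_map.1 hw
      rw [wval_single]
      rcases Nat.lt_succ_iff_lt_or_eq.1 (List.mem_range.1 hi) with hi | rfl
      exacts [mem_sing F hi, ht])
    rw [this, Subgroup.index_top] at r1
    omega
  have cσ : Nat.card σ.range = d.tot * d.T := by
    rw [← r3]; exact (Nat.card_congr (MonoidHom.ofInjective r4).toEquiv).symm
  have sσ : σ.range = ⊤ := rσ ▸ hX (rσ ▸ cσ)
  have iψ : Function.Injective ψ := by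
    rw [← MonoidHom.ker_eq_bot_iff]
    refine c2 _ inferInstance (by_contra fun hn => hd ?_)
    have e := c1.2 _ (left_lt_sup.2 hn)
    have : ψ.range = (gp F (sing d.n0)).map ψ := by
      rw [MonoidHom.range_eq_map, ← e, Subgroup.map_sup, (Subgroup.map_eq_bot_iff _).2 le_rfl,
        sup_bot_eq]
    rw [← rψ, this, ← r2]
    exact Subgroup.card_map_dvd _ _
  let e : D ≃* X := MulEquiv.ofBijective σ ⟨r4, MonoidHom.range_eq_top.1 sσ⟩
  refine ⟨by rw [← r3]; exact (Nat.card_congr e.toEquiv).symm, ψ.comp e.symm.toMonoidHom,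
    iψ.comp e.symm.injective, ?_, fun w hw => ?_⟩
  · rw [MonoidHom.range_comp, MonoidHom.range_eq_top.2 e.symm.surjective, ← rψ,
      MonoidHom.range_eq_map]
  · rw [← hψ w hw, ← hσ w hw]
    exact congrArg ψ (e.symm_apply_apply _)

end Cfsg.Agent.Lib.PairFin
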