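import Cfsg.Agent.Lib.PushNat
import Cfsg.Agent.Lib.Gaschuetz

/-! Maximal `p`-local subgroups that cannot be pushed up. -/

set_option autoImplicit false
open Cfsg

namespace Cfsg.Agent.Lib.PushBase

open Subgroup Cfsg.Agent.Lib.PCoreConj Cfsg.Agent.Lib.PCore Cfsg.Agent.Lib.PCoreResidual Cfsg.Agent.Lib.PCoreMod
open Cfsg.Agent.Lib.PReduced Cfsg.Agent.Lib.PIrred Cfsg.Agent.Lib.ThompsonJ
open scoped Pointwise commutatorElement MatrixGroups Matrix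

variable {H : Type*} [Group H] {p : ℕ} {H' : Type*} [Group H'] {f : H →* H'}
variable {G S T M V W X A B : Subgroup H} {n : H}

theorem PK.of_map (h₀ : PU p G S T M) (hf : Function.Injective f)
    (h : PK p (G.map f) (S.map f) (T.map f) (M.map f) (V.map f)) : PK p G S T M V where
  toRO := h₀.toRO
  V_le := (map_le_map_iff_of_injective hf).1 h.V_le
  V_norm := (map_le_norm_iff hf).1 h.V_norm
  V_cent := (map_le_cent_iff hf).1 h.V_cent
  hY := map_injective hf (by rw [map_centralizer_inf hf, h.hY, map_center hf])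
  hW := map_injective hf (by rw [map_centralizer_inf hf, h.hW, map_center hf])
  quad := (map_le_map_iff_of_injective hf).1 (by rw [map_commutator, map_center hf]; exact h.quad)
  ncl := (map_le_map_iff_of_injective hf).1 (by rw [map_nclIn, map_center hf]; exact h.ncl)
  nc := fun e => h.nc ((map_le_cent_iff hf).2 e)
  idx := by
    have := h.idx
    rwa [← map_center hf, relIndex_map_map_of_injective _ _ hf, relIndex_map_map_of_injective _ _ hf] at this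
  char := h₀.char

theorem eq_or_eq_of_prime (h : (A.relIndex B).Prime) (h₁ : A ≤ X) (h₂ : X ≤ B) : X = A ∨ X = B :=
  ((Nat.prime_mul_iff.1 (relIndex_mul_relIndex A X B h₁ h₂ ▸ h)).symm.imp
    (fun e => le_antisymm (relIndex_eq_one.1 e.2) h₁) fun e => le_antisymm h₂ (relIndex_eq_one.1 e.2))

theorem exists_compl [Fact p.Prime] (hA : IsElementaryAbelian p A) (h : B ≤ A) :
    ∃ D, B ⊓ D = ⊥ ∧ B ⊔ D = A := by
  obtain ⟨D, hD⟩ := (EMod.ofSub hA B).exists_isCompl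
  refine ⟨EMod.toSub D, ?_, ?_⟩
  · rw [← EMod.toSub_ofSub_of_le (h := hA) h, ← EMod.toSub_inf, hD.inf_eq_bot, EMod.toSub_bot]
  · rw [← EMod.toSub_ofSub_of_le (h := hA) h, ← EMod.toSub_sup, hD.sup_eq_top, EMod.toSub_top]

variable [hp : Fact p.Prime]

theorem ro_of_prime [Finite G] (hS : IsSylowIn p S G) (hT : pCoreOf p G = T)
    (h₁ : (T.relIndex S).Prime) (h₂ : (S.relIndex G).Prime) : RO p G S T S := by
  haveI := finite_of_le hS.le
  have hTS : T ≤ S := hT ▸ hS.pCoreOf_le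
  have hGT : G ≤ N(T) := hT ▸ le_normalizer_pCoreOf p G
  have hST : ¬ S ≤ T := fun e => h₁.ne_one (relIndex_eq_one.2 e)
  have hn : ¬ G ≤ N(S) := fun e => hST (hT ▸ le_pCoreOf hS.le e hS.isPGroup)
  refine ⟨inferInstance, hS, hT, ⟨(eq_or_eq_of_prime h₂ (le_nclIn _ _) (nclIn_le_of_le hS.le)).resolve_left
    fun e => hn (e ▸ le_normalizer_nclIn S G), le_rfl, lt_of_le_not_ge hS.le fun e => hn
      (le_normalizer_of_le e), fun K h₃ h₄ => ((eq_or_eq_of_prime h₂ h₃ h₄.le).resolve_right h₄.ne).le⟩,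
    fun g hg hgS => ?_, ?_, fun s hs => ?_, fun X h₃ h₄ _ => eq_or_eq_of_prime h₁ h₃ h₄⟩
  · refine ((eq_or_eq_of_prime h₁ (le_inf hTS ((conj_eq_of_mem_normalizer (hGT hg)).ge.trans
      (conj_mono g hTS))) inf_le_left).resolve_right fun e => hn ?_).le
    haveI := finite_conj S g
    have : g ∈ N(S) := mem_normalizer_iff_conj_eq.2
      (eq_of_le_of_card_le (inf_eq_left.1 e) (card_conj S g).le).symm
    exact inf_eq_left.1 ((eq_or_eq_of_prime h₂ (le_inf hS.le le_normalizer) inf_le_left).resolve_left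
      fun e => hgS (e.le ⟨hg, this⟩))
  · have hc := commutator_le_left_of_le_normalizer (le_normalizer (H := S))
    refine le_sup_right.trans ((eq_or_eq_of_prime h₁ le_sup_left (sup_le hTS hc)).resolve_right
      fun e => hST (le_of_le_sup_commutator hS.isPGroup hS.isPGroup le_normalizer (hS.le.trans hGT)
        (hS.le.trans hGT) e.ge)).le
  · haveI := normal_subgroupOf_of_le (hS.le.trans hGT)
    obtain ⟨k, hk⟩ := IsPGroup.iff_card.1 hS.isPGroup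
    have : T.relIndex S = p := (Nat.prime_dvd_prime_iff_eq h₁ hp.out).1
      (h₁.dvd_of_dvd_pow (hk ▸ relIndex_dvd_card T S))
    exact this ▸ pow_index_mem (T.subgroupOf S) ⟨s, hs⟩

theorem PU.conj_le (h : PU p G S T M) (hmax : ∀ R, R ≤ S → R ≠ ⊥ → G ≤ N(R) → N(R) ≤ G)
    (hnG : n ∉ G) {R : Subgroup H} (hR : R ≤ S) (h₁ : G ≤ N(R)) (h₂ : G ^ᶜ n ≤ N(R)) : R = ⊥ := by
  haveI := h.fin
  haveI := h.finS
  by_contra hR'
  exact hnG (hmax T h.T_le (fun e => center_ne_bot h.pS (fun e => h.not_le (e.le.trans bot_le))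
    (le_bot_iff.1 (h.Z_le_T.trans e.le))) h.T_norm (h.core ▸ normalizer_le_normalizer_pCoreOf p G
      (mem_normalizer_of_conj_le (h₂.trans (hmax R hR hR' h₁)))))

theorem PU.local (h : PU p G S T M) (hp3 : p ≠ 3) (hmax : ∀ R, R ≤ S → R ≠ ⊥ → G ≤ N(R) → N(R) ≤ G)
    (hn : n ∈ N(S)) (hnG : n ∉ G) :
    One p G S T M T ∧ IsElementaryAbelian p T ∧ T ^ᶜ n ⊔ T = S ∧ T ⊓ T ^ᶜ n = Z(S) := by
  haveI := h.finS
  have key : ∀ R : Subgroup H, R ≤ S → (N(S) : Subgroup H) ≤ N(R) → G ≤ N(R) → R = ⊥ := fun R h₁ h₂ h₃ =>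
    by_contra fun e => hnG (hmax R h₁ e h₃ (h₂ hn))
  have hZ := center_ne_bot h.pS fun e => h.not_le (e.le.trans bot_le)
  have nZ : (N(S) : Subgroup H) ≤ N(Z(S)) := le_norm_center le_rfl
  have nc : ¬ G ≤ C(Z(S)) := fun e => hZ (key _ inf_le_left nZ (le_normalizer_of_le_centralizer e))
  have hb : ∀ {R}, R ≤ S → S ≤ N(R) → R ⊓ Z(S) = ⊥ → R = ⊥ := fun {R} h₁ h₂ e => by_contra fun k =>
    haveI := finite_of_le h₁
    inf_centralizer_ne_bot h.pS (h.pS.to_le h₁) h₂ k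
      (le_bot_iff.1 ((le_inf inf_le_left (inf_le_inf_right _ h₁)).trans e.le))
  have nJ := normalizer_le_normalizer_ZJ 0 S
  have hJ : S ≤ C(ZJ 0 S) := by
    have n₁ := le_normalizer_commutator nJ (le_refl (N(S) : Subgroup H))
    rcases h.comm_ZJ with e | e
    · exact commutator_eq_bot_iff_le_centralizer'.1 (hb (commutator_le_right_of_le_normalizer
        (le_normalizer_of_le (ZJ_le 0 S))) (le_normalizer.trans n₁) (key _ (inf_le_right.trans inf_le_left)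
          (le_normalizer_inf n₁ nZ) (le_normalizer_of_le_centralizer e)))
    · exact absurd (le_bot_iff.1 ((le_inf inf_le_left (inf_le_right.trans (centralizer_anti
        (ZJ_le 0 S)))).trans (key _ inf_le_left (le_normalizer_inf le_rfl (le_normalizer_centralizer nJ))
          e).le)) hZ
  obtain ⟨Q, hQ⟩ := exists_mcl S
  have rp : RP S := by
    have n₁ : (N(S) : Subgroup H) ≤ N(⁅Q, Q⁆) := fun g hg => mem_normalizer_iff_conj_eq.2 (by
      have := (mcl_map_iff (f := (MulAut.conj g : H →* H)) (MulAut.conj g).injective).2 hQ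
      rw [map_coe_conj, map_coe_conj, conj_eq_of_mem_normalizer hg] at this
      rw [conj_commutator, this.comm_eq hQ])
    rcases h.mcl hJ hQ with e | e
    · refine rp_of_mcl hJ hQ (commutator_eq_bot_iff_le_centralizer'.1 (hb
        ((commutator_le_left_of_le_normalizer le_normalizer).trans hQ.toCL.le) (le_normalizer.trans n₁) ?_))
      rw [inf_comm]
      exact key _ (inf_le_left.trans inf_le_left) (le_normalizer_inf nZ n₁) (le_normalizer_of_le_centralizer e)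
    · exact absurd (le_bot_iff.1 ((hQ.cd.center_le.trans hQ.le_SMCL).trans (key _
        (SMCL_le_iff.2 fun _ hR => hR.toCL.le) (norm_SMCL le_rfl) e).le)) hZ
  have k₁ := h.pk_of_cent nc hJ
  generalize nclIn Z(S) G = V at k₁
  have k₂ := k₁.conj n
  rw [conj_eq_of_mem_normalizer hn] at k₂
  have P : Pair p G (G ^ᶜ n) S T (T ^ᶜ n) M (M ^ᶜ n) V (V ^ᶜ n) := ⟨k₁, k₂, rp, fun e => hZ
    (le_bot_iff.1 (h.Z_le_T.trans (h.conj_le hmax hnG h.T_le h.T_norm (e ▸ k₂.T_norm)).le)),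
    k₁.exists_maxAb (rp.le_J hJ), k₂.exists_maxAb (rp.le_J hJ)⟩
  have c : ¬ V ≤ C(V ^ᶜ n) := fun c => by
    have o : ⁅T ^ᶜ n, pResidualOf p (G ^ᶜ n)⁆ ≤ V ^ᶜ n ↔ ⁅T, pResidualOf p G⁆ ≤ V := by
      rw [← conj_pResidualOf, ← conj_commutator, conj_le_conj_iff]
    have nX : ∀ {G T M V X : Subgroup H}, RO p G S T M → ⁅T, pResidualOf p G⁆ ≤ V → X ≤ T → V ≤ X →
        S ≤ N(X) → G ≤ N(X) := fun r h₁ h₂ h₃ h₄ => r.res_sup.ge.trans (sup_le
      (le_normalizer_of_commutator_le (((commutator_mono h₂ le_rfl).trans h₁).trans h₃)) h₄)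
    have fin : G ≤ N(V ⊔ V ^ᶜ n) → G ^ᶜ n ≤ N(V ⊔ V ^ᶜ n) → False := fun h₁ h₂ =>
      hZ (le_bot_iff.1 ((k₁.Y_le.trans le_sup_left).trans (h.conj_le hmax hnG P.X_le h₁ h₂).le))
    have one : ⁅T, pResidualOf p G⁆ ≤ V → False := fun e =>
      fin (nX k₁.toRO e (P.X_le_T c) le_sup_left P.S_norm_X)
        (nX k₂.toRO (o.2 e) (P.X_le_T' c) le_sup_right P.S_norm_X)
    rcases P.concl with e | e | ⟨-, r₁, r₂, e | e⟩
    · exact one e
    · exact one (o.1 e)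
    · exact fin e.1 e.2
    · exact hp3 (Two.eq_three ⟨P, e, c, r₁, r₂⟩)
  have o := P.one_of_not_comm c
  have c₁ : ¬ V ^ᶜ n ≤ T := fun e => c (k₁.V_le_C.trans (centralizer_anti e))
  have c₂ : ¬ V ≤ T ^ᶜ n := fun e => c (le_centralizer_iff.1 (k₂.V_le_C.trans (centralizer_anti e)))
  have s₁ := k₁.sup_cd rp.top (k₂.cd_V rp.top) c₁
  have s₂ := k₂.sup_cd rp.top (k₁.cd_V rp.top) c₂
  have cc : ∀ {G₁ G₂ T₁ T₂ M₁ M₂ V₁ V₂ : Subgroup H}, PK p G₁ S T₁ M₁ V₁ → PK p G₂ S T₂ M₂ V₂ →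
      V₁ ⊔ T₂ = S → ⁅T₁, T₁⁆ ≤ ⁅T₂, T₂⁆ := fun {G₁ G₂ T₁ T₂ M₁ M₂ V₁ V₂} l₁ l₂ e => by
    have n₂ := l₂.S_le.trans l₂.T_norm
    have n₃ := le_normalizer_commutator n₂ n₂
    have e₁ : T₁ ≤ V₁ ⊔ T₂ ⊓ T₁ := by
      rw [← sup_inf_of_le_normalizer (l₁.V_le_S.trans n₂) l₁.V_le, e]; exact le_inf l₁.T_le le_rfl
    have e₂ : ∀ {A : Subgroup H}, A ≤ T₁ → ⁅A, V₁⁆ ≤ ⁅T₂, T₂⁆ := fun hA =>
      (commutator_eq_bot_iff_le_centralizer'.2 (l₁.V_le_C.trans (centralizer_anti hA))).trans_le bot_le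
    have e₃ : ∀ {A : Subgroup H}, A ≤ T₁ → ⁅A, T₂ ⊓ T₁⁆ ≤ ⁅T₂, T₂⁆ → ⁅A, T₁⁆ ≤ ⁅T₂, T₂⁆ := fun hA k =>
      (commutator_mono le_rfl e₁).trans (commutator_sup_le (l₁.V_le_S.trans n₃)
        ((inf_le_left.trans l₂.T_le).trans n₃) (e₂ hA) k)
    exact e₃ le_rfl ((commutator_comm _ _).trans_le (e₃ inf_le_right (commutator_mono inf_le_left inf_le_left)))
  have hT : ⁅T, T⁆ = ⊥ := h.conj_le hmax hnG ((commutator_le_left_of_le_normalizer le_normalizer).trans h.T_le)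
    (le_normalizer_commutator h.T_norm h.T_norm) (by
      rw [le_antisymm (cc k₁ k₂ s₂) (cc k₂ k₁ s₁)]
      exact le_normalizer_commutator k₂.T_norm k₂.T_norm)
  obtain rfl : T = V := by
    rw [← k₁.center_T rp.top]
    exact (inf_eq_left.2 (commutator_eq_bot_iff_le_centralizer'.1 hT)).symm
  have hp := key _ ((powerClosure_le_self 1 _).trans inf_le_left) (fun g hg => mem_normalizer_iff_conj_eq.2 (by
    rw [← map_coe_conj, map_powerClosure, map_coe_conj, conj_eq_of_mem_normalizer (nZ hg)]))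
    (le_normalizer_of_le_centralizer (le_centralizer_iff.1 (k₁.powerClosure_le.trans inf_le_right)))
  refine ⟨⟨k₁, o⟩, ⟨(abExp_of_le_cent k₁.V_comm).isMulCommutative, fun v hv => ?_⟩, s₁,
    k₂.inf_cd rp.top (k₁.cd_V rp.top) c₁⟩
  obtain ⟨w, hw, e⟩ := k₁.exists_pow_eq' hv
  exact e.trans (mem_bot.1 (powerClosure_le_iff.1 hp.le w (k₁.W_le hw)))

theorem nonempty_qd {F : Type*} [Field F] (s : Sec F V W) (hW : W ≤ V) (hV : V ≤ s.ρ.ker)
    {L G₀ : Subgroup H} (h₁ : V ⊓ L = ⊥) (h₂ : V ⊔ L = ⊤) (hk : s.ρ.ker ≤ V) (h₃ : G₀ ⊓ W = ⊥)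
    (h₄ : G₀ ⊔ W = ⊤) [W.Normal] : Nonempty (G₀ ≃* qdOver F) := by
  haveI := s.normal
  have ex : ∀ g, ∃ v ∈ V, v⁻¹ * g ∈ L := fun g => by
    obtain ⟨v, hv, l, hl, rfl⟩ := (mem_sup_iff_of_le_normalizer' le_norm_of_normal).1 (h₂.ge (mem_top g))
    exact ⟨v, hv, by rwa [inv_mul_cancel_left]⟩
  choose a ha ha' using ex
  have un : ∀ {g v}, v ∈ V → v⁻¹ * g ∈ L → a g = v := fun {g v} hv hl => by
    have : (a g)⁻¹ * v ∈ V ⊓ L := mem_inf.2 ⟨mul_mem (inv_mem (ha g)) hv, by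
      simpa [mul_assoc] using mul_mem (ha' g) (inv_mem hl)⟩
    rwa [h₁, mem_bot, inv_mul_eq_one] at this
  let φ : H →* qdOver F := MonoidHom.mk' (fun g => Qd.aff (s.ρ g) (s.ψ (a g))) fun g h => by
    have e : s.ρ ((a g)⁻¹ * g) = s.ρ g := by rw [map_mul, hV (inv_mem (ha g)), one_mul]
    have hm := s.normal.conj_mem _ (ha h) ((a g)⁻¹ * g)
    rw [Qd.aff_mul, map_mul, un (mul_mem (ha g) hm) (by
      simpa [mul_assoc] using mul_mem (ha' g) (ha' h)), s.add _ (ha g) _ hm, s.act _ _ (ha h), e, add_comm]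
  have hφ : ∀ g, φ g = Qd.aff (s.ρ g) (s.ψ (a g)) := fun _ => rfl
  have hv : ∀ v ∈ V, a v = v := fun v hv => un hv (by rw [inv_mul_cancel]; exact one_mem _)
  have k₁ : ∀ g, φ g = 1 ↔ g ∈ W := fun g => ⟨fun e => by
    have e₁ := congrArg Qd.lin e
    have e₂ := congrArg Qd.tr e
    rw [hφ, Qd.lin_aff, map_one] at e₁
    rwa [hφ, Qd.tr_aff, Qd.tr_one, hv g (hk e₁), s.ker g (hk e₁)] at e₂, fun e => by
      rw [hφ, hV (hW e), hv g (hW e), (s.ker g (hW e)).2 e, Qd.aff_one]⟩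
  refine ⟨MulEquiv.ofBijective (φ.comp G₀.subtype) ⟨(injective_iff_map_eq_one _).2 fun x hx =>
    Subtype.ext (mem_bot.1 (h₃.le ⟨x.2, (k₁ x).1 hx⟩)), fun y => ?_⟩⟩
  obtain ⟨g, c, rfl⟩ := Qd.exists_aff y
  obtain ⟨x, rfl⟩ := s.surj g
  obtain ⟨v, hv', rfl⟩ := s.onto c
  obtain ⟨z, hz, w, hw, e⟩ := (mem_sup_iff_of_le_normalizer le_norm_of_normal).1
    (h₄.ge (mem_top (v * ((a x)⁻¹ * x))))
  refine ⟨⟨z, hz⟩, ?_⟩
  have : φ z = φ (v * ((a x)⁻¹ * x)) := by rw [← e, map_mul, (k₁ w).2 hw, mul_one]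
  refine this.trans ?_
  rw [hφ, un (g := v * ((a x)⁻¹ * x)) hv' (by rw [inv_mul_cancel_left]; exact ha' x), map_mul, map_mul, hV hv',
    hV (inv_mem (ha x)), one_mul, one_mul]

theorem One.qd_split [Finite H] (h : One p ⊤ S T M T) (hp2 : p ≠ 2) (h₁ : T ⊓ B = ⊥) (h₂ : T ⊔ B = S)
    (F : Type*) [Field F] [Fintype F] [CharP F p] (hF : Fintype.card F = T.relIndex S) :
    ∃ G₀ : Subgroup H, G₀ ⊓ Z(⊤[H]) = ⊥ ∧ G₀ ⊔ Z(⊤[H]) = ⊤ ∧ Nonempty (G₀ ≃* qdOver F) := by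
  obtain ⟨s⟩ := h.rm.sec F hF
  haveI := s.normal
  haveI := normal_iff_top_le.2 h.W_norm
  haveI := CDLattice.comm_of_le_centralizer h.V_comm
  have hk : s.ρ.ker = T := s.ker_eq h.rm.comm_T fun g hg => h.faith ⟨trivial, mem_rel.2 ⟨h.W_norm trivial, hg⟩⟩
  obtain ⟨L, hL⟩ := Gaschuetz.gaschuetz (N := T) (by
    obtain ⟨k, e⟩ := IsPGroup.iff_card.1 h.pT
    rw [e, ← relIndex_top_right]
    exact h.syl.coprime_relIndex.symm.pow_left k) h₁ h₂
  have h2 : (2 : F) ≠ 0 := fun e => hp2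
    ((Nat.prime_dvd_prime_iff_eq hp.out Nat.prime_two).1 ((CharP.cast_eq_zero_iff F p 2).1 e))
  obtain ⟨c, hc⟩ := s.surj (-1)
  have hψ : ∀ v ∈ T, s.ψ ⁅v, c⁆ = (2 : F) • s.ψ v := fun v hv => by
    rw [s.comm hv, hc, two_smul]; simp [Matrix.neg_mulVec]
  let V₀ : Subgroup H :=
    { carrier := {x | ∃ v ∈ T, ⁅v, c⁆ = x}
      mul_mem' := by
        rintro _ _ ⟨v, hv, rfl⟩ ⟨w, hw, rfl⟩
        exact ⟨_, mul_mem hv hw, h.mul_comm' hv hw trivial⟩
      one_mem' := ⟨1, one_mem _, commutatorElement_one_left _⟩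
      inv_mem' := by
        rintro _ ⟨v, hv, rfl⟩
        exact ⟨_, inv_mem hv, h.inv_comm hv trivial⟩ }
  have hV₀ : V₀ ≤ T := by
    rintro _ ⟨v, hv, rfl⟩
    exact h.comm_mem_V hv trivial
  haveI : V₀.Normal := ⟨by
    rintro _ ⟨v, hv, rfl⟩ g
    refine ⟨_, s.normal.conj_mem v hv g, ?_⟩
    have : c⁻¹ * (g * c * g⁻¹) ∈ T := hk.le (by simp [MonoidHom.mem_ker, hc])
    rw [conj_comm, ← mul_inv_cancel_left c (g * c * g⁻¹), comm_mul_right,
      comm_eq_one_of_cent (h.V_comm this) (s.normal.conj_mem v hv g)]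
    simp⟩
  have e₁ : (L ⊔ V₀) ⊓ Z(⊤[H]) = ⊥ := le_bot_iff.1 fun x hx => by
    obtain ⟨l, hl, _, ⟨v, hv, rfl⟩, rfl⟩ := (mem_sup_iff_of_le_normalizer le_norm_of_normal).1 hx.1
    obtain rfl : l = 1 := mem_bot.1 (hL.disjoint.le_bot
      ⟨(mul_mem_cancel_right (h.comm_mem_V hv trivial)).1 (h.W_le_V hx.2), hl⟩)
    have := (s.ker _ (h.W_le_V hx.2)).2 hx.2
    rw [one_mul, hψ v hv, smul_eq_zero_iff_right h2, s.ker v hv] at this
    rw [one_mul, comm_eq_one_of_cent' this.2 trivial]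
    exact one_mem _
  have e₂ : (L ⊔ V₀) ⊔ Z(⊤[H]) = ⊤ := by
    refine eq_top_iff.2 (hL.sup_eq_top.ge.trans (sup_le ((s.le_sup hV₀ inferInstance fun e => ?_).trans
      (sup_le (le_sup_of_le_left le_sup_right) le_sup_right)) (le_sup_of_le_left le_sup_left)))
    obtain ⟨v, hv, hv'⟩ := SetLike.not_le_iff_exists.1 s.not_le
    have hm : ⁅v, c⁆ ∈ V₀ := ⟨v, hv, rfl⟩
    have := (s.ker _ (hV₀ hm)).2 (e hm)
    rw [hψ v hv, smul_eq_zero_iff_right h2, s.ker v hv] at this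
    exact hv' this
  exact ⟨_, e₁, e₂, nonempty_qd s h.W_le_V hk.ge hL.disjoint.eq_bot hL.sup_eq_top hk.le e₁ e₂⟩

end Cfsg.Agent.Lib.PushBase
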