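import Cfsg.Agent.Lib.BlkBase
import Cfsg.Agent.Lib.PReduced
import Cfsg.Agent.Lib.ThompsonJ
import Cfsg.Agent.Lib.PCoreMod
import Cfsg.Prelude.Def_Quasithin

/-! Interface for the pieces of the qrc-lemma. -/

set_option autoImplicit false
open Cfsg

namespace Cfsg.Agent.Lib.QR

open Subgroup Cfsg.Agent.Lib.PCoreConj Cfsg.Agent.Lib.PCore Cfsg.Agent.Lib.PCoreResidual Cfsg.Agent.Lib.PCoreMod
open Cfsg.Agent.Lib.Blk Cfsg.Agent.Lib.PReduced Cfsg.Agent.Lib.PushBase Cfsg.Agent.Lib.ThompsonJ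
open scoped Pointwise commutatorElement

universe u

/-- no 2-subgroup of `N` is a quadratic 2F-offender on `V` -/
def NQ {G : Type u} [Group G] (N V : Subgroup G) : Prop :=
  ∀ B : Subgroup G, B ≤ N → IsPGroup 2 B → ⁅⁅V, B⁆, B⁆ = ⊥ → ¬ B ≤ C(V) →
    (C(V) : Subgroup G).relIndex B ^ 2 < (C(B) : Subgroup G).relIndex V

/-- the core configuration -/
structure Core {G : Type u} [Group G] (T H N V : Subgroup G) : Prop where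
  syl : IsSylowIn 2 T H
  chr : CharPIn 2 H
  TN : T ≤ N
  NH : N < H
  max : ∀ K : Subgroup G, T ≤ K → K < H → K ≤ N
  el : IsElementaryAbelian 2 V
  VT : V ≤ T
  NV : H ⊓ N(V) = N
  nq : NQ N V
  hJ : H ⊓ N(J 2 T) ≤ N
  hW : pResidualOf 2 H ≤ C(omegaOneCenter 2 (pCoreOf 2 H))

/-- the configuration produced by the L-lemma -/
structure LC {G : Type u} [Group G] (L L0 A Y Q : Subgroup G) : Prop where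
  A_el : IsElementaryAbelian 2 A
  AL0 : A ⊔ pCoreOf 2 L ≤ L0
  lt : L0 < L
  uniq : ∀ X : Subgroup G, A ⊔ pCoreOf 2 L ≤ X → X < L → X ≤ L0
  gen : ∀ x ∈ L, x ∉ L0 → A ⊔ (A ^ᶜ x) ⊔ pCoreOf 2 L = L
  U_el : IsElementaryAbelian 2 (nclIn Y L)
  U_le : nclIn Y L ≤ pCoreOf 2 L
  norm : L ⊓ N(Y) = L0
  AY : A ≤ C(Y)
  quad : ⁅⁅nclIn Y L, A⁆, A⁆ = ⊥
  nq : NQ L0 Y
  off : ∀ Y' : Subgroup G, Y' ≤ nclIn Y L → (C(A) : Subgroup G).relIndex Y' ≤ (C(Y') : Subgroup G).relIndex A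
  Q_le : Q ≤ pCoreOf 2 L
  Q_norm : L ≤ N(Q)
  CQ : nclIn Y L ⊓ C(Q) ≤ C(pResidualOf 2 L)

/-- `J` centralizes `V` -/
def TRa : Prop := ∀ {G : Type u} [Group G] [Finite G] (N V T1 : Subgroup G), NQ N V → IsElementaryAbelian 2 V →
  N ≤ N(V) → V ≤ T1 → T1 ≤ N → IsPGroup 2 T1 → J 2 T1 ≤ C(V)

/-- a quadratic largest abelian subgroup -/
def TRb : Prop := ∀ {G : Type u} [Group G] [Finite G] (S U : Subgroup G), IsPGroup 2 S → IsElementaryAbelian 2 U →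
  U ≤ S → S ≤ N(U) → ¬ J 2 S ≤ C(U) → ∃ A, MaxAb 2 S A ∧ ¬ A ≤ C(U) ∧ ⁅⁅U, A⁆, A⁆ = ⊥

/-- largest abelian subgroups are offenders -/
def TRo : Prop := ∀ {G : Type u} [Group G] [Finite G] (S A Y : Subgroup G), MaxAb 2 S A → IsElementaryAbelian 2 Y →
  Y ≤ S → (C(A) : Subgroup G).relIndex Y ≤ (C(Y) : Subgroup G).relIndex A

/-- asymmetry -/
def TRc : Prop := ∀ {G : Type u} [Group G] [Finite G] (N V : Subgroup G) (g : G), NQ N V → IsElementaryAbelian 2 V →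
  N ≤ N(V) → V ^ᶜ g ≤ N → V ≤ N ^ᶜ g → V ^ᶜ g ≤ C(V)

def E1 : Prop := ∀ {G : Type u} [Group G] [Finite G] [IsSimpleGroup G], ¬ IsMulCommutative G → IsQTKE G →
  ∀ (T : Sylow 2 G) (M₀ H N : Subgroup G), (T : Subgroup G) ≤ M₀ → pCoreOf 2 M₀ ≠ ⊥ → pCoreOf 2 H ≠ ⊥ →
  (T : Subgroup G) ≤ N → N < H → (∀ K : Subgroup G, (T : Subgroup G) ≤ K → K < H → K ≤ N) →
  M₀ ≤ N(Bm 2 (T : Subgroup G)) → ¬ H ≤ C(omegaOneCenter 2 (T : Subgroup G)) →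
  ∃ R₀ : Subgroup G, R₀ ≠ ⊥ ∧ R₀ ≤ Bm 2 (T : Subgroup G) ∧ M₀ ⊔ H ≤ N(R₀)

def E2 : Prop := ∀ {G : Type u} [Group G] [Finite G] (T H N : Subgroup G), IsSylowIn 2 T H → CharPIn 2 H →
  T ≤ N → N < H → (∀ K : Subgroup G, T ≤ K → K < H → K ≤ N) → H ⊓ N(J 2 T) ≤ N →
  H ≤ C(omegaOneCenter 2 T) → pResidualOf 2 H ≤ C(omegaOneCenter 2 (pCoreOf 2 H))

def GA : Prop := ∀ {G : Type u} [Group G] [Finite G] (T N M₀ V : Subgroup G), IsSylowIn 2 T N → CharPIn 2 N →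
  IsSylowIn 2 T M₀ → N ≤ N(pResidualOf 2 M₀) → N ≤ C(omegaOneCenter 2 T) → IsElementaryAbelian 2 V → V ≤ T →
  M₀ ≤ N(V) → pCoreOf 2 M₀ = T ⊓ C(V) →
  IsElementaryAbelian 2 (nclIn V N) ∧ nclIn V N ≤ T ∧ T ⊓ C(nclIn V N) = T ⊓ C(V) ∧ M₀ ≤ N(nclIn V N)

def K1 : Prop := ∀ {G : Type u} [Group G] [Finite G] {L L0 A Y Q : Subgroup G}, LC L L0 A Y Q →
  ∀ Z0 : Subgroup G, L ≤ N(Z0) → ∀ x ∈ L, ∀ y ∈ Y ^ᶜ x, ∀ a ∈ A, a ∉ L0 ^ᶜ x → ⁅y, a⁆ ∈ Z0 →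
    ∀ e ∈ pResidualOf 2 L, ⁅y, e⁆ ∈ Z0

def SZ : Prop := ∀ {G : Type u} [Group G] [Finite G] {L L0 A Y Q : Subgroup G}, LC L L0 A Y Q →
  ∃ m : ℕ, (∀ x ∈ L, x ∉ L0 → m ≤ (L0 ^ᶜ x).relIndex A) ∧
    (C(pResidualOf 2 L) : Subgroup G).relIndex Y < m ^ 2

def PH : Prop := ∀ {G : Type u} [Group G] [Finite G] {L L0 A Y Q : Subgroup G}, LC L L0 A Y Q →
  ∀ Z0 Y1 : Subgroup G, Z0 ≤ nclIn Y L → L ≤ N(Z0) →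
    (∀ w ∈ nclIn Y L, (∀ e ∈ pResidualOf 2 L, ⁅w, e⁆ ∈ Z0) → w ∈ Z0) → Y1 ≤ Y → L0 ≤ N(Y1) → ¬ Y1 ≤ Z0 →
    ∀ m : ℕ, (∀ x ∈ L, x ∉ L0 → m ≤ (L0 ^ᶜ x).relIndex A) → m ≤ Z0.relIndex Y1

def TL : Prop := ∀ {G : Type u} [Group G] [Finite G] {L L0 A Y Q : Subgroup G}, LC L L0 A Y Q →
  ∀ X : Subgroup G, X ≤ nclIn Y L → L ≤ N(X) → Y ⊓ X ≤ C(pResidualOf 2 L) ∨ ⁅Y, pResidualOf 2 L⁆ ≤ X

def QC1 : Prop := ∀ {G : Type u} [Group G] [Finite G] {L L0 A Y Q : Subgroup G}, LC L L0 A Y Q →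
  ⁅nclIn Y L, pCoreOf 2 L⁆ ≤ C(pResidualOf 2 L) ∧ ¬ pResidualOf 2 L ≤ L0

def QC : Prop := ∀ {G : Type u} [Group G] [Finite G] {L L0 A Y Q : Subgroup G}, LC L L0 A Y Q → False

def LL : Prop := ∀ {G : Type u} [Group G] [Finite G] {T H N V : Subgroup G}, Core T H N V →
  ∀ L1 S1 : Subgroup G, L1 ≤ H → ¬ L1 ≤ N → IsSylowIn 2 S1 L1 → S1 ≤ T → V ⊔ pCoreOf 2 H ≤ pCoreOf 2 L1 →
    L1 ⊓ N(J 2 S1) ≤ N → ∃ L L0 A Y : Subgroup G, LC L L0 A Y (pCoreOf 2 H)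

def UP : Prop := ∀ {G : Type u} [Group G] [Finite G] {T H N V : Subgroup G}, Core T H N V →
  ∀ g ∈ H, V ≤ N ^ᶜ g → g ∈ N

def GC : Prop := ∀ {G : Type u} [Group G] [Finite G] {T H N V : Subgroup G}, Core T H N V →
  (∀ g ∈ H, V ≤ N ^ᶜ g → g ∈ N) → ∃ D : Subgroup G, D ≤ T ∧ IsElementaryAbelian 2 D ∧ ¬ D ≤ C(V) ∧
    ⁅⁅⁅V, D⁆, D⁆, D⁆ = ⊥ ∧ (C(D) : Subgroup G).relIndex V ≤ (C(V) : Subgroup G).relIndex D ^ 2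

end Cfsg.Agent.Lib.QR
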