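import Cfsg.Agent.Lib.QRDefs

/-! Assembly of the qrc-lemma from its pieces. -/

set_option autoImplicit false
open Cfsg

namespace Cfsg.Agent.Lib.QR

open Subgroup Cfsg.Agent.Lib.PCoreConj Cfsg.Agent.Lib.PCore Cfsg.Agent.Lib.PCoreResidual Cfsg.Agent.Lib.PCoreMod
open Cfsg.Agent.Lib.Blk Cfsg.Agent.Lib.PReduced Cfsg.Agent.Lib.PushBase Cfsg.Agent.Lib.ThompsonJ
open scoped Pointwise commutatorElement

universe u
variable {G : Type u} [Group G]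

theorem fin_rel (H K : Subgroup G) (g : G) : (H ^ᶜ g).relIndex (K ^ᶜ g) = H.relIndex K :=
  relIndex_map_map_of_injective H K (MulAut.conj g).injective

theorem fin_ind {B V : Subgroup G} (hV : IsElementaryAbelian 2 V) (hn : B ≤ N(V)) (hq : ⁅⁅V, B⁆, B⁆ = ⊥)
    (h : ¬ B ≤ C(V)) : InducesElemAbelianTwoGroupOn B V := by
  refine ⟨h, fun b hb => mem_centralizer_iff.2 fun v hv => ?_, fun b hb b' hb' => ?_⟩
  · have w := commutator_mem_commutator hv hb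
    have h1 := mem_bot.1 (hq.le (commutator_mem_commutator w hb))
    have h2 := hV.2 _ (commutator_le_left_of_le_normalizer hn w)
    have e : v * b ^ 2 = ⁅v, b⁆ ^ 2 * (⁅v, b⁆⁻¹ * ⁅⁅v, b⁆, b⁆⁻¹ * ⁅v, b⁆) * (b ^ 2 * v) := by
      simp only [commutatorElement_def, pow_two]; group
    rw [e, h1, h2]; group
  · have := commutator_commutator_eq_bot_of_rotate (H₁ := B) (H₂ := B) (H₃ := V) (by rwa [commutator_comm B V]) hq
    exact commutator_eq_bot_iff_le_centralizer.1 this (commutator_mem_commutator hb hb')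

theorem fin_cent {B T V V' : Subgroup G} (hB : B ≤ T) (e : T ⊓ C(V') = T ⊓ C(V)) :
    (C(V') : Subgroup G).relIndex B = (C(V) : Subgroup G).relIndex B := by
  rw [← inf_relIndex_right (C(V') : Subgroup G) B, ← inf_relIndex_right (C(V) : Subgroup G) B]
  congr 1
  exact le_antisymm (le_inf (fun x hx => (e.le ⟨hB hx.2, hx.1⟩).2) inf_le_right)
    (le_inf (fun x hx => (e.ge ⟨hB hx.2, hx.1⟩).2) inf_le_right)

theorem fin_nq [Finite G] {T N M₀ V V' : Subgroup G} (hT : IsSylowIn 2 T N) (hM : T ≤ M₀)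
    (hV : IsElementaryAbelian 2 V) (hn : T ≤ N(V)) (hV' : V ≤ V') (hN : N ≤ N(V')) (e : T ⊓ C(V') = T ⊓ C(V))
    (h : ¬ QuadParamLE M₀ V 2) : NQ N V' := by
  intro B hB hp hq hc
  obtain ⟨g, hg, hg'⟩ := hT.exists_conj_le hB hp
  have eV := conj_eq_of_mem_normalizer (hN hg)
  have hq' : ⁅⁅V', B ^ᶜ g⁆, B ^ᶜ g⁆ = ⊥ := by
    rw [← eV, ← conj_commutator, ← conj_commutator, hq, conj_bot]
  have hc' : ¬ B ^ᶜ g ≤ C(V') := by rwa [← eV, ← conj_centralizer, conj_le_conj_iff]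
  rw [← fin_rel _ B g, ← fin_rel _ V' g, conj_centralizer, conj_centralizer, eV]
  generalize B ^ᶜ g = B' at *
  have hq2 : ⁅⁅V, B'⁆, B'⁆ = ⊥ := le_bot_iff.1 ((commutator_mono (commutator_mono hV' le_rfl) le_rfl).trans hq'.le)
  by_contra! k
  refine h ⟨B', hg'.trans hM, fin_ind hV (hg'.trans hn) hq2 (fun k' => hc' fun x hx => (e.ge ⟨hg' hx, k' hx⟩).2), hq2, ?_⟩
  rw [inf_relIndex_left, ← fin_cent hg' e]
  exact (relIndex_le_of_le_right hV' index_ne_zero_of_finite).trans k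

theorem fin (a : TRa.{u}) (e1 : E1.{u}) (e2 : E2.{u}) (ga : GA.{u}) (up : UP.{u}) (gc : GC.{u})
    [Finite G] [IsSimpleGroup G]
    (hG : ¬ IsMulCommutative G) (hQ : Cfsg.IsQTKE G) (T : Sylow 2 G) (M M₀ H V : Subgroup G)
    (hTM₀ : (T : Subgroup G) ≤ M₀) (hM₀M : M₀ ≤ M) (hH : H ∈ Cfsg.calHMin (T : Subgroup G) M)
    (hV : V ∈ Cfsg.calR2 M₀)
    (hR : pCoreOf 2 M₀ = (T : Subgroup G) ⊓ C(V))
    (hI : H ⊓ M ≤ N(Cfsg.oddGenerated M₀) ∨ H ⊓ M ≤ N(V)) :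
    (∃ R₀ : Subgroup G, R₀ ≠ ⊥ ∧ R₀ ≤ pCoreOf 2 M₀ ∧ M₀ ⊔ H ≤ N(R₀)) ∨
      (¬ V ≤ pCoreOf 2 H ∧ Cfsg.CubicParamLE M₀ V 2) ∨ Cfsg.QuadParamLE M₀ V 2 := by
  by_contra k
  have n1 : ∀ R₀ : Subgroup G, R₀ ≠ ⊥ → R₀ ≤ pCoreOf 2 M₀ → ¬ M₀ ⊔ H ≤ N(R₀) := fun R₀ a b c => k (.inl ⟨R₀, a, b, c⟩)
  have n2 : ¬ V ≤ pCoreOf 2 H → ¬ Cfsg.CubicParamLE M₀ V 2 := fun a b => k (.inr (.inl ⟨a, b⟩))
  have n3 : ¬ Cfsg.QuadParamLE M₀ V 2 := fun a => k (.inr (.inr a))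
  clear k
  obtain ⟨⟨⟨hH1, TH⟩, HM⟩, hmin⟩ := hH
  obtain ⟨VM, MV, el, -⟩ := hV
  have hT := isSylowIn_top T
  have sH := hT.of_le TH le_top
  have sM := hT.of_le hTM₀ le_top
  have Q0 : pCoreOf 2 H ≠ ⊥ := fun e => hH1 (pCoreOf_eq_bot_iff.1 e)
  have T0 : (T : Subgroup G) ≠ ⊥ := fun e => Q0 (le_bot_iff.1 (sH.pCoreOf_le.trans e.le))
  have cH : CharPIn 2 H := (charPIn_iff.1 (hQ.2.2 _ ⟨_, T.isPGroup'.to_le sH.pCoreOf_le, Q0, rfl⟩
    ⟨T, TH.trans (le_normalizer_pCoreOf 2 H)⟩)).of_isSylowIn_le (hT.of_le (TH.trans (le_normalizer_pCoreOf 2 H)) le_top)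
      TH (le_normalizer_pCoreOf 2 H)
  have TN : (T : Subgroup G) ≤ H ⊓ M := le_inf TH (hTM₀.trans hM₀M)
  have NH : H ⊓ M < H := inf_lt_left.2 HM
  have max : ∀ K : Subgroup G, (T : Subgroup G) ≤ K → K < H → K ≤ H ⊓ M := fun K h₁ h₂ => le_inf h₂.le (by
    by_contra k
    exact h₂.ne (hmin K ⟨⟨fun e => Q0 (le_bot_iff.1 ((pCoreOf_le_of_le_of_le (sH.pCoreOf_le.trans h₁) h₂.le).trans
      (pCoreOf_eq_bot_iff.2 e).le)), h₁⟩, k⟩ h₂.le))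
  have key : ∀ X : Subgroup G, X ≠ ⊥ → X ≤ pCoreOf 2 M₀ → M₀ ≤ N(X) → H ⊓ N(X) ≤ H ⊓ M := fun X h₁ h₂ h₃ =>
    max _ (le_inf TH (hTM₀.trans h₃)) (inf_lt_left.2 fun k => n1 X h₁ h₂ (sup_le h₃ k))
  have pV : IsPGroup 2 V := isPGroup_iff_forall_mem.2 fun x hx => ⟨1, by simpa using el.2 x hx⟩
  have VT : V ≤ T := (le_pCoreOf VM MV pV).trans sM.pCoreOf_le
  have RT : pCoreOf 2 M₀ ≤ T := sM.pCoreOf_le
  have JC : J 2 (T : Subgroup G) ≤ C(V) := a (T : Subgroup G) V T (fin_nq (hT.of_le le_rfl le_top) hTM₀ el (hTM₀.trans MV) le_rfl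
    (hTM₀.trans MV) rfl n3) el (hTM₀.trans MV) VT le_rfl T.isPGroup'
  have JR : J 2 (T : Subgroup G) ≤ pCoreOf 2 M₀ := hR.ge.trans' (le_inf (J_le _ _) JC)
  have BR : Bm 2 (T : Subgroup G) ≤ pCoreOf 2 M₀ := hR.ge.trans' (le_inf (Bm_le _ _) ((Bm_le_cent _ _).trans
    (centralizer_anti (le_ZJ VT fun A hA => hA.le_of_le_centralizer VT (abExp_iff_isElementaryAbelian.2 el)
      (hA.le_J.trans JC)))))
  have Z0 := omegaOneCenter_ne_bot T.isPGroup' T0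
  have ZR : omegaOneCenter 2 (T : Subgroup G) ≤ pCoreOf 2 M₀ := hR.ge.trans' (le_inf (omegaOneCenter_le _ _)
    (le_centralizer_iff.1 (VT.trans (le_centralizer_omegaOneCenter 2 _))))
  have HZ : H ≤ C(omegaOneCenter 2 (T : Subgroup G)) := by
    by_contra k
    obtain ⟨R₀, h₁, h₂, h₃⟩ := e1 hG hQ T M₀ H (H ⊓ M) hTM₀ (fun e => Z0 (le_bot_iff.1 (ZR.trans e.le))) Q0 TN NH max
      (by rw [← Bm_eq_of_le BR RT]; exact (le_normalizer_pCoreOf 2 M₀).trans (normalizer_le_normalizer_Bm 2 _)) k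
    exact n1 R₀ h₁ (h₂.trans BR) h₃
  have hJ : H ⊓ N(J 2 (T : Subgroup G)) ≤ H ⊓ M := key _ (J_ne_bot (p := 2) T.isPGroup' T0 dvd_rfl) JR (by
    have e : J 2 (pCoreOf 2 M₀) = J 2 (T : Subgroup G) := J_eq_of_J_le JR RT
    intro m hm
    refine mem_normalizer_iff_conj_eq.2 ?_
    rw [← e, conj_J, conj_eq_of_mem_normalizer (le_normalizer_pCoreOf 2 M₀ hm)])
  have hW := e2 (T : Subgroup G) H (H ⊓ M) sH cH TN NH max hJ HZ
  have TV : ¬ (T : Subgroup G) ≤ C(V) := fun k => by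
    have e : pCoreOf 2 M₀ = (T : Subgroup G) := hR.trans (inf_eq_left.2 k)
    have n : M₀ ≤ N((T : Subgroup G)) := e ▸ le_normalizer_pCoreOf 2 M₀
    exact n1 _ Z0 ZR (sup_le (le_normalizer_omegaOneCenter n) (le_normalizer_of_le_centralizer HZ))
  have sN := hT.of_le TN le_top
  obtain ⟨V', el', VV, VT', NV, eV, MV', VQ⟩ : ∃ V' : Subgroup G, IsElementaryAbelian 2 V' ∧ V ≤ V' ∧ V' ≤ T ∧
      H ⊓ M ≤ N(V') ∧ (T : Subgroup G) ⊓ C(V') = (T : Subgroup G) ⊓ C(V) ∧ M₀ ≤ N(V') ∧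
      (V ≤ pCoreOf 2 H → V' ≤ pCoreOf 2 H) := by
    rcases hI with hI | hI
    · have e : oddGenerated M₀ = pResidualOf 2 M₀ := by
        rw [pResidualOf_eq_closure, oddGenerated]
        simp only [Nat.coprime_two_right]
      rw [e] at hI
      obtain ⟨h₁, h₂, h₃, h₄⟩ := ga (T : Subgroup G) (H ⊓ M) M₀ V sN (cH.of_isSylowIn_le sH TN inf_le_left) sM hI
        (inf_le_left.trans HZ) el VT MV hR
      exact ⟨_, h₁, le_nclIn _ _, h₂, le_normalizer_nclIn _ _, h₃, h₄, fun k =>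
        nclIn_le k (inf_le_left.trans (le_normalizer_pCoreOf 2 H))⟩
    · exact ⟨V, el, le_rfl, VT, hI, rfl, MV, id⟩
  have c : Core (T : Subgroup G) H (H ⊓ M) V' := ⟨sH, cH, TN, NH, max, el', VT', le_antisymm (key V'
    (fun e => TV (by rw [le_bot_iff.1 (VV.trans e.le), centralizer_bot']; exact le_top))
    (hR.ge.trans' (eV.le.trans' (le_inf VT' (le_centralizer_of_isElementaryAbelian el')))) MV') (le_inf inf_le_left NV),
    fin_nq sN hTM₀ el (hTM₀.trans MV) VV NV eV n3, hJ, hW⟩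
  obtain ⟨D, DT, Del, DC, Dq, Dc⟩ := gc c (up c)
  refine n2 (fun k => NH.not_ge fun g hg => up c g hg ((VQ k).trans ?_)) ⟨D, DT.trans hTM₀,
    ⟨fun k => DC fun x hx => (eV.ge ⟨DT hx, k hx⟩).2, fun b hb => ?_, fun b hb b' hb' => ?_⟩, ?_, ?_⟩
  · rw [← conj_eq_of_mem_normalizer (le_normalizer_pCoreOf 2 H hg)]
    exact conj_mono g (sH.pCoreOf_le.trans TN)
  · rw [Del.2 b hb]; exact one_mem _
  · rw [(abExp_iff_isElementaryAbelian.2 Del).comm hb hb']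
    simp
  · exact le_bot_iff.1 ((commutator_mono (commutator_mono (commutator_mono VV le_rfl) le_rfl) le_rfl).trans Dq.le)
  · rw [inf_relIndex_left, ← fin_cent DT eV]
    exact (relIndex_le_of_le_right VV index_ne_zero_of_finite).trans Dc

end Cfsg.Agent.Lib.QR
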