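import Cfsg.Agent.Lib.QRDefs

/-! S1824, piece `GA`: the trace argument. -/

set_option autoImplicit false
open Cfsg

namespace Cfsg.Agent.Lib.QR

open Subgroup Cfsg.Agent.Lib.PCoreConj Cfsg.Agent.Lib.PCore Cfsg.Agent.Lib.PCoreResidual
open Cfsg.Agent.Lib.PReduced Cfsg.Agent.Lib.PushBase
open scoped commutatorElement

universe u

theorem ga_tr {G : Type u} [Group G] [Finite G] {X D R T : Subgroup G} (hX : IsElementaryAbelian 2 X)
    (hD : D ≤ N(X)) (hT : T ≤ N(X)) (hTD : T ≤ N(D)) (hTR : T ≤ N(R)) (hR : R ≤ D) (odd : ¬ 2 ∣ R.relIndex D)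
    (pT : IsPGroup 2 T) (hz : X ⊓ C(T) ≤ C(D)) : X ⊓ C(R) ≤ C(D) := by
  classical
  haveI : Fact (Nat.Prime 2) := ⟨Nat.prime_two⟩
  letI : CommGroup X := { (inferInstance : Group X) with
    mul_comm := fun a b => Subtype.ext (mem_centralizer_iff.1 (le_centralizer_of_isElementaryAbelian hX b.2) a a.2) }
  letI : Fintype (D ⧸ R.subgroupOf D) := Fintype.ofFinite _
  let φ := X.normalizerMonoidHom
  have hφ : ∀ (g : (N(X) : Subgroup G)) (w : X), ((φ g w : X) : G) = g * w * (g : G)⁻¹ := fun g w => rfl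
  let ψ : D →* MulAut X := φ.comp (inclusion hD)
  have hψ : ∀ (g : D) (w : X), ((ψ g w : X) : G) = g * w * (g : G)⁻¹ := fun g w => rfl
  let τ : X →* X := MonoidHom.mk' (fun w => ∏ q : D ⧸ R.subgroupOf D, ψ q.out w) fun a b => by
    simp only [map_mul, Finset.prod_mul_distrib]
  have hτ : ∀ w, τ w = ∏ q : D ⧸ R.subgroupOf D, ψ q.out w := fun w => rfl
  have fx : ∀ {A : Subgroup G} {w : G} {g : G}, w ∈ (C(A) : Subgroup G) → g ∈ A → g * w * g⁻¹ = w :=
    fun hw hg => by rw [mem_centralizer_iff.1 hw _ hg, mul_inv_cancel_right]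
  have key : ∀ s : (D ⧸ R.subgroupOf D) → D, (∀ q q', ((s q : G))⁻¹ * s q' ∈ R → ((q.out : D) : G)⁻¹ * q'.out ∈ R) →
      ∀ w : X, (w : G) ∈ (C(R) : Subgroup G) → ∏ q, ψ (s q) w = τ w := fun s hs w hw => by
    have inj : Function.Injective fun q => (QuotientGroup.mk (s q) : D ⧸ R.subgroupOf D) := fun q q' e => by
      have := hs q q' ((QuotientGroup.eq (s := R.subgroupOf D)).1 e)
      rw [← q.out_eq', ← q'.out_eq']
      exact QuotientGroup.eq.2 this
    refine Fintype.prod_bijective _ (Finite.injective_iff_bijective.1 inj) _ _ fun q => ?_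
    obtain ⟨r, hr⟩ := QuotientGroup.mk_out_eq_mul (R.subgroupOf D) (s q)
    rw [hr, map_mul, MulAut.mul_apply]
    congr 1
    exact Subtype.ext (fx hw r.2).symm
  have t1 : ∀ w : X, (w : G) ∈ (C(R) : Subgroup G) → ((τ w : X) : G) ∈ (C(D) : Subgroup G) := fun w hw =>
    mem_centralizer_iff.2 fun d hd => by
      have e : ψ ⟨d, hd⟩ (τ w) = τ w := by
        refine Eq.trans ?_ (key (fun q => ⟨d, hd⟩ * q.out) (fun q q' k => by simpa [mul_assoc] using k) w hw)
        rw [hτ, map_prod]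
        simp only [map_mul, MulAut.mul_apply]
      have := congrArg Subtype.val e
      rw [hψ] at this
      exact mul_inv_eq_iff_eq_mul.1 this
  have t2 : ∀ w : X, (w : G) ∈ (C(D) : Subgroup G) → τ w = w := fun w hw => by
    have e : ∀ q : D ⧸ R.subgroupOf D, ψ q.out w = w := fun q => Subtype.ext (fx hw q.out.2)
    rw [hτ, Finset.prod_congr rfl fun q _ => e q, Finset.prod_const, Finset.card_univ, ← Nat.card_eq_fintype_card]
    obtain ⟨k, hk⟩ : Odd (Nat.card (D ⧸ R.subgroupOf D)) :=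
      Nat.not_even_iff_odd.1 fun h => odd (even_iff_two_dvd.1 h)
    rw [hk, pow_succ, pow_mul, show w ^ 2 = 1 from Subtype.ext (hX.2 _ w.2), one_pow, one_mul]
  have nR : T ≤ normalizer ((C(R) : Subgroup G) : Set G) := le_normalizer_centralizer hTR
  have t3 : ∀ t (ht : t ∈ T) (w : X), (w : G) ∈ (C(R) : Subgroup G) → τ (φ ⟨t, hT ht⟩ w) = φ ⟨t, hT ht⟩ (τ w) :=
    fun t ht w hw => by
    have m : ∀ d : D, t * d * t⁻¹ ∈ D := fun d => (mem_normalizer_iff.1 (hTD ht) d).1 d.2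
    rw [← key (fun q => ⟨_, m q.out⟩) (fun q q' k => (mem_normalizer_iff.1 (hTR ht) _).2 (by
      simpa [mul_assoc] using k)) _ ((mem_normalizer_iff.1 (nR ht) _).1 hw), hτ, map_prod]
    refine Finset.prod_congr rfl fun q _ => Subtype.ext ?_
    rw [hψ, hφ, hφ, hψ]
    group
  have K0 : (τ.ker ⊓ (C(R) : Subgroup G).subgroupOf X).map X.subtype = ⊥ := by
    by_contra hne
    obtain ⟨_, ⟨z, z1, rfl⟩, z2, z3, -⟩ := exists_mem_centralizer_pow_eq_one pT
      ((isPGroup_of_isElementaryAbelian hX).to_le (map_subtype_le _))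
      (le_normalizer_iff_conj_le.2 fun t ht => conj_le_iff.2 (by
        rintro _ ⟨w, ⟨w1, w2⟩, rfl⟩
        refine ⟨φ ⟨t, hT ht⟩ w, ⟨?_, (mem_normalizer_iff.1 (nR ht) _).1 w2⟩, rfl⟩
        show τ _ = 1
        rw [t3 t ht w w2, show τ w = 1 from w1, map_one])) hne
    have := t2 z (hz ⟨z.2, z2⟩)
    rw [show τ z = 1 from z1.1] at this
    exact z3 (congrArg Subtype.val this).symm
  rintro x ⟨hx, hw⟩
  have a1 := t1 ⟨x, hx⟩ hw
  have a2 : (⟨x, hx⟩ : X) * τ ⟨x, hx⟩ ∈ τ.ker ⊓ (C(R) : Subgroup G).subgroupOf X := by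
    refine ⟨?_, mul_mem hw (centralizer_anti hR a1)⟩
    show τ _ = 1
    rw [map_mul, t2 _ a1, ← pow_two]
    exact Subtype.ext (hX.2 _ (τ ⟨x, hx⟩).2)
  have a3 := mem_map_of_mem X.subtype a2
  rw [K0, mem_bot] at a3
  have a4 : x = ((τ ⟨x, hx⟩ : X) : G)⁻¹ := eq_inv_of_mul_eq_one_left a3
  rw [a4]
  exact inv_mem a1

/-- the elements of `N` acting trivially on `E / O` -/
def gaD {G : Type u} [Group G] {N O : Subgroup G} (h : N ≤ N(O)) (E : Subgroup G) : Subgroup G where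
  carrier := {x | x ∈ N ∧ ∀ e ∈ E, x * e * x⁻¹ * e⁻¹ ∈ O}
  mul_mem' := fun {x y} hx hy => ⟨mul_mem hx.1 hy.1, fun e he => by
    have := mul_mem ((mem_normalizer_iff.1 (h hx.1) _).1 (hy.2 e he)) (hx.2 e he)
    convert this using 1
    group⟩
  one_mem' := ⟨one_mem _, fun e _ => by simp⟩
  inv_mem' := fun {x} hx => ⟨inv_mem hx.1, fun e he => by
    have := (mem_normalizer_iff.1 (h (inv_mem hx.1)) _).1 (inv_mem (hx.2 e he))
    convert this using 1
    group⟩

theorem ga : GA.{u} := by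
  intro G _ _ T N M₀ V sN ch sM nE nZ el VT nV hR
  haveI : Fact (Nat.Prime 2) := ⟨Nat.prime_two⟩
  have nO := le_normalizer_pCoreOf_of (p := 2) nE
  have EM := pResidualOf_le 2 M₀
  have nE' := le_normalizer_pResidualOf 2 M₀
  have eO := pCoreOf_eq_inf_of_normal (p := 2) EM nE'
  have eM := pResidualOf_sup_of_isSylowIn sM
  have RT : pCoreOf 2 M₀ ≤ T := sM.pCoreOf_le
  obtain ⟨D, hD⟩ : ∃ D : Subgroup G, ∀ x, x ∈ D ↔ x ∈ N ∧ ∀ e ∈ pResidualOf 2 M₀,
      x * e * x⁻¹ * e⁻¹ ∈ pCoreOf 2 (pResidualOf 2 M₀) := ⟨gaD nO _, fun _ => Iff.rfl⟩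
  have DN : D ≤ N := fun x hx => ((hD x).1 hx).1
  have nD : N ≤ N(D) := le_normalizer_iff_conj_le.2 fun n hn => conj_le_iff.2 fun x hx => (hD _).2
    ⟨mul_mem (mul_mem hn (DN hx)) (inv_mem hn), fun e he => by
      have := (mem_normalizer_iff.1 (nO hn) _).1 (((hD x).1 hx).2 _
        ((mem_normalizer_iff.1 (nE (inv_mem hn)) e).1 he))
      convert this using 1
      group⟩
  have RD : pCoreOf 2 M₀ ≤ D := fun r hr => (hD r).2 ⟨sN.le (RT hr), fun e he => by
    rw [eO]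
    refine mem_inf.2 ⟨?_, mul_mem ((mem_normalizer_iff.1 (nE' (pCoreOf_le 2 M₀ hr)) e).1 he) (inv_mem he)⟩
    have := mul_mem hr ((mem_normalizer_iff.1 (le_normalizer_pCoreOf 2 M₀ (EM he)) _).1 (inv_mem hr))
    convert this using 1
    group⟩
  have eR : T ⊓ D = pCoreOf 2 M₀ := by
    refine le_antisymm (le_pCoreOf (inf_le_left.trans sM.le) (eM.ge.trans (sup_le ?_
      (le_normalizer_inf le_normalizer (sN.le.trans nD)))) (sN.isPGroup.to_le inf_le_left)) (le_inf RT RD)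
    refine le_normalizer_of_commutator_le (commutator_le.2 fun x hx e he => ?_)
    exact le_inf RT RD ((eO.le.trans inf_le_left) (((hD x).1 hx.2).2 e he))
  have sD : IsSylowIn 2 (pCoreOf 2 M₀) D := eR ▸ sN.inf_normal DN nD
  have RC : pCoreOf 2 M₀ ≤ C(V) := hR.le.trans inf_le_right
  have VR : V ≤ pCoreOf 2 M₀ := hR ▸ le_inf VT (le_centralizer_of_isElementaryAbelian el)
  have c1 : V ≤ C(pCoreOf 2 D) := le_centralizer_iff.1 (sD.pCoreOf_le.trans RC)
  have VX : V ≤ omegaOneCenter 2 (pCoreOf 2 D) :=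
    le_omegaOneCenter el ((ch.normal DN nD).le_pCoreOf (VR.trans RD) c1) c1
  have nX : N ≤ N(omegaOneCenter 2 (pCoreOf 2 D)) := le_normalizer_omegaOneCenter (le_normalizer_pCoreOf_of nD)
  have XT : omegaOneCenter 2 (pCoreOf 2 D) ≤ T := (omegaOneCenter_le 2 _).trans (sD.pCoreOf_le.trans RT)
  have Xel := isElementaryAbelian_omegaOneCenter 2 (pCoreOf 2 D)
  have tr := ga_tr Xel (DN.trans nX) (sN.le.trans nX) (sN.le.trans nD) (sM.le.trans (le_normalizer_pCoreOf 2 M₀))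
    RD sD.not_dvd_relIndex sN.isPGroup fun x hx => centralizer_anti DN (le_centralizer_iff.1 nZ
      (mem_omegaOneCenter_iff.2 ⟨XT hx.1, hx.2, Xel.2 x hx.1⟩))
  have VC : V ≤ C(D) := (le_inf VX (le_centralizer_iff.1 RC)).trans tr
  have UX : nclIn V N ≤ omegaOneCenter 2 (pCoreOf 2 D) := nclIn_le VX nX
  refine ⟨isElementaryAbelian_of_le Xel UX, UX.trans XT, le_antisymm
    (inf_le_inf_left _ (centralizer_anti (le_nclIn V N))) (le_inf inf_le_left (hR.ge.trans (RD.trans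
      (le_centralizer_iff.1 (nclIn_le_centralizer nD VC))))), eM.ge.trans (sup_le (le_normalizer_iSup fun n => ?_)
      (sN.le.trans (le_normalizer_nclIn V N)))⟩
  have := le_normalizer_conj (EM.trans nV) (n : G)
  rwa [conj_eq_of_mem_normalizer (nE n.2)] at this

end Cfsg.Agent.Lib.QR
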