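import Cfsg.Agent.Lib.QRDefs

/-! The piece `GC` of the qrc-lemma: a cubic offender. -/

set_option autoImplicit false

namespace Cfsg.Agent.Lib.QR

open Cfsg Subgroup Cfsg.Agent.Lib.PCoreConj Cfsg.Agent.Lib.PCore Cfsg.Agent.Lib.PCoreResidual Cfsg.Agent.Lib.PCoreMod
open Cfsg.Agent.Lib.Blk Cfsg.Agent.Lib.PReduced Cfsg.Agent.Lib.PushBase Cfsg.Agent.Lib.ThompsonJ
open scoped Pointwise commutatorElement

universe u

variable {G : Type u} [Group G]

/-- the symmetric configuration -/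
structure GSy (L N N' V X Q : Subgroup G) (g : G) : Prop where
  eV : IsElementaryAbelian 2 V
  eX : IsElementaryAbelian 2 X
  nV : N ≤ N(V)
  nX : N' ≤ N(X)
  gX : ∀ a ∈ X, a ∉ N → ∀ K : Subgroup G, V ≤ K → a ∈ K → L ≤ K
  gV : ∀ a ∈ V, a ∉ N' → ∀ K : Subgroup G, X ≤ K → a ∈ K → L ≤ K
  gL : g ∈ L
  eq : V ^ᶜ g = X
  V_n : ¬ V ≤ N'
  X_n : ¬ X ≤ N
  QN : Q ≤ N
  QN' : Q ≤ N'
  nQ : L ≤ N(Q)
  VL : V ≤ L
  XL : X ≤ L
  nq : ¬ ⁅Q, L⁆ ≤ V ⊓ X

namespace GSy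

variable {L N N' V X Q : Subgroup G} {g : G} (h : GSy L N N' V X Q g)
include h

theorem symm : GSy L N' N X V Q g⁻¹ :=
  ⟨h.eX, h.eV, h.nX, h.nV, h.gV, h.gX, inv_mem h.gL, by rw [← h.eq, conj_conj_inv], h.X_n, h.V_n, h.QN', h.QN, h.nQ,
    h.XL, h.VL, inf_comm V X ▸ h.nq⟩

theorem cV : V ≤ C(V) := le_centralizer_of_isElementaryAbelian h.eV

theorem cent : L ≤ C(V ⊓ X) := by
  obtain ⟨a, ha, na⟩ := SetLike.not_le_iff_exists.1 h.X_n
  exact h.gX a ha na _ (h.cV.trans (centralizer_anti inf_le_left)) (centralizer_anti inf_le_right (h.symm.cV ha))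

theorem star {a v : G} (ha : a ∈ X) (hv : v ∈ V) (nv : v ∉ N') (c : ⁅v, a⁆ ∈ V ⊓ X) : a ∈ V := by
  let K : Subgroup G :=
    { carrier := {l | l ∈ L ∧ ⁅l, a⁆ ∈ V ⊓ X}
      one_mem' := ⟨one_mem _, by simp⟩
      inv_mem' := fun {x} hx => ⟨inv_mem hx.1, by
        have := inv_mem hx.2
        have e := h.cent hx.1 _ this
        rwa [show ⁅x⁻¹, a⁆ = x⁻¹ * (⁅x, a⁆⁻¹ * x) by simp only [commutatorElement_def]; group, e,
          inv_mul_cancel_left]⟩
      mul_mem' := fun {x y} hx hy => ⟨mul_mem hx.1 hy.1, by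
        have := mul_mem hy.2 hx.2
        rwa [show ⁅y, a⁆ * ⁅x, a⁆ = ⁅y, a⁆ * x * (a * x⁻¹ * a⁻¹) by simp only [commutatorElement_def]; group,
          h.cent hx.1 _ hy.2, show x * ⁅y, a⁆ * (a * x⁻¹ * a⁻¹) = ⁅x * y, a⁆ by
            simp only [commutatorElement_def]; group] at this⟩ }
  have k := (h.gV v hv nv K (fun x hx => ⟨h.XL hx, by
    rw [commutatorElement_eq_one_iff_mul_comm.2 (h.symm.cV ha x hx)]; exact one_mem _⟩) ⟨h.VL hv, c⟩
      (inv_mem h.gL)).2.1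
  rw [← h.eq, mem_conj_iff] at ha
  have := V.mul_mem (V.inv_mem k) ha
  rwa [show ⁅g⁻¹, a⁆⁻¹ * (g⁻¹ * a * g) = a by simp only [commutatorElement_def]; group] at this

theorem ne : ¬ X ⊓ N ≤ V := fun e => by
  have nZ := le_normalizer_of_le_centralizer h.cent
  have k₁ : ⁅Q, X⁆ ≤ V ⊓ X := by
    have a := commutator_le_right_of_le_normalizer (h.QN'.trans h.nX)
    exact le_inf ((le_inf a ((commutator_le_left_of_le_normalizer (h.XL.trans h.nQ)).trans h.QN)).trans e) a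
  have k₂ : ⁅Q, V⁆ ≤ V ⊓ X := by
    have := conj_mono g⁻¹ k₁
    rwa [conj_commutator, conj_eq_of_mem_normalizer (h.nQ (inv_mem h.gL)), h.symm.eq,
      conj_eq_of_mem_normalizer (nZ (inv_mem h.gL))] at this
  obtain ⟨a, ha, na⟩ := SetLike.not_le_iff_exists.1 h.X_n
  exact h.nq ((commutator_mono le_rfl (h.gX a ha na _ le_sup_left (mem_sup_right ha))).trans
    (commutator_sup_le (h.VL.trans nZ) (h.XL.trans nZ) k₂ k₁))

theorem comm₁ : ⁅V, X ⊓ N⁆ ≤ V ⊓ N' := commutator_le.2 fun v hv d hd => by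
  have m : d * v⁻¹ * d⁻¹ ∈ V := (mem_normalizer_iff.1 (h.nV hd.2) _).1 (inv_mem hv)
  have m' : ⁅v, d⁆ ∈ V := by
    have := mul_mem hv m
    rwa [← mul_assoc, ← mul_assoc] at this
  refine ⟨m', by_contra fun n => ?_⟩
  have dd : d * d = 1 := (pow_two d).symm.trans (h.eX.2 d hd.1)
  have vv : v⁻¹ = v := inv_eq_of_mul_eq_one_right ((pow_two v).symm.trans (h.eV.2 v hv))
  have c : ⁅v, d⁆ * d = d * ⁅v, d⁆ := by
    calc _ = v * (d * v⁻¹ * d⁻¹) * d := by rw [commutatorElement_def]; group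
      _ = d * v⁻¹ * d⁻¹ * v * (d * d) * d⁻¹ := by rw [h.cV m v hv]; group
      _ = d * v⁻¹ * (d * d * d⁻¹) * v * d⁻¹ := by rw [dd]; group
      _ = d * (v⁻¹ * d * v⁻¹⁻¹ * d⁻¹) := by group
      _ = _ := by rw [vv, commutatorElement_def]
  have k := h.star hd.1 m' n (by rw [commutatorElement_eq_one_iff_mul_comm.2 c]; exact one_mem _)
  exact n (by rw [commutatorElement_eq_one_iff_mul_comm.2 (h.cV k v hv)]; exact one_mem _)

theorem cubic : ⁅⁅⁅V, X ⊓ N⁆, X ⊓ N⁆, X ⊓ N⁆ = ⊥ := by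
  have k : ⁅V ⊓ N', X ⊓ N⁆ ≤ V ⊓ X := le_inf
    ((commutator_mono inf_le_left le_rfl).trans (commutator_le_left_of_le_normalizer (inf_le_right.trans h.nV)))
    ((commutator_mono le_rfl inf_le_left).trans (commutator_le_right_of_le_normalizer (inf_le_right.trans h.nX)))
  exact le_bot_iff.1 ((commutator_mono ((commutator_mono h.comm₁ le_rfl).trans k) le_rfl).trans
    (commutator_eq_bot_iff_le_centralizer'.2 ((inf_le_left.trans h.XL).trans h.cent)).le)

theorem cD {a : G} (ha : a ∈ X) (c : a ∈ (C(V) : Subgroup G)) : a ∈ V := by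
  obtain ⟨v, hv, nv⟩ := SetLike.not_le_iff_exists.1 h.V_n
  exact h.star ha hv nv (by rw [commutatorElement_eq_one_iff_mul_comm.2 (c v hv)]; exact one_mem _)

theorem count [Finite G] (hV : V ≤ N) :
    (C(X ⊓ N) : Subgroup G).relIndex V ≤ (C(V) : Subgroup G).relIndex (X ⊓ N) ^ 2 := by
  have nz : ∀ A B : Subgroup G, A.relIndex B ≠ 0 := fun A B => index_ne_zero_of_finite
  obtain ⟨b, hb, nb⟩ := SetLike.not_le_iff_exists.1 h.symm.ne
  have m : ∀ a ∈ X, b * a⁻¹ * b⁻¹ ∈ X := fun a ha => (mem_normalizer_iff.1 (h.nX hb.2) _).1 (inv_mem ha)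
  let f : X →* G := MonoidHom.mk' (fun a => ⁅(a : G), b⁆) fun x y => by
    simp only [commutatorElement_def, coe_mul]
    calc _ = (x : G) * (y * (b * (y : G)⁻¹ * b⁻¹) * (b * (x : G)⁻¹ * b⁻¹)) := by group
      _ = _ := by rw [h.symm.cV (m x x.2) _ (mul_mem y.2 (m y y.2))]; group
  have k₁ : (X ⊓ N).relIndex X ≤ (V ⊓ X).relIndex (X ⊓ N) := by
    calc _ = ((X ⊓ N).subgroupOf X).relIndex ⊤ := (relIndex_top_right _).symm
      _ ≤ ((V ⊓ X).comap f).relIndex ⊤ := relIndex_le_of_le_left (fun a ha => ⟨a.2, by_contra fun n =>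
          nb (h.symm.star hb.1 a.2 n (inf_comm V X ▸ ha))⟩) index_ne_zero_of_finite
      _ = (V ⊓ X).relIndex (map f ⊤) := relIndex_comap _ _ _
      _ ≤ _ := relIndex_le_of_le_right (by
          rintro _ ⟨a, -, rfl⟩
          exact h.symm.comm₁ (commutator_mem_commutator a.2 hb)) (nz _ _)
  have k₂ : (V ⊓ X).relIndex V = (V ⊓ X).relIndex X := by
    have a := card_mul_relIndex (inf_le_left : V ⊓ X ≤ V)
    have b := card_mul_relIndex (inf_le_right : V ⊓ X ≤ X)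
    have c : Nat.card X = Nat.card V := by rw [← h.eq, card_conj]
    exact Nat.eq_of_mul_eq_mul_left Nat.card_pos (a.trans (c.symm.trans b.symm))
  have k₃ : (V ⊓ X).relIndex (X ⊓ N) ≤ (C(V) : Subgroup G).relIndex (X ⊓ N) := by
    rw [← inf_relIndex_right (C(V) : Subgroup G)]
    exact relIndex_le_of_le_left (fun a ha => ⟨h.cD ha.2.1 ha.1, ha.2.1⟩) (nz _ _)
  calc _ ≤ (V ⊓ X).relIndex V := relIndex_le_of_le_left (inf_le_right.trans (h.symm.cV.trans
        (centralizer_anti inf_le_left))) (nz _ _)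
    _ = (V ⊓ X).relIndex (X ⊓ N) * (X ⊓ N).relIndex X := by
        rw [k₂, relIndex_mul_relIndex _ _ _ (le_inf inf_le_right (inf_le_left.trans hV)) inf_le_left]
    _ ≤ _ := by
        rw [pow_two]
        exact Nat.mul_le_mul k₃ (k₁.trans k₃)

end GSy

theorem gc : GC.{u} := by
  intro G _ _ T H N V h up
  have VN := h.VT.trans h.TN
  have NH := h.NH.le
  have nV : N ≤ N(V) := h.NV.ge.trans inf_le_right
  obtain ⟨L, ⟨l₁, l₂, l₃⟩, mn⟩ := exists_minimal_of_wellFoundedLT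
    (fun L : Subgroup G => V ≤ L ∧ L ≤ H ∧ ¬ L ≤ N) ⟨H, VN.trans NH, le_rfl, h.NH.not_ge⟩
  obtain ⟨g, hg, ng⟩ := SetLike.not_le_iff_exists.1 l₃
  have gen : ∀ a ∈ L, a ∉ N → ∀ K : Subgroup G, V ≤ K → a ∈ K → L ≤ K := fun a ha na K k₁ k₂ =>
    (mn ⟨le_inf l₁ k₁, inf_le_left.trans l₂, fun e => na (e ⟨ha, k₂⟩)⟩ inf_le_left).trans inf_le_right
  have nQ := le_normalizer_pCoreOf 2 H
  have QN := h.syl.pCoreOf_le.trans h.TN
  have XL := conj_le_of_mem l₁ hg
  have eX : IsElementaryAbelian 2 (V ^ᶜ g) := isElementaryAbelian_map h.el _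
  have X_n : ¬ V ^ᶜ g ≤ N := fun e => ng (inv_mem_iff.1 (up _ (inv_mem (l₂ hg)) (conj_le_iff_le_conj_inv.1 e)))
  have s : GSy L N (N ^ᶜ g) V (V ^ᶜ g) (pCoreOf 2 H) g := by
    refine ⟨h.el, eX, nV, le_normalizer_conj nV g, fun a ha => gen a (XL ha), fun a ha na K k₁ k₂ => ?_, hg, rfl,
      fun e => ng (up g (l₂ hg) e), X_n, QN, conj_eq_of_mem_normalizer (nQ (l₂ hg)) ▸ conj_mono g QN, l₂.trans nQ,
      l₁, XL, fun e => ?_⟩
    · have := gen (g⁻¹ * a * g) (mul_mem (mul_mem (inv_mem hg) (l₁ ha)) hg) (fun e => na (mem_conj_iff.2 e)) (K ^ᶜ g⁻¹)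
        (conj_le_iff_le_conj_inv.1 k₁) (by simpa using conj_mem_conj g⁻¹ k₂)
      rwa [← conj_le_iff_le_conj_inv, conj_eq_of_mem hg] at this
    · obtain ⟨a, ha, na⟩ := SetLike.not_le_iff_exists.1 X_n
      have c : L ≤ C(V ⊓ V ^ᶜ g) := gen a (XL ha) na _
        ((le_centralizer_of_isElementaryAbelian h.el).trans (centralizer_anti inf_le_left))
        (centralizer_anti inf_le_right (le_centralizer_of_isElementaryAbelian eX ha))
      have KL := pResidualOf_le 2 L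
      have c₁ := pResidualOf_le_centralizer_of_le (pCoreOf_isPGroup 2 H) ((KL.trans l₂).trans nQ)
        ((commutator_mono le_rfl KL).trans e) (KL.trans c)
      obtain ⟨k, hk, e'⟩ := h.syl.exists_le_conj l₂ (isPGroup_of_pResidualOf_le (pCoreOf_isPGroup 2 H)
        ((le_inf (KL.trans l₂) c₁).trans h.chr))
      have e₂ := e'.trans (conj_mono k h.TN)
      rw [conj_eq_of_mem (up k hk (l₁.trans e₂))] at e₂
      exact l₃ e₂
  have eD : IsElementaryAbelian 2 (V ^ᶜ g ⊓ N : Subgroup G) := isElementaryAbelian_of_le eX inf_le_left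
  obtain ⟨n, hn, e⟩ := (h.syl.of_le h.TN NH).exists_conj_le (inf_le_right : V ^ᶜ g ⊓ N ≤ N)
    (isPGroup_of_isElementaryAbelian eD)
  have eV := conj_eq_of_mem_normalizer (nV hn)
  have ri : ∀ A B : Subgroup G, (A ^ᶜ n).relIndex (B ^ᶜ n) = A.relIndex B := fun A B =>
    relIndex_map_map_of_injective A B (MulAut.conj n).injective
  refine ⟨_, e, isElementaryAbelian_map eD _, fun c => s.ne fun a ha => s.cD ha.1 ?_, ?_, ?_⟩
  · have := c (conj_mem_conj n ha)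
    rwa [← eV, ← conj_centralizer, conj_mem_conj_iff] at this
  · have := congrArg (· ^ᶜ n) s.cubic
    simpa only [conj_commutator, conj_bot, eV] using this
  · have := s.count VN
    rwa [← ri, ← ri (C(V) : Subgroup G), conj_centralizer, conj_centralizer, eV] at this

end Cfsg.Agent.Lib.QR
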