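import Cfsg.Agent.Lib.QRPH

/-! The pieces `K1`, `SZ` of the qrc-lemma. -/

set_option autoImplicit false
open Cfsg

namespace Cfsg.Agent.Lib.QR

open Subgroup Cfsg.Agent.Lib.PCoreConj Cfsg.Agent.Lib.PCore Cfsg.Agent.Lib.PCoreResidual Cfsg.Agent.Lib.PCoreMod
open Cfsg.Agent.Lib.Blk Cfsg.Agent.Lib.PReduced Cfsg.Agent.Lib.PushBase Cfsg.Agent.Lib.ThompsonJ
open scoped Pointwise commutatorElement

universe u

theorem k1 : K1.{u} := by
  intro G _ _ L L0 A Y Q h Z0 hn x hx y hy a ha ha0 hz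
  have AL : A ≤ L := le_sup_left.trans (h.AL0.trans h.lt.le)
  have eD : ∀ l ∈ L, pCoreOf 2 L ^ᶜ l = pCoreOf 2 L := fun l hl =>
    conj_eq_of_mem_normalizer (le_normalizer_pCoreOf 2 L hl)
  have DY : pCoreOf 2 L ≤ N(Y ^ᶜ x) := eD x hx ▸ le_normalizer_conj
    (le_sup_right.trans (h.AL0.trans (h.norm.ge.trans inf_le_right))) x
  have h1 : nclIn (A ^ᶜ x) (pCoreOf 2 L) ≤ C(Y ^ᶜ x) :=
    nclIn_le_centralizer DY (conj_centralizer Y x ▸ conj_mono x h.AY)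
  have h2 : nclIn (A ^ᶜ x) (pCoreOf 2 L) ≤ L := nclIn_le (conj_le_of_mem AL hx) (le_normalizer_of_le (pCoreOf_le 2 L))
  have h3 : nclIn (A ^ᶜ x) (pCoreOf 2 L) ≤ phS Z0 y := fun l hl => ⟨hn (h2 hl), by
    rw [commutatorElement_eq_one_iff_mul_comm.2 (mem_centralizer_iff.1 (h1 hl) y hy)]; exact one_mem _⟩
  have h4 : nclIn (A ^ᶜ x) (pCoreOf 2 L) ^ᶜ a ≤ phS Z0 y := conj_le_of_mem h3 ⟨hn (AL ha), hz⟩
  have h5 : pCoreOf 2 L ≤ N(nclIn (A ^ᶜ x) (pCoreOf 2 L) ⊔ nclIn (A ^ᶜ x) (pCoreOf 2 L) ^ᶜ a) := by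
    refine le_normalizer_sup (le_normalizer_nclIn _ _) ?_
    have := le_normalizer_conj (le_normalizer_nclIn (A ^ᶜ x) (pCoreOf 2 L)) a
    rwa [eD a (AL ha)] at this
  have h6 : L ≤ nclIn (A ^ᶜ x) (pCoreOf 2 L) ⊔ nclIn (A ^ᶜ x) (pCoreOf 2 L) ^ᶜ a ⊔ pCoreOf 2 L := by
    have e := congrArg (· ^ᶜ x) (h.gen (x⁻¹ * a * x) (mul_mem (mul_mem (inv_mem hx) (AL ha)) hx)
      fun e => ha0 (mem_conj_iff.2 e))
    simp only [conj_sup, conj_conj] at e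
    rw [conj_eq_of_mem hx, eD x hx, show x * (x⁻¹ * a * x) = a * x by group, ← conj_conj] at e
    exact e.ge.trans (sup_le_sup_right (sup_le_sup (le_nclIn _ _) (conj_mono a (le_nclIn _ _))) _)
  exact fun e he => (sup_le h3 h4 ((pResidualOf_mono h6).trans (pResidualOf_sup_le (pCoreOf_isPGroup 2 L) h5) he)).2

theorem k1_rel {G : Type u} [Group G] (H K : Subgroup G) (g : G) : (H ^ᶜ g).relIndex (K ^ᶜ g) = H.relIndex K :=
  relIndex_map_map_of_injective _ _ (MulAut.conj g).injective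

theorem k1_le {G : Type u} [Group G] [Finite G] {H H' K : Subgroup G} (h : K ⊓ H ≤ H') :
    H'.relIndex K ≤ H.relIndex K := by
  rw [← inf_relIndex_left K H]
  exact relIndex_le_of_le_left h (index_ne_zero_of_finite)

theorem sz (k : K1.{u}) : SZ.{u} := by
  classical
  intro G _ _ L L0 A Y Q h
  have AL : A ≤ L := le_sup_left.trans (h.AL0.trans h.lt.le)
  have ex : ∃ n, ∃ x ∈ L, x ∉ L0 ∧ (L0 ^ᶜ x).relIndex A = n := by
    obtain ⟨x, hx, hx'⟩ := SetLike.exists_of_lt h.lt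
    exact ⟨_, x, hx, hx', rfl⟩
  refine ⟨Nat.find ex, fun x hx hx' => Nat.find_min' ex ⟨x, hx, hx', rfl⟩, ?_⟩
  obtain ⟨x, hx, hx', hm⟩ := Nat.find_spec ex
  generalize Nat.find ex = m at hm ⊢
  have m0 : m ≠ 0 := hm ▸ index_ne_zero_of_finite
  have m1 : ¬ A ≤ L0 ^ᶜ x := fun e => h.lt.not_ge ((h.gen x⁻¹ (inv_mem hx) fun e => hx' (inv_mem_iff.1 e)).ge.trans
    (sup_le (sup_le (le_sup_left.trans h.AL0) (le_conj_iff_conj_inv_le.1 e)) (le_sup_right.trans h.AL0)))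
  have m2 : m ≠ 1 := hm ▸ mt relIndex_eq_one.1 m1
  obtain ⟨a, ha, ha'⟩ := SetLike.not_le_iff_exists.1 m1
  have e1 : (C(pResidualOf 2 L) : Subgroup G).relIndex Y = (C(pResidualOf 2 L) : Subgroup G).relIndex (Y ^ᶜ x) := by
    rw [← k1_rel _ Y x, conj_centralizer, conj_eq_of_mem_normalizer (le_normalizer_pResidualOf 2 L hx)]
  have e2 : (C(pResidualOf 2 L) : Subgroup G).relIndex (Y ^ᶜ x) ≤ (C(A) : Subgroup G).relIndex (Y ^ᶜ x) :=
    k1_le fun y hy => mem_centralizer_iff.2 fun e he => (commutatorElement_eq_one_iff_mul_comm.1 (mem_bot.1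
      (k h ⊥ (by rw [normalizer_eq_top]; exact le_top) x hx y (mem_inf.1 hy).1 a ha ha' (mem_bot.2
        (commutatorElement_eq_one_iff_mul_comm.2 (mem_centralizer_iff.1 (mem_inf.1 hy).2 a ha).symm)) e he))).symm
  have e3 := h.off _ (conj_le_nclIn Y hx)
  have e4 : A ⊓ C(Y ^ᶜ x) ≤ A ⊓ L0 ^ᶜ x := le_inf inf_le_left (by
    rw [← h.norm, conj_inf, conj_eq_of_mem hx, conj_normalizer]
    exact inf_le_inf AL (centralizer_le_normalizer _))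
  have e5 : (C(Y ^ᶜ x) : Subgroup G).relIndex A = (C(Y ^ᶜ x) : Subgroup G).relIndex (A ⊓ L0 ^ᶜ x) * m := by
    rw [← hm, ← inf_relIndex_left A C(Y ^ᶜ x), ← relIndex_mul_relIndex _ _ _ e4 inf_le_left, inf_relIndex_left A]
    congr 1
    rw [← inf_relIndex_left (A ⊓ L0 ^ᶜ x) C(Y ^ᶜ x), ← inf_relIndex_left (A ⊓ L0 ^ᶜ x) (A ⊓ C(Y ^ᶜ x))]
    congr 1
    exact le_antisymm (inf_le_inf_left _ inf_le_right) (le_inf inf_le_left (inf_le_inf_right _ inf_le_left))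
  have e6 : (C(Y ^ᶜ x) : Subgroup G).relIndex (A ⊓ L0 ^ᶜ x) < m := by
    by_cases hB : A ⊓ L0 ^ᶜ x ≤ C(Y ^ᶜ x)
    · rw [relIndex_eq_one.2 hB]; omega
    have q : ⁅⁅Y ^ᶜ x, A ⊓ L0 ^ᶜ x⁆, A ⊓ L0 ^ᶜ x⁆ = ⊥ := le_bot_iff.1 (h.quad ▸
      commutator_mono (commutator_mono (conj_le_nclIn Y hx) inf_le_left) inf_le_left)
    have n := h.nq ((A ⊓ L0 ^ᶜ x) ^ᶜ x⁻¹) (le_conj_iff_conj_inv_le.1 inf_le_right)
      (isPGroup_conj ((isPGroup_of_isElementaryAbelian h.A_el).to_le inf_le_left) _)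
      (by rw [← conj_eq_bot_iff (g := x), conj_commutator, conj_commutator, conj_inv_conj]; exact q)
      (fun e => hB (by rw [← conj_centralizer, le_conj_iff_conj_inv_le]; exact e))
    rw [← k1_rel _ _ x, ← k1_rel _ Y x, conj_centralizer, conj_centralizer, conj_inv_conj] at n
    have n2 : (C(A ⊓ L0 ^ᶜ x) : Subgroup G).relIndex (Y ^ᶜ x) ≤ (C(A) : Subgroup G).relIndex (Y ^ᶜ x) :=
      k1_le (inf_le_right.trans (centralizer_anti inf_le_left))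
    have n3 := n.trans_le (n2.trans (e3.trans e5.le))
    rw [sq] at n3
    exact Nat.lt_of_mul_lt_mul_left n3
  rw [e1, sq]
  exact (e2.trans (e3.trans e5.le)).trans_lt (Nat.mul_lt_mul_of_pos_right e6 (Nat.pos_of_ne_zero m0))

end Cfsg.Agent.Lib.QR
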