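import Cfsg.Agent.Lib.QRDefs

/-! The pigeonhole step of the qrc-lemma. -/

set_option autoImplicit false
open Cfsg

namespace Cfsg.Agent.Lib.QR

open Subgroup Cfsg.Agent.Lib.PCoreConj Cfsg.Agent.Lib.PCore Cfsg.Agent.Lib.PCoreResidual Cfsg.Agent.Lib.PCoreMod
open Cfsg.Agent.Lib.Blk Cfsg.Agent.Lib.PReduced Cfsg.Agent.Lib.PushBase Cfsg.Agent.Lib.ThompsonJ
open scoped Pointwise commutatorElement

universe u
variable {G : Type u} [Group G]

theorem ph_cj {Z : Subgroup G} {l z : G} (hl : l ∈ (N(Z) : Subgroup G)) (hz : z ∈ Z) : l * z * l⁻¹ ∈ Z :=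
  (mem_normalizer_iff.1 hl z).1 hz

theorem ph_cj' {Z : Subgroup G} {l z : G} (hl : l ∈ (N(Z) : Subgroup G)) (hz : z ∈ Z) : l⁻¹ * z * l ∈ Z := by
  simpa using ph_cj (inv_mem hl) hz

/-- elements of `N(Z)` commuting with `w` modulo `Z` -/
def phS (Z : Subgroup G) (w : G) : Subgroup G where
  carrier := {l | l ∈ (N(Z) : Subgroup G) ∧ ⁅w, l⁆ ∈ Z}
  one_mem' := ⟨one_mem _, by simp⟩
  mul_mem' := by
    rintro a b ⟨ha, ha'⟩ ⟨hb, hb'⟩
    refine ⟨mul_mem ha hb, ?_⟩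
    have : ⁅w, a * b⁆ = ⁅w, a⁆ * (a * ⁅w, b⁆ * a⁻¹) := by simp only [commutatorElement_def]; group
    rw [this]
    exact mul_mem ha' (ph_cj ha hb')
  inv_mem' := by
    rintro a ⟨ha, ha'⟩
    refine ⟨inv_mem ha, ?_⟩
    have : ⁅w, a⁻¹⁆ = a⁻¹ * ⁅w, a⁆⁻¹ * a := by simp only [commutatorElement_def]; group
    rw [this]
    exact ph_cj' ha (inv_mem ha')

theorem ph_fix [Finite G] {D Y1 Z0 : Subgroup G} (hD : IsPGroup 2 D) (hY : Y1 ≤ D) (hn : D ≤ N(Y1))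
    (h : ¬ Y1 ≤ Z0) : ∃ y ∈ Y1, y ∉ Z0 ∧ ∀ d ∈ D, ⁅y, d⁆ ∈ Z0 := by
  obtain ⟨W, ⟨h1, h2, h3⟩, hm⟩ := (wellFounded_lt (α := Subgroup G)).has_min
    {W | W ≤ Y1 ∧ D ≤ N(W) ∧ ¬ W ≤ Z0} ⟨Y1, le_rfl, hn, h⟩
  have lt : ⁅W, D⁆ < W := PCore.commutator_lt hD (hD.to_le (h1.trans hY)) h2 (fun e => h3 (e.le.trans bot_le))
  have : ⁅W, D⁆ ≤ Z0 := by
    by_contra k
    exact hm _ ⟨lt.le.trans h1, le_normalizer_commutator h2 le_normalizer, k⟩ lt
  obtain ⟨y, hy, hy'⟩ := SetLike.not_le_iff_exists.1 h3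
  exact ⟨y, h1 hy, hy', fun d hd => this (commutator_mem_commutator hy hd)⟩

theorem ph_key (k : K1.{u}) [Finite G] {L L0 A Y Q : Subgroup G} (h : LC L L0 A Y Q) {Z0 : Subgroup G}
    (hn : L ≤ N(Z0)) (hc : ∀ w ∈ nclIn Y L, (∀ e ∈ pResidualOf 2 L, ⁅w, e⁆ ∈ Z0) → w ∈ Z0) {y : G} (hy : y ∈ Y)
    (hyZ : y ∉ Z0) {x c : G} (hx : x ∈ L) (hcA : c ∈ A ^ᶜ x) (hc0 : c ∉ L0) : ⁅y, c⁆ ∉ Z0 := by
  intro hz
  have h1 : x⁻¹ * y * x ∈ Y ^ᶜ x⁻¹ := by simpa using conj_mem_conj x⁻¹ hy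
  have h2 := k h Z0 hn x⁻¹ (inv_mem hx) _ h1 _ (mem_conj_iff.1 hcA) (fun e => hc0 (by
    simpa [mul_assoc] using mem_conj_iff.1 e)) (by
      have : ⁅x⁻¹ * y * x, x⁻¹ * c * x⁆ = x⁻¹ * ⁅y, c⁆ * x := by simp only [commutatorElement_def]; group
      rw [this]
      exact ph_cj' (hn hx) hz)
  have := ph_cj (hn hx) (hc _ (conj_le_nclIn Y (inv_mem hx) h1) h2)
  exact hyZ (by simpa [mul_assoc] using this)

theorem ph_key2 (k : K1.{u}) [Finite G] {L L0 A Y Q : Subgroup G} (h : LC L L0 A Y Q) {Z0 : Subgroup G}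
    (hn : L ≤ N(Z0)) (hc : ∀ w ∈ nclIn Y L, (∀ e ∈ pResidualOf 2 L, ⁅w, e⁆ ∈ Z0) → w ∈ Z0) {y : G} (hy : y ∈ Y)
    (hyZ : y ∉ Z0) (hyD : ∀ d ∈ pCoreOf 2 L, ⁅y, d⁆ ∈ Z0) {x x' c c' : G} (hx : x ∈ L) (hx' : x' ∈ L)
    (hxx : x⁻¹ * x' ∉ L0) (hcA : c ∈ A ^ᶜ x) (hcA' : c' ∈ A ^ᶜ x') (hc0 : c ∉ L0)
    (he : (c * y * c⁻¹)⁻¹ * (c' * y * c'⁻¹) ∈ Z0) : False := by
  have AL : A ≤ L := le_sup_left.trans (h.AL0.trans h.lt.le)
  have UL : nclIn Y L ≤ L := h.U_le.trans (pCoreOf_le 2 L)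
  have yU : y ∈ nclIn Y L := le_nclIn _ _ hy
  have yL := UL yU
  have cL : c ∈ L := conj_le_of_mem AL hx hcA
  have cL' : c' ∈ L := conj_le_of_mem AL hx' hcA'
  have q : ∀ {x c a : G}, x ∈ L → c ∈ A ^ᶜ x → a ∈ A ^ᶜ x → ⁅⁅y, c⁆, a⁆ = 1 := fun {x c a} hx hc ha => by
    have e := congrArg (· ^ᶜ x) h.quad
    simp only [conj_commutator, conj_bot, conj_eq_of_mem_normalizer (le_normalizer_nclIn Y L hx)] at e
    exact mem_bot.1 (e.le (commutator_mem_commutator (commutator_mem_commutator yU hc) ha))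
  have g := congrArg (· ^ᶜ x) (h.gen _ (mul_mem (inv_mem hx) hx') hxx)
  simp only [conj_sup, conj_conj, mul_inv_cancel_left, conj_eq_of_mem hx,
    conj_eq_of_mem_normalizer (le_normalizer_pCoreOf 2 L hx)] at g
  have wU : ⁅y, c⁆ ∈ nclIn Y L :=
    commutator_le_left_of_le_normalizer (le_normalizer_nclIn Y L) (commutator_mem_commutator yU cL)
  have : L ≤ phS Z0 ⁅y, c⁆ := by
    rw [← g]
    refine sup_le (sup_le (fun a ha => ⟨hn (conj_le_of_mem AL hx ha), ?_⟩)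
      (fun a ha => ⟨hn (conj_le_of_mem AL hx' ha), ?_⟩)) (fun d hd => ⟨hn (pCoreOf_le 2 L hd), ?_⟩)
    · rw [q hx hcA ha]; exact one_mem _
    · have aL := conj_le_of_mem AL hx' ha
      set z := y * ((c * y * c⁻¹)⁻¹ * (c' * y * c'⁻¹)) * y⁻¹ with hz
      have zZ : z ∈ Z0 := ph_cj (hn yL) he
      have e1 : ⁅y, c⁆ = z * ⁅y, c'⁆ := by simp only [hz, commutatorElement_def]; group
      have e2 : ⁅z * ⁅y, c'⁆, a⁆ = z * ⁅⁅y, c'⁆, a⁆ * (a * z⁻¹ * a⁻¹) := by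
        generalize ⁅y, c'⁆ = w
        simp only [commutatorElement_def]; group
      rw [e1, e2, q hx' hcA' ha, mul_one]
      exact mul_mem zZ (ph_cj (hn aL) (inv_mem zZ))
    · have h1 := hyD d hd
      have h2 := ph_cj (hn cL) (hyD _ (ph_cj' (le_normalizer_pCoreOf 2 L cL) hd))
      have e : ⁅⁅y, c⁆, d⁆ = ⁅y, c⁆ * (c * ⁅y, c⁻¹ * d * c⁆ * c⁻¹)⁻¹ * ⁅y, c⁆⁻¹ * ⁅y, d⁆ := by
        simp only [commutatorElement_def]; group
      rw [e]
      exact mul_mem (ph_cj (hn (UL wU)) (inv_mem h2)) h1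
  exact ph_key k h hn hc hy hyZ hx hcA hc0 (hc _ wU fun e he => (this (pResidualOf_le 2 L he)).2)

theorem ph (k : K1.{u}) : PH.{u} := by
  intro G _ _ L L0 A Y Q h Z0 Y1 _ hn hc hY hnY hYZ m hm
  classical
  have AL : A ≤ L := le_sup_left.trans (h.AL0.trans h.lt.le)
  obtain ⟨y, hy, hyZ, hyD⟩ := ph_fix (pCoreOf_isPGroup 2 L) ((hY.trans (le_nclIn Y L)).trans h.U_le)
    ((le_sup_right.trans h.AL0).trans hnY) hYZ
  have yL : y ∈ L := pCoreOf_le 2 L (h.U_le (le_nclIn Y L (hY hy)))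
  let Ω := L ⧸ L0.subgroupOf L
  haveI : Fintype Ω := Fintype.ofFinite _
  haveI : Fintype (Y1 ⧸ Z0.subgroupOf Y1) := Fintype.ofFinite _
  let p : Ω := QuotientGroup.mk 1
  let R : Ω → Ω → Prop := fun s r => ∃ c : L, (c : G) ∈ A ^ᶜ ((s.out : L) : G) ∧ QuotientGroup.mk c = r
  have out0 : ∀ s : Ω, s ≠ p → ((s.out : L) : G) ∉ L0 := fun s hs e => hs (by
    rw [← QuotientGroup.out_eq' s]
    exact QuotientGroup.eq.2 (by simpa [mem_subgroupOf] using e))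
  have key := Finset.card_mul_le_card_mul R (s := Finset.univ.erase p) (t := Finset.univ.erase p) (m := m - 1)
    (n := Z0.relIndex Y1 - 1) (fun s hs => by
      have hs' := Finset.ne_of_mem_erase hs
      set x : G := ((s.out : L) : G) with hx
      have xL : x ∈ L := (s.out : L).2
      have AxL : A ^ᶜ x ≤ L := conj_le_of_mem AL xL
      haveI : Fintype (↥(A ^ᶜ x) ⧸ L0.subgroupOf (A ^ᶜ x)) := Fintype.ofFinite _
      let f := quotientSubgroupOfEmbeddingOfLE L0 AxL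
      have h1 : m ≤ (Finset.univ.map f).card := by
        rw [Finset.card_map, Finset.card_univ, ← Nat.card_eq_fintype_card]
        refine (hm x⁻¹ (inv_mem xL) (fun e => out0 s hs' (by simpa using e))).trans (le_of_eq ?_)
        have := relIndex_map_map_of_injective (L0 ^ᶜ x⁻¹) A (f := (MulAut.conj x).toMonoidHom) (MulAut.conj x).injective
        rw [conj_inv_conj] at this
        exact this.symm
      refine (Nat.sub_le_sub_right h1 1).trans (Finset.pred_card_le_card_erase (a := p) |>.trans (Finset.card_le_card ?_))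
      intro r hr
      obtain ⟨hr1, hr2⟩ := Finset.mem_erase.1 hr
      obtain ⟨c, -, rfl⟩ := Finset.mem_map.1 hr2
      induction c using QuotientGroup.induction_on with | H c =>
      exact (Finset.mem_bipartiteAbove _).2 ⟨Finset.mem_erase.2 ⟨hr1, Finset.mem_univ _⟩, ⟨c, AxL c.2⟩, c.2, rfl⟩)
    (fun r hr => by
      have hr' := Finset.ne_of_mem_erase hr
      set g : G := ((r.out : L) : G) with hg
      have gL : g ∈ L := (r.out : L).2
      have g0 := out0 r hr'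
      have e : Z0.relIndex Y1 - 1 = (Finset.univ.erase (QuotientGroup.mk 1 : Y1 ⧸ Z0.subgroupOf Y1)).card := by
        rw [Finset.card_erase_of_mem (Finset.mem_univ _), Finset.card_univ, ← Nat.card_eq_fintype_card]; rfl
      rw [e]
      refine Finset.card_le_card_of_forall_subsingleton (fun s q => ∃ c : G, c ∈ A ^ᶜ ((s.out : L) : G) ∧ g⁻¹ * c ∈ L0 ∧
        ∃ hy : g⁻¹ * (c * y * c⁻¹) * g ∈ Y1, QuotientGroup.mk ⟨_, hy⟩ = q) (fun s hs => ?_) (fun q _ => ?_)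
      · obtain ⟨-, c, hc1, hc2⟩ := (Finset.mem_bipartiteBelow _).1 hs
        have c0 : g⁻¹ * c ∈ L0 := by
          have := QuotientGroup.eq.1 ((QuotientGroup.out_eq' r).trans hc2.symm)
          simpa [mem_subgroupOf] using this
        have hy1 : g⁻¹ * (c * y * (c : G)⁻¹) * g ∈ Y1 := by
          have := ph_cj (hnY c0) hy
          simpa [mul_assoc] using this
        refine ⟨_, Finset.mem_erase.2 ⟨fun e => ?_, Finset.mem_univ _⟩, c, hc1, c0, hy1, rfl⟩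
        have h1 : (g⁻¹ * (c * y * (c : G)⁻¹) * g)⁻¹ ∈ Z0 := by
          have := QuotientGroup.eq.1 e
          simpa only [mem_subgroupOf, coe_mul, coe_inv, mul_one] using this
        have h2 := ph_cj' (hn c.2) (ph_cj (hn gL) (inv_mem h1))
        exact hyZ (by simpa [mul_assoc] using h2)
      · rintro s ⟨-, c, hc1, hc2, hy1, rfl⟩ s' ⟨-, c', hc1', hc2', hy1', e⟩
        by_contra ne
        have h1 : (g⁻¹ * (c * y * c⁻¹) * g)⁻¹ * (g⁻¹ * (c' * y * c'⁻¹) * g) ∈ Z0 := by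
          have := QuotientGroup.eq.1 e.symm
          simpa only [mem_subgroupOf, coe_mul, coe_inv] using this
        refine ph_key2 k h hn hc (hY hy) hyZ hyD (s.out : L).2 (s'.out : L).2 (fun e' => ne ?_) hc1 hc1'
          (fun e' => g0 (by simpa using inv_mem (mul_mem hc2 (inv_mem e')))) ?_
        · rw [← QuotientGroup.out_eq' s, ← QuotientGroup.out_eq' s']
          exact QuotientGroup.eq.2 (by simpa [mem_subgroupOf] using e')
        · have := ph_cj (hn gL) h1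
          simpa [mul_assoc] using this)
  obtain ⟨x, hx, hx0⟩ := SetLike.exists_of_lt h.lt
  have pos : 0 < (Finset.univ.erase p).card := Finset.card_pos.2 ⟨QuotientGroup.mk ⟨x, hx⟩,
    Finset.mem_erase.2 ⟨fun e => hx0 (by simpa [mem_subgroupOf] using QuotientGroup.eq.1 e), Finset.mem_univ _⟩⟩
  have h1 := Nat.le_of_mul_le_mul_left key pos
  have h2 : Z0.relIndex Y1 ≠ 0 := index_ne_zero_of_finite
  omega

end Cfsg.Agent.Lib.QR
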