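import Cfsg.Agent.Lib.QRDefs

/-! The piece `QC1` of the qrc-lemma. -/

set_option autoImplicit false

namespace Cfsg.Agent.Lib.QR

open Cfsg Subgroup Cfsg.Agent.Lib.PCoreConj Cfsg.Agent.Lib.PCore Cfsg.Agent.Lib.PCoreResidual Cfsg.Agent.Lib.PCoreMod
open Cfsg.Agent.Lib.Blk Cfsg.Agent.Lib.PReduced Cfsg.Agent.Lib.PushBase Cfsg.Agent.Lib.ThompsonJ
open scoped Pointwise commutatorElement

universe u

theorem qc1 (t : TL.{u}) : QC1.{u} := by
  intro G _ _ L L0 A Y Q h
  have pD := pCoreOf_isPGroup 2 L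
  have nD := le_normalizer_pCoreOf 2 L
  have DL := pCoreOf_le 2 L
  have D0 : pCoreOf 2 L ≤ L0 := le_sup_right.trans h.AL0
  have nY : L0 ≤ N(Y) := h.norm.ge.trans inf_le_right
  have nU := le_normalizer_nclIn Y L
  have EL := pResidualOf_le 2 L
  obtain ⟨S, hS, l⟩ := exists_isSylowIn_ge (h.AL0.trans h.lt.le) (IsPGroup.to_sup_of_normal_right'
    (isPGroup_of_isElementaryAbelian h.A_el) pD (((le_sup_left.trans h.AL0).trans h.lt.le).trans nD))
  have S0 : S ≤ L0 := h.uniq S l (lt_of_le_of_ne hS.le fun e =>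
    h.lt.not_ge ((le_pCoreOf le_rfl le_normalizer (e ▸ hS.isPGroup)).trans D0))
  have gen := pResidualOf_sup_of_isSylowIn hS
  refine ⟨?_, fun e => h.lt.not_ge (gen.ge.trans (sup_le e S0))⟩
  have XU := commutator_le_left_of_le_normalizer (DL.trans nU)
  have nX := le_normalizer_commutator nU nD
  have nC := le_normalizer_centralizer (le_normalizer_pResidualOf 2 L)
  rcases t h _ XU nX with a | a
  · rw [commutator_comm]
    refine commutator_nclIn_le nC ((((le_nclIn Y L).trans h.U_le).trans DL).trans nC) nD ?_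
    rw [commutator_comm]
    exact (le_inf (commutator_le_left_of_le_normalizer (D0.trans nY)) (commutator_mono (le_nclIn Y L) le_rfl)).trans a
  · have n₁ : pResidualOf 2 L ≤ N(Y ⊔ ⁅nclIn Y L, pCoreOf 2 L⁆) := le_normalizer_of_commutator_le (by
      rw [commutator_comm]
      refine commutator_sup_le (le_normalizer_of_le le_sup_left) (le_normalizer_of_le le_sup_right) ?_
        ((commutator_le_right_of_le_normalizer (EL.trans nX)).trans le_sup_right)
      rw [commutator_comm]
      exact a.trans le_sup_right)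
    have n₂ := nclIn_le le_sup_left (gen.ge.trans (sup_le n₁ (le_normalizer_sup (S0.trans nY) (hS.le.trans nX))))
    have e := le_antisymm (le_of_le_sup_commutator pD (pD.to_le h.U_le) (DL.trans nU) (D0.trans nY)
      (h.U_le.trans (D0.trans nY)) n₂) (le_nclIn Y L)
    rw [e] at nU
    exact absurd ((le_inf le_rfl nU).trans h.norm.le) h.lt.not_ge

end Cfsg.Agent.Lib.QR
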