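import Cfsg.Agent.Lib.QRDefs

/-! qrc-lemma: the piece `UP`. -/

set_option autoImplicit false
open Cfsg

namespace Cfsg.Agent.Lib.QR

open Subgroup Cfsg.Agent.Lib.PCoreConj Cfsg.Agent.Lib.PCore Cfsg.Agent.Lib.PCoreResidual
open Cfsg.Agent.Lib.PushBase Cfsg.Agent.Lib.ThompsonJ

universe u

namespace UPa

variable {G : Type u} [Group G] [Finite G] {T H N V : Subgroup G}

theorem exists_max (p : Subgroup G → Prop) (h : ∃ S, p S) : ∃ S, p S ∧ ∀ S', p S' → Nat.card S' ≤ Nat.card S := by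
  obtain ⟨S, h1, h2⟩ := Set.exists_max_image {S | p S} (fun S => Nat.card S) (Set.toFinite _) h
  exact ⟨S, h1, h2⟩

theorem card_lt {A B : Subgroup G} (h : A < B) : Nat.card A < Nat.card B :=
  lt_of_le_of_ne (card_le_of_le h.le) fun e => h.ne (eq_of_le_of_card_ge h.le e.ge)

theorem stepA (c : Core T H N V) {g : G} (hg : g ∈ H) (hV : V ≤ N ^ᶜ g) (hn : g ∉ N) :
    ∃ L, L ≤ H ∧ ¬ L ≤ N ∧ V ⊔ pCoreOf 2 H ≤ pCoreOf 2 L := by
  have nT : H ⊓ N(T) ≤ N := (inf_le_inf_left _ (normalizer_le_normalizer_J 2 T)).trans c.hJ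
  have sN : IsSylowIn 2 T N := c.syl.of_le c.TN c.NH.le
  have VQ : V ⊔ pCoreOf 2 H ≤ T := sup_le c.VT c.syl.pCoreOf_le
  obtain ⟨P, ⟨pP, hP, k, hk, hk', PN⟩, mx⟩ := exists_max
    (fun P => IsPGroup 2 P ∧ V ⊔ pCoreOf 2 H ≤ P ∧ ∃ k ∈ H, k ∉ N ∧ P ≤ N ⊓ N ^ᶜ k)
    ⟨_, c.syl.isPGroup.to_le VQ, le_rfl, g, hg, hn, le_inf (VQ.trans c.TN) (sup_le hV (by
      rw [← conj_eq_of_mem_normalizer (le_normalizer_pCoreOf 2 H hg)]
      exact conj_mono g (c.syl.pCoreOf_le.trans c.TN)))⟩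
  have PH : P ≤ H := PN.trans (inf_le_left.trans c.NH.le)
  refine ⟨H ⊓ N(P), inf_le_left, fun e => ?_, hP.trans (le_pCoreOf (le_inf PH le_normalizer) inf_le_right pP)⟩
  obtain ⟨S, hS, PS⟩ := exists_isSylowIn_ge (PN.trans inf_le_right) pP
  rcases PS.eq_or_lt with e' | e'
  · subst e'
    obtain ⟨n, hn, e1⟩ := sN.exists_conj_eq (sN.of_card_le (PN.trans inf_le_left) pP (by
      rw [← (sN.conj k).card_eq_card hS, card_conj]))
    obtain ⟨m, hm, e2⟩ := (sN.conj k).exists_conj_eq hS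
    obtain ⟨n₀, hn₀, rfl⟩ := mem_conj_iff'.1 hm
    have e3 : n⁻¹ * (k * n₀) ∈ N := nT ⟨H.mul_mem (H.inv_mem (c.NH.le hn)) (H.mul_mem hk (c.NH.le hn₀)),
      mem_normalizer_iff_conj_eq.2 (by
        rw [conj_conj, inv_mul_cancel_right] at e2
        rw [← conj_conj, e2, ← e1, conj_conj_inv])⟩
    exact hk' ((N.mul_mem_cancel_right hn₀).1 ((N.mul_mem_cancel_left (N.inv_mem hn)).1 e3))
  · have h1 := lt_inf_normalizer hS.isPGroup e'
    have h2 : S ≤ H := hS.le.trans (conj_le_of_mem c.NH.le hk)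
    exact (card_lt h1).not_ge (mx _ ⟨hS.isPGroup.to_le inf_le_left, hP.trans h1.le, k, hk, hk',
      le_inf ((inf_le_inf_right _ h2).trans e) (inf_le_left.trans hS.le)⟩)

end UPa

open UPa in
theorem up (a : TRa.{u}) (l : LL.{u}) (q : QC.{u}) : UP.{u} := by
  intro G _ _ T H N V c g hg hV
  by_contra hn
  have sN : IsSylowIn 2 T N := c.syl.of_le c.TN c.NH.le
  have nV : N ≤ N(V) := c.NV ▸ inf_le_right
  have VQ : V ⊔ pCoreOf 2 H ≤ T := sup_le c.VT c.syl.pCoreOf_le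
  obtain ⟨L₀, h01, h02, h03⟩ := stepA c hg hV hn
  obtain ⟨S₀, h04⟩ := exists_isSylowIn 2 (L₀ ⊓ N)
  obtain ⟨S', ⟨L', h1', h2', h3', h4'⟩, mx'⟩ := exists_max
    (fun S => ∃ L, L ≤ H ∧ ¬ L ≤ N ∧ V ⊔ pCoreOf 2 H ≤ pCoreOf 2 L ∧ IsSylowIn 2 S (L ⊓ N))
    ⟨S₀, L₀, h01, h02, h03, h04⟩
  obtain ⟨n, hn, ST⟩ := sN.exists_conj_le (h4'.le.trans inf_le_right) h4'.isPGroup
  have h1 : L' ^ᶜ n ≤ H := conj_le_of_mem h1' (c.NH.le hn)
  have h2 : ¬ L' ^ᶜ n ≤ N := fun e => h2' (by rwa [← conj_eq_of_mem hn, conj_le_conj_iff] at e)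
  have h3 : V ⊔ pCoreOf 2 H ≤ pCoreOf 2 (L' ^ᶜ n) := by
    have := conj_mono n h3'
    rwa [conj_sup, conj_eq_of_mem_normalizer (nV hn),
      conj_eq_of_mem_normalizer (le_normalizer_pCoreOf 2 H (c.NH.le hn)), conj_pCoreOf] at this
  have h4 : IsSylowIn 2 (S' ^ᶜ n) (L' ^ᶜ n ⊓ N) := by
    have := h4'.conj n
    rwa [conj_inf, conj_eq_of_mem hn] at this
  have mx : ∀ S L, L ≤ H → ¬ L ≤ N → V ⊔ pCoreOf 2 H ≤ pCoreOf 2 L → IsSylowIn 2 S (L ⊓ N) →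
      Nat.card S ≤ Nat.card ↥(S' ^ᶜ n) := fun S L a1 a2 a3 a4 => by
    rw [card_conj]; exact mx' S ⟨L, a1, a2, a3, a4⟩
  generalize S' ^ᶜ n = S at ST h4 mx
  generalize L' ^ᶜ n = L at h1 h2 h3 h4
  have VS : V ⊔ pCoreOf 2 H ≤ S := (le_inf h3 (VQ.trans c.TN)).trans ((le_pCoreOf
    (inf_le_inf_right _ (pCoreOf_le 2 L))
    (le_normalizer_inf (inf_le_left.trans (le_normalizer_pCoreOf 2 L)) (inf_le_right.trans le_normalizer))
    ((pCoreOf_isPGroup 2 L).to_le inf_le_left)).trans h4.pCoreOf_le)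
  have JC := a N V S c.nq c.el nV (le_sup_left.trans VS) (ST.trans c.TN) h4.isPGroup
  have VJ : V ≤ J 2 S := by
    obtain ⟨A, hA⟩ := exists_maxAb 2 S
    exact (hA.le_of_le_centralizer (le_sup_left.trans VS) (abExp_iff_isElementaryAbelian.2 c.el)
      (hA.le_J.trans JC)).trans hA.le_J
  have SH : S ≤ H := ST.trans c.syl.le
  have nJ := normalizer_le_normalizer_J 2 S
  have hJ : H ⊓ N(J 2 S) ≤ N := by
    rcases ST.eq_or_lt with e | e
    · rw [e]; exact c.hJ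
    by_contra e'
    have k1 := lt_inf_normalizer c.syl.isPGroup e
    obtain ⟨S₂, k2, k3⟩ := exists_isSylowIn_ge (show T ⊓ N(S) ≤ H ⊓ N(J 2 S) ⊓ N from
      le_inf (inf_le_inf c.syl.le nJ) (inf_le_left.trans c.TN)) (c.syl.isPGroup.to_le inf_le_left)
    refine (card_lt (k1.trans_le k3)).not_ge (mx S₂ _ inf_le_left e' (sup_le ?_ ?_) k2)
    · exact VJ.trans (le_pCoreOf (le_inf ((J_le 2 S).trans SH) le_normalizer) inf_le_right
        (h4.isPGroup.to_le (J_le 2 S)))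
    · exact pCoreOf_le_of_le_of_le (le_inf (pCoreOf_le 2 H)
        ((le_sup_right.trans VS).trans (le_normalizer.trans nJ))) inf_le_left
  have hS : IsSylowIn 2 S L := (h4.of_le (le_inf (h4.le.trans inf_le_left) le_normalizer)
    (le_inf inf_le_left ((inf_le_inf h1 nJ).trans hJ))).of_inf_normalizer
  obtain ⟨L₁, L₂, A, Y, lc⟩ := l c L S h1 h2 hS ST h3 ((inf_le_inf_right _ h1).trans hJ)
  exact q lc

end Cfsg.Agent.Lib.QR
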