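import Cfsg.Agent.Lib.QRPH
import Cfsg.Agent.Lib.QRUP

/-! qrc-lemma: the piece `QC`. -/

set_option autoImplicit false
open Cfsg

namespace Cfsg.Agent.Lib.QR

open Subgroup Cfsg.Agent.Lib.PCoreConj Cfsg.Agent.Lib.PCore Cfsg.Agent.Lib.PCoreResidual Cfsg.Agent.Lib.PCoreMod
open Cfsg.Agent.Lib.PushBase
open scoped commutatorElement

universe u

namespace QCa

variable {G : Type u} [Group G]

/-- the elements of the abelian group `U` whose commutators with `s` lie in `Z` -/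
def kr (U Z : Subgroup G) (hU : U ≤ C(U)) (s : Set G) : Subgroup G where
  carrier := {u | u ∈ U ∧ ∀ q ∈ s, q ∈ (N(U) : Subgroup G) → ⁅u, q⁆ ∈ Z}
  one_mem' := ⟨U.one_mem, fun b _ _ => by simp⟩
  mul_mem' := fun {x y} hx hy => ⟨U.mul_mem hx.1 hy.1, fun b hb hb' => by
    have h1 : ⁅y, b⁆ ∈ U := by
      simpa only [commutatorElement_def, mul_assoc] using U.mul_mem hy.1 (ph_cj hb' (U.inv_mem hy.1))
    have h2 : ⁅x * y, b⁆ = (x * ⁅y, b⁆ * x⁻¹) * ⁅x, b⁆ := by simp only [commutatorElement_def]; group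
    rw [h2, mem_centralizer_iff.1 (hU h1) x hx.1, mul_inv_cancel_right]
    exact Z.mul_mem (hy.2 b hb hb') (hx.2 b hb hb')⟩
  inv_mem' := fun {x} hx => ⟨U.inv_mem hx.1, fun b hb hb' => by
    have h1 : ⁅x, b⁆⁻¹ ∈ U := U.inv_mem (by
      simpa only [commutatorElement_def, mul_assoc] using U.mul_mem hx.1 (ph_cj hb' (U.inv_mem hx.1)))
    have h2 : ⁅x⁻¹, b⁆ = x⁻¹ * ⁅x, b⁆⁻¹ * x⁻¹⁻¹ := by simp only [commutatorElement_def]; group
    rw [h2, mem_centralizer_iff.1 (hU h1) _ (U.inv_mem hx.1), mul_inv_cancel_right]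
    exact Z.inv_mem (hx.2 b hb hb')⟩

theorem hyper [Finite G] {W M : Subgroup G} (hW : IsElementaryAbelian 2 W) (h : M < W) :
    ∃ Z, M ≤ Z ∧ Z < W ∧ ∀ w ∈ W, ∀ w' ∈ W, w ∉ Z → w' ∉ Z → w * w' ∈ Z := by
  obtain ⟨Z, ⟨h1, h2⟩, mx⟩ := UPa.exists_max (fun Z => M ≤ Z ∧ Z < W) ⟨M, le_rfl, h⟩
  refine ⟨Z, h1, h2, fun w hw w' hw' n n' => ?_⟩
  have a1 : Z ⊔ zpowers w ≤ W := sup_le h2.le (zpowers_le.2 hw)
  have a2 : Z ⊔ zpowers w = W := by
    by_contra e
    exact (UPa.card_lt (lt_of_le_of_ne le_sup_left fun e' : Z = Z ⊔ zpowers w =>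
      n (e' ▸ mem_sup_right (mem_zpowers w)))).not_ge (mx _ ⟨h1.trans le_sup_left, lt_of_le_of_ne a1 e⟩)
  have cm : ∀ a ∈ W, ∀ b ∈ W, a * b = b * a := fun a ha b hb =>
    congrArg Subtype.val (hW.1.is_comm.comm (⟨a, ha⟩ : W) ⟨b, hb⟩)
  have a3 : zpowers w ≤ N(Z) := le_trans (zpowers_le.2 (mem_centralizer_iff.2 fun z hz => cm z (h2.le hz) w hw))
    (centralizer_le_normalizer _)
  rw [← a2] at hw'
  obtain ⟨z, hz, a, ha, rfl⟩ := (mem_sup_iff_of_le_normalizer' a3).1 hw'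
  have ww : w * w = 1 := by rw [← pow_two]; exact hW.2 w hw
  obtain ⟨i, rfl⟩ := mem_zpowers_iff.1 ha
  have o2 : w ^ (2 : ℤ) = 1 := by rw [zpow_two, ww]
  rcases Int.even_or_odd' i with ⟨k, rfl | rfl⟩
  · rw [zpow_mul, o2, one_zpow, mul_one] at n'
    exact absurd hz n'
  · rw [zpow_add, zpow_mul, o2, one_zpow, one_mul, zpow_one, cm z (h2.le hz) w hw, ← mul_assoc, ww, one_mul]
    exact hz

end QCa

open QCa in
theorem qc (t : TL.{u}) (q : QC1.{u}) : QC.{u} := by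
  intro G _ _ L L0 A Y Q h
  obtain ⟨DE, EL⟩ := q h
  have tl := t h
  have hel := h.U_el
  have UD := h.U_le
  have CQ := h.CQ
  have nU := le_normalizer_nclIn Y L
  have YU := le_nclIn Y L
  have nE := le_normalizer_pResidualOf 2 L
  have EL' := pResidualOf_le 2 L
  have DL := pCoreOf_le 2 L
  have pD := pCoreOf_isPGroup 2 L
  have QL := h.Q_le.trans DL
  have pQ := pD.to_le h.Q_le
  have hQE := commutator_commutator_pResidualOf (p := 2) (K := L) pQ (EL'.trans h.Q_norm)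
  have cE := pResidualOf_le_centralizer_of_commutator (p := 2) (K := L) (pD.to_le UD) (EL'.trans nU)
  have nclC : ∀ N : Subgroup G, L ≤ N(N) → Y ≤ C(N) → nclIn Y L ≤ C(N) := fun N => nclIn_le_centralizer
  have nclE : ∀ N : Subgroup G, L ≤ N(N) → ⁅pResidualOf 2 L, Y⁆ ≤ N → ⁅pResidualOf 2 L, nclIn Y L⁆ ≤ N :=
    fun N h1 h2 => commutator_nclIn_le h1 ((YU.trans (UD.trans DL)).trans h1) nE h2
  obtain ⟨S, hS⟩ := exists_isSylowIn 2 L
  have hES := pResidualOf_sup_of_isSylowIn hS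
  have DL0 : pCoreOf 2 L ≤ L0 := le_sup_right.trans h.AL0
  have QD := h.Q_le
  generalize nclIn Y L = U at *
  generalize pResidualOf 2 L = E at *
  generalize pCoreOf 2 L = D at *
  have UU : U ≤ C(U) := fun a ha => mem_centralizer_iff.2 fun b hb =>
    congrArg Subtype.val (hel.1.is_comm.comm (⟨b, hb⟩ : U) ⟨a, ha⟩)
  have BQ : ⁅Q, E⁆ ≤ Q := commutator_le_left_of_le_normalizer (EL'.trans h.Q_norm)
  have BE : ⁅Q, E⁆ ≤ E := commutator_le_right_of_le_normalizer (QL.trans nE)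
  have nB : L ≤ N(⁅Q, E⁆) := le_normalizer_commutator h.Q_norm nE
  have hne : ⁅U, ⁅Q, E⁆⁆ ≠ ⊥ := fun e => by
    have a1 : ⁅⁅E, U⁆, Q⁆ = ⊥ := by
      refine commutator_commutator_eq_bot_of_rotate ?_ (by rwa [commutator_comm])
      exact commutator_eq_bot_iff_le_centralizer.2 ((commutator_mono le_rfl QD).trans DE)
    rw [commutator_comm E U] at a1
    have a2 := cE (le_centralizer_iff.1 ((le_inf (commutator_le_left_of_le_normalizer (EL'.trans nU))
      (commutator_eq_bot_iff_le_centralizer.1 a1)).trans CQ))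
    exact EL (h.norm ▸ le_inf EL' ((a2.trans (centralizer_le (SetLike.coe_subset_coe.2 YU))).trans
      (centralizer_le_normalizer _)))
  generalize ⁅Q, E⁆ = B at *
  have BL : B ≤ L := BE.trans EL'
  have WU : ⁅U, B⁆ ≤ U := commutator_le_left_of_le_normalizer (BL.trans nU)
  have WE : ⁅U, B⁆ ≤ C(E) := (commutator_mono le_rfl (BQ.trans QD)).trans DE
  have nW : L ≤ N(⁅U, B⁆) := le_normalizer_commutator nU nB
  obtain ⟨Z, z1, z2, z3⟩ := hyper (isElementaryAbelian_of_le hel WU)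
    (commutator_lt hS.isPGroup (pD.to_le (WU.trans UD)) (hS.le.trans nW) hne)
  have nZ : L ≤ N(Z) := by
    rw [← hES]
    exact sup_le ((le_centralizer_iff.1 (z2.le.trans WE)).trans (centralizer_le_normalizer _))
      (le_normalizer_of_commutator_le ((commutator_mono z2.le le_rfl).trans z1))
  have n0 : L ≤ N(kr U Z UU B) := fun g hg => mem_normalizer_of_conj_le (conj_le_iff.2 fun x hx =>
    ⟨ph_cj (nU hg) hx.1, fun b hb _ => by
      have b' : g⁻¹ * b * g ∈ B := ph_cj' (nB hg) hb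
      have := ph_cj (nZ hg) (hx.2 _ b' (nU (BL b')))
      rw [conjugate_commutatorElement] at this
      simpa only [inv_inv, mul_assoc, mul_inv_cancel_left, mul_inv_cancel, mul_one] using this⟩)
  rcases tl (kr U Z UU B) (fun x hx => hx.1) n0 with e | e
  swap
  · have a1 := nclE _ n0 (by rwa [commutator_comm])
    have a2 : ⁅⁅E, B⁆, U⁆ ≤ Z := by
      refine three_subgroups (EL'.trans nZ) (BL.trans nZ) ((UD.trans DL).trans nZ) ?_ ?_
      · rw [commutator_comm B U, commutator_eq_bot_iff_le_centralizer.2 WE]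
        exact bot_le
      · rw [commutator_comm U E]
        exact commutator_le.2 fun x hx b hb => (a1 hx).2 b hb (nU (BL hb))
    rw [commutator_comm E B, hQE, commutator_comm] at a2
    exact z2.not_ge a2
  have r0 : ∀ H K : Subgroup G, H.relIndex K ≠ 0 := fun H K => FiniteIndex.index_ne_zero
  obtain ⟨B', ⟨b1, b2, b3⟩, mx⟩ := UPa.exists_max
    (fun B' => B ⊓ C(Y) ≤ B' ∧ B' ≤ B ∧ (kr U Z UU B').relIndex Y ≤ (B ⊓ C(Y)).relIndex B')
    ⟨_, le_rfl, inf_le_left, by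
      rw [relIndex_self]
      refine (relIndex_eq_one.2 fun y hy => And.intro (YU hy) fun b hb _ => ?_).le
      rw [commutatorElement_eq_one_iff_mul_comm.2 (mem_centralizer_iff.1 hb.2 y hy)]
      exact Z.one_mem⟩
  have b4 : B' = B := by
    by_contra e'
    obtain ⟨x, hx, hx'⟩ := SetLike.exists_of_lt (lt_of_le_of_ne b2 e')
    have c1 : B' < B' ⊔ zpowers x := lt_of_le_of_ne le_sup_left fun e => hx' (e ▸ mem_sup_right (mem_zpowers x))
    have c2 : B' ⊔ zpowers x ≤ B := sup_le b2 (zpowers_le.2 hx)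
    refine (UPa.card_lt c1).not_ge (mx _ ⟨b1.trans le_sup_left, c2, ?_⟩)
    have c3 : kr U Z UU B' ⊓ kr U Z UU {x} ≤ kr U Z UU (B' ⊔ zpowers x : Subgroup G) := fun y hy =>
      ⟨hy.1.1, fun b hb _ => (show B' ⊔ zpowers x ≤ phS Z y from sup_le
        (fun c hc => ⟨nZ (BL (b2 hc)), hy.1.2 c hc (nU (BL (b2 hc)))⟩)
        (zpowers_le.2 ⟨nZ (BL hx), hy.2.2 x rfl (nU (BL hx))⟩)) hb |>.2⟩
    have c4 : (kr U Z UU {x}).relIndex Y ≤ 2 := by
      refine Nat.le_of_dvd (by decide) (relIndex_dvd_two_iff.2 ?_)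
      have m1 : ∀ y ∈ Y, ⁅y, x⁆ ∈ Z → y ∈ kr U Z UU {x} := fun y hy e =>
        ⟨YU hy, fun b hb _ => by rw [Set.mem_singleton_iff.1 hb]; exact e⟩
      by_cases a : ∃ a ∈ Y, ⁅a, x⁆ ∉ Z
      · obtain ⟨a, ha, ha'⟩ := a
        refine ⟨a, ha, fun b hb => ?_⟩
        by_cases a' : ⁅b, x⁆ ∈ Z
        · exact Or.inr (m1 b hb a')
        refine Or.inl (m1 _ (Y.mul_mem hb ha) ?_)
        have w1 : ⁅a, x⁆ ∈ ⁅U, B⁆ := commutator_mem_commutator (YU ha) hx
        have h2 : ⁅b * a, x⁆ = (b * ⁅a, x⁆ * b⁻¹) * ⁅b, x⁆ := by simp only [commutatorElement_def]; group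
        rw [h2, mem_centralizer_iff.1 (UU (WU w1)) b (YU hb), mul_inv_cancel_right]
        exact z3 _ w1 _ (commutator_mem_commutator (YU hb) hx) ha' a'
      · push Not at a
        exact ⟨1, Y.one_mem, fun b hb => Or.inr (m1 b hb (a b hb))⟩
    have c5 : 2 ≤ B'.relIndex (B' ⊔ zpowers x) := by
      have := r0 B' (B' ⊔ zpowers x)
      have : B'.relIndex (B' ⊔ zpowers x) ≠ 1 := fun e => c1.not_ge (relIndex_eq_one.1 e)
      omega
    rw [← relIndex_mul_relIndex _ _ _ b1 c1.le]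
    exact (relIndex_le_of_le_left c3 (r0 _ _)).trans (relIndex_inf_le.trans
      (Nat.mul_le_mul b3 (c4.trans c5)))
  subst b4
  have f1 := h.nq B' (BQ.trans (QD.trans DL0)) (pQ.to_le BQ)
    (commutator_eq_bot_iff_le_centralizer.2 (((commutator_mono YU le_rfl).trans WE).trans
      (centralizer_le (SetLike.coe_subset_coe.2 BE))))
    fun e => hne (commutator_eq_bot_iff_le_centralizer.2 (nclC _ nB (le_centralizer_iff.1 e)))
  have f2 : (C(B') : Subgroup G).relIndex Y ≤ (kr U Z UU B').relIndex Y := by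
    rw [← inf_relIndex_left Y (kr U Z UU B')]
    exact relIndex_le_of_le_left (e.trans (centralizer_le (SetLike.coe_subset_coe.2 BE))) (r0 _ _)
  rw [inf_relIndex_left] at b3
  have f3 := r0 C(Y) B'
  nlinarith [Nat.pos_of_ne_zero f3]

end Cfsg.Agent.Lib.QR
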