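import Cfsg.Agent.Lib.QRDefs
import Cfsg.Agent.Lib.LocIdx

/-! The two-step lemma for the qrc-lemma. -/

set_option autoImplicit false
open Cfsg

namespace Cfsg.Agent.Lib.QR

open Subgroup Cfsg.Agent.Lib.PCoreConj Cfsg.Agent.Lib.PCore Cfsg.Agent.Lib.PCoreResidual Cfsg.Agent.Lib.PCoreMod
open Cfsg.Agent.Lib.PReduced Cfsg.Agent.Lib.PushBase Cfsg.Agent.Lib.LocIdx
open scoped commutatorElement

universe u

variable {G : Type u} [Group G] {U E X L : Subgroup G}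

/-- the elements of `U` centralized by `E` modulo `X` -/
def tlZ (U E X : Subgroup G) : Subgroup G where
  carrier := {u | u ∈ U ⊓ normalizer (SetLike.coe X) ∧ ∀ e ∈ E, ⁅u, e⁆ ∈ X}
  one_mem' := ⟨one_mem _, fun e _ => by rw [commutatorElement_one_left]; exact one_mem _⟩
  mul_mem' := fun {a b} ha hb => ⟨mul_mem ha.1 hb.1, fun e he => by
    have := mul_mem ((mem_normalizer_iff.mp ha.1.2 _).mp (hb.2 e he)) (ha.2 e he)
    convert this using 1
    simp only [commutatorElement_def]; group⟩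
  inv_mem' := fun {a} ha => ⟨inv_mem ha.1, fun e he => by
    have := (mem_normalizer_iff.mp (inv_mem ha.1.2) _).mp (inv_mem (ha.2 e he))
    convert this using 1
    simp only [commutatorElement_def]; group⟩

theorem tlZ_le : tlZ U E X ≤ U := fun _ h => h.1.1

theorem tlZ_comm : ⁅tlZ U E X, E⁆ ≤ X := commutator_le.mpr fun _ h => h.2

theorem le_tlZ {W : Subgroup G} (hn : U ≤ N(X)) (h₁ : W ≤ U) (h₂ : ⁅W, E⁆ ≤ X) : W ≤ tlZ U E X :=
  fun _ h => ⟨⟨h₁ h, hn (h₁ h)⟩, fun _ he => h₂ (commutator_mem_commutator h he)⟩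

theorem tlZ_norm [Finite G] (hU : L ≤ N(U)) (hE : L ≤ N(E)) (hX : L ≤ N(X)) (hn : U ≤ N(X)) : L ≤ N(tlZ U E X) :=
  fun l hl => mem_normalizer_of_conj_le (le_tlZ hn (conj_le_of_mem_normalizer tlZ_le (hU hl)) (by
    have := conj_le_of_mem_normalizer (tlZ_comm (U := U) (E := E)) (hX hl)
    rwa [conj_commutator, conj_eq_of_mem_normalizer (hE hl)] at this))

theorem tlZ_closed [Finite G] (hp : IsPGroup 2 U) (hUL : U ≤ L) (hU : L ≤ N(U)) (hX : L ≤ N(X)) (w : G) (hw : w ∈ U)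
    (h : ∀ e ∈ pResidualOf 2 L, ⁅w, e⁆ ∈ tlZ U (pResidualOf 2 L) X) : w ∈ tlZ U (pResidualOf 2 L) X := by
  have n₁ := tlZ_norm hU (le_normalizer_pResidualOf 2 L) hX (hUL.trans hX)
  have n₂ := tlZ_norm hU (le_normalizer_pResidualOf 2 L) n₁ (hUL.trans n₁)
  exact le_tlZ (hUL.trans hX) tlZ_le ((commutator_commutator_pResidualOf (hp.to_le tlZ_le)
    ((pResidualOf_le 2 L).trans n₂)).ge.trans
    ((commutator_mono tlZ_comm le_rfl).trans tlZ_comm)) ⟨⟨hw, hUL.trans n₁ hw⟩, h⟩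

theorem tl (p : PH.{u}) (s : SZ.{u}) : TL.{u} := fun {G} _ _ L L0 A Y Q c X hX nX => by
  by_contra! hn
  obtain ⟨m, hm, lt⟩ := s c
  have hUL := c.U_le.trans (pCoreOf_le 2 L)
  have hp := (pCoreOf_isPGroup 2 L).to_le c.U_le
  have nU := le_normalizer_nclIn Y L
  have nE := le_normalizer_pResidualOf 2 L
  have nb : L ≤ N((⊥ : Subgroup G)) := le_normalizer_of_normal
  have nY : L0 ≤ N(Y) := c.norm.ge.trans inf_le_right
  have hY := le_nclIn Y L
  have k₁ := p c _ (Y ⊓ X) tlZ_le (tlZ_norm nU nE nb (hUL.trans nb)) (tlZ_closed hp hUL nU nb) inf_le_left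
    (le_normalizer_inf nY (c.lt.le.trans nX)) (fun e => hn.1 (commutator_eq_bot_iff_le_centralizer.mp
      (le_bot_iff.mp ((commutator_mono e le_rfl).trans tlZ_comm)))) m hm
  have k₂ := p c _ Y tlZ_le (tlZ_norm nU nE nX (hUL.trans nX)) (tlZ_closed hp hUL nU nX) le_rfl nY
    (fun e => hn.2 ((commutator_mono e le_rfl).trans tlZ_comm)) m hm
  have q₁ : X ≤ tlZ (nclIn Y L) (pResidualOf 2 L) X :=
    le_tlZ (hUL.trans nX) hX (commutator_le_left_of_le_normalizer ((pResidualOf_le 2 L).trans nX))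
  have q₂ : C(pResidualOf 2 L) ⊓ Y ≤ tlZ (nclIn Y L) (pResidualOf 2 L) ⊥ := le_tlZ (hUL.trans nb)
    (inf_le_right.trans hY) (commutator_eq_bot_iff_le_centralizer.mpr inf_le_left).le
  have q₃ : C(pResidualOf 2 L) ⊓ Y ≤ tlZ (nclIn Y L) (pResidualOf 2 L) X ⊓ Y := le_inf (le_tlZ (hUL.trans nX)
    (inf_le_right.trans hY) ((commutator_eq_bot_iff_le_centralizer.mpr inf_le_left).le.trans bot_le)) inf_le_right
  have q₄ : Y ⊓ X ≤ tlZ (nclIn Y L) (pResidualOf 2 L) X ⊓ Y := le_inf (inf_le_right.trans q₁) inf_le_left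
  have q₅ : tlZ (nclIn Y L) (pResidualOf 2 L) X ⊓ Y ≤ Y := inf_le_right
  have e := relIndex_mul_relIndex _ _ _ q₃ q₅
  rw [inf_relIndex_right, inf_relIndex_right] at e
  have k₃ := k₁.trans ((relIndex_le_of_le_left q₂ (relIndex_ne_zero_of_finite _ _)).trans
    (relIndex_le_of_le_right q₄ (relIndex_ne_zero_of_finite _ _)))
  exact lt.not_ge ((pow_two m).le.trans ((Nat.mul_le_mul k₃ k₂).trans e.le))

end Cfsg.Agent.Lib.QR
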