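import Cfsg.Agent.Lib.QRDefs
import Cfsg.Agent.Lib.BlkOff

/-! The pieces `TRa`, `TRb`, `TRo`, `TRc` of the qrc-lemma. -/

set_option autoImplicit false
open Cfsg

namespace Cfsg.Agent.Lib.QR

open Subgroup Cfsg.Agent.Lib.PCoreConj Cfsg.Agent.Lib.PCore Cfsg.Agent.Lib.PCoreResidual Cfsg.Agent.Lib.PCoreMod
open Cfsg.Agent.Lib.Blk Cfsg.Agent.Lib.PReduced Cfsg.Agent.Lib.PushBase Cfsg.Agent.Lib.ThompsonJ
open scoped Pointwise commutatorElement

universe u

theorem tr_card {G : Type u} [Group G] (K Y : Subgroup G) : Nat.card ↥(Y ⊓ K) * K.relIndex Y = Nat.card Y := by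
  rw [← inf_relIndex_left, relIndex, ← Nat.card_congr (subgroupOfEquivOfLe (inf_le_left : Y ⊓ K ≤ Y)).toEquiv,
    card_mul_index]

theorem tro : TRo.{u} := by
  intro G _ _ S A Y hA hY hS
  have h := (card_le_of_maxAb hY hS hA).1
  rw [← tr_card C(A) Y, ← tr_card C(Y) A] at h
  have p1 : 0 < Nat.card ↥(A ⊓ C(Y)) := Nat.card_pos
  have p2 : 0 < Nat.card ↥(Y ⊓ C(A)) := Nat.card_pos
  rw [mul_assoc, Nat.mul_le_mul_left_iff p1, mul_comm] at h
  exact Nat.le_of_mul_le_mul_right h p2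

theorem trb : TRb.{u} := by
  intro G _ _ S U hS hU US nU hJ
  have ne : {A : Subgroup G | MaxAb 2 S A ∧ ¬ A ≤ C(U)}.Nonempty := by
    by_contra k
    exact hJ (J_le_iff.2 fun A hA => by
      by_contra k'
      exact k ⟨A, hA, k'⟩)
  obtain ⟨A, ⟨hA, nA⟩, mx⟩ := Set.Finite.exists_maximalFor (fun A : Subgroup G => A ⊓ U) _ (Set.toFinite _) ne
  refine ⟨A, hA, nA, quadratic_of_le_normalizer (fun a ha a' ha' => hA.abExp.comm ha ha') ?_⟩
  by_contra k
  have aU := abExp_iff_isElementaryAbelian.2 hU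
  obtain ⟨B, hB, lt, nB, -⟩ := hA.thompson_replacement hS US aU (hA.le.trans nU) k
  have c : B ≤ C(U) := by
    by_contra c
    exact lt.not_ge (mx ⟨hB, c⟩ lt.le)
  exact k ((hB.le_of_le_centralizer US aU c).trans nB)

theorem tra : TRa.{u} := by
  intro G _ _ N V T1 nq hV nV VT TN hT
  by_contra k
  obtain ⟨A, hA, nA, q⟩ := trb T1 V hT hV VT (TN.trans nV) k
  have h1 := nq A (hA.le.trans TN) (hT.to_le hA.le) q nA
  have h2 := tro T1 A V hA hV VT
  nlinarith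

theorem tr_rel {G : Type u} [Group G] (K Y : Subgroup G) (g : G) : (K ^ᶜ g).relIndex (Y ^ᶜ g) = K.relIndex Y :=
  relIndex_map_map_of_injective K Y (MulAut.conj g).injective

theorem trc : TRc.{u} := by
  intro G _ _ N V g nq hV nV h₁ h₂
  by_contra k
  have hB : IsElementaryAbelian 2 (V ^ᶜ g) := isElementaryAbelian_map hV _
  have hB' : IsElementaryAbelian 2 (V ^ᶜ g⁻¹) := isElementaryAbelian_map hV _
  have h₃ : V ^ᶜ g⁻¹ ≤ N := le_conj_iff_conj_inv_le.1 h₂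
  have h₄ : V ≤ N ^ᶜ g⁻¹ := by
    rw [le_conj_iff_conj_inv_le, inv_inv]; exact h₁
  have q : ∀ x : G, V ≤ N ^ᶜ x → ⁅⁅V, V ^ᶜ x⁆, V ^ᶜ x⁆ = ⊥ := fun x hx =>
    quadratic_of_le_normalizer (fun a ha a' ha' =>
      (abExp_iff_isElementaryAbelian.2 (isElementaryAbelian_map hV (MulAut.conj x).toMonoidHom)).comm ha ha')
      (hx.trans ((conj_mono x nV).trans (conj_normalizer V x).le))
  have k' : ¬ V ^ᶜ g⁻¹ ≤ C(V) := fun e => k (by
    have := conj_mono g e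
    rw [conj_inv_conj, conj_centralizer] at this
    exact le_centralizer_iff.1 this)
  have a := nq _ h₁ (isPGroup_of_isElementaryAbelian hB) (q g h₂) k
  have b := nq _ h₃ (isPGroup_of_isElementaryAbelian hB') (q g⁻¹ h₄) k'
  rw [← tr_rel C(V) (V ^ᶜ g⁻¹) g, ← tr_rel C(V ^ᶜ g⁻¹) V g, conj_centralizer, conj_centralizer, conj_inv_conj] at b
  nlinarith

end Cfsg.Agent.Lib.QR
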