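import Cfsg.Agent.Lib.QZDefs
import Cfsg.Agent.Lib.PCoreResidual
import Cfsg.Agent.Lib.FStarCharP
import Cfsg.Agent.Lib.FStarAct
import Cfsg.Agent.Lib.FTOddOrder

/-! S1833, piece `Q0`: reduction to the solvable setting. -/

set_option autoImplicit false
set_option linter.unusedSectionVars false

namespace Cfsg.Agent.Lib.QZ

open Cfsg Subgroup Cfsg.Agent.Lib.PCoreConj Cfsg.Agent.Lib.PCore Cfsg.Agent.Lib.PCoreResidual

universe u

section General

variable {G : Type*} [Group G]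

/-- the join of the perfect subgroups of `H` -/
def q0pc (H : Subgroup G) : Subgroup G := sSup {L | L ≤ H ∧ ⁅L, L⁆ = L}

theorem q0pc_le (H : Subgroup G) : q0pc H ≤ H := sSup_le fun _ h => h.1

theorem le_q0pc {H L : Subgroup G} (h₁ : L ≤ H) (h₂ : ⁅L, L⁆ = L) : L ≤ q0pc H :=
  le_sSup (s := {L | L ≤ H ∧ ⁅L, L⁆ = L}) ⟨h₁, h₂⟩

theorem q0pc_perfect (H : Subgroup G) : ⁅q0pc H, q0pc H⁆ = q0pc H :=
  le_antisymm (commutator_le_left_of_le_normalizer le_normalizer)
    (sSup_le fun L h => by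
      have := le_q0pc h.1 h.2
      rw [← h.2]
      exact commutator_mono this this)

theorem q0pc_norm (H : Subgroup G) : H ≤ normalizer (q0pc H : Set G) := by
  refine le_normalizer_iff_conj_le.2 fun g hg => ?_
  refine conj_le_iff_le_conj_inv.2 (sSup_le fun L h => conj_le_iff_le_conj_inv.1 ?_)
  exact le_q0pc (conj_le_of_mem h.1 hg) (by rw [← conj_commutator, h.2])

theorem q0_perfect_bot {Γ : Type*} [Group Γ] [Group.IsSolvable Γ] {P : Subgroup Γ} (h : ⁅P, P⁆ = P) :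
    P = ⊥ := by
  by_contra hne
  exact (Group.IsSolvable.commutator_lt_of_ne_bot hne).ne h

theorem q0_perfect_bot' {H P : Subgroup G} (hs : Group.IsSolvable H) (hP : P ≤ H) (h : ⁅P, P⁆ = P) :
    P = ⊥ := by
  have e := subgroupOf_map_subtype_of_le hP
  have : P.subgroupOf H = ⊥ := q0_perfect_bot
    (map_injective (subtype_injective H) (by rw [map_commutator, e, h]))
  rw [← e, this, Subgroup.map_bot]

theorem q0_solv_of_pc [Finite G] {H : Subgroup G} (h : q0pc H = ⊥) : Group.IsSolvable H := by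
  refine Group.isSolvable_iff_commutator_lt.2 fun A hA => ?_
  refine lt_of_le_of_ne (commutator_le_left_of_le_normalizer le_normalizer) fun e => hA ?_
  have := le_q0pc (map_subtype_le A) (by rw [← map_commutator, e])
  rw [h, le_bot_iff, map_eq_bot_iff_of_injective _ (subtype_injective _)] at this
  exact this

theorem q0_solv_of_normal_sylow [Finite G] {R K : Subgroup G} (h : IsSylowIn 2 R K)
    (hn : K ≤ normalizer (R : Set G)) : Group.IsSolvable K := by
  haveI : Fact (Nat.Prime 2) := ⟨Nat.prime_two⟩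
  haveI := normal_subgroupOf_of_le hn
  haveI : Group.IsNilpotent (R.subgroupOf K) := (isPGroup_subgroupOf h.isPGroup K).isNilpotent
  haveI : Group.IsSolvable (K ⧸ R.subgroupOf K) := by
    refine FTOddOrder.solvable_of_odd ?_
    have := h.not_dvd_relIndex
    rw [← Nat.not_even_iff_odd, even_iff_two_dvd]
    exact this
  exact Group.isSolvable_of_ker_le_range (R.subgroupOf K).subtype (QuotientGroup.mk' (R.subgroupOf K))
    (by rw [QuotientGroup.ker_mk', range_subtype])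

theorem q0_perfect_le {H D H₀ P : Subgroup G} (hD : H ≤ normalizer (D : Set G)) (h₀ : H₀ ≤ H)
    (hF : ∀ g ∈ H, ∃ x ∈ H₀, ∃ n ∈ D, g = x * n) (hs : Group.IsSolvable H₀) (hP : P ≤ H)
    (h : ⁅P, P⁆ = P) : P ≤ D := by
  haveI := normal_subgroupOf_of_le hD
  haveI : Group.IsSolvable (H ⧸ D.subgroupOf H) := by
    refine Group.isSolvable_of_surjective (f := (QuotientGroup.mk' (D.subgroupOf H)).comp (inclusion h₀)) ?_
    intro y
    obtain ⟨g, rfl⟩ := QuotientGroup.mk'_surjective _ y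
    obtain ⟨x, hx, n, hn, e⟩ := hF g g.2
    refine ⟨⟨x, hx⟩, ?_⟩
    rw [MonoidHom.comp_apply, QuotientGroup.mk'_apply, QuotientGroup.mk'_apply, QuotientGroup.eq,
      mem_subgroupOf]
    simpa [e] using hn
  have e := subgroupOf_map_subtype_of_le hP
  have pf : ⁅P.subgroupOf H, P.subgroupOf H⁆ = P.subgroupOf H :=
    map_injective (subtype_injective H) (by rw [map_commutator, e, h])
  have : (P.subgroupOf H).map (QuotientGroup.mk' (D.subgroupOf H)) = ⊥ :=
    q0_perfect_bot (by rw [← map_commutator, pf])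
  rw [Subgroup.map_eq_bot_iff, QuotientGroup.ker_mk'] at this
  intro x hx
  exact this (show (⟨x, hP hx⟩ : H) ∈ P.subgroupOf H from hx)

end General

variable {G : Type u} [Group G] [Finite G]

theorem q0_local {H : Subgroup G} (h : pCoreOf 2 H ≠ ⊥) : IsTwoLocal (normalizer (pCoreOf 2 H : Set G)) :=
  ⟨_, pCoreOf_isPGroup _ _, h, rfl⟩

theorem q0_ch2 (hQ : IsQTKE G) (T : Sylow 2 G) (H : Subgroup G) (hT : (T : Subgroup G) ≤ H)
    (h : pCoreOf 2 H ≠ ⊥) : H ⊓ centralizer (pCoreOf 2 H : Set G) ≤ pCoreOf 2 H := by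
  have l := le_normalizer_pCoreOf 2 H
  have c := charP_iff.1 (hQ.2.2 _ (q0_local h) ⟨T, hT.trans l⟩)
  have e : pCoreOf 2 (normalizer (pCoreOf 2 H : Set G)) = pCoreOf 2 H :=
    le_antisymm (pCoreOf_le_of_le_of_le ((isSylowIn_of_sylow_le T (hT.trans l)).pCoreOf_le.trans hT) l)
      (le_pCoreOf le_normalizer le_rfl (pCoreOf_isPGroup _ _))
  rw [e] at c
  exact (inf_le_inf_right _ l).trans c

theorem q0_rank (hQ : IsQTKE G) (H : Subgroup G) (h : pCoreOf 2 H ≠ ⊥) : IsStronglyQuasithin H := by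
  intro p hp h2 A hA hp'
  have l := le_normalizer_pCoreOf 2 H
  have := hQ.1 p hp h2 _ (q0_local h) (A.map (inclusion l)) inferInstance (by
    rintro _ ⟨a, ha, rfl⟩
    rw [← map_pow, hp' a ha, map_one])
  rwa [card_map_of_injective (inclusion_injective l)] at this

theorem q0_calL {S L : Subgroup G} (h : L ∈ calL S) :
    L ≠ ⊥ ∧ ⁅L, L⁆ = L ∧ SubnormalIn (L ⊔ S) L ∧ pCoreOf 2 (L ⊔ S) ≠ ⊥ := by
  obtain ⟨⟨h1, h2, h3, -⟩, -, h4⟩ := h
  have e := subgroupOf_map_subtype_of_le (le_sup_left : L ≤ L ⊔ S)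
  refine ⟨fun e' => h1 ?_, ?_, subnormalIn_iff.2 ⟨le_sup_left, h3⟩, fun e' => h4 (pCoreOf_eq_bot_iff.1 e')⟩
  · exact eq_bot_iff.2 fun x hx => by
      have : (x : G) ∈ L := hx
      exact mem_bot.2 (Subtype.ext (mem_bot.1 (e'.le this)))
  · have := congrArg (Subgroup.map (L ⊔ S).subtype) h2
    rwa [map_commutator, e] at this

theorem q0_a (hQ : IsQTKE G) (T : Sylow 2 G) (hf : calLf (T : Subgroup G) = ∅) {L : Subgroup G}
    (hL : L ∈ calL (T : Subgroup G)) : L ≤ centralizer (omegaOneCenter 2 (T : Subgroup G) : Set G) := by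
  haveI : Fact (Nat.Prime 2) := ⟨Nat.prime_two⟩
  obtain ⟨h1, h2, h3, h4⟩ := q0_calL hL
  have c := q0_ch2 hQ T _ le_sup_right h4
  have QT : pCoreOf 2 (L ⊔ T) ≤ T := (isSylowIn_of_sylow_le T le_sup_right).pCoreOf_le
  have r := FStarAct.pResidualOf_eq_of_perfect 2 h2
  have hX : L ∈ calX G := by
    refine ⟨h1, ?_, FStar.charP_iff_fstar_eq.1 (FStarCharP.IsCharP.subnormal_of_le (charP_iff.2 c) le_sup_left
      (subnormalIn_iff.1 h3).2)⟩
    have := pResidualOf_eq_closure 2 L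
    simp only [Nat.coprime_two_right] at this
    exact this.symm.trans r
  have hV : moduleV L = ⊥ := by
    by_contra hne
    have : L ∈ calLf (T : Subgroup G) := ⟨hL, hX, hne⟩
    rw [hf] at this
    exact this
  have hV' : ⁅omegaOneCenter 2 (pCoreOf 2 L), L⁆ = ⊥ := hV
  have cm := commutator_pCoreOf_pResidualOf_le (p := 2) h3
  rw [r] at cm
  have oL := pCoreOf_le_of_subnormalIn (p := 2) h3
  have TH : (T : Subgroup G) ≤ L ⊔ T := le_sup_right
  generalize L ⊔ (T : Subgroup G) = H at h3 h4 c QT cm oL TH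
  have ZW : omegaOneCenter 2 (T : Subgroup G) ≤ omegaOneCenter 2 (pCoreOf 2 H) := fun x hx => by
    obtain ⟨x1, x2, x3⟩ := mem_omegaOneCenter_iff.1 hx
    have x4 := centralizer_anti QT x2
    exact mem_omegaOneCenter_iff.2 ⟨c ⟨TH x1, x4⟩, x4, x3⟩
  have nW : L ≤ normalizer (omegaOneCenter 2 (pCoreOf 2 H) : Set G) :=
    le_normalizer_omegaOneCenter (h3.le.trans (le_normalizer_pCoreOf 2 H))
  have WL : ⁅omegaOneCenter 2 (pCoreOf 2 H), L⁆ ≤ omegaOneCenter 2 (pCoreOf 2 L) := fun x hx => by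
    obtain ⟨-, x2, x3⟩ := mem_omegaOneCenter_iff.1 (commutator_le_left_of_le_normalizer nW hx)
    exact mem_omegaOneCenter_iff.2 ⟨cm (commutator_mono (omegaOneCenter_le _ _) le_rfl hx),
      centralizer_anti oL x2, x3⟩
  have z1 : ⁅⁅omegaOneCenter 2 (pCoreOf 2 H), L⁆, L⁆ = ⊥ :=
    eq_bot_iff.2 ((commutator_mono WL le_rfl).trans hV'.le)
  have z2 : ⁅⁅L, L⁆, omegaOneCenter 2 (pCoreOf 2 H)⁆ = ⊥ :=
    commutator_commutator_eq_bot_of_rotate (by rw [Subgroup.commutator_comm L]; exact z1) z1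
  rw [h2, Subgroup.commutator_comm] at z2
  exact (commutator_eq_bot_iff_le_centralizer'.1 z2).trans (centralizer_anti ZW)

/-- minimal perfect subnormal subgroups of an overgroup of `T` -/
theorem q0_mem_calL (T : Sylow 2 G) {H H₀ L : Subgroup G} (hT : (T : Subgroup G) ≤ H₀) (h₀ : H₀ ≤ H)
    (h2 : pCoreOf 2 H ≠ ⊥) (l1 : L ≠ ⊥) (l2 : ⁅L, L⁆ = L) (l3 : SubnormalIn H₀ L)
    (l4 : ∀ J < L, ¬ (J ≠ ⊥ ∧ ⁅J, J⁆ = J ∧ SubnormalIn H₀ J)) : L ∈ calL (T : Subgroup G) := by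
  have LT : L ⊔ T ≤ H₀ := sup_le l3.le hT
  have s1 : SubnormalIn (L ⊔ T) L := l3.of_le le_sup_left LT
  have QT : pCoreOf 2 H ≤ T := (isSylowIn_of_sylow_le T (hT.trans h₀)).pCoreOf_le
  have inj : ∀ A B : Subgroup ↥(L ⊔ (T : Subgroup G)),
      A.map (Subgroup.subtype _) = B.map (Subgroup.subtype _) → A = B :=
    fun A B => fun e => map_injective (subtype_injective _) e
  have eL := subgroupOf_map_subtype_of_le (le_sup_left : L ≤ L ⊔ T)
  refine ⟨⟨fun e => ?_, inj _ _ ?_, (subnormalIn_iff.1 s1).2, ?_⟩,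
    ⟨T.subtype le_sup_right, rfl⟩, fun e => h2 ?_⟩
  · rw [e, Subgroup.map_bot] at eL
    exact l1 eL.symm
  · rw [map_commutator, eL, l2]
  · rintro J hJ ⟨j1, j2, j3⟩
    have a1 : J.map (Subgroup.subtype _) ≤ L := (map_mono hJ.le).trans eL.le
    refine l4 _ (lt_of_le_of_ne a1 fun e => hJ.ne (inj _ _ (e.trans eL.symm))) ⟨fun e => j1 ?_, ?_, ?_⟩
    · exact (map_eq_bot_iff_of_injective _ (subtype_injective _)).1 e
    · rw [← map_commutator, j2]
    · exact ((subnormalIn_map_subtype j3).of_le a1 le_sup_left).trans l3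
  · exact eq_bot_iff.2 ((pCoreOf_le_of_le_of_le (QT.trans le_sup_right) (LT.trans h₀)).trans
      (pCoreOf_eq_bot_iff.2 e).le)

theorem q0_b (hQ : IsQTKE G) (T : Sylow 2 G) (hf : calLf (T : Subgroup G) = ∅) {H : Subgroup G}
    (hT : (T : Subgroup G) ≤ H) (h2 : pCoreOf 2 H ≠ ⊥) :
    q0pc H ≤ centralizer (omegaOneCenter 2 (T : Subgroup G) : Set G) := by
  haveI : Fact (Nat.Prime 2) := ⟨Nat.prime_two⟩
  have ha := fun L => q0_a hQ T hf (L := L)
  have nT : (T : Subgroup G) ≤ centralizer (omegaOneCenter 2 (T : Subgroup G) : Set G) :=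
    le_centralizer_omegaOneCenter 2 _
  generalize omegaOneCenter 2 (T : Subgroup G) = Z at ha nT ⊢
  obtain ⟨D, hD⟩ : ∃ D, D = H ⊓ centralizer (nclIn Z H : Set G) := ⟨_, rfl⟩
  have DH : D ≤ H := hD ▸ inf_le_left
  have DC : D ≤ centralizer (Z : Set G) := hD ▸ inf_le_right.trans (centralizer_anti (le_nclIn Z H))
  have nD : H ≤ normalizer (D : Set G) :=
    hD ▸ le_normalizer_inf le_normalizer (le_normalizer_centralizer (le_normalizer_nclIn Z H))
  have sR := (isSylowIn_of_sylow_le T hT).inf_normal DH nD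
  have fr : ∀ g ∈ H, ∃ x ∈ H ⊓ normalizer (((T : Subgroup G) ⊓ D : Subgroup G) : Set G), ∃ n ∈ D, g = x * n :=
    fun g hg => by
      obtain ⟨x, hx, n, hn, e⟩ := sR.frattini' (nD hg)
      refine ⟨x, ⟨?_, hx⟩, n, hn, e⟩
      have := H.mul_mem hg (H.inv_mem (DH hn))
      rwa [e, mul_inv_cancel_right] at this
  have T0 : (T : Subgroup G) ≤ H ⊓ normalizer (((T : Subgroup G) ⊓ D : Subgroup G) : Set G) :=
    le_inf hT (le_normalizer_inf le_normalizer (hT.trans nD))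
  have n0 : H ⊓ normalizer (((T : Subgroup G) ⊓ D : Subgroup G) : Set G) ≤
      normalizer (((T : Subgroup G) ⊓ D : Subgroup G) : Set G) := inf_le_right
  have l0 : H ⊓ normalizer (((T : Subgroup G) ⊓ D : Subgroup G) : Set G) ≤ H := inf_le_left
  generalize H ⊓ normalizer (((T : Subgroup G) ⊓ D : Subgroup G) : Set G) = H₀ at fr T0 n0 l0
  refine (q0_perfect_le nD l0 fr (q0_solv_of_pc ?_) (q0pc_le H) (q0pc_perfect H)).trans DC
  by_contra hne
  obtain ⟨L, ⟨l1, l2, l3⟩, l4⟩ := (wellFounded_lt (α := Subgroup G)).has_min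
    {L | L ≠ ⊥ ∧ ⁅L, L⁆ = L ∧ SubnormalIn H₀ L}
    ⟨q0pc H₀, hne, q0pc_perfect _, SubnormalIn.of_normal (q0pc_le _) (q0pc_norm _)⟩
  have cj : ∀ (J : Subgroup G) (x : G), x ∈ H₀ → (J ≠ ⊥ ∧ ⁅J, J⁆ = J ∧ SubnormalIn H₀ J) →
      ((J ^ᶜ x) ≠ ⊥ ∧ ⁅J ^ᶜ x, J ^ᶜ x⁆ = J ^ᶜ x ∧ SubnormalIn H₀ (J ^ᶜ x)) := fun J x hx h =>
    ⟨fun e => h.1 (conj_eq_bot_iff.1 e), by rw [← conj_commutator, h.2.1],
      h.2.2.conj_of_mem (le_normalizer hx)⟩
  have key : ∀ x ∈ H₀, L ^ᶜ x ≤ centralizer (Z : Set G) := fun x hx => by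
    obtain ⟨a1, a2, a3⟩ := cj L x hx ⟨l1, l2, l3⟩
    refine ha _ (q0_mem_calL T T0 l0 h2 a1 a2 a3 fun J hJ h => ?_)
    refine l4 _ (cj J x⁻¹ (H₀.inv_mem hx) h) ?_
    have := (conj_lt_conj_iff (g := x⁻¹)).2 hJ
    rwa [conj_conj_inv] at this
  have LD : L ≤ D := by
    rw [hD]
    refine le_inf (l3.le.trans l0) (le_centralizer_iff.1 (nclIn_le_iff.2 fun g hg => ?_))
    obtain ⟨x, hx, n, hn, rfl⟩ := fr g hg
    rw [← conj_conj, conj_eq_of_mem_centralizer (DC hn), le_centralizer_iff, ← conj_centralizer]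
    exact le_conj_iff_conj_inv_le.2 (key _ (H₀.inv_mem hx))
  refine l1 (q0_perfect_bot' (q0_solv_of_normal_sylow (R := (T : Subgroup G) ⊓ D) (K := D ⊓ H₀)
    (sR.of_le (le_inf inf_le_right (inf_le_left.trans T0)) inf_le_left) (inf_le_right.trans n0))
    (le_inf LD l3.le) l2)

instance : Q0.{u} where
  out := by
    intro G _ _ _ _ hQ T hf M₁ M₂ h₁ h₂ hne
    haveI : Fact (Nat.Prime 2) := ⟨Nat.prime_two⟩
    have hb := fun H => q0_b hQ T hf (H := H)
    have ha := fun L => q0_a hQ T hf (L := L)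
    have nT : (T : Subgroup G) ≤ centralizer (omegaOneCenter 2 (T : Subgroup G) : Set G) :=
      le_centralizer_omegaOneCenter 2 _
    generalize centralizer (omegaOneCenter 2 (T : Subgroup G) : Set G) = C at h₁ h₂ ha hb nT
    have P0 : q0pc C = ⊥ := by
      by_contra hP
      have key : ∀ M ∈ maxTwoLocalsContaining C, normalizer (pCoreOf 2 (q0pc C) : Set G) = M := by
        rintro M ⟨⟨⟨Y, y1, y2, hY⟩, m2⟩, m3⟩
        have o : pCoreOf 2 M ≠ ⊥ := fun e => y2 (eq_bot_iff.2 (e ▸ le_pCoreOf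
          (hY ▸ le_normalizer) (hY ▸ le_rfl) y1))
        have e : q0pc M = q0pc C := le_antisymm (le_q0pc (hb M (nT.trans m3) o) (q0pc_perfect M))
          (le_q0pc ((q0pc_le C).trans m3) (q0pc_perfect C))
        have n := q0pc_norm M
        rw [e] at n
        have c := charP_iff.1 (FStarCharP.IsCharP.normal_of_le
          (charP_iff.2 (q0_ch2 hQ T M (nT.trans m3) o)) ((q0pc_le C).trans m3) n)
        have o' : pCoreOf 2 (q0pc C) ≠ ⊥ := fun e' => hP (by
          rw [e', centralizer_bot', inf_top_eq] at c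
          exact eq_bot_iff.2 c)
        exact m2 _ (q0_local o') (le_normalizer_pCoreOf_of n)
      exact hne ((key _ h₁).symm.trans (key _ h₂))
    refine ⟨⟨fun H hT h2 => q0_solv_of_pc (eq_bot_iff.2 (P0 ▸ le_q0pc (hb H hT h2) (q0pc_perfect H))),
      q0_ch2 hQ T, q0_rank hQ⟩, Set.eq_empty_iff_forall_notMem.2 fun L hL => ?_⟩
    obtain ⟨l1, l2, -⟩ := q0_calL hL
    exact l1 (eq_bot_iff.2 (P0 ▸ le_q0pc (ha L hL) l2))

end Cfsg.Agent.Lib.QZ
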