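import Cfsg.Agent.Lib.QZDefs
import Cfsg.Agent.Lib.PCore

/-! Two `A₄`-blocks in a solvable group of characteristic 2 commute (instance of `QZ.QB2`). -/

set_option autoImplicit false
set_option linter.unusedSectionVars false
set_option linter.style.haveILetI false

namespace Cfsg.Agent.Lib.QZB2

open Cfsg Subgroup Cfsg.Agent.Lib.PCoreConj Cfsg.Agent.Lib.PCore Cfsg.Agent.Lib.QZ

universe u

variable {G : Type*} [Group G] {S : Subgroup G} {z u ρ : G}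

theorem uu (h : Blk S z u ρ) : u * u = 1 := by
  rw [← h.cz]
  calc ρ * z * ρ⁻¹ * (ρ * z * ρ⁻¹) = ρ * (z * z) * ρ⁻¹ := by group
    _ = 1 := by rw [h.zz]; group

theorem u1 (h : Blk S z u ρ) : u ≠ 1 := fun e => h.z1 (by
  have := h.cz
  rw [e, mul_inv_eq_one, mul_eq_left] at this
  exact this)

theorem l1 (h : Blk S z u ρ) (x : G) : z * (z * x) = x := by rw [← mul_assoc, h.zz, one_mul]
theorem l2 (h : Blk S z u ρ) (x : G) : u * (u * x) = x := by rw [← mul_assoc, uu h, one_mul]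
theorem l3 (h : Blk S z u ρ) (x : G) : u * (z * x) = z * (u * x) := by
  rw [← mul_assoc, ← h.zu, mul_assoc]

theorem czu (h : Blk S z u ρ) : ρ * (z * u) * ρ⁻¹ = z := by
  calc ρ * (z * u) * ρ⁻¹ = (ρ * z * ρ⁻¹) * (ρ * u * ρ⁻¹) := by group
    _ = z := by rw [h.cz, h.cu, l3 h, uu h, mul_one]

/-- the four-group -/
def V (h : Blk S z u ρ) : Subgroup G where
  carrier := {x | x = 1 ∨ x = z ∨ x = u ∨ x = z * u}
  one_mem' := .inl rfl
  mul_mem' := by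
    rintro a b (rfl | ha | ha | ha) (rfl | hb | hb | hb) <;>
      simp [*, mul_assoc, h.zz, uu h, l1 h, l2 h, l3 h, ← h.zu]
  inv_mem' := by
    have e1 : z⁻¹ = z := inv_eq_of_mul_eq_one_right h.zz
    have e2 : u⁻¹ = u := inv_eq_of_mul_eq_one_right (uu h)
    rintro a (rfl | ha | ha | ha) <;> simp [*, ← h.zu]

theorem mem_V (h : Blk S z u ρ) {x : G} : x ∈ V h ↔ x = 1 ∨ x = z ∨ x = u ∨ x = z * u := Iff.rfl

theorem zV (h : Blk S z u ρ) : z ∈ V h := .inr (.inl rfl)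
theorem uV (h : Blk S z u ρ) : u ∈ V h := .inr (.inr (.inl rfl))

theorem V_le (h : Blk S z u ρ) {H : Subgroup G} (hz : z ∈ H) (hu : u ∈ H) : V h ≤ H := by
  rintro x (rfl | rfl | rfl | rfl)
  exacts [one_mem _, hz, hu, mul_mem hz hu]

theorem V_sq (h : Blk S z u ρ) {x : G} (hx : x ∈ V h) : x * x = 1 := by
  rcases hx with rfl | hx | hx | hx <;> simp [*, mul_assoc, h.zz, uu h, l1 h, l2 h, l3 h]

theorem V_comm (h : Blk S z u ρ) {g : G} (hz : Commute g z) (hu : Commute g u) {x : G} (hx : x ∈ V h) :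
    Commute g x := by
  rcases hx with rfl | rfl | rfl | rfl
  exacts [Commute.one_right _, hz, hu, hz.mul_right hu]

theorem conj_V (h : Blk S z u ρ) {g : G} (hz : g * z * g⁻¹ ∈ V h) (hu : g * u * g⁻¹ ∈ V h) {x : G}
    (hx : x ∈ V h) : g * x * g⁻¹ ∈ V h := by
  rcases hx with rfl | rfl | rfl | rfl
  · simpa using one_mem _
  · exact hz
  · exact hu
  · have := mul_mem hz hu
    rwa [show g * z * g⁻¹ * (g * u * g⁻¹) = g * (z * u) * g⁻¹ by group] at this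

variable [Finite G]

theorem norm_of (h : Blk S z u ρ) {g : G} (hz : g * z * g⁻¹ ∈ V h) (hu : g * u * g⁻¹ ∈ V h) :
    g ∈ normalizer (V h : Set G) :=
  mem_normalizer_of_conj_le (conj_le_iff.2 fun _ hx => conj_V h hz hu hx)

theorem rho_norm (h : Blk S z u ρ) : ρ ∈ normalizer (V h : Set G) :=
  norm_of h (h.cz ▸ uV h) (h.cu ▸ mul_mem (zV h) (uV h))

theorem S_norm (h : Blk S z u ρ) : S ≤ normalizer (V h : Set G) := fun s hs =>
  norm_of h ((h.fz s hs).symm ▸ zV h) (by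
    rcases h.fu s hs with e | e <;> rw [e]
    exacts [uV h, mul_mem (zV h) (uV h)])

theorem mem_K (h : Blk S z u ρ) {k : G} (hk : k ∈ closure ({z, u, ρ} : Set G)) :
    ∃ r, (r = 1 ∨ r = ρ ∨ r = ρ * ρ) ∧ ∃ v ∈ V h, r * v = k := by
  have h1 : closure ({z, u, ρ} : Set G) ≤ zpowers ρ ⊔ V h := by
    rw [closure_le]
    rintro x (rfl | rfl | rfl)
    exacts [mem_sup_right (zV h), mem_sup_right (uV h), mem_sup_left (mem_zpowers _)]
  obtain ⟨_, ⟨i, rfl⟩, v, hv, e⟩ :=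
    (mem_sup_iff_of_le_normalizer (zpowers_le.2 (rho_norm h))).1 (h1 hk)
  refine ⟨_, ?_, v, hv, e⟩
  change ρ ^ i = 1 ∨ ρ ^ i = ρ ∨ ρ ^ i = ρ * ρ
  rw [zpow_eq_zpow_emod' i h.r3]
  have : i % (3 : ℕ) = 0 ∨ i % (3 : ℕ) = 1 ∨ i % (3 : ℕ) = 2 := by omega
  rcases this with e | e | e <;> rw [e]
  · exact .inl (zpow_zero _)
  · exact .inr (.inl (zpow_one _))
  · exact .inr (.inr (zpow_two _))

theorem mem_of_cube {Y H : Subgroup G} (hY : IsPGroup 2 Y) {c : G} (hc : c ∈ Y) (h3 : c ^ 3 ∈ H) : c ∈ H := by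
  obtain ⟨k, hk⟩ := isPGroup_iff_forall_mem.1 hY c hc
  exact mem_of_pow_mem_of_coprime (Nat.Coprime.coprime_dvd_left (orderOf_dvd_of_pow_eq_one hk)
    (Nat.Coprime.pow_left k (by norm_num))) h3

theorem cube_K (h : Blk S z u ρ) {k : G} (hk : k ∈ closure ({z, u, ρ} : Set G)) : k ^ 3 ∈ V h := by
  obtain ⟨r, hr, v, hv, rfl⟩ := mem_K h hk
  have h1 : r ∈ normalizer (V h : Set G) := by
    rcases hr with rfl | rfl | rfl
    exacts [one_mem _, rho_norm h, mul_mem (rho_norm h) (rho_norm h)]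
  have h2 : r ^ 3 = 1 := by
    rcases hr with rfl | rfl | rfl
    · exact one_pow _
    · exact h.r3
    · rw [(Commute.refl ρ).mul_pow, h.r3, one_mul]
  have e : (r * v) ^ 3 = (r * v * r⁻¹) * (r * (r * v * r⁻¹) * r⁻¹) * (r ^ 3 * v) := by
    simp only [pow_succ]; group
  rw [e, h2, one_mul]
  have h3 := (mem_normalizer_iff.1 h1 v).1 hv
  exact mul_mem (mul_mem h3 ((mem_normalizer_iff.1 h1 _).1 h3)) hv

theorem inverts (h : Blk S z u ρ) {a : G} (ha : a ∈ S) (e : a * u * a⁻¹ = z * u) :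
    ∃ v ∈ V h, a * ρ * a⁻¹ = ρ * ρ * v := by
  obtain ⟨r, hr, v, hv, e1⟩ := mem_K h ((mem_normalizer_iff.1 (h.nS ha) ρ).1
    (subset_closure (by simp)))
  have h0 : a⁻¹ * z * a = z := by simpa using h.fz a⁻¹ (inv_mem ha)
  have h1 : r * v * z * (r * v)⁻¹ = z * u := by
    rw [e1, ← e, ← h.cz]
    calc a * ρ * a⁻¹ * z * (a * ρ * a⁻¹)⁻¹ = a * (ρ * (a⁻¹ * z * a) * ρ⁻¹) * a⁻¹ := by group
      _ = _ := by rw [h0]
  have h2 : r * z * r⁻¹ = z * u := by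
    rw [← h1]
    have := (V_comm h (Commute.refl z) h.zu hv).eq
    calc r * z * r⁻¹ = r * (z * v) * (r * v)⁻¹ := by group
      _ = _ := by rw [this]; group
  rcases hr with rfl | rfl | rfl
  · exact absurd (by simpa using h2) (u1 h)
  · rw [h.cz] at h2
    exact absurd (by simpa using h2) h.z1
  · exact ⟨v, hv, e1.symm⟩

theorem cube_mem {H : Subgroup G} {c a b : G} (hc : c ∈ normalizer (H : Set G)) (ha : a * c⁻¹ ∈ H)
    (hb : b * c⁻¹ ∈ H) (e : a * b * c = 1) : c ^ 3 ∈ H := by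
  have e1 : c ^ 3 = (c * (b * c⁻¹) * c⁻¹)⁻¹ * (a * c⁻¹)⁻¹ * (a * b * c) := by
    simp [pow_three', mul_assoc]
  rw [e1, e, mul_one]
  exact mul_mem (inv_mem ((mem_normalizer_iff.1 hc _).1 hb)) (inv_mem ha)

theorem conj_two (h : Blk S z u ρ) {c : G} (h1 : ρ * c * ρ⁻¹ * c⁻¹ ∈ V h) :
    ρ * (ρ * c * ρ⁻¹) * ρ⁻¹ * c⁻¹ ∈ V h := by
  have := mul_mem ((mem_normalizer_iff.1 (rho_norm h) _).1 h1) h1
  convert this using 1
  simp [mul_assoc]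

/-- a 2-group normalized by `S` and `ρ` has `[ρ, Y] ≤ V` -/
theorem L (h : Blk S z u ρ) (hS : ∀ R : Subgroup G, IsPGroup 2 R → S ≤ R → R ≤ normalizer (S : Set G))
    {Y : Subgroup G} (hY : IsPGroup 2 Y) (h1 : S ≤ normalizer (Y : Set G)) (h2 : ρ ∈ normalizer (Y : Set G))
    {q : G} (hq : q ∈ Y) : ρ * q * ρ⁻¹ * q⁻¹ ∈ V h := by
  have hYS : Y ≤ normalizer (S : Set G) :=
    le_sup_right.trans (hS (S ⊔ Y) (h.pS.to_sup_of_normal_right' hY h1) le_sup_left)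
  have hVS : V h ≤ S := V_le h h.zS h.uS
  have hc : ∀ g ∈ normalizer (Y : Set G), ∀ y ∈ Y, g * y * g⁻¹ * y⁻¹ ∈ Y := fun g hg y hy =>
    mul_mem ((mem_normalizer_iff.1 hg y).1 hy) (inv_mem hy)
  have h3 : ∀ y ∈ Y ⊓ S, ρ * y * ρ⁻¹ * y⁻¹ ∈ V h := fun y hy => by
    refine mem_of_cube hY (hc ρ h2 y hy.1) (cube_K h ?_)
    have h4 : ρ ∈ closure ({z, u, ρ} : Set G) := subset_closure (by simp)
    have := mul_mem h4 ((mem_normalizer_iff.1 (h.nS hy.2) _).1 (inv_mem h4))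
    rwa [show ρ * (y * ρ⁻¹ * y⁻¹) = ρ * y * ρ⁻¹ * y⁻¹ by group] at this
  have h4 : ∀ y ∈ Y ⊓ S, ρ * y * ρ⁻¹ ∈ Y ⊓ S := fun y hy =>
    ⟨(mem_normalizer_iff.1 h2 y).1 hy.1, by simpa using mul_mem (hVS (h3 y hy)) hy.2⟩
  have h5 : ∀ s ∈ S, ∀ y ∈ Y, s * y * s⁻¹ * y⁻¹ ∈ Y ⊓ S := fun s hs y hy =>
    ⟨hc s (h1 hs) y hy, by
      have := mul_mem hs ((mem_normalizer_iff.1 (hYS hy) _).1 (inv_mem hs))
      rwa [show s * (y * s⁻¹ * y⁻¹) = s * y * s⁻¹ * y⁻¹ by group] at this⟩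
  obtain ⟨a, ha, ea⟩ := h.mv
  obtain ⟨v, hv, ev⟩ := inverts h ha ea
  have n1 : ρ ∈ normalizer ((Y ⊓ S : Subgroup G) : Set G) :=
    mem_normalizer_of_conj_le (conj_le_iff.2 h4)
  have n2 : S ≤ normalizer ((Y ⊓ S : Subgroup G) : Set G) := le_normalizer_inf h1 le_normalizer
  have hs : (ρ * v * ρ⁻¹)⁻¹ ∈ S := inv_mem (hVS ((mem_normalizer_iff.1 (rho_norm h) v).1 hv))
  have e1 : ρ = a * (ρ * a⁻¹ * ρ⁻¹) * (ρ * v * ρ⁻¹)⁻¹ := by
    calc ρ = (ρ * ρ * v) * ρ⁻¹ * (ρ * v * ρ⁻¹)⁻¹ := by group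
      _ = _ := by rw [← ev]; group
  have hb : ρ * a⁻¹ * ρ⁻¹ ∈ normalizer ((Y ⊓ S : Subgroup G) : Set G) :=
    mul_mem (mul_mem n1 (n2 (inv_mem ha))) (inv_mem n1)
  have h6 : ρ * a⁻¹ * ρ⁻¹ * q * (ρ * a⁻¹ * ρ⁻¹)⁻¹ * q⁻¹ ∈ Y ⊓ S := by
    have := h4 _ (h5 _ (inv_mem ha) _ ((mem_normalizer_iff.1 (inv_mem h2) q).1 hq))
    convert this using 1; group
  have h7 : ρ * q * ρ⁻¹ * q⁻¹ ∈ Y ⊓ S := by
    generalize ρ * a⁻¹ * ρ⁻¹ = b at e1 hb h6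
    generalize (ρ * v * ρ⁻¹)⁻¹ = s at e1 hs
    have := mul_mem ((mem_normalizer_iff.1 (n2 ha) _).1 (mul_mem
      ((mem_normalizer_iff.1 hb _).1 (h5 s hs q hq)) h6)) (h5 a ha q hq)
    convert this using 1
    rw [e1]; group
  generalize hcq : ρ * q * ρ⁻¹ * q⁻¹ = c at h7 ⊢
  have hv1 := h3 c h7
  refine mem_of_cube hY h7.1 (cube_mem (S_norm h h7.2) (conj_two h hv1) hv1 ?_)
  calc _ = ρ ^ 3 * q * (ρ ^ 3)⁻¹ * q⁻¹ := by rw [← hcq]; simp [pow_three', mul_assoc]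
    _ = 1 := by rw [h.r3]; group

section Two

variable {N : Subgroup G} {z' u' ρ' : G} (hSN : S ≤ N)
  (hC : N ⊓ centralizer (pCoreOf 2 N : Set G) ≤ pCoreOf 2 N)
  (hS : ∀ R : Subgroup G, IsPGroup 2 R → S ≤ R → R ≤ normalizer (S : Set G))

include hSN hS in
theorem LQ (h : Blk S z u ρ) (hρ : ρ ∈ N) {q : G} (hq : q ∈ pCoreOf 2 N) : ρ * q * ρ⁻¹ * q⁻¹ ∈ V h :=
  L h hS (pCoreOf_isPGroup 2 N) (hSN.trans (le_normalizer_pCoreOf 2 N)) (le_normalizer_pCoreOf 2 N hρ) hq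

include hSN hC hS in
theorem V_le_Q (h : Blk S z u ρ) (hρ : ρ ∈ N) : V h ≤ pCoreOf 2 N := by
  have hn := mem_normalizer_iff.1 (le_normalizer_pCoreOf 2 N hρ)
  have h1 : ρ ∉ centralizer (pCoreOf 2 N : Set G) := fun h1 => by
    have h2 : ρ ∈ (⊥ : Subgroup G) := mem_of_cube (pCoreOf_isPGroup 2 N) (hC ⟨hρ, h1⟩) (h.r3 ▸ one_mem _)
    have h3 := h.cu
    rw [mem_bot.1 h2] at h3
    exact h.z1 (by simpa using h3)
  rw [mem_centralizer_iff] at h1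
  push Not at h1
  obtain ⟨q, hq, h2⟩ := h1
  have h3 := LQ hSN hS h hρ hq
  have h4 : ρ * q * ρ⁻¹ * q⁻¹ ∈ pCoreOf 2 N := mul_mem ((hn q).1 hq) (inv_mem hq)
  have hz : z ∈ pCoreOf 2 N := by
    rcases h3 with e | e | e | e <;> rw [e] at h4
    · exact absurd (by rw [mul_inv_eq_one, mul_inv_eq_iff_eq_mul] at e; exact e.symm) h2
    · exact h4
    · rw [← czu h, ← h.cu]; exact (hn _).1 ((hn _).1 h4)
    · rw [← czu h]; exact (hn _).1 h4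
  exact V_le h hz (h.cz ▸ (hn _).1 hz)

theorem comm_uu (h : Blk S z u ρ) (h' : Blk S z' u' ρ') (hne : z ≠ z') : Commute u u' := by
  rcases h'.fu u h.uS with e | e
  · exact mul_inv_eq_iff_eq_mul.1 e
  rcases h.fu u' h'.uS with e' | e'
  · exact (mul_inv_eq_iff_eq_mul.1 e').symm
  exfalso
  apply hne
  have e1 : z' = u * u' * u⁻¹ * u'⁻¹ := by rw [e]; group
  have e2 : z = u' * u * u'⁻¹ * u⁻¹ := by rw [e']; group
  have e3 : z * z' = 1 := by rw [e1, e2]; group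
  rw [← l1 h z', e3, mul_one]

include hSN hC hS in
theorem half (h : Blk S z u ρ) (h' : Blk S z' u' ρ') (hρ : ρ ∈ N) (hρ' : ρ' ∈ N)
    (c1 : Commute ρ z') (c2 : Commute ρ u') : Commute ρ ρ' := by
  have hQ : ∀ g ∈ N, ∀ q ∈ pCoreOf 2 N, g * q * g⁻¹ ∈ pCoreOf 2 N := fun g hg q hq =>
    (mem_normalizer_iff.1 (le_normalizer_pCoreOf 2 N hg) q).1 hq
  have hQ' : ∀ g ∈ N, ∀ q ∈ pCoreOf 2 N, g⁻¹ * q * g ∈ pCoreOf 2 N := fun g hg q hq => by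
    simpa using hQ _ (inv_mem hg) q hq
  let Y : Subgroup G :=
    { carrier := {g | g ∈ N ∧ (∀ v ∈ V h', Commute g v) ∧ ∀ q ∈ pCoreOf 2 N, g * q * g⁻¹ * q⁻¹ ∈ V h'}
      one_mem' := ⟨one_mem _, fun v _ => Commute.one_left v, fun q _ => by simpa using one_mem _⟩
      mul_mem' := by
        rintro a b ⟨a1, a2, a3⟩ ⟨b1, b2, b3⟩
        refine ⟨mul_mem a1 b1, fun v hv => (a2 v hv).mul_left (b2 v hv), fun q hq => ?_⟩
        have e := (a2 _ (b3 q hq)).eq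
        have := mul_mem (b3 q hq) (a3 q hq)
        convert this using 1
        calc _ = a * (b * q * b⁻¹ * q⁻¹) * (q * a⁻¹ * q⁻¹) := by group
          _ = _ := by rw [e]; group
      inv_mem' := by
        rintro a ⟨a1, a2, a3⟩
        refine ⟨inv_mem a1, fun v hv => (a2 v hv).inv_left, fun q hq => ?_⟩
        have := inv_mem (a3 _ (hQ' a a1 q hq))
        convert this using 1
        group }
  have pY : IsPGroup 2 Y := by
    refine isPGroup_of_pow_mem (pCoreOf_isPGroup 2 N) ?_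
    rintro g ⟨g1, g2, g3⟩
    refine ⟨1, hC ⟨pow_mem g1 _, mem_centralizer_iff.2 fun q hq => ?_⟩⟩
    have h1 := g3 q hq
    generalize hv : g * q * g⁻¹ * q⁻¹ = v at h1
    have e1 : g * q = v * q * g := by rw [← hv]; group
    have e2 := (g2 v h1).eq
    calc q * g ^ 2 ^ 1 = v * v * q * g * g := by rw [V_sq h' h1]; simp [sq, mul_assoc]
      _ = v * (v * q * g) * g := by group
      _ = v * g * (q * g) := by rw [← e1]; group
      _ = g * (v * q * g) := by rw [← e2]; group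
      _ = _ := by rw [← e1]; simp [sq, mul_assoc]
  have nY : ∀ n ∈ N, n ∈ normalizer (V h' : Set G) → n ∈ normalizer (Y : Set G) := fun n n1 n2 => by
    refine mem_normalizer_of_conj_le (conj_le_iff.2 ?_)
    rintro g ⟨g1, g2, g3⟩
    refine ⟨mul_mem (mul_mem n1 g1) (inv_mem n1), fun v hv => ?_, fun q hq => ?_⟩
    · have e := (g2 _ ((mem_normalizer_iff.1 (inv_mem n2) v).1 hv)).eq
      calc n * g * n⁻¹ * v = n * (g * (n⁻¹ * v * n⁻¹⁻¹)) * n⁻¹ := by group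
        _ = v * (n * g * n⁻¹) := by rw [e]; group
    · have := (mem_normalizer_iff.1 n2 _).1 (g3 _ (hQ' n n1 q hq))
      convert this using 1
      group
  have cρ : ∀ v ∈ V h', Commute ρ v := fun v hv => V_comm h' c1 c2 hv
  have nρ := mem_normalizer_iff.1 (rho_norm h')
  have nρ' := mem_normalizer_iff.1 (inv_mem (rho_norm h'))
  have hy : ρ'⁻¹ * (ρ * ρ' * ρ⁻¹) ∈ Y := by
    refine ⟨mul_mem (inv_mem hρ') (mul_mem (mul_mem hρ hρ') (inv_mem hρ)), fun v hv => ?_, fun q hq => ?_⟩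
    · have e1 := (cρ v hv).inv_left.eq
      have e2 := (cρ _ ((nρ v).1 hv)).eq
      calc ρ'⁻¹ * (ρ * ρ' * ρ⁻¹) * v = ρ'⁻¹ * ρ * ρ' * (ρ⁻¹ * v) := by group
        _ = ρ'⁻¹ * (ρ * (ρ' * v * ρ'⁻¹)) * ρ' * ρ⁻¹ := by rw [e1]; group
        _ = v * (ρ'⁻¹ * (ρ * ρ' * ρ⁻¹)) := by rw [e2]; group
    · have h1 := LQ hSN hS h' hρ' (hQ' ρ hρ q hq)
      have h2 := LQ hSN hS h' hρ' (hQ' ρ' hρ' q hq)
      have e2 := (cρ _ h1).eq
      have := mul_mem ((nρ' _).1 h1) (inv_mem h2)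
      convert this using 1
      calc _ = ρ'⁻¹ * (ρ * (ρ' * (ρ⁻¹ * q * ρ) * ρ'⁻¹ * (ρ⁻¹ * q * ρ)⁻¹)) * (ρ⁻¹ * q * ρ' * q⁻¹) := by group
        _ = _ := by rw [e2]; group
  generalize hye : ρ'⁻¹ * (ρ * ρ' * ρ⁻¹) = y at hy
  have e0 : ρ * ρ' * ρ⁻¹ = ρ' * y := by rw [← hye]; group
  have h1 := L h' hS pY (fun s hs => nY s (hSN hs) (S_norm h' hs)) (nY ρ' hρ' (rho_norm h')) hy
  have hyV : y ∈ V h' := by
    refine mem_of_cube pY hy (cube_mem (norm_of h' ?_ ?_) h1 (conj_two h' h1) ?_)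
    · rw [mul_inv_eq_iff_eq_mul.2 (hy.2.1 _ (zV h')).eq]; exact zV h'
    · rw [mul_inv_eq_iff_eq_mul.2 (hy.2.1 _ (uV h')).eq]; exact uV h'
    · calc _ = ρ' * y * ρ' * y * (ρ' ^ 3)⁻¹ * ρ' * y := by simp [pow_three', mul_assoc]
        _ = (ρ' * y) ^ 3 := by rw [h'.r3]; simp [pow_three', mul_assoc]
        _ = 1 := by rw [← e0, conj_pow, h'.r3]; group
  have e1 := (cρ y hyV).eq
  have e2 : ρ * (ρ' * y) * ρ⁻¹ = ρ' := by
    calc _ = ρ * ρ' * ρ⁻¹ * (ρ * y) * ρ⁻¹ := by group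
      _ = ρ' * (y * y) := by rw [e0, e1]; group
      _ = _ := by rw [V_sq h' hyV, mul_one]
  have e3 : ρ ^ 3 * ρ' * (ρ ^ 3)⁻¹ = ρ * ρ' * ρ⁻¹ := by
    calc _ = ρ * (ρ * (ρ * ρ' * ρ⁻¹) * ρ⁻¹) * ρ⁻¹ := by simp [pow_three', mul_assoc]
      _ = _ := by rw [e0, e2, e0]
  rw [h.r3, one_mul, inv_one, mul_one] at e3
  exact mul_inv_eq_iff_eq_mul.1 e3.symm

include hSN hC hS in
theorem dich (h : Blk S z u ρ) (h' : Blk S z' u' ρ') (hρ : ρ ∈ N) (hρ' : ρ' ∈ N)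
    (hne : z ≠ z') (c1 : Commute ρ z') : Commute ρ u' ∨ ρ * u' * ρ⁻¹ = z * u * u' := by
  have h1 := LQ hSN hS h hρ (V_le_Q hSN hC hS h' hρ' (uV h'))
  generalize hw : ρ * u' * ρ⁻¹ * u'⁻¹ = w at h1
  have e1 : ρ * u' * ρ⁻¹ = w * u' := by rw [← hw]; group
  obtain ⟨a, ha, ea⟩ := h.mv
  obtain ⟨v, hv, ev⟩ := inverts h ha ea
  have cz : Commute z' v := V_comm h (mul_inv_eq_iff_eq_mul.1 (h.fz z' h'.zS))
    (mul_inv_eq_iff_eq_mul.1 (h'.fz u h.uS)).symm hv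
  have cu : Commute u' v := V_comm h (mul_inv_eq_iff_eq_mul.1 (h.fz u' h'.uS)) (comm_uu h h' hne).symm hv
  have cw : Commute z' (ρ * w * ρ⁻¹ * w) := V_comm h (mul_inv_eq_iff_eq_mul.1 (h.fz z' h'.zS))
    (mul_inv_eq_iff_eq_mul.1 (h'.fz u h.uS)).symm (mul_mem ((mem_normalizer_iff.1 (rho_norm h) w).1 h1) h1)
  have e2 : ρ * ρ * v * u' * (ρ * ρ * v)⁻¹ = ρ * w * ρ⁻¹ * w * u' := by
    calc _ = ρ * ρ * (v * u') * v⁻¹ * ρ⁻¹ * ρ⁻¹ := by group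
      _ = ρ * (ρ * u' * ρ⁻¹) * ρ⁻¹ := by rw [← cu.eq]; group
      _ = ρ * w * ρ⁻¹ * (ρ * u' * ρ⁻¹) := by nth_rewrite 1 [e1]; group
      _ = _ := by rw [e1]; group
  have e3 : ρ * ρ * v * z' * (ρ * ρ * v)⁻¹ = z' :=
    mul_inv_eq_iff_eq_mul.2 ((c1.mul_left c1).mul_left cz.symm).eq
  have e4 : a * w * a⁻¹ = ρ * w * ρ⁻¹ * w := by
    have e5 : a * w * a⁻¹ * (a * u' * a⁻¹) = ρ * ρ * v * (a * u' * a⁻¹) * (ρ * ρ * v)⁻¹ := by
      calc _ = a * (w * u') * a⁻¹ := by group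
        _ = _ := by rw [← e1, ← ev]; group
    rcases h'.fu a ha with e | e <;> rw [e] at e5
    · rw [e2] at e5
      exact mul_right_cancel e5
    · have e6 : ρ * ρ * v * (z' * u') * (ρ * ρ * v)⁻¹ = ρ * w * ρ⁻¹ * w * (z' * u') := by
        calc _ = (ρ * ρ * v * z' * (ρ * ρ * v)⁻¹) * (ρ * ρ * v * u' * (ρ * ρ * v)⁻¹) := by group
          _ = z' * (ρ * w * ρ⁻¹ * w) * u' := by rw [e3, e2]; group
          _ = _ := by rw [cw.eq]; group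
      rw [e6] at e5
      exact mul_right_cancel e5
  rcases h1 with rfl | rfl | rfl | rfl
  · exact .inl (mul_inv_eq_iff_eq_mul.1 (by rw [e1, one_mul]))
  · rw [h.fz a ha, h.cz] at e4
    exact absurd (by simpa using e4) (u1 h)
  · rw [ea, h.cu] at e4
    exact absurd (by simpa using e4) (u1 h)
  · exact .inr e1

end Two

instance instQB2 [q5 : QS5.{u}] : QB2.{u} where
  out := fun {G} _ _ S N hN hSN hC hS z u ρ z' u' ρ' h h' hρ hρ' hne c1 c2 => by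
    have fin : Commute ρ ρ' → Commute ρ ρ' ∧ Commute ρ u' ∧ Commute ρ' u := fun c =>
      ⟨c, h'.cz ▸ (c.mul_right c1).mul_right c.inv_right,
        h.cz ▸ (c.symm.mul_right c2).mul_right c.symm.inv_right⟩
    rcases dich hSN hC hS h h' hρ hρ' hne c1 with e | e
    · exact fin (half hSN hC hS h h' hρ hρ' c1 e)
    rcases dich hSN hC hS h' h hρ' hρ hne.symm c2 with e' | e'
    · exact fin (half hSN hC hS h' h hρ' hρ c2 e').symm
    exact absurd (q5.out N hN z u z' u' ρ ρ' hρ hρ' h.zz (uu h) h'.zz (uu h') h.zu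
      (mul_inv_eq_iff_eq_mul.1 (h'.fz z h.zS)) (mul_inv_eq_iff_eq_mul.1 (h.fz u' h'.uS)).symm
      (mul_inv_eq_iff_eq_mul.1 (h'.fz u h.uS)) (comm_uu h h' hne) h'.zu h.cz h.cu
      (mul_inv_eq_iff_eq_mul.2 c1.eq) e h'.cz h'.cu (mul_inv_eq_iff_eq_mul.2 c2.eq) e') h.z1

end Cfsg.Agent.Lib.QZB2
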