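import Cfsg.Agent.Lib.QZBa

/-! Lemma B (`QZ.QB3`) from `QB2`, `QW`, `QR3`. -/

set_option autoImplicit false
set_option linter.unusedSectionVars false

namespace Cfsg.Agent.Lib.QZB3

open Cfsg Subgroup Cfsg.Agent.Lib.QZ Cfsg.Agent.Lib.PCore Cfsg.Agent.Lib.PCoreResidual Cfsg.Agent.Lib.PCoreConj

universe u

variable {G : Type u} [Group G]

theorem card_orb [Finite G] (H : Subgroup G) (z : G) :
    Nat.card (H ⊓ centralizer ({z} : Set G) : Subgroup G) * ((fun g => g * z * g⁻¹) '' (H : Set G)).ncard =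
      Nat.card H := by
  letI : MulAction H G := MulAction.compHom G ((MulAut.conj (G := G)).comp H.subtype)
  have e1 : MulAction.orbit H z = (fun g => g * z * g⁻¹) '' (H : Set G) := by
    ext x
    constructor
    · rintro ⟨g, rfl⟩
      exact ⟨g, g.2, rfl⟩
    · rintro ⟨g, hg, rfl⟩
      exact ⟨⟨g, hg⟩, rfl⟩
  have e2 : MulAction.stabilizer H z = (H ⊓ centralizer ({z} : Set G)).subgroupOf H := by
    ext g
    rw [MulAction.mem_stabilizer_iff, mem_subgroupOf, mem_inf, mem_centralizer_iff]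
    change (g : G) * z * (g : G)⁻¹ = z ↔ _
    constructor
    · intro e
      refine ⟨g.2, ?_⟩
      rintro _ rfl
      exact (comm_of_conj e).symm.eq
    · intro e
      exact conj_of_comm (Commute.symm (e.2 z rfl))
  rw [← e1, ← MulAction.index_stabilizer, ← card_mul_index (MulAction.stabilizer H z), e2,
    Nat.card_congr (subgroupOfEquivOfLe (inf_le_left : H ⊓ centralizer ({z} : Set G) ≤ H)).toEquiv]

theorem fix_of_sq {x z : G} (hx : Odd (orderOf x)) (h : x * x * z * (x * x)⁻¹ = z) : x * z * x⁻¹ = z := by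
  obtain ⟨k, hk⟩ := hx
  have e : x = (x * x) ^ (k + 1) := by
    rw [← pow_two, ← pow_mul, show 2 * (k + 1) = orderOf x + 1 by omega, pow_succ, pow_orderOf_eq_one, one_mul]
  have := (comm_of_conj h).pow_left (k + 1)
  rw [← e] at this
  exact conj_of_comm this

theorem conj_comm {a b : G} (g : G) (h : Commute a b) : Commute (g * a * g⁻¹) (g * b * g⁻¹) := by
  refine comm_of_conj ?_
  calc _ = g * (a * b * a⁻¹) * g⁻¹ := by group
    _ = _ := by rw [conj_of_comm h]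

theorem conj_comm' {a b : G} (g : G) (h : Commute (g * a * g⁻¹) (g * b * g⁻¹)) : Commute a b := by
  have := conj_comm g⁻¹ h
  convert this using 1 <;> group

/-- if all conjugates of `u` commute with `u` -/
theorem stepA [Finite G] {S M₀ : Subgroup G} {z u ρ : G} (h : Blk S z u ρ) (hM : M₀ ≤ normalizer (S : Set G))
    (hc : ∀ g ∈ M₀, Commute (g * u * g⁻¹) u) :
    ∃ P : Subgroup G, IsPGroup 2 P ∧ P ≠ ⊥ ∧ M₀ ≤ normalizer (P : Set G) ∧ ρ ∈ normalizer (P : Set G) := by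
  let P : Subgroup G := closure {x | ∃ g ∈ M₀, x = g * z * g⁻¹ ∨ x = g * u * g⁻¹}
  have hP : ∀ x ∈ P, x ∈ S ∧ Commute x u := by
    intro x hx
    induction hx using closure_induction with
    | mem x hx =>
      obtain ⟨g, hg, rfl | rfl⟩ := hx
      · exact ⟨(h.conj (hM hg)).zS, ((h.conj (hM hg)).zcomm h.uS).symm⟩
      · exact ⟨(h.conj (hM hg)).uS, hc g hg⟩
    | one => exact ⟨one_mem _, by simp⟩
    | mul x y _ _ hx hy => exact ⟨mul_mem hx.1 hy.1, hx.2.mul_left hy.2⟩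
    | inv x _ hx => exact ⟨inv_mem hx.1, hx.2.inv_left⟩
  have zP : z ∈ P := subset_closure ⟨1, one_mem _, Or.inl (by group)⟩
  have uP : u ∈ P := subset_closure ⟨1, one_mem _, Or.inr (by group)⟩
  have UP : closure ({z, u} : Set G) ≤ P := by
    rw [closure_le]; rintro x (rfl | rfl) <;> assumption
  refine ⟨P, h.pS.to_le fun x hx => (hP x hx).1, fun e => h.z1 (by rwa [e, mem_bot] at zP), ?_, ?_⟩
  · intro m hm
    refine mem_normalizer_fintype fun x hx => ?_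
    change x ∈ P at hx
    change _ ∈ P
    induction hx using closure_induction with
    | mem x hx =>
      obtain ⟨g, hg, rfl | rfl⟩ := hx
      · exact subset_closure ⟨m * g, mul_mem hm hg, Or.inl (by group)⟩
      · exact subset_closure ⟨m * g, mul_mem hm hg, Or.inr (by group)⟩
    | one => simp
    | mul x y _ _ hx hy =>
      have := mul_mem hx hy
      convert this using 1
      group
    | inv x _ hx =>
      have := inv_mem hx
      convert this using 1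
      group
  · refine mem_normalizer_fintype fun x hx => ?_
    have := mul_mem (UP (h.comm_mem (hP x hx).1 (hP x hx).2)) (show x ∈ P from hx)
    change _ ∈ P
    convert this using 1
    group

/-- if all odd order elements of `M₀` fix `z` -/
theorem stepC [Finite G] (T : Sylow 2 G) {S M₀ : Subgroup G} {z u ρ : G} (h : Blk S z u ρ) (hT : (T : Subgroup G) ≤ M₀)
    (hM : M₀ ≤ normalizer (S : Set G))
    (ht : ∀ t ∈ (T : Subgroup G), t ∈ normalizer ((closure {z, u, ρ} : Subgroup G) : Set G) ∨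
        ∀ x ∈ closure ({z, u, ρ} : Set G), ∀ x' ∈ closure ({z, u, ρ} : Set G), Commute x (t * x' * t⁻¹))
    {g₀ : G} (hg₀ : g₀ ∈ M₀) (hn : ¬ Commute (g₀ * u * g₀⁻¹) u) (hz : g₀ * z * g₀⁻¹ = z)
    (ho : ∀ x ∈ M₀, Odd (orderOf x) → x * z * x⁻¹ = z) : False := by
  have h₀ := h.conj (hM hg₀)
  rw [hz] at h₀
  have hau : (g₀ * u * g₀⁻¹) * u * (g₀ * u * g₀⁻¹)⁻¹ = z * u :=
    (h.fu _ h₀.uS).resolve_left fun e => hn (comm_of_conj e)
  have hb : ∀ g ∈ M₀, g * z * g⁻¹ = z → Blk S z (g * u * g⁻¹) (g * ρ * g⁻¹) := fun g hg e => by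
    have := h.conj (hM hg)
    rwa [e] at this
  let E : Subgroup G :=
    { carrier := {g | g ∈ M₀ ∧ g * z * g⁻¹ = z ∧ Commute (g * u * g⁻¹) u}
      one_mem' := ⟨one_mem _, by group, by simp⟩
      mul_mem' := by
        rintro x y ⟨hx, zx, cx⟩ ⟨hy, zy, cy⟩
        have zxy : x * y * z * (x * y)⁻¹ = z := by
          calc _ = x * (y * z * y⁻¹) * x⁻¹ := by group
            _ = z := by rw [zy, zx]
        refine ⟨mul_mem hx hy, zxy, ?_⟩
        rw [h.t1 h₀.uS h₀.fu hau (hb x hx zx) cx (hb _ (mul_mem hx hy) zxy).uS]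
        have := conj_comm x cy
        convert this using 1
        group
      inv_mem' := by
        rintro x ⟨hx, zx, cx⟩
        refine ⟨inv_mem hx, ?_, ?_⟩
        · calc _ = x⁻¹ * (x * z * x⁻¹) * x := by rw [zx, inv_inv]
            _ = z := by group
        · have := (conj_comm x⁻¹ cx).symm
          convert this using 1
          group }
  have hE : pResidualOf 2 M₀ ≤ E := by
    rw [pResidualOf_le_iff]
    intro x hx hc
    have hodd : Odd (orderOf x) := Nat.coprime_two_right.1 hc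
    have zx := ho x hx hodd
    by_cases cx : Commute (x * u * x⁻¹) u
    · exact ⟨hx, zx, cx⟩
    · have zx' := ho x⁻¹ (inv_mem hx) (by rwa [orderOf_inv])
      have cx' : ¬ Commute (x⁻¹ * u * x⁻¹⁻¹) u := fun e => cx (by
        have := (conj_comm x e).symm
        convert this using 1
        group)
      have := conj_comm x (h.t2 (hb x hx zx) (hb _ (inv_mem hx) zx') cx cx')
      have h2 : x * x ∈ E := by
        refine ⟨mul_mem hx hx, ?_, ?_⟩
        · calc _ = x * (x * z * x⁻¹) * x⁻¹ := by group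
            _ = z := by rw [zx, zx]
        · convert this using 1 <;> group
      obtain ⟨k, hk⟩ := hodd
      have e : x = (x * x) ^ (k + 1) := by
        rw [← pow_two, ← pow_mul, show 2 * (k + 1) = orderOf x + 1 by omega, pow_succ, pow_orderOf_eq_one, one_mul]
      rw [e]
      exact pow_mem h2 _
  have hs : IsSylowIn 2 (T : Subgroup G) M₀ := (isSylowIn_top T).of_le hT le_top
  have hg := hg₀
  rw [← pResidualOf_sup_of_isSylowIn hs,
    mem_sup_iff_of_le_normalizer' (hT.trans (le_normalizer_pResidualOf 2 M₀))] at hg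
  obtain ⟨x, hx, t, htT, rfl⟩ := hg
  have xE := hE hx
  have zt : t * z * t⁻¹ = z := by
    have := (inv_mem xE).2.1
    calc t * z * t⁻¹ = x⁻¹ * (x * t * z * (x * t)⁻¹) * x⁻¹⁻¹ := by group
      _ = z := by rw [hz, this]
  have tE : t ∈ E := by
    refine ⟨hT htT, zt, ?_⟩
    rcases ht t htT with e | e
    · exact h.commU (h.memU_of_sq ((mem_normalizer_iff.1 e u).1 h.uK) (hb t (hT htT) zt).uu) h.uU
    · have := e ρ h.rK z h.zK
      rw [zt] at this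
      exact absurd this h.not_comm
  exact hn (mul_mem xE tE).2.2

theorem main [QB2.{u}] [QW.{u}] [QR3.{u}] [Finite G] (T : Sylow 2 G) (hy : Hyp T) {M₀ : Subgroup G}
    (hT : (T : Subgroup G) ≤ M₀) (hM : M₀ ≤ normalizer (baumannSubgroupOf 2 (T : Subgroup G) : Set G))
    {z u ρ : G} (h : Blk (baumannSubgroupOf 2 (T : Subgroup G)) z u ρ)
    (ht : ∀ t ∈ (T : Subgroup G), t ∈ normalizer ((closure {z, u, ρ} : Subgroup G) : Set G) ∨
        ∀ x ∈ closure ({z, u, ρ} : Set G), ∀ x' ∈ closure ({z, u, ρ} : Set G), Commute x (t * x' * t⁻¹))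
    {g₀ : G} (hg₀ : g₀ ∈ M₀) (hn : ¬ Commute (g₀ * u * g₀⁻¹) u) : False := by
  set S := baumannSubgroupOf 2 (T : Subgroup G) with hS
  have hST : S ≤ (T : Subgroup G) := inf_le_left
  have hb : ∀ g ∈ M₀, Blk S (g * z * g⁻¹) (g * u * g⁻¹) (g * ρ * g⁻¹) := fun g hg => h.conj (hM hg)
  have h₀ := hb g₀ hg₀
  have hau : (g₀ * u * g₀⁻¹) * u * (g₀ * u * g₀⁻¹)⁻¹ = z * u :=
    (h.fu _ h₀.uS).resolve_left fun e => hn (comm_of_conj e)
  have hz : g₀ * z * g₀⁻¹ = z := by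
    have e := (h₀.fu _ h.uS).resolve_left fun e => hn (comm_of_conj e).symm
    have e1 : g₀ * z * g₀⁻¹ = ((g₀ * u * g₀⁻¹) * u * (g₀ * u * g₀⁻¹)⁻¹ * u⁻¹)⁻¹ := by
      calc g₀ * z * g₀⁻¹ = (g₀ * z * g₀⁻¹ * (g₀ * u * g₀⁻¹)) * (g₀ * u * g₀⁻¹)⁻¹ := by group
        _ = _ := by rw [← e]; group
    rw [e1, hau, mul_inv_cancel_right, h.zi]
  rw [hz] at h₀
  -- the dichotomy
  have dich : ∀ g ∈ M₀, ∀ k ∈ M₀, g * z * g⁻¹ ≠ k * z * k⁻¹ → Commute (g * ρ * g⁻¹) (k * z * k⁻¹) := by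
    intro g hg k hk hne
    rcases h.dich h₀.uS h₀.fu hau (hb _ (mul_mem (inv_mem hg) hk)) with e | e
    · refine absurd ?_ hne
      calc g * z * g⁻¹ = g * (g⁻¹ * k * z * (g⁻¹ * k)⁻¹) * g⁻¹ := by rw [e]
        _ = _ := by group
    · have := conj_comm g e
      convert this using 1
      group
  have fin3 : ∀ g₁ ∈ M₀, ∀ g₂ ∈ M₀, ∀ g₃ ∈ M₀, g₁ * z * g₁⁻¹ ≠ g₂ * z * g₂⁻¹ → g₁ * z * g₁⁻¹ ≠ g₃ * z * g₃⁻¹ →
      g₂ * z * g₂⁻¹ ≠ g₃ * z * g₃⁻¹ → Commute (g₁ * ρ * g₁⁻¹) (g₂ * ρ * g₂⁻¹) →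
      Commute (g₁ * ρ * g₁⁻¹) (g₃ * ρ * g₃⁻¹) → Commute (g₂ * ρ * g₂⁻¹) (g₃ * ρ * g₃⁻¹) → False := by
    intro g₁ h₁ g₂ h₂ g₃ h₃ n12 n13 n23 c12 c13 c23
    exact QR3.out hy.rank S _ _ _ _ _ _ _ _ _ (hb _ h₁) (hb _ h₂) (hb _ h₃) c12 c13 c23 (dich _ h₁ _ h₂ n12)
      (dich _ h₁ _ h₃ n13) (dich _ h₂ _ h₁ n12.symm) (dich _ h₂ _ h₃ n23) (dich _ h₃ _ h₁ n13.symm)
      (dich _ h₃ _ h₂ n23.symm)
  have c3 : ∀ z₀ : G, z₀ ≠ 1 → z₀ * z₀ = 1 → (∀ t ∈ (T : Subgroup G), t * z₀ * t⁻¹ = z₀) → ∀ g₁ ∈ M₀, ∀ g₂ ∈ M₀,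
      g₁ * z * g₁⁻¹ ≠ g₂ * z * g₂⁻¹ → Commute (g₁ * ρ * g₁⁻¹) z₀ → Commute (g₂ * ρ * g₂⁻¹) z₀ →
      Commute (g₁ * ρ * g₁⁻¹) (g₂ * ρ * g₂⁻¹) := by
    intro z₀ n0 s0 t0 g₁ h₁ g₂ h₂ n12 c1 c2
    have hm : ∀ x, Commute x z₀ → x ∈ centralizer ({z₀} : Set G) := fun x hx => by
      rw [mem_centralizer_iff]; rintro _ rfl; exact hx.symm.eq
    have hTN : (T : Subgroup G) ≤ centralizer ({z₀} : Set G) := fun t ht => hm t (comm_of_conj (t0 t ht))
    have hp : pCoreOf 2 (centralizer ({z₀} : Set G)) ≠ ⊥ := by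
      have : zpowers z₀ ≤ pCoreOf 2 (centralizer ({z₀} : Set G)) := by
        refine le_pCoreOf (zpowers_le.2 (hm _ (Commute.refl _))) ?_ ?_
        · intro x hx
          refine mem_normalizer_fintype fun y hy => ?_
          obtain ⟨k, rfl⟩ := hy
          have : Commute x z₀ := (show Commute z₀ x from mem_centralizer_iff.1 hx z₀ rfl).symm
          change _ ∈ zpowers z₀
          rw [conj_of_comm (this.zpow_right k)]
          exact zpow_mem (mem_zpowers _) _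
        · rintro ⟨_, k, rfl⟩
          refine ⟨1, Subtype.ext ?_⟩
          change (z₀ ^ k) ^ 2 ^ 1 = 1
          rw [pow_one, ← zpow_natCast, ← zpow_mul, mul_comm, zpow_mul, zpow_natCast, pow_two, s0, one_zpow]
      intro e
      rw [e, le_bot_iff, zpowers_eq_bot] at this
      exact n0 this
    exact (QB2.out S _ (hy.solv _ hTN hp) (hST.trans hTN) (hy.ch2 _ hTN hp) (QW.out T).2 _ _ _ _ _ _ (hb _ h₁)
      (hb _ h₂) (hm _ c1) (hm _ c2) n12 (dich _ h₁ _ h₂ n12) (dich _ h₂ _ h₁ n12.symm)).1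
  obtain ⟨x, hx, hodd, hxz⟩ : ∃ x ∈ M₀, Odd (orderOf x) ∧ x * z * x⁻¹ ≠ z := by
    by_contra hc
    push Not at hc
    exact stepC T h hT hM ht hg₀ hn hz hc
  have n01 : (1 : G) * z * 1⁻¹ ≠ x * z * x⁻¹ := by simpa using hxz.symm
  have n02 : (1 : G) * z * 1⁻¹ ≠ x * x * z * (x * x)⁻¹ := fun e => hxz (fix_of_sq hodd (by simpa using e.symm))
  have n12 : x * z * x⁻¹ ≠ x * x * z * (x * x)⁻¹ := fun e => hxz (by
    calc x * z * x⁻¹ = x⁻¹ * (x * x * z * (x * x)⁻¹) * x := by group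
      _ = z := by rw [← e]; group)
  have conj_ne : ∀ k a b : G, a ≠ b → k * a * k⁻¹ ≠ k * b * k⁻¹ := fun k a b hab e => hab (by simpa using e)
  by_cases hA : ∃ k ∈ M₀, ∀ t ∈ (T : Subgroup G), t * (k * z * k⁻¹) * t⁻¹ = k * z * k⁻¹
  · obtain ⟨k, hk, hfix⟩ := hA
    have key : ∀ g₁ ∈ M₀, ∀ g₂ ∈ M₀, ∀ g₃ ∈ M₀, g₁ * z * g₁⁻¹ ≠ g₂ * z * g₂⁻¹ → g₁ * z * g₁⁻¹ ≠ g₃ * z * g₃⁻¹ →
        g₂ * z * g₂⁻¹ ≠ g₃ * z * g₃⁻¹ → Commute (g₁ * ρ * g₁⁻¹) (g₂ * ρ * g₂⁻¹) := by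
      intro g₁ h₁ g₂ h₂ g₃ h₃ m12 m13 m23
      have hk' : k * g₃⁻¹ ∈ M₀ := mul_mem hk (inv_mem h₃)
      have e : ∀ a b : G, a * z * a⁻¹ ≠ b * z * b⁻¹ →
          k * g₃⁻¹ * a * z * (k * g₃⁻¹ * a)⁻¹ ≠ k * g₃⁻¹ * b * z * (k * g₃⁻¹ * b)⁻¹ := by
        intro a b hab
        have := conj_ne (k * g₃⁻¹) _ _ hab
        convert this using 1 <;> group
      have e3 : k * g₃⁻¹ * g₃ = k := by group
      have f1 := e _ _ m13
      have f2 := e _ _ m23
      rw [e3] at f1 f2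
      have := c3 _ (hb k hk).z1 (hb k hk).zz hfix _ (mul_mem hk' h₁) _ (mul_mem hk' h₂) (e _ _ m12)
        (dich _ (mul_mem hk' h₁) _ hk f1) (dich _ (mul_mem hk' h₂) _ hk f2)
      refine conj_comm' (k * g₃⁻¹) ?_
      convert this using 1 <;> group
    have h1 := one_mem M₀
    have h2 := mul_mem hx hx
    exact fin3 _ h1 _ hx _ h2 n01 n02 n12 (key _ h1 _ hx _ h2 n01 n02 n12) (key _ h1 _ h2 _ hx n02 n01 n12.symm)
      (key _ hx _ h2 _ h1 n12 n01.symm n02.symm)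
  push Not at hA
  obtain ⟨t, htT, hzt⟩ := hA 1 (one_mem _)
  replace hzt : t * z * t⁻¹ ≠ z := by simpa using hzt
  -- distinct `T`-conjugates commute
  have cT : ∀ a ∈ (T : Subgroup G), ∀ b ∈ (T : Subgroup G), a * z * a⁻¹ ≠ b * z * b⁻¹ →
      Commute (a * ρ * a⁻¹) (b * ρ * b⁻¹) := by
    intro a ha b hb' hab
    have hab' := mul_mem (inv_mem ha) hb'
    rcases ht _ hab' with e | e
    · exfalso
      have h' := hb _ (hT hab')
      have m := h.memU_of_sq ((mem_normalizer_iff.1 e z).1 h.zK) h'.zz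
      obtain ⟨s, hs, es⟩ := h.mv
      have f := h'.fz s hs
      rcases h.memU m with e' | e' | e' | e'
      · exact h'.z1 e'
      · refine hab ?_
        calc a * z * a⁻¹ = a * (a⁻¹ * b * z * (a⁻¹ * b)⁻¹) * a⁻¹ := by rw [e']
          _ = _ := by group
      · rw [e', es] at f
        exact h.zu_ne f
      · rw [e'] at f
        have : s * (z * u) * s⁻¹ = (s * z * s⁻¹) * (s * u * s⁻¹) := by group
        rw [this, h.fz s hs, es] at f
        exact h.zu_ne (mul_left_cancel f)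
    · have := conj_comm a (e ρ h.rK ρ h.rK)
      convert this using 1
      group
  have orbT : ∀ a ∈ (T : Subgroup G), a * z * a⁻¹ = z ∨ a * z * a⁻¹ = t * z * t⁻¹ := by
    intro a ha
    by_contra hc
    push Not at hc
    have h1 := one_mem (T : Subgroup G)
    have m1 : (1 : G) * z * 1⁻¹ ≠ t * z * t⁻¹ := by simpa using hzt.symm
    have m2 : (1 : G) * z * 1⁻¹ ≠ a * z * a⁻¹ := by simpa using hc.1.symm
    exact fin3 _ (hT h1) _ (hT htT) _ (hT ha) m1 m2 hc.2.symm (cT _ h1 _ htT m1) (cT _ h1 _ ha m2)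
      (cT _ htT _ ha hc.2.symm)
  have hbt := hb t (hT htT)
  have czz : Commute z (t * z * t⁻¹) := hbt.zcomm h.zS
  have orbT' : ∀ a ∈ (T : Subgroup G), a * (t * z * t⁻¹) * a⁻¹ = z ∨ a * (t * z * t⁻¹) * a⁻¹ = t * z * t⁻¹ := by
    intro a ha
    have := orbT _ (mul_mem ha htT)
    have e : a * t * z * (a * t)⁻¹ = a * (t * z * t⁻¹) * a⁻¹ := by group
    rwa [e] at this
  have fix0 : ∀ a ∈ (T : Subgroup G), a * (z * (t * z * t⁻¹)) * a⁻¹ = z * (t * z * t⁻¹) := by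
    intro a ha
    have e : a * (z * (t * z * t⁻¹)) * a⁻¹ = (a * z * a⁻¹) * (a * (t * z * t⁻¹) * a⁻¹) := by group
    have ne := conj_ne a _ _ hzt
    rw [e]
    rcases orbT a ha with e1 | e1 <;> rcases orbT' a ha with e2 | e2 <;> rw [e1, e2] at ne ⊢
    · exact absurd rfl ne
    · exact czz.symm.eq
    · exact absurd rfl ne
  have out : ∀ g₁ ∈ M₀, ∀ g₂ ∈ M₀, g₁ * z * g₁⁻¹ ≠ g₂ * z * g₂⁻¹ → g₁ * z * g₁⁻¹ ≠ z → g₁ * z * g₁⁻¹ ≠ t * z * t⁻¹ →
      g₂ * z * g₂⁻¹ ≠ z → g₂ * z * g₂⁻¹ ≠ t * z * t⁻¹ → Commute (g₁ * ρ * g₁⁻¹) (g₂ * ρ * g₂⁻¹) := by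
    intro g₁ h₁ g₂ h₂ m12 a1 b1 a2 b2
    have cc : ∀ g ∈ M₀, g * z * g⁻¹ ≠ z → g * z * g⁻¹ ≠ t * z * t⁻¹ →
        Commute (g * ρ * g⁻¹) (z * (t * z * t⁻¹)) := by
      intro g hg a b
      have := dich g hg 1 (one_mem _) (by simpa using a)
      exact Commute.mul_right (by simpa using this) (dich g hg t (hT htT) b)
    refine c3 _ (fun e => hzt ?_) ?_ fix0 _ h₁ _ h₂ m12 (cc _ h₁ a1 b1) (cc _ h₂ a2 b2)
    · exact (eq_inv_of_mul_eq_one_right e).trans h.zi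
    · calc z * (t * z * t⁻¹) * (z * (t * z * t⁻¹)) = z * ((t * z * t⁻¹) * z) * (t * z * t⁻¹) := by group
        _ = (z * z) * ((t * z * t⁻¹) * (t * z * t⁻¹)) := by rw [← czz.eq]; group
        _ = 1 := by rw [h.zz, hbt.zz, one_mul]
  obtain ⟨g₃, h₃, a3, b3⟩ : ∃ g ∈ M₀, g * z * g⁻¹ ≠ z ∧ g * z * g⁻¹ ≠ t * z * t⁻¹ := by
    by_cases e : x * z * x⁻¹ = t * z * t⁻¹
    · exact ⟨x * x, mul_mem hx hx, by simpa using n02.symm, e ▸ n12.symm⟩
    · exact ⟨x, hx, hxz, e⟩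
  obtain ⟨g₄, h₄, a4, b4, c4⟩ : ∃ g ∈ M₀, g * z * g⁻¹ ≠ z ∧ g * z * g⁻¹ ≠ t * z * t⁻¹ ∧
      g * z * g⁻¹ ≠ g₃ * z * g₃⁻¹ := by
    obtain ⟨a, ha, ea⟩ := hA g₃ h₃
    have e : a * g₃ * z * (a * g₃)⁻¹ = a * (g₃ * z * g₃⁻¹) * a⁻¹ := by group
    refine ⟨a * g₃, mul_mem (hT ha) h₃, fun e' => ?_, fun e' => ?_, by rwa [e]⟩
    · have f : g₃ * z * g₃⁻¹ = a⁻¹ * z * a⁻¹⁻¹ := by
        calc g₃ * z * g₃⁻¹ = a⁻¹ * (a * g₃ * z * (a * g₃)⁻¹) * a⁻¹⁻¹ := by group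
          _ = _ := by rw [e']
      rcases orbT _ (inv_mem ha) with f' | f' <;> rw [← f] at f'
      · exact a3 f'
      · exact b3 f'
    · have f : g₃ * z * g₃⁻¹ = a⁻¹ * (t * z * t⁻¹) * a⁻¹⁻¹ := by rw [← e']; group
      rcases orbT' _ (inv_mem ha) with f' | f' <;> rw [← f] at f'
      · exact a3 f'
      · exact b3 f'
  obtain ⟨g₅, h₅, a5, b5, c5, d5⟩ : ∃ g ∈ M₀, g * z * g⁻¹ ≠ z ∧ g * z * g⁻¹ ≠ t * z * t⁻¹ ∧
      g * z * g⁻¹ ≠ g₃ * z * g₃⁻¹ ∧ g * z * g⁻¹ ≠ g₄ * z * g₄⁻¹ := by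
    by_contra hc
    push Not at hc
    have o4 : (fun g => g * z * g⁻¹) '' (M₀ : Set G) = {z, t * z * t⁻¹, g₃ * z * g₃⁻¹, g₄ * z * g₄⁻¹} := by
      ext y
      constructor
      · rintro ⟨g, hg, rfl⟩
        have := hc g hg
        simp only [Set.mem_insert_iff, Set.mem_singleton_iff]
        by_contra hh
        push Not at hh
        exact hh.2.2.2 (this hh.1 hh.2.1 hh.2.2.1)
      · rintro (rfl | rfl | rfl | rfl)
        · exact ⟨1, one_mem _, by simp⟩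
        · exact ⟨t, hT htT, rfl⟩
        · exact ⟨g₃, h₃, rfl⟩
        · exact ⟨g₄, h₄, rfl⟩
    have o2 : (fun g => g * z * g⁻¹) '' ((T : Subgroup G) : Set G) = {z, t * z * t⁻¹} := by
      ext y
      constructor
      · rintro ⟨g, hg, rfl⟩
        exact orbT g hg
      · rintro (rfl | rfl)
        · exact ⟨1, one_mem _, by simp⟩
        · exact ⟨t, htT, rfl⟩
    have k4 := card_orb M₀ z
    have k2 := card_orb (T : Subgroup G) z
    rw [o2, Set.ncard_pair hzt.symm] at k2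
    have j1 : z ∉ ({t * z * t⁻¹, g₃ * z * g₃⁻¹, g₄ * z * g₄⁻¹} : Set G) := by
      rintro (e | e | e)
      · exact hzt e.symm
      · exact a3 e.symm
      · exact a4 e.symm
    have j2 : t * z * t⁻¹ ∉ ({g₃ * z * g₃⁻¹, g₄ * z * g₄⁻¹} : Set G) := by
      rintro (e | e)
      · exact b3 e.symm
      · exact b4 e.symm
    rw [o4, Set.ncard_insert_of_notMem j1, Set.ncard_insert_of_notMem j2, Set.ncard_pair c4.symm] at k4
    obtain ⟨m, hm⟩ := card_dvd_of_le (inf_le_inf_right (centralizer ({z} : Set G)) hT)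
    obtain ⟨n, hn'⟩ := card_subgroup_dvd_card M₀
    have k := card_mul_index (T : Subgroup G)
    refine T.not_dvd_index ⟨m * n, ?_⟩
    refine Nat.eq_of_mul_eq_mul_left (Nat.card_pos (α := (T : Subgroup G))) ?_
    rw [k, hn', ← k4, hm, ← k2]
    ring
  exact fin3 _ h₃ _ h₄ _ h₅ c4.symm c5.symm d5.symm (out _ h₃ _ h₄ c4.symm a3 b3 a4 b4)
    (out _ h₃ _ h₅ c5.symm a3 b3 a5 b5) (out _ h₄ _ h₅ d5.symm a4 b4 a5 b5)

instance instQB3 [QB2.{u}] [QW.{u}] [QR3.{u}] : QB3.{u} where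
  out := by
    intro G _ _ T hy M₀ hT hM z u ρ h ht
    by_cases hc : ∀ g ∈ M₀, Commute (g * u * g⁻¹) u
    · exact stepA h hM hc
    · push Not at hc
      obtain ⟨g, hg, hn⟩ := hc
      exact (main T hy hT hM h ht hg hn).elim

end Cfsg.Agent.Lib.QZB3
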