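import Cfsg.Agent.Lib.QZDefs
import Cfsg.Agent.Lib.PCoreResidual

/-! Elementary facts on `QZ.Blk`. -/

set_option autoImplicit false
set_option linter.unusedSectionVars false

namespace Cfsg.Agent.Lib.QZ

open Cfsg Subgroup

universe u

variable {G : Type u} [Group G] {S : Subgroup G} {z u ρ : G}

/-- `x` is moved by `S` only by multiplication with `z` -/
def Zc (S : Subgroup G) (z x : G) : Prop := ∀ s ∈ S, s * x * s⁻¹ = x ∨ s * x * s⁻¹ = z * x

theorem comm_of_conj {a b : G} (h : a * b * a⁻¹ = b) : Commute a b := by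
  have : a * b = b * a := by
    calc a * b = (a * b * a⁻¹) * a := by group
      _ = b * a := by rw [h]
  exact this

theorem conj_of_comm {a b : G} (h : Commute a b) : a * b * a⁻¹ = b := by
  rw [h.eq]; group

namespace Blk

variable (h : Blk S z u ρ)
include h

theorem uu : u * u = 1 := by
  rw [← h.cz]
  calc ρ * z * ρ⁻¹ * (ρ * z * ρ⁻¹) = ρ * (z * z) * ρ⁻¹ := by group
    _ = 1 := by rw [h.zz]; group

theorem zi : z⁻¹ = z := inv_eq_of_mul_eq_one_right h.zz
theorem ui : u⁻¹ = u := inv_eq_of_mul_eq_one_right h.uu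

theorem czu : ρ * (z * u) * ρ⁻¹ = z := by
  calc ρ * (z * u) * ρ⁻¹ = (ρ * z * ρ⁻¹) * (ρ * u * ρ⁻¹) := by group
    _ = u * (z * u) := by rw [h.cz, h.cu]
    _ = z := by rw [← mul_assoc, ← h.zu, mul_assoc, h.uu, mul_one]

theorem u1 : u ≠ 1 := fun e => h.z1 (by
  have := h.cz; rw [e] at this
  calc z = ρ⁻¹ * (ρ * z * ρ⁻¹) * ρ := by group
    _ = 1 := by rw [this]; group)

theorem uz : u ≠ z := fun e => h.u1 (by
  have h1 := h.cu
  have h2 := h.cz
  rw [e] at h1 h2
  rw [h2, h.zz] at h1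
  rw [e, h1])

theorem zu_ne : z * u ≠ u := fun e => h.z1 (by simpa using e)

theorem not_comm : ¬ Commute ρ z := fun e => h.uz (by rw [← h.cz, conj_of_comm e])

theorem zcomm {s : G} (hs : s ∈ S) : Commute s z := comm_of_conj (h.fz s hs)

theorem memU {x : G} (hx : x ∈ closure ({z, u} : Set G)) : x = 1 ∨ x = z ∨ x = u ∨ x = z * u := by
  have e1 := h.zz
  have e2 := h.uu
  have e3 := h.zu
  have f1 : z * (z * u) = u := by rw [← mul_assoc, e1, one_mul]
  have f2 : u * (z * u) = z := by rw [← mul_assoc, ← e3, mul_assoc, e2, mul_one]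
  have f3 : z * u * z = u := by rw [e3, mul_assoc, e1, mul_one]
  have f4 : z * u * u = z := by rw [mul_assoc, e2, mul_one]
  have f5 : z * u * (z * u) = 1 := by rw [← mul_assoc, f3, e2]
  induction hx using closure_induction with
  | mem x hx => rcases hx with rfl | rfl <;> simp
  | one => simp
  | mul x y _ _ hx hy =>
    rcases hx with rfl | rfl | rfl | rfl <;> rcases hy with rfl | rfl | rfl | rfl <;>
      simp only [one_mul, mul_one, e1, e2, f1, f2, f3, f4, f5, ← e3, true_or, or_true]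
  | inv x _ hx =>
    rcases hx with rfl | rfl | rfl | rfl
    · simp
    · simp [h.zi]
    · simp [h.ui]
    · rw [inv_eq_of_mul_eq_one_right f5]; simp

theorem zU : z ∈ closure ({z, u} : Set G) := subset_closure (by simp)
theorem uU : u ∈ closure ({z, u} : Set G) := subset_closure (by simp)

theorem U_le : closure ({z, u} : Set G) ≤ S := by
  rw [closure_le]; rintro x (rfl | rfl)
  · exact h.zS
  · exact h.uS

theorem cU {x : G} (hx : x ∈ closure ({z, u} : Set G)) : ρ * x * ρ⁻¹ ∈ closure ({z, u} : Set G) := by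
  rcases h.memU hx with rfl | rfl | rfl | rfl
  · simp
  · rw [h.cz]; exact h.uU
  · rw [h.cu]; exact mul_mem h.zU h.uU
  · rw [h.czu]; exact h.zU

theorem ri : ρ⁻¹ = ρ * ρ := by
  have := h.r3
  rw [pow_succ, pow_two] at this
  exact inv_eq_of_mul_eq_one_left this

theorem commU {x y : G} (hx : x ∈ closure ({z, u} : Set G)) (hy : y ∈ closure ({z, u} : Set G)) : Commute x y := by
  have e : Commute z u := h.zu
  have a : ∀ w, w ∈ closure ({z, u} : Set G) → Commute z w ∧ Commute u w := by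
    intro w hw
    rcases h.memU hw with rfl | rfl | rfl | rfl
    · simp
    · exact ⟨Commute.refl _, e.symm⟩
    · exact ⟨e, Commute.refl _⟩
    · exact ⟨(Commute.refl _).mul_right e, e.symm.mul_right (Commute.refl _)⟩
  rcases h.memU hx with rfl | rfl | rfl | rfl
  · simp
  · exact (a y hy).1
  · exact (a y hy).2
  · exact (a y hy).1.mul_left (a y hy).2

theorem memK {x : G} (hx : x ∈ closure ({z, u, ρ} : Set G)) :
    ∃ w ∈ closure ({z, u} : Set G), x = w ∨ x = w * ρ ∨ x = w * (ρ * ρ) := by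
  have r3 : ρ * (ρ * ρ) = 1 := by rw [← h.ri]; group
  have key : ∀ y, y ∈ closure ({z, u, ρ} : Set G) → ∃ w ∈ closure ({z, u} : Set G), ∃ k : ℕ, y = w * ρ ^ k := by
    have cp : ∀ (k : ℕ) w, w ∈ closure ({z, u} : Set G) → ρ ^ k * w * (ρ ^ k)⁻¹ ∈ closure ({z, u} : Set G) := by
      intro k
      induction k with
      | zero => intro w hw; simpa using hw
      | succ k ih =>
        intro w hw
        have := h.cU (ih w hw)
        convert this using 1
        rw [pow_succ']; group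
    intro y hy
    induction hy using closure_induction with
    | mem x hx =>
      rcases hx with rfl | rfl | rfl
      · exact ⟨_, h.zU, 0, by simp⟩
      · exact ⟨_, h.uU, 0, by simp⟩
      · exact ⟨1, one_mem _, 1, by simp⟩
    | one => exact ⟨1, one_mem _, 0, by simp⟩
    | mul x y _ _ hx hy =>
      obtain ⟨w, hw, k, rfl⟩ := hx
      obtain ⟨w', hw', k', rfl⟩ := hy
      exact ⟨w * (ρ ^ k * w' * (ρ ^ k)⁻¹), mul_mem hw (cp k w' hw'), k + k', by rw [pow_add]; group⟩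
    | inv x _ hx =>
      obtain ⟨w, hw, k, rfl⟩ := hx
      have e : (ρ ^ k)⁻¹ = ρ ^ (2 * k) := by
        rw [← inv_pow, h.ri, pow_mul, pow_two]
      refine ⟨ρ ^ (2 * k) * w⁻¹ * (ρ ^ (2 * k))⁻¹, cp _ _ (inv_mem hw), 2 * k, ?_⟩
      rw [mul_inv_rev, e]; group
  obtain ⟨w, hw, k, rfl⟩ := key x hx
  refine ⟨w, hw, ?_⟩
  have e : ρ ^ k = ρ ^ (k % 3) := by
    conv_lhs => rw [← Nat.div_add_mod k 3, pow_add, pow_mul, h.r3, one_pow, one_mul]
  have : k % 3 = 0 ∨ k % 3 = 1 ∨ k % 3 = 2 := by omega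
  rcases this with e' | e' | e' <;> rw [e, e'] <;> simp [pow_two]

theorem zK : z ∈ closure ({z, u, ρ} : Set G) := subset_closure (by simp)
theorem uK : u ∈ closure ({z, u, ρ} : Set G) := subset_closure (by simp)
theorem rK : ρ ∈ closure ({z, u, ρ} : Set G) := subset_closure (by simp)

/-- an element of `K` commuting with `z` lies in `U` -/
theorem memU_of_comm {x : G} (hx : x ∈ closure ({z, u, ρ} : Set G)) (hc : x * z * x⁻¹ = z) :
    x ∈ closure ({z, u} : Set G) := by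
  obtain ⟨w, hw, rfl | rfl | rfl⟩ := h.memK hx
  · exact hw
  · exfalso
    have e : w * ρ * z * (w * ρ)⁻¹ = w * (ρ * z * ρ⁻¹) * w⁻¹ := by group
    rw [e, h.cz, conj_of_comm (h.commU hw h.uU)] at hc
    exact h.uz hc
  · exfalso
    have e : w * (ρ * ρ) * z * (w * (ρ * ρ))⁻¹ = w * (ρ * (ρ * z * ρ⁻¹) * ρ⁻¹) * w⁻¹ := by group
    rw [e, h.cz, h.cu, conj_of_comm (h.commU hw (mul_mem h.zU h.uU))] at hc
    exact h.u1 (by simpa using hc)

/-- an involution of `K` lies in `U` -/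
theorem memU_of_sq {x : G} (hx : x ∈ closure ({z, u, ρ} : Set G)) (hc : x * x = 1) :
    x ∈ closure ({z, u} : Set G) := by
  obtain ⟨w, hw, rfl | rfl | rfl⟩ := h.memK hx
  · exact hw
  · exfalso
    have e : z = w * (ρ * (w * (ρ * z * ρ⁻¹) * w⁻¹) * ρ⁻¹) * w⁻¹ := by
      calc z = (w * ρ * (w * ρ)) * z * (w * ρ * (w * ρ))⁻¹ := by rw [hc]; group
        _ = _ := by group
    rw [h.cz, conj_of_comm (h.commU hw h.uU), h.cu, conj_of_comm (h.commU hw (mul_mem h.zU h.uU))] at e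
    exact h.u1 (by simpa using e.symm)
  · exfalso
    have e : z = w * (ρ * (ρ * (w * (ρ * (ρ * z * ρ⁻¹) * ρ⁻¹) * w⁻¹) * ρ⁻¹) * ρ⁻¹) * w⁻¹ := by
      calc z = (w * (ρ * ρ) * (w * (ρ * ρ))) * z * (w * (ρ * ρ) * (w * (ρ * ρ)))⁻¹ := by rw [hc]; group
        _ = _ := by group
    rw [h.cz, h.cu, conj_of_comm (h.commU hw (mul_mem h.zU h.uU)), h.czu, h.cz,
      conj_of_comm (h.commU hw h.uU)] at e
    exact h.uz e.symm

theorem conjK {s x : G} (hs : s ∈ S) (hx : x ∈ closure ({z, u, ρ} : Set G)) :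
    s * x * s⁻¹ ∈ closure ({z, u, ρ} : Set G) := (mem_normalizer_iff.1 (h.nS hs) x).1 hx

/-- `[ρ, c] ∈ U` for `c ∈ C_S(U)` -/
theorem comm_mem {c : G} (hc : c ∈ S) (hu : Commute c u) : ρ * c * ρ⁻¹ * c⁻¹ ∈ closure ({z, u} : Set G) := by
  have hz := h.zcomm hc
  refine h.memU_of_comm (by
    have := mul_mem h.rK (h.conjK hc (inv_mem h.rK))
    convert this using 1; group) ?_
  have e1 : c⁻¹ * z * c = z := by rw [hz.inv_left.eq]; group
  have e2 : ρ⁻¹ * z * ρ = z * u := by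
    calc ρ⁻¹ * z * ρ = ρ⁻¹ * (ρ * (z * u) * ρ⁻¹) * ρ := by rw [h.czu]
      _ = z * u := by group
  have e3 : c * (z * u) * c⁻¹ = z * u := conj_of_comm (hz.mul_right hu)
  calc ρ * c * ρ⁻¹ * c⁻¹ * z * (ρ * c * ρ⁻¹ * c⁻¹)⁻¹ = ρ * (c * (ρ⁻¹ * (c⁻¹ * z * c) * ρ) * c⁻¹) * ρ⁻¹ := by group
    _ = z := by rw [e1, e2, e3, h.czu]

theorem comm_K {c x : G} (hc : c ∈ S) (hρ : Commute c ρ) (hx : x ∈ closure ({z, u, ρ} : Set G)) : Commute c x := by
  have hz := h.zcomm hc
  have hu : Commute c u := by rw [← h.cz]; exact (hρ.mul_right hz).mul_right hρ.inv_right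
  induction hx using closure_induction with
  | mem x hx => rcases hx with rfl | rfl | rfl <;> assumption
  | one => simp
  | mul x y _ _ hx hy => exact hx.mul_right hy
  | inv x _ hx => exact hx.inv_right

/-- `C_S(ρ)` is normal in `S` -/
theorem conjC {c s : G} (hc : c ∈ S) (hρ : Commute c ρ) (hs : s ∈ S) : Commute (s * c * s⁻¹) ρ := by
  have := h.comm_K hc hρ (h.conjK (inv_mem hs) h.rK)
  refine comm_of_conj ?_
  calc s * c * s⁻¹ * ρ * (s * c * s⁻¹)⁻¹ = s * (c * (s⁻¹ * ρ * s⁻¹⁻¹) * c⁻¹) * s⁻¹ := by group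
    _ = ρ := by rw [conj_of_comm this]; group

theorem comm_of_Zc {c d : G} (hc : c ∈ S) (hρ : Commute c ρ) (hd : d ∈ S) (hz : Zc S z d) : Commute c d := by
  rcases hz c hc with e | e
  · exact comm_of_conj e
  · exfalso
    have e1 : z = c * (d * c⁻¹ * d⁻¹) := by
      calc z = (z * d) * d⁻¹ := by group
        _ = _ := by rw [← e]; group
    have := hρ.mul_left (h.conjC (inv_mem hc) hρ.inv_left hd)
    rw [← e1] at this
    exact h.not_comm this.symm

theorem Zc_mul {x y : G} (hx : x ∈ S) (h1 : Zc S z x) (h2 : Zc S z y) : Zc S z (x * y) := by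
  intro s hs
  have e : s * (x * y) * s⁻¹ = (s * x * s⁻¹) * (s * y * s⁻¹) := by group
  have hz := (h.zcomm hx).eq
  rcases h1 s hs with a | a <;> rcases h2 s hs with b | b <;> rw [e, a, b]
  · exact Or.inl rfl
  · right; rw [← mul_assoc, hz, mul_assoc]
  · right; rw [mul_assoc]
  · left
    calc z * x * (z * y) = z * (x * z) * y := by group
      _ = (z * z) * x * y := by rw [hz]; group
      _ = x * y := by rw [h.zz, one_mul]

theorem Zc_U {x : G} (hx : x ∈ closure ({z, u} : Set G)) : Zc S z x := by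
  have hz : Zc S z z := fun s hs => Or.inl (h.fz s hs)
  rcases h.memU hx with rfl | rfl | rfl | rfl
  · intro s _; left; group
  · exact hz
  · exact h.fu
  · exact h.Zc_mul h.zS hz h.fu

/-- `C_S(U) = U C_S(ρ)` -/
theorem dec0 {s : G} (hs : s ∈ S) (hu : Commute s u) :
    ∃ v ∈ closure ({z, u} : Set G), ∃ c ∈ S, Commute c ρ ∧ s = v * c := by
  have hw := h.comm_mem hs hu
  have key : ∀ v ∈ closure ({z, u} : Set G), ρ * v * ρ⁻¹ * (ρ * s * ρ⁻¹ * s⁻¹) = v →
      ∃ v ∈ closure ({z, u} : Set G), ∃ c ∈ S, Commute c ρ ∧ s = v * c := by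
    intro v hv e
    refine ⟨v⁻¹, inv_mem hv, v * s, mul_mem (h.U_le hv) hs, (comm_of_conj ?_).symm, by group⟩
    calc ρ * (v * s) * ρ⁻¹ = (ρ * v * ρ⁻¹ * (ρ * s * ρ⁻¹ * s⁻¹)) * s := by group
      _ = v * s := by rw [e]
  rcases h.memU hw with e | e | e | e
  · exact key 1 (one_mem _) (by rw [e]; group)
  · refine key u h.uU ?_
    rw [e, h.cu, h.zu, mul_assoc, h.zz, mul_one]
  · refine key (z * u) (mul_mem h.zU h.uU) ?_
    rw [e, h.czu]
  · refine key z h.zU ?_
    rw [e, h.cz, ← mul_assoc, ← h.zu, mul_assoc, h.uu, mul_one]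

/-- `S = ⟨u, a⟩ C_S(ρ)` -/
theorem dec {a : G} (ha : a ∈ S) (haz : Zc S z a) (hau : a * u * a⁻¹ = z * u) {s : G} (hs : s ∈ S) :
    ∃ d ∈ S, Zc S z d ∧ ∃ c ∈ S, Commute c ρ ∧ s = d * c := by
  rcases h.fu s hs with e | e
  · obtain ⟨v, hv, c, hc, hρ, rfl⟩ := h.dec0 hs (comm_of_conj e)
    exact ⟨v, h.U_le hv, h.Zc_U hv, c, hc, hρ, rfl⟩
  · have : Commute (a⁻¹ * s) u := by
      refine comm_of_conj ?_
      calc a⁻¹ * s * u * (a⁻¹ * s)⁻¹ = a⁻¹ * (s * u * s⁻¹) * a := by group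
        _ = u := by rw [e, ← hau]; group
    obtain ⟨v, hv, c, hc, hρ, e'⟩ := h.dec0 (mul_mem (inv_mem ha) hs) this
    refine ⟨a * v, mul_mem ha (h.U_le hv), h.Zc_mul ha haz (h.Zc_U hv), c, hc, hρ, ?_⟩
    rw [mul_assoc, ← e']; group

theorem conj {g : G} (hg : g ∈ normalizer (S : Set G)) : Blk S (g * z * g⁻¹) (g * u * g⁻¹) (g * ρ * g⁻¹) := by
  have hS : ∀ s ∈ S, g⁻¹ * s * g ∈ S := fun s hs => by
    have := (mem_normalizer_iff.1 (inv_mem hg) s).1 hs
    rwa [inv_inv] at this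
  have hS' : ∀ s ∈ S, g * s * g⁻¹ ∈ S := fun s hs => (mem_normalizer_iff.1 hg s).1 hs
  have hK : ∀ x, x ∈ closure ({g * z * g⁻¹, g * u * g⁻¹, g * ρ * g⁻¹} : Set G) ↔
      g⁻¹ * x * g ∈ closure ({z, u, ρ} : Set G) := by
    intro x
    have : closure ({g * z * g⁻¹, g * u * g⁻¹, g * ρ * g⁻¹} : Set G) =
        (closure ({z, u, ρ} : Set G)).map (MulAut.conj g).toMonoidHom := by
      rw [MonoidHom.map_closure]
      simp [Set.image_insert_eq]
    rw [this, mem_map]
    constructor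
    · rintro ⟨y, hy, rfl⟩
      simpa [mul_assoc] using hy
    · intro hx
      exact ⟨_, hx, by simp [mul_assoc]⟩
  refine ⟨fun e => h.z1 ?_, ?_, ?_, ?_, ?_, ?_, h.pS, hS' _ h.zS, hS' _ h.uS, ?_, ?_, ?_, ?_⟩
  · calc z = g⁻¹ * (g * z * g⁻¹) * g := by group
      _ = 1 := by rw [e]; group
  · calc g * z * g⁻¹ * (g * z * g⁻¹) = g * (z * z) * g⁻¹ := by group
      _ = 1 := by rw [h.zz]; group
  · calc g * z * g⁻¹ * (g * u * g⁻¹) = g * (z * u) * g⁻¹ := by group
      _ = _ := by rw [h.zu]; group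
  · calc _ = g * (ρ * z * ρ⁻¹) * g⁻¹ := by group
      _ = _ := by rw [h.cz]
  · calc _ = g * (ρ * u * ρ⁻¹) * g⁻¹ := by group
      _ = _ := by rw [h.cu]; group
  · rw [conj_pow, h.r3]; group
  · intro s hs
    rw [mem_normalizer_iff]
    intro x
    rw [hK, hK, mem_normalizer_iff.1 (h.nS (hS s hs)) (g⁻¹ * x * g)]
    constructor <;> intro hx <;> convert hx using 1 <;> group
  · intro s hs
    calc _ = g * ((g⁻¹ * s * g) * z * (g⁻¹ * s * g)⁻¹) * g⁻¹ := by group
      _ = _ := by rw [h.fz _ (hS s hs)]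
  · intro s hs
    have e : s * (g * u * g⁻¹) * s⁻¹ = g * ((g⁻¹ * s * g) * u * (g⁻¹ * s * g)⁻¹) * g⁻¹ := by group
    rcases h.fu _ (hS s hs) with e' | e' <;> rw [e, e']
    · exact Or.inl rfl
    · right; group
  · obtain ⟨a, ha, e⟩ := h.mv
    refine ⟨g * a * g⁻¹, hS' a ha, ?_⟩
    calc _ = g * (a * u * a⁻¹) * g⁻¹ := by group
      _ = _ := by rw [e]; group

/-- the dichotomy -/
theorem dich {a : G} (ha : a ∈ S) (haz : Zc S z a) (hau : a * u * a⁻¹ = z * u) {z' u' ρ' : G}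
    (h' : Blk S z' u' ρ') : z' = z ∨ Commute ρ z' := by
  obtain ⟨a', ha', e⟩ := h'.mv
  obtain ⟨d, hd, hdz, c, hc, hρ, rfl⟩ := h.dec ha haz hau h'.uS
  obtain ⟨d', hd', hdz', c', hc', hρ', rfl⟩ := h.dec ha haz hau ha'
  have c1 := h.comm_of_Zc hc hρ hd hdz
  have c2 := h.comm_of_Zc hc hρ hd' hdz'
  have c3 := h.comm_of_Zc hc' hρ' hd hdz
  rcases hdz d' hd' with f | f
  · right
    have : z' = c' * (c * c'⁻¹ * c⁻¹)⁻¹⁻¹ := by
      have c4 := comm_of_conj f
      calc z' = (z' * (d * c)) * (d * c)⁻¹ := by group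
        _ = d' * (c' * d) * c * c'⁻¹ * d'⁻¹ * c⁻¹ * d⁻¹ := by rw [← e]; group
        _ = d' * d * (c' * c * c'⁻¹ * d'⁻¹) * c⁻¹ * d⁻¹ := by rw [c3.eq]; group
        _ = d' * d * (d'⁻¹ * (c' * c * c'⁻¹)) * c⁻¹ * d⁻¹ := by
          have := (h.comm_of_Zc (mul_mem (mul_mem hc' hc) (inv_mem hc')) (h.conjC hc hρ hc') hd' hdz').inv_right.eq
          rw [this]
        _ = (d' * d * d'⁻¹) * (c' * c * c'⁻¹ * c⁻¹) * d⁻¹ := by group
        _ = d * (c' * c * c'⁻¹ * c⁻¹) * d⁻¹ := by rw [f]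
        _ = c' * c * c'⁻¹ * c⁻¹ := conj_of_comm (h.comm_of_Zc
          (mul_mem (mul_mem (mul_mem hc' hc) (inv_mem hc')) (inv_mem hc))
          ((h.conjC hc hρ hc').mul_left hρ.inv_left) hd hdz).symm
        _ = _ := by group
    rw [this, inv_inv]
    exact (hρ'.mul_left (h.conjC (inv_mem hc') hρ'.inv_left hc)).symm
  · left
    have e1 : d' * (d * c) * d'⁻¹ = z * (d * c) := by
      calc d' * (d * c) * d'⁻¹ = (d' * d * d'⁻¹) * (d' * c * d'⁻¹) := by group
        _ = z * (d * c) := by rw [f, conj_of_comm c2.symm, mul_assoc]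
    rcases h'.fu d' hd' with e2 | e2 <;> rw [e1] at e2
    · exact absurd (by simpa using e2) h.z1
    · exact (mul_right_cancel e2).symm

/-- (T2) no three pairwise non-commuting `u`'s over the same `z` -/
theorem t2 {u' u'' ρ' ρ'' : G} (h' : Blk S z u' ρ') (h'' : Blk S z u'' ρ'') (n1 : ¬ Commute u' u)
    (n2 : ¬ Commute u'' u) : Commute u' u'' := by
  by_contra n3
  have e1 : u' * u * u'⁻¹ = z * u := (h.fu _ h'.uS).resolve_left fun e => n1 (comm_of_conj e)
  have e2 : u'' * u * u''⁻¹ = z * u := (h.fu _ h''.uS).resolve_left fun e => n2 (comm_of_conj e)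
  have e3 : u' * u'' * u'⁻¹ = z * u'' := (h''.fu _ h'.uS).resolve_left fun e => n3 (comm_of_conj e)
  have : Commute (u' * u'') u := by
    refine comm_of_conj ?_
    calc u' * u'' * u * (u' * u'')⁻¹ = u' * (u'' * u * u''⁻¹) * u'⁻¹ := by group
      _ = (u' * z * u'⁻¹) * (u' * u * u'⁻¹) := by rw [e2]; group
      _ = u := by rw [h.fz _ h'.uS, e1, ← mul_assoc, h.zz, one_mul]
  obtain ⟨v, hv, c, hc, hρ, e⟩ := h.dec0 (mul_mem h'.uS h''.uS) this
  have e4 : (u' * u'') * (u' * u'') = z := by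
    calc (u' * u'') * (u' * u'') = (u' * u'' * u'⁻¹) * (u' * u') * u'' := by group
      _ = z := by rw [e3, h'.uu, mul_one, mul_assoc, h''.uu, mul_one]
  have hvv : v * v = 1 := by
    rcases h.memU hv with rfl | rfl | rfl | rfl
    · simp
    · exact h.zz
    · exact h.uu
    · calc z * u * (z * u) = z * (u * z) * u := by group
        _ = (z * z) * (u * u) := by rw [← h.zu]; group
        _ = 1 := by rw [h.zz, h.uu, one_mul]
  have cv := h.comm_of_Zc hc hρ (h.U_le hv) (h.Zc_U hv)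
  have e5 : c * c = z := by
    rw [← e4, e]
    calc c * c = (v * v) * c * c := by rw [hvv, one_mul]
      _ = v * (v * c) * c := by group
      _ = v * (c * v) * c := by rw [cv.eq]
      _ = _ := by group
  have := hρ.mul_left hρ
  rw [e5] at this
  exact h.not_comm this.symm

/-- (T1) commuting `u`'s over the same `z` have the same centralizer in `S` -/
theorem t1 {a : G} (ha : a ∈ S) (haz : Zc S z a) (hau : a * u * a⁻¹ = z * u) {u' ρ' : G} (h' : Blk S z u' ρ')
    (c1 : Commute u' u) {s : G} (hs : s ∈ S) : Commute s u ↔ Commute s u' := by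
  obtain ⟨v, hv, c, hc, hρ, rfl⟩ := h.dec0 h'.uS c1
  have key : ∀ s ∈ S, s * (v * c) * s⁻¹ = (s * v * s⁻¹) * c := by
    intro s hs
    obtain ⟨d, hd, hdz, c', hc', hρ', rfl⟩ := h.dec ha haz hau hs
    have f1 := conj_of_comm (h.comm_of_Zc hc' hρ' h'.uS h'.fu)
    have f2 := conj_of_comm (h.comm_of_Zc hc' hρ' (h.U_le hv) (h.Zc_U hv))
    have f3 := conj_of_comm (h.comm_of_Zc hc hρ hd hdz).symm
    calc d * c' * (v * c) * (d * c')⁻¹ = d * (c' * (v * c) * c'⁻¹) * d⁻¹ := by group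
      _ = (d * v * d⁻¹) * (d * c * d⁻¹) := by rw [f1]; group
      _ = (d * (c' * v * c'⁻¹) * d⁻¹) * c := by rw [f3, f2]
      _ = _ := by group
  have hv' : Commute s u ↔ Commute s v := by
    obtain ⟨a', ha', e⟩ := h'.mv
    rw [key a' ha'] at e
    have hz := h.zcomm hs
    rcases h.memU hv with rfl | rfl | rfl | rfl
    · exact absurd (by simpa using e) h.z1
    · rw [h.fz a' ha', ← mul_assoc, h.zz, one_mul] at e
      exact absurd (by simpa using e) h.z1
    · rfl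
    · refine ⟨fun k => hz.mul_right k, fun k => ?_⟩
      have := hz.inv_right.mul_right k
      rwa [inv_mul_cancel_left] at this
  rw [hv']
  constructor
  · intro k
    refine comm_of_conj ?_
    rw [key s hs, conj_of_comm k]
  · intro k
    have := conj_of_comm k
    rw [key s hs] at this
    exact comm_of_conj (mul_right_cancel this)

end Blk

end Cfsg.Agent.Lib.QZ
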