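import Cfsg.Prelude.Def_QuasithinSetup
import Cfsg.Prelude.Def_BaumannBlocks
import Cfsg.Prelude.Def_Amalgam

/-! Interfaces for S1833 (see notes/QZ_plan.md). -/

set_option autoImplicit false

namespace Cfsg.Agent.Lib.QZ

open Cfsg Subgroup

universe u

/-- all overgroups of `T` with a nontrivial normal 2-subgroup are solvable of characteristic 2; odd ranks are at most 2 -/
structure Hyp {G : Type u} [Group G] (T : Sylow 2 G) : Prop where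
  solv : ∀ H : Subgroup G, (T : Subgroup G) ≤ H → pCoreOf 2 H ≠ ⊥ → Group.IsSolvable H
  ch2 : ∀ H : Subgroup G, (T : Subgroup G) ≤ H → pCoreOf 2 H ≠ ⊥ →
    H ⊓ centralizer (pCoreOf 2 H : Set G) ≤ pCoreOf 2 H
  rank : ∀ H : Subgroup G, pCoreOf 2 H ≠ ⊥ → IsStronglyQuasithin H

/-- `K = ⟨z, u, ρ⟩ ≅ A₄` is normalized by the 2-group `S ≥ ⟨z, u⟩`, which does not centralize `⟨z, u⟩` -/
structure Blk {G : Type u} [Group G] (S : Subgroup G) (z u ρ : G) : Prop where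
  z1 : z ≠ 1
  zz : z * z = 1
  zu : z * u = u * z
  cz : ρ * z * ρ⁻¹ = u
  cu : ρ * u * ρ⁻¹ = z * u
  r3 : ρ ^ 3 = 1
  pS : IsPGroup 2 S
  zS : z ∈ S
  uS : u ∈ S
  nS : S ≤ normalizer ((closure {z, u, ρ} : Subgroup G) : Set G)
  fz : ∀ s ∈ S, s * z * s⁻¹ = z
  fu : ∀ s ∈ S, s * u * s⁻¹ = u ∨ s * u * s⁻¹ = z * u
  mv : ∃ a ∈ S, a * u * a⁻¹ = z * u

/-- reduction to the solvable setting -/
class Q0 : Prop where
  out : ∀ {G : Type u} [Group G] [Finite G] [IsSimpleGroup G], ¬ IsMulCommutative G → IsQTKE G → ∀ T : Sylow 2 G,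
    calLf (T : Subgroup G) = ∅ → ∀ M₁ M₂ : Subgroup G,
    M₁ ∈ maxTwoLocalsContaining (centralizer (omegaOneCenter 2 (T : Subgroup G) : Set G)) →
    M₂ ∈ maxTwoLocalsContaining (centralizer (omegaOneCenter 2 (T : Subgroup G) : Set G)) → M₁ ≠ M₂ →
    Hyp T ∧ calL (T : Subgroup G) = ∅

/-- `O²(C(Z))` is normal in `M`, or an odd order element of `M` acts on a subgroup of `T` nontrivially mod `O₂(M)` -/
class QY : Prop where
  out : ∀ {G : Type u} [Group G] [Finite G] (T : Sylow 2 G), Hyp T → ∀ M : Subgroup G,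
    centralizer (omegaOneCenter 2 (T : Subgroup G) : Set G) ≤ M → pCoreOf 2 M ≠ ⊥ →
    M ≤ normalizer (pResidualOf 2 (centralizer (omegaOneCenter 2 (T : Subgroup G) : Set G)) : Set G) ∨
    ∃ (T₀ : Subgroup G) (y : G), T₀ ≤ (T : Subgroup G) ∧ y ∈ M ∧ Odd (orderOf y) ∧ y ∈ normalizer (T₀ : Set G) ∧
      ¬ ⁅T₀, zpowers y⁆ ≤ pCoreOf 2 M

/-- the member of `Ξ(G,T)` -/
class QX1 : Prop where
  out : ∀ {G : Type u} [Group G] [Finite G] (T : Sylow 2 G), Hyp T → ∀ M : Subgroup G,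
    (T : Subgroup G) ≤ M → pCoreOf 2 M ≠ ⊥ → ∀ (T₀ : Subgroup G) (y : G), T₀ ≤ (T : Subgroup G) → y ∈ M →
    Odd (orderOf y) → y ∈ normalizer (T₀ : Set G) → ¬ ⁅T₀, zpowers y⁆ ≤ pCoreOf 2 M →
    ∃ X ∈ Xi (T : Subgroup G), X ≤ M ∧ M ≤ normalizer (X : Set G) ∧ ¬ ⁅⁅T₀, zpowers y⁆, X⁆ ≤ pCoreOf 2 X

/-- no failure of factorization on `X` -/
class QX2 : Prop where
  out : ∀ {G : Type u} [Group G] [Finite G] (T : Sylow 2 G), Hyp T → ∀ M : Subgroup G,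
    (T : Subgroup G) ≤ M → pCoreOf 2 M ≠ ⊥ → ∀ (T₀ : Subgroup G) (y : G), T₀ ≤ (T : Subgroup G) → y ∈ M →
    Odd (orderOf y) → y ∈ normalizer (T₀ : Set G) → ∀ X ∈ Xi (T : Subgroup G), X ≤ M → M ≤ normalizer (X : Set G) →
    ¬ ⁅⁅T₀, zpowers y⁆, X⁆ ≤ pCoreOf 2 X → ¬ X ≤ centralizer (omegaOneCenter 2 (T : Subgroup G) : Set G) →
    X ≤ normalizer (baumannSubgroupOf 2 (T : Subgroup G) : Set G)

/-- an `A₄`-block outside `M` -/
class QB1 : Prop where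
  out : ∀ {G : Type u} [Group G] [Finite G] (T : Sylow 2 G), Hyp T → ∀ M M' : Subgroup G,
    (T : Subgroup G) ≤ M' → pCoreOf 2 M' ≠ ⊥ → ¬ M' ≤ M →
    M' ⊓ centralizer (omegaOneCenter 2 (T : Subgroup G) : Set G) ≤ M →
    (∀ Y : Subgroup G, Y ≤ baumannSubgroupOf 2 (T : Subgroup G) → Y ≠ ⊥ →
      normalizer (baumannSubgroupOf 2 (T : Subgroup G) : Set G) ≤ normalizer (Y : Set G) →
      normalizer (Y : Set G) ≤ M) →
    ∃ z u ρ : G, Blk (baumannSubgroupOf 2 (T : Subgroup G)) z u ρ ∧ ρ ∉ M ∧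
      ∀ t ∈ (T : Subgroup G), t ∈ normalizer ((closure {z, u, ρ} : Subgroup G) : Set G) ∨
        ∀ x ∈ closure ({z, u, ρ} : Set G), ∀ x' ∈ closure ({z, u, ρ} : Set G), Commute x (t * x' * t⁻¹)

/-- two elements of order three acting on a `2⁴` like `(1 2 5)`, `(3 4 5)` do not lie in a solvable group -/
class QS5 : Prop where
  out : ∀ {G : Type u} [Group G] (N : Subgroup G), Group.IsSolvable N → ∀ z u z' u' ρ ρ' : G,
    ρ ∈ N → ρ' ∈ N → z * z = 1 → u * u = 1 → z' * z' = 1 → u' * u' = 1 → Commute z u → Commute z z' → Commute z u' →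
    Commute u z' → Commute u u' → Commute z' u' →
    ρ * z * ρ⁻¹ = u → ρ * u * ρ⁻¹ = z * u → ρ * z' * ρ⁻¹ = z' → ρ * u' * ρ⁻¹ = z * u * u' →
    ρ' * z' * ρ'⁻¹ = u' → ρ' * u' * ρ'⁻¹ = z' * u' → ρ' * z * ρ'⁻¹ = z → ρ' * u * ρ'⁻¹ = z' * u' * u → z = 1

/-- two blocks in a solvable group of characteristic 2 commute -/
class QB2 : Prop where
  out : ∀ {G : Type u} [Group G] [Finite G] (S N : Subgroup G), Group.IsSolvable N → S ≤ N →
    N ⊓ centralizer (pCoreOf 2 N : Set G) ≤ pCoreOf 2 N →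
    (∀ R : Subgroup G, IsPGroup 2 R → S ≤ R → R ≤ normalizer (S : Set G)) →
    ∀ z u ρ z' u' ρ' : G, Blk S z u ρ → Blk S z' u' ρ' → ρ ∈ N → ρ' ∈ N → z ≠ z' → Commute ρ z' → Commute ρ' z →
    Commute ρ ρ' ∧ Commute ρ u' ∧ Commute ρ' u

/-- `B(T)` is normal in every 2-subgroup containing it, and in `T` -/
class QW : Prop where
  out : ∀ {G : Type u} [Group G] [Finite G] (T : Sylow 2 G),
    (T : Subgroup G) ≤ normalizer (baumannSubgroupOf 2 (T : Subgroup G) : Set G) ∧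
    ∀ R : Subgroup G, IsPGroup 2 R → baumannSubgroupOf 2 (T : Subgroup G) ≤ R →
      R ≤ normalizer (baumannSubgroupOf 2 (T : Subgroup G) : Set G)

/-- three pairwise commuting blocks give 3-rank three -/
class QR3 : Prop where
  out : ∀ {G : Type u} [Group G] [Finite G], (∀ H : Subgroup G, pCoreOf 2 H ≠ ⊥ → IsStronglyQuasithin H) →
    ∀ (S : Subgroup G) (z₁ u₁ ρ₁ z₂ u₂ ρ₂ z₃ u₃ ρ₃ : G), Blk S z₁ u₁ ρ₁ → Blk S z₂ u₂ ρ₂ → Blk S z₃ u₃ ρ₃ →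
    Commute ρ₁ ρ₂ → Commute ρ₁ ρ₃ → Commute ρ₂ ρ₃ → Commute ρ₁ z₂ → Commute ρ₁ z₃ → Commute ρ₂ z₁ → Commute ρ₂ z₃ →
    Commute ρ₃ z₁ → Commute ρ₃ z₂ → False

/-- Lemma B: a block and an overgroup of `T` normalizing `B(T)` normalize a common nontrivial 2-subgroup -/
class QB3 : Prop where
  out : ∀ {G : Type u} [Group G] [Finite G] (T : Sylow 2 G), Hyp T → ∀ M₀ : Subgroup G, (T : Subgroup G) ≤ M₀ →
    M₀ ≤ normalizer (baumannSubgroupOf 2 (T : Subgroup G) : Set G) →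
    ∀ z u ρ : G, Blk (baumannSubgroupOf 2 (T : Subgroup G)) z u ρ →
    (∀ t ∈ (T : Subgroup G), t ∈ normalizer ((closure {z, u, ρ} : Subgroup G) : Set G) ∨
        ∀ x ∈ closure ({z, u, ρ} : Set G), ∀ x' ∈ closure ({z, u, ρ} : Set G), Commute x (t * x' * t⁻¹)) →
    ∃ P : Subgroup G, IsPGroup 2 P ∧ P ≠ ⊥ ∧ M₀ ≤ normalizer (P : Set G) ∧ ρ ∈ normalizer (P : Set G)

end Cfsg.Agent.Lib.QZ
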