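import Cfsg.Agent.Lib.QZ0

/-! S1833: assembling the pieces. -/

set_option autoImplicit false
set_option linter.unusedSectionVars false

namespace Cfsg.Agent.Lib.QZ

open Cfsg Subgroup Cfsg.Agent.Lib.PCoreConj Cfsg.Agent.Lib.PCore Cfsg.Agent.Lib.PCoreResidual

universe u

variable {G : Type u} [Group G] [Finite G]

theorem fin_exists_max {N : Subgroup G} (h : IsTwoLocal N) : ∃ M, IsMaximalTwoLocal M ∧ N ≤ M := by
  obtain ⟨M, ⟨h1, h2⟩, h3⟩ := (wellFounded_gt (α := Subgroup G)).has_min {M | IsTwoLocal M ∧ N ≤ M}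
    ⟨N, h, le_rfl⟩
  refine ⟨M, ⟨h1, fun K hK hl => ?_⟩, h2⟩
  by_contra hne
  exact h3 K ⟨hK, h2.trans hl⟩ (lt_of_le_of_ne hl (Ne.symm hne))

theorem fin_core_ne {M : Subgroup G} (h : IsTwoLocal M) : pCoreOf 2 M ≠ ⊥ := by
  obtain ⟨Y, y1, y2, hY⟩ := h
  exact fun e => y2 (eq_bot_iff.2 (e ▸ le_pCoreOf (hY ▸ le_normalizer) (hY ▸ le_rfl) y1))

theorem fin_one [QY.{u}] [QX1.{u}] [QX2.{u}] [QB1.{u}] [QB3.{u}] [QW.{u}] (T : Sylow 2 G)
    (hU : ∀ X ∈ XiStar (T : Subgroup G), maxTwoLocalsContaining (X ⊔ (T : Subgroup G)) = {normalizer (X : Set G)})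
    (hy : Hyp T) (hL : calL (T : Subgroup G) = ∅) {M M' : Subgroup G}
    (h : M ∈ maxTwoLocalsContaining (centralizer (omegaOneCenter 2 (T : Subgroup G) : Set G)))
    (h' : M' ∈ maxTwoLocalsContaining (centralizer (omegaOneCenter 2 (T : Subgroup G) : Set G))) (hne : M ≠ M') :
    M ≤ normalizer (pResidualOf 2 (centralizer (omegaOneCenter 2 (T : Subgroup G) : Set G)) : Set G) := by
  have nT : (T : Subgroup G) ≤ centralizer (omegaOneCenter 2 (T : Subgroup G) : Set G) :=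
    le_centralizer_omegaOneCenter 2 _
  have o := fin_core_ne h.1.1
  have o' := fin_core_ne h'.1.1
  refine (QY.out T hy M h.2 o).resolve_right ?_
  rintro ⟨T₀, y, t0, y1, y2, y3, y4⟩
  obtain ⟨X, x1, x2, x3, x4⟩ := QX1.out T hy M (nT.trans h.2) o T₀ y t0 y1 y2 y3 y4
  have u := hU X ⟨x1, fun L hl => by rw [hL] at hl; exact hl.elim⟩
  have um : ∀ K, IsMaximalTwoLocal K → X ⊔ (T : Subgroup G) ≤ K → K = M := fun K k1 k2 => by
    have a : K ∈ maxTwoLocalsContaining (X ⊔ (T : Subgroup G)) := ⟨k1, k2⟩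
    have b : M ∈ maxTwoLocalsContaining (X ⊔ (T : Subgroup G)) := ⟨h.1, sup_le x2 (nT.trans h.2)⟩
    rw [u] at a b
    exact a.trans b.symm
  have ul : ∀ Y : Subgroup G, IsPGroup 2 Y → Y ≠ ⊥ → X ⊔ (T : Subgroup G) ≤ normalizer (Y : Set G) →
      normalizer (Y : Set G) ≤ M := fun Y a b c => by
    obtain ⟨K, k1, k2⟩ := fin_exists_max (N := normalizer (Y : Set G)) ⟨Y, a, b, rfl⟩
    exact um K k1 (c.trans k2) ▸ k2
  have xc : ¬ X ≤ centralizer (omegaOneCenter 2 (T : Subgroup G) : Set G) := fun c =>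
    hne (um M' h'.1 ((sup_le c nT).trans h'.2)).symm
  have xb := QX2.out T hy M (nT.trans h.2) o T₀ y t0 y1 y2 y3 X x1 x2 x3 x4 xc
  have BT : baumannSubgroupOf 2 (T : Subgroup G) ≤ T := inf_le_left
  have tb : (T : Subgroup G) ≤ normalizer (baumannSubgroupOf 2 (T : Subgroup G) : Set G) := (QW.out T).1
  obtain ⟨z, v, ρ, b1, b2, b3⟩ := QB1.out T hy M M' (nT.trans h'.2) o'
    (fun c => hne (h'.1.2 M h.1.1 c)) (inf_le_right.trans h.2)
    (fun Y a b c => ul Y (T.isPGroup'.to_le (a.trans BT)) b ((sup_le xb tb).trans c))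
  obtain ⟨P, p1, p2, p3, p4⟩ := QB3.out T hy (X ⊔ T) le_sup_right (sup_le xb tb) z v ρ b1 b3
  exact b2 (ul P p1 p2 p3 p4)

theorem fin [QY.{u}] [QX1.{u}] [QX2.{u}] [QB1.{u}] [QB3.{u}] [QW.{u}] [IsSimpleGroup G]
    (hG : ¬ IsMulCommutative G) (hQ : IsQTKE G) (T : Sylow 2 G)
    (hU : ∀ X ∈ XiStar (T : Subgroup G), maxTwoLocalsContaining (X ⊔ (T : Subgroup G)) = {normalizer (X : Set G)})
    (hE : calLf (T : Subgroup G) = ∅)
    (hZ : ∃ M₁ M₂ : Subgroup G,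
      M₁ ∈ maxTwoLocalsContaining (centralizer (omegaOneCenter 2 (T : Subgroup G) : Set G)) ∧
      M₂ ∈ maxTwoLocalsContaining (centralizer (omegaOneCenter 2 (T : Subgroup G) : Set G)) ∧ M₁ ≠ M₂) :
    centralizer (omegaOneCenter 2 (T : Subgroup G) : Set G) = (T : Subgroup G) := by
  haveI : Fact (Nat.Prime 2) := ⟨Nat.prime_two⟩
  obtain ⟨M₁, M₂, h₁, h₂, hne⟩ := hZ
  obtain ⟨hy, hL⟩ := Q0.out hG hQ T hE M₁ M₂ h₁ h₂ hne
  have n₁ := fin_one T hU hy hL h₁ h₂ hne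
  have n₂ := fin_one T hU hy hL h₂ h₁ hne.symm
  have nT : (T : Subgroup G) ≤ centralizer (omegaOneCenter 2 (T : Subgroup G) : Set G) :=
    le_centralizer_omegaOneCenter 2 _
  generalize centralizer (omegaOneCenter 2 (T : Subgroup G) : Set G) = C at h₁ h₂ n₁ n₂ nT ⊢
  have E0 : pResidualOf 2 C = ⊥ := by
    by_contra hP
    have key : ∀ M ∈ maxTwoLocalsContaining C, M ≤ normalizer (pResidualOf 2 C : Set G) →
        normalizer (pCoreOf 2 (pResidualOf 2 C) : Set G) = M := by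
      rintro M ⟨⟨m1, m2⟩, m3⟩ n
      have c := charP_iff.1 (FStarCharP.IsCharP.normal_of_le
        (charP_iff.2 (hy.ch2 M (nT.trans m3) (fin_core_ne m1))) ((pResidualOf_le 2 C).trans m3) n)
      have o' : pCoreOf 2 (pResidualOf 2 C) ≠ ⊥ := fun e' => hP (by
        rw [e', centralizer_bot', inf_top_eq] at c
        exact eq_bot_iff.2 c)
      exact m2 _ (q0_local o') (le_normalizer_pCoreOf_of n)
    exact hne ((key _ h₁ n₁).symm.trans (key _ h₂ n₂))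
  exact (isSylowIn_top T).eq_of_le le_top (pResidualOf_eq_bot_iff.1 E0) nT

end Cfsg.Agent.Lib.QZ
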