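import Cfsg.Agent.Lib.QZDefs

/-! The piece `QS5` of S1833. -/

set_option autoImplicit false

namespace Cfsg.Agent.Lib.QZS5

open Cfsg Subgroup
open scoped commutatorElement

universe u

abbrev V4 : Type := Bool × Bool × Bool × Bool

def xo (v w : V4) : V4 := (xor v.1 w.1, xor v.2.1 w.2.1, xor v.2.2.1 w.2.2.1, xor v.2.2.2 w.2.2.2)

def sm (a : Bool) (v : V4) : V4 := if a then v else (false, false, false, false)

def lin (v₁ v₂ v₃ v₄ : V4) (v : V4) : V4 :=
  xo (xo (xo (sm v.1 v₁) (sm v.2.1 v₂)) (sm v.2.2.1 v₃)) (sm v.2.2.2 v₄)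

def mr : V4 → V4 :=
  lin (false, true, false, false) (true, true, false, false) (false, false, true, false) (true, true, false, true)

def ms : V4 → V4 :=
  lin (true, false, false, false) (false, true, true, true) (false, false, false, true) (false, false, true, true)

def mR : V4 → V4 := fun v => mr (mr v)

def mS : V4 → V4 := fun v => ms (ms v)

def mh : V4 → V4 := fun v => mr (ms (mR (mS (mr (ms v)))))

def mH : V4 → V4 := fun v => mS (mR (ms (mr (mS (mR v)))))

theorem mr_mR : ∀ v, mr (mR v) = v := by decide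

theorem ms_mS : ∀ v, ms (mS v) = v := by decide

theorem mh_mH : ∀ v, mh (mH v) = v := by decide +kernel

theorem com_r : ∀ v, mh (mr (mH (mR v))) = mr v := by decide +kernel

theorem com_s : ∀ v, mh (ms (mH (mS v))) = ms v := by decide +kernel

variable {G : Type u} [Group G]

def ee (x : G) (a : Bool) : G := if a then x else 1

theorem ee_xor {x : G} (hx : x * x = 1) (a b : Bool) : ee x (xor a b) = ee x a * ee x b := by
  cases a <;> cases b <;> simp [ee, hx]

theorem ee_comm {x y : G} (h : Commute x y) (a b : Bool) : Commute (ee x a) (ee y b) := by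
  cases a <;> cases b <;> simp [ee, h]

theorem ee_conj (g x : G) (a : Bool) : g * ee x a * g⁻¹ = ee (g * x * g⁻¹) a := by
  cases a <;> simp [ee]

def ψ (z u z' u' : G) (v : V4) : G := ee z v.1 * ee u v.2.1 * ee z' v.2.2.1 * ee u' v.2.2.2

structure El (z u z' u' : G) : Prop where
  zz : z * z = 1
  uu : u * u = 1
  zz' : z' * z' = 1
  uu' : u' * u' = 1
  c12 : Commute z u
  c13 : Commute z z'
  c14 : Commute z u'
  c23 : Commute u z'
  c24 : Commute u u'
  c34 : Commute z' u'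

theorem ψ_xo {z u z' u' : G} (h : El z u z' u') (v w : V4) :
    ψ z u z' u' (xo v w) = ψ z u z' u' v * ψ z u z' u' w := by
  obtain ⟨a, b, c, d⟩ := v
  obtain ⟨a', b', c', d'⟩ := w
  simp only [ψ, xo]
  rw [ee_xor h.zz, ee_xor h.uu, ee_xor h.zz', ee_xor h.uu']
  have h1 : Commute (ee u' d) (ee z a' * ee u b' * ee z' c') :=
    ((ee_comm h.c14.symm _ _).mul_right (ee_comm h.c24.symm _ _)).mul_right (ee_comm h.c34.symm _ _)
  have h2 : Commute (ee z' c) (ee z a' * ee u b') :=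
    (ee_comm h.c13.symm _ _).mul_right (ee_comm h.c23.symm _ _)
  have h3 : Commute (ee u b) (ee z a') := ee_comm h.c12.symm _ _
  rw [h1.mul_mul_mul_comm, h2.mul_mul_mul_comm, h3.mul_mul_mul_comm]

theorem ψ_sm (z u z' u' : G) (a : Bool) (v : V4) : ψ z u z' u' (sm a v) = ee (ψ z u z' u' v) a := by
  cases a <;> simp [sm, ee, ψ]

def Rel (z u z' u' g : G) (m : V4 → V4) : Prop := ∀ v, g * ψ z u z' u' v * g⁻¹ = ψ z u z' u' (m v)

theorem rel_lin {z u z' u' g : G} (h : El z u z' u') {v₁ v₂ v₃ v₄ : V4}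
    (h₁ : g * z * g⁻¹ = ψ z u z' u' v₁) (h₂ : g * u * g⁻¹ = ψ z u z' u' v₂)
    (h₃ : g * z' * g⁻¹ = ψ z u z' u' v₃) (h₄ : g * u' * g⁻¹ = ψ z u z' u' v₄) :
    Rel z u z' u' g (lin v₁ v₂ v₃ v₄) := by
  intro v
  simp only [lin]
  rw [ψ_xo h, ψ_xo h, ψ_xo h, ψ_sm, ψ_sm, ψ_sm, ψ_sm, ← h₁, ← h₂, ← h₃, ← h₄, ← ee_conj, ← ee_conj, ← ee_conj,
    ← ee_conj]
  simp only [ψ]
  group

theorem Rel.mul {z u z' u' g k : G} {m n : V4 → V4} (h₁ : Rel z u z' u' g m) (h₂ : Rel z u z' u' k n) :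
    Rel z u z' u' (g * k) (fun v => m (n v)) := by
  intro v
  rw [← h₁, ← h₂]
  group

theorem Rel.inv {z u z' u' g : G} {m n : V4 → V4} (h₁ : Rel z u z' u' g m) (hmn : ∀ v, m (n v) = v) :
    Rel z u z' u' g⁻¹ n := by
  intro v
  have := h₁ (n v)
  rw [hmn] at this
  rw [← this]
  group

theorem Rel.congr {z u z' u' g k : G} {m n : V4 → V4} (h₁ : Rel z u z' u' g m) (hg : k = g) (hmn : ∀ v, m v = n v) :
    Rel z u z' u' k n := by
  intro v
  rw [hg, h₁, hmn]

theorem step {z u z' u' : G} (N : Subgroup G) (ρ ρ' : G) (hρ : ρ ∈ N) (hρ' : ρ' ∈ N)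
    (hr : Rel z u z' u' ρ mr) (hs : Rel z u z' u' ρ' ms) (n : ℕ) :
    ∃ r s : N, r ∈ derivedSeries N n ∧ s ∈ derivedSeries N n ∧ Rel z u z' u' (r : G) mr ∧
      Rel z u z' u' (s : G) ms := by
  induction n with
  | zero => exact ⟨⟨ρ, hρ⟩, ⟨ρ', hρ'⟩, mem_top _, mem_top _, hr, hs⟩
  | succ n ih =>
    obtain ⟨r, s, hrn, hsn, hr, hs⟩ := ih
    have hR := hr.inv mr_mR
    have hS := hs.inv ms_mS
    have hh : Rel z u z' u' ((r * (s * (r⁻¹ * (s⁻¹ * (r * s)))) : N) : G) mh :=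
      (hr.mul (hs.mul (hR.mul (hS.mul (hr.mul hs))))).congr (by simp) (fun _ => rfl)
    have hH := hh.inv mh_mH
    have hhn : (r * (s * (r⁻¹ * (s⁻¹ * (r * s)))) : N) ∈ derivedSeries N n :=
      mul_mem hrn (mul_mem hsn (mul_mem (inv_mem hrn) (mul_mem (inv_mem hsn) (mul_mem hrn hsn))))
    generalize (r * (s * (r⁻¹ * (s⁻¹ * (r * s)))) : N) = h at hh hH hhn
    refine ⟨⁅h, r⁆, ⁅h, s⁆, ?_, ?_, ?_, ?_⟩
    · rw [derivedSeries_succ]
      exact commutator_mem_commutator hhn hrn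
    · rw [derivedSeries_succ]
      exact commutator_mem_commutator hhn hsn
    · exact (hh.mul (hr.mul (hH.mul hR))).congr (by simp [commutatorElement_def, mul_assoc]) com_r
    · exact (hh.mul (hs.mul (hH.mul hS))).congr (by simp [commutatorElement_def, mul_assoc]) com_s

instance instQS5 : QZ.QS5.{u} where
  out := by
    intro G _ N hN z u z' u' ρ ρ' hρ hρ' zz uu zz' uu' c12 c13 c14 c23 c24 c34 r1 r2 r3 r4 s3 s4 s1 s2
    have h : El z u z' u' := ⟨zz, uu, zz', uu', c12, c13, c14, c23, c24, c34⟩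
    have hr : Rel z u z' u' ρ mr :=
      rel_lin h (by simp [ψ, ee, r1]) (by simp [ψ, ee, r2]) (by simp [ψ, ee, r3]) (by simp [ψ, ee, r4])
    have hs : Rel z u z' u' ρ' ms :=
      rel_lin h (by simp [ψ, ee, s1])
        (by
          rw [s2]
          have e : z' * u' * u = u * z' * u' := by
            rw [((c23.symm).mul_left c24.symm).eq, mul_assoc]
          simp [ψ, ee, e])
        (by simp [ψ, ee, s3]) (by simp [ψ, ee, s4])
    obtain ⟨n, hn⟩ := hN
    obtain ⟨r, s, hrn, -, hr', -⟩ := step N ρ ρ' hρ hρ' hr hs n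
    rw [hn, mem_bot] at hrn
    subst hrn
    have e := hr' (false, true, false, false)
    have e2 : mr (false, true, false, false) = (true, true, false, false) := by decide
    rw [e2] at e
    simpa [ψ, ee] using e

end Cfsg.Agent.Lib.QZS5
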