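import Mathlib
import Cfsg.Agent.Lib.PCoreConj

/-! A transfer lemma: involutions centralizing a subgroup `W ≤ T` that lies in no other conjugate of `T`. -/

set_option autoImplicit false
set_option linter.style.haveILetI false

namespace Cfsg.Agent.Lib.QZTr

open Subgroup MulAction Cfsg.Agent.Lib.PCoreConj

theorem prod_eq_fixed {W Ω A : Type*} [Group W] [Finite W] [MulAction W Ω] [Fintype Ω] [CommGroup A]
    (hW : IsPGroup 2 W) (f : Ω → A) (hf : ∀ (w : W) (x : Ω), f (w • x) = f x) (h2 : ∀ x, f x ^ 2 = 1) (x₀ : Ω)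
    (h0 : ∀ w : W, w • x₀ = x₀) (hu : ∀ x, (∀ w : W, w • x = x) → x = x₀) : ∏ x, f x = f x₀ := by
  classical
  haveI : Fintype (orbitRel.Quotient W Ω) := Fintype.ofFinite _
  have hfib : ∀ x : Ω, (Finset.univ.filter fun y : Ω =>
      (Quotient.mk'' y : orbitRel.Quotient W Ω) = Quotient.mk'' x) = (orbit W x).toFinset := fun x => by
    ext y
    simp only [Finset.mem_filter, Finset.mem_univ, true_and, Set.mem_toFinset, Quotient.eq'', orbitRel_apply]
  have hval : ∀ x : Ω, ∏ y ∈ (orbit W x).toFinset, f y = f x ^ Nat.card (orbit W x) := fun x => by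
    rw [Nat.card_eq_fintype_card, ← Set.toFinset_card, ← Finset.prod_const]
    refine Finset.prod_congr rfl fun y hy => ?_
    obtain ⟨w, rfl⟩ := Set.mem_toFinset.1 hy
    exact hf w x
  rw [← Finset.prod_fiberwise Finset.univ (fun y : Ω => (Quotient.mk'' y : orbitRel.Quotient W Ω)),
    Finset.prod_eq_single (Quotient.mk'' x₀ : orbitRel.Quotient W Ω)]
  · rw [hfib, hval, mem_fixedPoints_iff_card_orbit_eq_one.1 h0 |> (Nat.card_eq_fintype_card.trans ·), pow_one]
  · intro O _ hO
    induction O using Quotient.inductionOn' with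
    | h x =>
      rw [hfib, hval]
      obtain ⟨k, hk⟩ := hW.card_orbit x
      rcases k with _ | k
      · refine absurd (congrArg _ (hu x (mem_fixedPoints_iff_card_orbit_eq_one.2 ?_))) hO
        rw [← Nat.card_eq_fintype_card, hk, pow_zero]
      · rw [hk, pow_succ', pow_mul, h2, one_pow]
  · intro h
    exact absurd (Finset.mem_univ _) h

theorem hom_eq_one {G A : Type*} [Group G] [Finite G] [CommGroup A] (hG : _root_.commutator G = ⊤)
    {T W : Subgroup G} (hp : IsPGroup 2 W) (hW : W ≤ T) (hu : ∀ g : G, W ^ᶜ g ≤ T → g ∈ T) {d : G} (hd : d ∈ T)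
    (hc : d ∈ centralizer (W : Set G)) (h2 : d ^ 2 = 1) (φ : T →* A) : φ ⟨d, hd⟩ = 1 := by
  classical
  letI := T.fintypeQuotientOfFiniteIndex
  have hdd : d * d = 1 := by rw [← sq, h2]
  have hi : d⁻¹ = d := inv_eq_of_mul_eq_one_right hdd
  let Φ : G → A := fun x => if h : x ∈ T then φ ⟨x, h⟩ else 1
  have hΦ : ∀ x (h : x ∈ T), φ ⟨x, h⟩ = Φ x := fun x h => by simp only [Φ, dif_pos h]
  have hm : ∀ x ∈ T, ∀ y ∈ T, Φ (x * y) = Φ x * Φ y := fun x hx y hy => by
    rw [← hΦ x hx, ← hΦ y hy, ← hΦ _ (mul_mem hx hy), ← map_mul]; rfl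
  have h1 : Φ 1 = 1 := by rw [← hΦ 1 (one_mem T)]; exact map_one φ
  have hcj : ∀ x ∈ T, ∀ y ∈ T, Φ (y⁻¹ * x * y) = Φ x := fun x hx y hy => by
    rw [hm _ (mul_mem (inv_mem hy) hx) _ hy, hm _ (inv_mem hy) _ hx, mul_right_comm, ← hm _ (inv_mem hy) _ hy,
      inv_mul_cancel, h1, one_mul]
  let S : T.LeftTransversal := default
  let α : G ⧸ T → G := fun q => (S.2.leftQuotientEquiv q : G)
  have hα : ∀ q, (α q : G ⧸ T) = q := fun q => S.2.leftQuotientEquiv.symm_apply_apply q
  have hmem : ∀ (g : G) (q : G ⧸ T), (α (g • q))⁻¹ * (g * α q) ∈ T := fun g q => by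
    rw [← QuotientGroup.eq, hα, ← smul_eq_mul, ← Quotient.smul_mk, hα]
  have hdq : ∀ q : G ⧸ T, d • d • q = q := fun q => by rw [smul_smul, hdd, one_smul]
  have hmem' : ∀ q : G ⧸ T, (α q)⁻¹ * (d * α (d • q)) ∈ T := fun q => by
    have := hmem d (d • q)
    rwa [hdq] at this
  have ht : MonoidHom.transfer φ d = ∏ q : G ⧸ T, Φ ((α q)⁻¹ * (d * α (d • q))) := by
    rw [MonoidHom.transfer_def φ S d, leftTransversals.diff]
    refine Finset.prod_congr rfl fun q _ => ?_
    rw [hΦ, smul_apply_eq_smul_apply_inv_smul, hi]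
    rfl
  have h0 : MonoidHom.transfer φ d = 1 :=
    Abelianization.commutator_subset_ker (MonoidHom.transfer φ) (hG.ge (mem_top d))
  rw [ht, ← Finset.prod_filter_mul_prod_filter_not Finset.univ (fun q : G ⧸ T => d • q = q),
    Finset.prod_involution (s := Finset.univ.filter fun q : G ⧸ T => ¬ d • q = q) (fun q _ => d • q)
      (fun q _ => by
        rw [← hm _ (hmem' q) _ (hmem' _), hdq, ← h1]
        congr 1
        calc _ = (α q)⁻¹ * (d * d) * α q := by group
          _ = 1 := by rw [hdd]; group)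
      (fun q hq _ => (Finset.mem_filter.1 hq).2)
      (fun q hq => Finset.mem_filter.2 ⟨Finset.mem_univ _, fun e => (Finset.mem_filter.1 hq).2 (by
        rw [hdq] at e; exact e.symm)⟩)
      (fun q _ => hdq q), mul_one, Finset.prod_filter] at h0
  have hsm : ∀ (w : W) (q : G ⧸ T), w • q = (w : G) • q := fun w q => by
    induction q using QuotientGroup.induction_on with
    | H g => rfl
  have hfix : ∀ (w : W) (q : G ⧸ T), d • (w • q) = w • q ↔ d • q = q := fun w q => by
    rw [hsm, smul_smul, ← mem_centralizer_iff.1 hc w w.2, ← smul_smul, smul_left_cancel_iff]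
  rw [prod_eq_fixed hp _ (fun w q => ?_) (fun q => ?_) ((1 : G) : G ⧸ T) (fun w => ?_) (fun q hq => ?_)] at h0
  · have e : d • ((1 : G) : G ⧸ T) = ((1 : G) : G ⧸ T) := by
      rw [Quotient.smul_mk, QuotientGroup.eq]; simpa using hd
    have e1 : α ((1 : G) : G ⧸ T) ∈ T := by
      have := QuotientGroup.eq.1 (hα ((1 : G) : G ⧸ T))
      simpa using this
    rw [if_pos e, e, ← mul_assoc, hcj d hd _ e1] at h0
    rw [hΦ, h0]
  · by_cases e : d • q = q
    · rw [if_pos e, if_pos ((hfix w q).2 e), (hfix w q).2 e, e]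
      have h3 := hmem' q
      rw [e] at h3
      rw [← hcj _ h3 _ (inv_mem (hmem w q))]
      congr 1
      have h4 : d * w = w * d := (mem_centralizer_iff.1 hc w w.2).symm
      rw [hsm]
      calc _ = (α ((w : G) • q))⁻¹ * (d * w) * (w : G)⁻¹ * α ((w : G) • q) := by group
        _ = _ := by rw [h4]; group
    · rw [if_neg e, if_neg fun e' => e ((hfix w q).1 e')]
  · by_cases e : d • q = q
    · have h3 := hmem' q
      rw [if_pos e, sq, ← hm _ h3 _ h3, e, ← h1]
      congr 1
      calc _ = (α q)⁻¹ * (d * d) * α q := by group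
        _ = 1 := by rw [hdd]; group
    · rw [if_neg e, one_pow]
  · rw [hsm, Quotient.smul_mk, QuotientGroup.eq]
    simpa using hW w.2
  · have h3 : (α q)⁻¹ ∈ T := hu _ (conj_le_iff.2 fun x hx => by
      have := hmem x q
      rw [show x • q = q from (hsm ⟨x, hx⟩ q).symm.trans (hq ⟨x, hx⟩)] at this
      simpa [mul_assoc] using this)
    rw [← hα q, QuotientGroup.eq, mul_one]
    exact h3

theorem mem_commutator {G : Type*} [Group G] [Finite G] (hG : _root_.commutator G = ⊤)
    {T W : Subgroup G} (hp : IsPGroup 2 W) (hW : W ≤ T) (hu : ∀ g : G, W ^ᶜ g ≤ T → g ∈ T) {d : G} (hd : d ∈ T)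
    (hc : d ∈ centralizer (W : Set G)) (h2 : d ^ 2 = 1) : d ∈ ⁅T, T⁆ := by
  have h := hom_eq_one hG hp hW hu hd hc h2 (Abelianization.of (G := T))
  rw [← map_subtype_commutator]
  exact ⟨⟨d, hd⟩, (QuotientGroup.eq_one_iff _).1 h, rfl⟩

end Cfsg.Agent.Lib.QZTr
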