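import Cfsg.Agent.Lib.QZDefs
import Cfsg.Agent.Lib.BlkBase

/-! The pieces `QW` and `QR3` of S1833. -/

set_option autoImplicit false

namespace Cfsg.Agent.Lib.QZW

open Cfsg Subgroup Cfsg.Agent.Lib.PCore Cfsg.Agent.Lib.QZ

universe u

instance instQW : QW.{u} where
  out := by
    intro G _ _ T
    rw [Blk.baumann_eq]
    refine ⟨Blk.le_normalizer_Bm 2 _, fun R hR h => ?_⟩
    rw [← Blk.Bm_eq_of_pgroup (isSylowIn_top T) hR le_top h]
    exact Blk.le_normalizer_Bm 2 R

variable {G : Type u} [Group G]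

theorem norm_pair [Finite G] {z u g : G} (h₁ : g * z * g⁻¹ ∈ closure ({z, u} : Set G))
    (h₂ : g * u * g⁻¹ ∈ closure ({z, u} : Set G)) :
    g ∈ normalizer ((closure ({z, u} : Set G) : Subgroup G) : Set G) := by
  apply mem_normalizer_fintype
  intro x hx
  have : (closure ({z, u} : Set G)).map (MulAut.conj g).toMonoidHom ≤ closure ({z, u} : Set G) := by
    rw [MonoidHom.map_closure, closure_le]
    rintro _ ⟨y, hy, rfl⟩
    rcases hy with rfl | rfl
    · exact h₁
    · exact h₂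
  exact this ⟨x, hx, rfl⟩

section

variable {S : Subgroup G} {z u ρ : G}

theorem u_ne_z (h : Blk S z u ρ) : u ≠ z := by
  intro e
  have h1 := h.cu
  have h2 := h.cz
  rw [e] at h1 h2
  rw [h2, h.zz] at h1
  exact h.z1 h1

theorem u_ne_one (h : Blk S z u ρ) : u ≠ 1 := by
  intro e
  have h2 := h.cz
  rw [e] at h2
  apply h.z1
  have : z = ρ⁻¹ * (ρ * z * ρ⁻¹) * ρ := by group
  rw [this, h2]
  simp

/-- the power of `ρ` is determined by its action on `z` -/
theorem pow_inj (h : Blk S z u ρ) (a b : Fin 3)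
    (e : ρ ^ (a : ℕ) * z * (ρ ^ (a : ℕ))⁻¹ = ρ ^ (b : ℕ) * z * (ρ ^ (b : ℕ))⁻¹) : a = b := by
  have e1 : ρ ^ 1 * z * (ρ ^ 1)⁻¹ = u := by rw [pow_one, h.cz]
  have e0 : ρ ^ 0 * z * (ρ ^ 0)⁻¹ = z := by simp
  have e2 : ρ ^ 2 * z * (ρ ^ 2)⁻¹ = z * u := by
    rw [← h.cu, ← h.cz, pow_two]
    group
  have n1 := u_ne_z h
  have n2 : z * u ≠ z := fun k => u_ne_one h (by simpa using k)
  have n3 : z * u ≠ u := fun k => h.z1 (by simpa using k)
  fin_cases a <;> fin_cases b <;> simp only [Fin.val_zero, Fin.val_one, Fin.val_two, Fin.zero_eta, Fin.mk_one,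
    Fin.reduceFinMk] at e ⊢ <;> simp only [e0, e1, e2] at e <;>
    first
      | rfl
      | exact absurd e n1
      | exact absurd e.symm n1
      | exact absurd e n2
      | exact absurd e.symm n2
      | exact absurd e n3
      | exact absurd e.symm n3

end

theorem conj_fix {z a b c : G} (hb : Commute b z) (hc : Commute c z) :
    (a * b * c) * z * (a * b * c)⁻¹ = a * z * a⁻¹ := by
  have h1 : (b * c) * z * (b * c)⁻¹ = z := by rw [(hb.mul_left hc).eq]; group
  calc (a * b * c) * z * (a * b * c)⁻¹ = a * ((b * c) * z * (b * c)⁻¹) * a⁻¹ := by group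
    _ = a * z * a⁻¹ := by rw [h1]

instance instQR3 : QR3.{u} where
  out := by
    intro G _ _ hq S z₁ u₁ ρ₁ z₂ u₂ ρ₂ z₃ u₃ ρ₃ b₁ b₂ b₃ c12 c13 c23 d12 d13 d21 d23 d31 d32
    have hz : z₁ ∈ closure ({z₁, u₁} : Set G) := subset_closure (by simp)
    have hu : u₁ ∈ closure ({z₁, u₁} : Set G) := subset_closure (by simp)
    have hU : IsPGroup 2 (closure ({z₁, u₁} : Set G)) := by
      refine b₁.pS.to_le ?_
      rw [closure_le]
      rintro y (rfl | rfl)
      · exact b₁.zS
      · exact b₁.uS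
    have cu : ∀ g : G, Commute ρ₁ g → Commute g z₁ → g * u₁ * g⁻¹ = u₁ := by
      intro g h1 h2
      have : Commute g u₁ := by
        rw [← b₁.cz]
        exact (h1.symm.mul_right h2).mul_right h1.symm.inv_right
      rw [this.eq]; group
    have cz : ∀ g : G, Commute g z₁ → g * z₁ * g⁻¹ = z₁ := by
      intro g h2
      rw [h2.eq]; group
    have n1 : ρ₁ ∈ normalizer ((closure ({z₁, u₁} : Set G) : Subgroup G) : Set G) :=
      norm_pair (by rw [b₁.cz]; exact hu) (by rw [b₁.cu]; exact mul_mem hz hu)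
    have n2 : ρ₂ ∈ normalizer ((closure ({z₁, u₁} : Set G) : Subgroup G) : Set G) :=
      norm_pair (by rw [cz _ d21]; exact hz) (by rw [cu _ c12 d21]; exact hu)
    have n3 : ρ₃ ∈ normalizer ((closure ({z₁, u₁} : Set G) : Subgroup G) : Set G) :=
      norm_pair (by rw [cz _ d31]; exact hz) (by rw [cu _ c13 d31]; exact hu)
    generalize hH : normalizer ((closure ({z₁, u₁} : Set G) : Subgroup G) : Set G) = H at n1 n2 n3
    have hO : pCoreOf 2 H ≠ ⊥ := by
      intro e
      have : closure ({z₁, u₁} : Set G) ≤ pCoreOf 2 H :=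
        le_pCoreOf (hH ▸ le_normalizer) hH.ge hU
      rw [e] at this
      exact b₁.z1 (mem_bot.1 (this hz))
    let r₁ : H := ⟨ρ₁, n1⟩
    let r₂ : H := ⟨ρ₂, n2⟩
    let r₃ : H := ⟨ρ₃, n3⟩
    have k12 : Commute r₁ r₂ := Subtype.ext c12
    have k13 : Commute r₁ r₃ := Subtype.ext c13
    have k23 : Commute r₂ r₃ := Subtype.ext c23
    have hcomm : ∀ x ∈ ({r₁, r₂, r₃} : Set H), ∀ y ∈ ({r₁, r₂, r₃} : Set H), x * y = y * x := by
      rintro x (rfl | rfl | rfl) y (rfl | rfl | rfl)
      all_goals first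
        | rfl
        | exact k12
        | exact k12.symm
        | exact k13
        | exact k13.symm
        | exact k23
        | exact k23.symm
    have hA : IsMulCommutative (closure ({r₁, r₂, r₃} : Set H)) := isMulCommutative_closure hcomm
    have h3 : ∀ a ∈ closure ({r₁, r₂, r₃} : Set H), a ^ 3 = 1 := by
      intro a ha
      induction ha using closure_induction with
      | mem x hx =>
        rcases hx with rfl | rfl | rfl
        · exact Subtype.ext b₁.r3
        · exact Subtype.ext b₂.r3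
        · exact Subtype.ext b₃.r3
      | one => exact one_pow 3
      | mul x y hx hy ihx ihy =>
        have : Commute x y := setLike_mul_comm hx hy
        rw [this.mul_pow, ihx, ihy, one_mul]
      | inv x hx ih => rw [inv_pow, ih, inv_one]
    have hle := hq H hO 3 Nat.prime_three (by decide) _ hA h3
    have m1 : r₁ ∈ closure ({r₁, r₂, r₃} : Set H) := subset_closure (by simp)
    have m2 : r₂ ∈ closure ({r₁, r₂, r₃} : Set H) := subset_closure (by simp)
    have m3 : r₃ ∈ closure ({r₁, r₂, r₃} : Set H) := subset_closure (by simp)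
    let f : Fin 3 × Fin 3 × Fin 3 → closure ({r₁, r₂, r₃} : Set H) := fun v =>
      ⟨r₁ ^ (v.1 : ℕ) * r₂ ^ (v.2.1 : ℕ) * r₃ ^ (v.2.2 : ℕ), mul_mem (mul_mem (pow_mem m1 _) (pow_mem m2 _)) (pow_mem m3 _)⟩
    have hf : Function.Injective f := by
      rintro ⟨a, b, c⟩ ⟨a', b', c'⟩ e
      have e' : ρ₁ ^ (a : ℕ) * ρ₂ ^ (b : ℕ) * ρ₃ ^ (c : ℕ) = ρ₁ ^ (a' : ℕ) * ρ₂ ^ (b' : ℕ) * ρ₃ ^ (c' : ℕ) := by
        have := congrArg (fun x : closure ({r₁, r₂, r₃} : Set H) => ((x : H) : G)) e
        simpa [f, r₁, r₂, r₃] using this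
      have ha : a = a' := by
        apply pow_inj b₁
        rw [← conj_fix (d21.pow_left (b : ℕ)) (d31.pow_left (c : ℕ)), e',
          conj_fix (d21.pow_left _) (d31.pow_left _)]
      subst ha
      have e2 : ρ₂ ^ (b : ℕ) * ρ₃ ^ (c : ℕ) * 1 = ρ₂ ^ (b' : ℕ) * ρ₃ ^ (c' : ℕ) * 1 := by
        rw [mul_assoc, mul_assoc, mul_left_cancel_iff] at e'
        rw [e']
      have hb : b = b' := by
        apply pow_inj b₂
        rw [← conj_fix (d32.pow_left (c : ℕ)) (Commute.one_left _), e2,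
          conj_fix (d32.pow_left _) (Commute.one_left _)]
      subst hb
      have hc : c = c' := by
        apply pow_inj b₃
        rw [mul_left_cancel e']
      rw [hc]
    have := Nat.card_le_card_of_injective f hf
    rw [Nat.card_prod, Nat.card_prod, Nat.card_eq_fintype_card (α := Fin 3), Fintype.card_fin] at this
    omega

end Cfsg.Agent.Lib.QZW
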