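import Cfsg.Agent.S1829
import Cfsg.Agent.Lib.QZBa

/-! Two commuting `A₄`-blocks with trivial centralizer give a maximal 2-local subgroup `S₄ ≀ C₂`. -/

set_option autoImplicit false

namespace Cfsg.Agent.Lib.QZWr

open Cfsg Subgroup Equiv Equiv.Perm Cfsg.Agent.Lib.PCoreConj Cfsg.Agent.Lib.PCore Cfsg.Agent.Lib.PCoreResidual
open Cfsg.Agent.SW.Z0

local notation "C(" X ")" => centralizer (SetLike.coe (X : Subgroup _))
local notation "N(" X ")" => normalizer (SetLike.coe (X : Subgroup _))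

universe u

variable {G : Type u} [Group G] {S M : Subgroup G} {z u ρ : G}

theorem exists_perm {ι : Type*} (f : ι → Subgroup G) (hf : Function.Injective f)
    (h : ∀ g ∈ M, ∀ i, ∃ j, f j = (f i) ^ᶜ g) : ∃ φ : M →* Perm ι, ∀ g i, f (φ g i) = (f i) ^ᶜ (g : G) := by
  choose s hs using h
  let : MulAction M ι :=
    { smul := fun g i => s g g.2 i
      one_smul := fun i => hf ((hs _ _ i).trans (conj_one _))
      mul_smul := fun g g' i => hf ((hs _ _ i).trans (by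
        change _ = f (s _ g.2 (s _ g'.2 i))
        rw [hs, hs, conj_conj]; rfl)) }
  exact ⟨MulAction.toPermHom M ι, fun g i => hs _ g.2 i⟩

theorem two_mul_le [Finite G] {H K : Subgroup G} (h : H ≤ K) {x : G} (h₁ : x ∈ K) (h₂ : x ∉ H) :
    2 * Nat.card H ≤ Nat.card K := by
  obtain ⟨c, hc⟩ := card_dvd_of_le h
  have := card_lt_of_lt (lt_of_le_of_ne h fun e => h₂ (e ▸ h₁))
  have p : 0 < Nat.card H := Nat.card_pos
  rw [hc] at this ⊢
  rcases c with _ | _ | c <;> nlinarith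

variable (h : QZ.Blk S z u ρ)
include h

theorem mem_zp {x : G} (hx : x ∈ zpowers ρ) : x = 1 ∨ x = ρ ∨ x = ρ * ρ := by
  obtain ⟨n, rfl⟩ := hx
  have r3 : ρ ^ (3 : ℤ) = 1 := by exact_mod_cast h.r3
  have e : ρ ^ n = ρ ^ (n % 3) := zpow_eq_zpow_emod n r3
  rcases (by omega : n % 3 = 0 ∨ n % 3 = 1 ∨ n % 3 = 2) with c | c | c <;> simp only [e, c]
  exacts [Or.inl (zpow_zero ρ), Or.inr (Or.inl (zpow_one ρ)), Or.inr (Or.inr (zpow_two ρ))]

theorem zp_inj {w w' : G} (hw : w ∈ closure ({z, u} : Set G)) (hw' : w' ∈ closure ({z, u} : Set G))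
    (e : (zpowers ρ) ^ᶜ w = (zpowers ρ) ^ᶜ w') : w = w' := by
  have hv : w'⁻¹ * w ∈ closure ({z, u} : Set G) := mul_mem (inv_mem hw') hw
  have k : w'⁻¹ * w * ρ * (w'⁻¹ * w)⁻¹ ∈ zpowers ρ := by
    have := conj_mem_conj w (mem_zpowers ρ)
    rw [e, mem_conj_iff] at this
    convert this using 1
    group
  rw [← mul_right_inj w'⁻¹, inv_mul_cancel]
  generalize w'⁻¹ * w = v at hv k
  have k' : v * (ρ * v⁻¹ * ρ⁻¹) ∈ zpowers ρ := by
    convert mul_mem k (inv_mem (mem_zpowers ρ)) using 1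
    group
  have k₂ := mul_mem hv (h.cU (inv_mem hv))
  have k₃ : v * (ρ * v⁻¹ * ρ⁻¹) = 1 := by
    have c : Commute (v * (ρ * v⁻¹ * ρ⁻¹)) z := h.commU k₂ h.zU
    rcases mem_zp h k' with e | e | e
    · exact e
    · exact absurd (e ▸ c) h.not_comm
    · rw [e, ← h.ri] at c
      exact absurd (by simpa using c) h.not_comm
  rw [← inv_eq_iff_mul_eq_one] at k₃
  have k₄ : ρ * v * ρ⁻¹ = v := by rw [← inv_inj, k₃]; group
  rcases h.memU hv with e | e | e | e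
  · exact e
  · rw [e, h.cz] at k₄; exact absurd k₄ h.uz
  · rw [e, h.cu] at k₄; exact absurd k₄ h.zu_ne
  · rw [e, h.czu] at k₄; exact absurd (by simpa using k₄) h.u1

theorem zp_conj {x : G} (hx : x ∈ closure ({z, u, ρ} : Set G)) (h₁ : x * x ≠ 1) :
    ∃ w ∈ closure ({z, u} : Set G), zpowers x = (zpowers ρ) ^ᶜ w := by
  have key : ∀ w ∈ closure ({z, u} : Set G), ∃ w' ∈ closure ({z, u} : Set G), w * ρ = w' * ρ * w'⁻¹ := by
    intro w hw
    have e : ∀ v, v * ρ * v⁻¹ = v * (ρ * v⁻¹ * ρ⁻¹) * ρ := fun v => by group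
    have zui : (z * u)⁻¹ = z * u := by rw [mul_inv_rev, h.zi, h.ui, h.zu]
    rcases h.memU hw with rfl | rfl | rfl | rfl
    · exact ⟨1, one_mem _, by simp⟩
    · exact ⟨u, h.uU, by rw [e, h.ui, h.cu, h.zu, ← mul_assoc u u, h.uu, one_mul]⟩
    · exact ⟨z * w, mul_mem h.zU h.uU, by rw [e, zui, h.czu, h.zu, mul_assoc w z z, h.zz, mul_one]⟩
    · exact ⟨z, h.zU, by rw [e, h.zi, h.cz]⟩
  obtain ⟨w, hw, rfl | rfl | rfl⟩ := h.memK hx
  · refine absurd ?_ h₁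
    rcases h.memU hw with e | e | e | e <;> rw [e]
    exacts [one_mul _, h.zz, h.uu, by rw [mul_assoc, ← mul_assoc u, ← h.zu, mul_assoc z u u, h.uu, mul_one, h.zz]]
  · obtain ⟨w', hw', e⟩ := key w hw
    exact ⟨w', hw', by rw [conj_zpowers, e]⟩
  · obtain ⟨w', hw', e⟩ := key _ (h.cU (inv_mem hw))
    refine ⟨w', hw', ?_⟩
    rw [conj_zpowers, ← e, ← zpowers_inv, ← h.ri]
    congr 1
    group

theorem cent {g : G} (hK : (closure {z, u, ρ} : Subgroup G) ^ᶜ g = closure {z, u, ρ})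
    (hg : ∀ w ∈ closure ({z, u} : Set G), ((zpowers ρ) ^ᶜ w) ^ᶜ g = (zpowers ρ) ^ᶜ w) :
    g ∈ C((closure {z, u, ρ} : Subgroup G)) := by
  have h1 := hg 1 (one_mem _)
  rw [conj_one] at h1
  have hU : ∀ w ∈ closure ({z, u} : Set G), w * w = 1 → w ∈ closure ({z, u, ρ} : Set G) → g * w * g⁻¹ = w :=
    fun w hw h₂ h₃ => zp_inj h (h.memU_of_sq (hK ▸ conj_mem_conj g h₃) (by
      calc _ = g * (w * w) * g⁻¹ := by group
        _ = 1 := by rw [h₂]; group)) hw (by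
      rw [← hg w hw, conj_conj]
      conv_lhs => rw [← h1, conj_conj]
      congr 1
      group)
  have hz := hU z h.zU h.zz h.zK
  have hu := hU u h.uU h.uu h.uK
  have e : g * ρ * g⁻¹ * z * (g * ρ * g⁻¹)⁻¹ = u := by
    calc _ = g * (ρ * (g⁻¹ * (g * z * g⁻¹) * g) * ρ⁻¹) * g⁻¹ := by rw [hz]; group
      _ = g * (ρ * z * ρ⁻¹) * g⁻¹ := by group
      _ = u := by rw [h.cz, hu]
  have hρ : g * ρ * g⁻¹ = ρ := by
    rcases mem_zp h (h1 ▸ conj_mem_conj g (mem_zpowers ρ)) with c | c | c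
    · rw [c] at e; exact absurd (by simpa using e.symm) h.uz
    · exact c
    · rw [c, show ρ * ρ * z * (ρ * ρ)⁻¹ = ρ * (ρ * z * ρ⁻¹) * ρ⁻¹ by group, h.cz, h.cu] at e
      exact absurd e h.zu_ne
  rw [centralizer_closure]
  rintro x (rfl | rfl | rfl)
  exacts [(mul_inv_eq_iff_eq_mul.mp hz).symm, (mul_inv_eq_iff_eq_mul.mp hu).symm, (mul_inv_eq_iff_eq_mul.mp hρ).symm]

theorem equiv [Finite G] (T : Sylow 2 G) (hT : (T : Subgroup G) ≤ M) (hch : M ⊓ C(pCoreOf 2 M) ≤ pCoreOf 2 M)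
    (hS : S ≤ T) (hρ : ρ ∈ M) {t a : G} (ht : t ∈ (T : Subgroup G))
    (hc : ∀ x ∈ closure ({z, u, ρ} : Set G), ∀ x' ∈ closure ({z, u, ρ} : Set G), Commute x (t * x' * t⁻¹))
    (hp : ∀ g ∈ M, (closure {z, u, ρ} : Subgroup G) ^ᶜ g = closure {z, u, ρ} ∨
      (closure {z, u, ρ} : Subgroup G) ^ᶜ g = (closure {z, u, ρ} : Subgroup G) ^ᶜ t)
    (ha : a ∈ (T : Subgroup G)) (a₁ : a * z * a⁻¹ = z) (a₂ : a * u * a⁻¹ = z * u) (a₃ : Commute a (t * z * t⁻¹))
    (a₄ : Commute a (t * u * t⁻¹))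
    (hD : (T : Subgroup G) ⊓ C((closure {z, u, ρ} : Subgroup G) ⊔ (closure {z, u, ρ} : Subgroup G) ^ᶜ t) = ⊥) :
    Nonempty (M ≃* blockStabilizerS4wr2) := by
  set K : Subgroup G := closure {z, u, ρ} with hK
  set U : Subgroup G := closure {z, u} with hU
  have hUK : U ≤ K := closure_mono (by rintro x (rfl | rfl) <;> simp)
  have hUT : U ≤ T := h.U_le.trans hS
  have hXK : ∀ w ∈ U, (zpowers ρ) ^ᶜ w ≤ K := fun w hw => conj_le_of_mem (zpowers_le.mpr h.rK) (hUK hw)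
  have hKK : ∀ x ∈ K, x ∈ K ^ᶜ t → x = 1 := fun x hx hx' => by
    obtain ⟨y, hy, rfl⟩ := mem_conj_iff'.mp hx'
    have c₁ := hc z h.zK y hy
    have c₂ := hc ρ h.rK y hy
    rcases h.memU (h.memU_of_comm hx (QZ.conj_of_comm c₁.symm)) with e | e | e | e
    · exact e
    · exact absurd (e ▸ c₂) h.not_comm
    · exact absurd (h.cu.symm.trans (QZ.conj_of_comm (e ▸ c₂))) h.zu_ne
    · exact absurd (by simpa using h.czu.symm.trans (QZ.conj_of_comm (e ▸ c₂))) h.u1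
  have ρ1 : ρ ≠ 1 := fun e => h.not_comm (e ▸ Commute.one_left z)
  have rr : ∀ g : G, g * ρ * g⁻¹ * (g * ρ * g⁻¹) ≠ 1 := fun g e => ρ1 (by
    have : ρ * ρ = 1 := by simpa [mul_assoc] using congrArg (fun x => g⁻¹ * x * g) e
    rw [← inv_eq_one, h.ri, this])
  let w : Fin 4 → G := ![1, z, u, z * u]
  have hw : ∀ i, w i ∈ U := fun i => by
    fin_cases i
    exacts [one_mem _, h.zU, h.uU, mul_mem h.zU h.uU]
  have hw' : ∀ v ∈ U, ∃ i, w i = v := fun v hv => by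
    rcases h.memU hv with e | e | e | e
    exacts [⟨0, e.symm⟩, ⟨1, e.symm⟩, ⟨2, e.symm⟩, ⟨3, e.symm⟩]
  have zu1 : z * u ≠ 1 := fun e => h.uz (by rw [← h.zi, inv_eq_of_mul_eq_one_right e])
  have zuz : z * u ≠ z := fun e => h.u1 (by simpa using e)
  have winj : Function.Injective w := fun i j e => by
    have := h.z1; have := h.u1; have := h.uz; have := h.zu_ne
    fin_cases i <;> fin_cases j <;> first | rfl | exact absurd e (by assumption) | exact absurd e.symm (by assumption)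
  let f : Fin 4 ⊕ Fin 4 → Subgroup G := Sum.elim (fun i => (zpowers ρ) ^ᶜ w i) fun i => (zpowers ρ) ^ᶜ (t * w i)
  have ne : ∀ i j, (zpowers ρ) ^ᶜ w i ≠ (zpowers ρ) ^ᶜ (t * w j) := fun i j e => ρ1 (by
    have k := conj_mem_conj (w i) (mem_zpowers ρ)
    simpa using hKK _ (hXK _ (hw i) k) (by
      rw [e, ← conj_conj] at k
      exact conj_mono t (hXK _ (hw j)) k))
  have hf : Function.Injective f := by
    rintro (i | i) (j | j) e
    · exact congrArg _ (winj (zp_inj h (hw i) (hw j) e))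
    · exact absurd e (ne i j)
    · exact absurd e.symm (ne j i)
    · refine congrArg _ (winj (zp_inj h (hw i) (hw j) ((conj_inj (g := t)).mp ?_)))
      rw [conj_conj, conj_conj]
      exact e
  have k₁ : ∀ g, K ^ᶜ g = K → ∃ j, f (.inl j) = (zpowers ρ) ^ᶜ g := fun g e => by
    obtain ⟨v, hv, e'⟩ := zp_conj h (e ▸ conj_mem_conj g h.rK : g * ρ * g⁻¹ ∈ K) (rr g)
    obtain ⟨j, rfl⟩ := hw' v hv
    exact ⟨j, by rw [conj_zpowers ρ g, e']; rfl⟩
  have k₂ : ∀ g, K ^ᶜ g = K ^ᶜ t → ∃ j, f (.inr j) = (zpowers ρ) ^ᶜ g := fun g e => by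
    obtain ⟨j, e'⟩ := k₁ (t⁻¹ * g) (by rw [← conj_conj, e, conj_conj_inv])
    refine ⟨j, ?_⟩
    rw [← mul_inv_cancel_left t g, ← conj_conj, ← e']
    exact (conj_conj (zpowers ρ) (w j) t).symm
  have k₃ : ∀ g ∈ M, ∃ j, f j = (zpowers ρ) ^ᶜ g := fun g hg =>
    (hp g hg).elim (fun e => (k₁ g e).elim fun _ e => ⟨_, e⟩) fun e => (k₂ g e).elim fun _ e => ⟨_, e⟩
  have hwM : ∀ i, w i ∈ M := fun i => hT (hUT (hw i))
  obtain ⟨φ, hφ⟩ := exists_perm (M := M) f hf (by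
    rintro g hg (i | i)
    · exact (k₃ _ (mul_mem hg (hwM i))).imp fun _ e => e.trans (conj_conj (zpowers ρ) _ g).symm
    · exact (k₃ _ (mul_mem hg (mul_mem (hT ht) (hwM i)))).imp fun _ e => e.trans (conj_conj (zpowers ρ) _ g).symm)
  have kw : ∀ i, K ^ᶜ w i = K := fun i => conj_eq_of_mem_normalizer (le_normalizer (hUK (hw i)))
  have hB : ∀ g, φ g ∈ blockStabilizerS4wr2 := fun g => by
    rcases hp g g.2 with e | e
    · obtain ⟨v, hv⟩ := mem_sumCongrHom_range_of_perm_mapsTo_inl (σ := φ g) (by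
        rintro _ ⟨i, rfl⟩
        obtain ⟨j, e'⟩ := k₁ (g * w i) (by rw [← conj_conj, kw, e])
        exact ⟨j, hf (by rw [e', hφ]; exact (conj_conj _ _ _).symm)⟩)
      exact hv ▸ sc_mem v
    · obtain ⟨v, hv⟩ := mem_sumCongrHom_range_of_perm_mapsTo_inl (σ := tt * φ g) (by
        rintro _ ⟨i, rfl⟩
        obtain ⟨j, e'⟩ := k₂ (g * w i) (by rw [← conj_conj, kw, e])
        have : φ g (.inl i) = .inr j := hf (by rw [e', hφ]; exact conj_conj _ _ _)
        exact ⟨j, by rw [Perm.mul_apply, this]; rfl⟩)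
      exact (mul_mem_cancel_left tt_mem).mp (hv ▸ sc_mem v)
  have hKt : ∀ g ∈ M, (K ⊔ K ^ᶜ t) ^ᶜ g ≤ K ⊔ K ^ᶜ t := fun g hg => by
    rw [conj_sup, conj_conj]
    exact sup_le ((hp g hg).elim (fun e => e.le.trans le_sup_left) fun e => e.le.trans le_sup_right)
      ((hp _ (mul_mem hg (hT ht))).elim (fun e => e.le.trans le_sup_left) fun e => e.le.trans le_sup_right)
  have hQ : pCoreOf 2 M ≤ T := (isSylowIn_of_sylow_le T hT).pCoreOf_le
  have hn : M ≤ N(M ⊓ C(K ⊔ K ^ᶜ t)) := le_normalizer_inf le_normalizer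
    (le_normalizer_centralizer (le_normalizer_iff_conj_le.mpr hKt))
  have hC : M ⊓ C(K ⊔ K ^ᶜ t) = ⊥ := le_bot_iff.mp (hD ▸ le_inf ((le_inf inf_le_left
    (commutator_eq_bot_iff_le_centralizer.mp (le_bot_iff.mp (hD ▸ le_inf
      ((commutator_le_right_of_le_normalizer (inf_le_left.trans (le_normalizer_pCoreOf 2 M))).trans hQ)
      ((commutator_le_left_of_le_normalizer ((pCoreOf_le 2 M).trans hn)).trans inf_le_right))))).trans
        (hch.trans hQ)) inf_le_right)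
  have cK : ∀ g ∈ M, (∀ i, ((zpowers ρ) ^ᶜ w i) ^ᶜ g = (zpowers ρ) ^ᶜ w i) → g ∈ C(K) := fun g hg e =>
    cent h ((hp g hg).resolve_right fun e' => ρ1 (by
      have k := conj_mem_conj g (conj_mem_conj (w 0) (mem_zpowers ρ))
      have k' := conj_mono g (hXK _ (hw 0)) k
      rw [e'] at k'
      rw [e 0] at k
      simpa using hKK _ (hXK _ (hw 0) k) k')) fun v hv => by
        obtain ⟨i, rfl⟩ := hw' v hv
        exact e i
  have hinj : Function.Injective (φ.codRestrict _ hB) := (injective_iff_map_eq_one _).mpr fun g e => by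
    have e' : φ g = 1 := congrArg Subtype.val e
    refine Subtype.ext (mem_bot.mp (hC ▸ mem_inf.mpr ⟨g.2, ?_⟩))
    rw [centralizer_sup, ← conj_centralizer]
    refine ⟨cK g g.2 fun i => ?_, mem_conj_iff.mpr (cK _ (mul_mem (mul_mem (inv_mem (hT ht)) g.2) (hT ht)) fun i => ?_)⟩
    · have := hφ g (.inl i)
      rw [e'] at this
      exact this.symm
    · have := hφ g (.inr i)
      rw [e'] at this
      rw [← conj_inj (g := t), conj_conj, conj_conj, conj_conj, mul_assoc t⁻¹, mul_inv_cancel_left, mul_assoc,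
        ← conj_conj]
      exact this.symm
  obtain ⟨κ, s, hW⟩ := exists_wr (MulEquiv.refl blockStabilizerS4wr2)
  have hcomm : ∀ {X Y : Subgroup G}, X ≤ K → Y ≤ K → X ≤ N(Y ^ᶜ t) ∧ X ⊓ Y ^ᶜ t = ⊥ := fun h₁ h₂ =>
    ⟨le_normalizer_of_le_centralizer fun x hx y hy => by
      obtain ⟨y, hy', rfl⟩ := mem_conj_iff'.mp hy
      exact (hc x (h₁ hx) y (h₂ hy')).eq.symm, eq_bot_iff.mpr fun x hx => hKK x (h₁ hx.1) (conj_mono t h₂ hx.2)⟩
  have c9 : 9 ∣ Nat.card M := by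
    have c := card_sup_mul_card_inf (hcomm (zpowers_le.mpr h.rK) (zpowers_le.mpr h.rK)).1
    have : Fact (Nat.Prime 3) := ⟨Nat.prime_three⟩
    rw [(hcomm (zpowers_le.mpr h.rK) (zpowers_le.mpr h.rK)).2, card_bot, mul_one, card_conj, Nat.card_zpowers,
      orderOf_eq_prime h.r3 ρ1] at c
    exact c.symm.dvd.trans (card_dvd_of_le (sup_le (zpowers_le.mpr hρ) (conj_le_of_mem (zpowers_le.mpr hρ) (hT ht))))
  have c128 : 128 ≤ Nat.card (T : Subgroup G) := by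
    have c := card_sup_mul_card_inf (hcomm hUK hUK).1
    rw [(hcomm hUK hUK).2, card_bot, mul_one, card_conj] at c
    have d₁ := two_mul_le (bot_le : ⊥ ≤ zpowers z) (mem_zpowers z) (by simpa using h.z1)
    have d₂ := two_mul_le (zpowers_le.mpr h.zU : zpowers z ≤ U) h.uU fun e => by
      obtain ⟨b, hb, e'⟩ := h.mv
      have : Commute b u := by
        obtain ⟨n, rfl⟩ := e
        exact (h.zcomm hb).zpow_right n
      exact h.zu_ne (e'.symm.trans (QZ.conj_of_comm this))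
    have ab : U ≤ C(U) := fun x hx y hy => (h.commU hy hx).eq
    have aU : a ∈ N(U) := mem_normalizer_of_conj_le (conj_le_iff_le_conj_inv.mpr ((closure_le _).mpr (by
      rintro x (rfl | rfl) <;> refine mem_conj_iff.mpr ?_ <;> rw [inv_inv]
      exacts [a₁.symm ▸ h.zU, a₂.symm ▸ mul_mem h.zU h.uU])))
    have aC : a ∉ C(U) := fun e => h.zu_ne (a₂.symm.trans (by rw [← e u h.uU, mul_inv_cancel_right]))
    have hU2 : U ⊔ U ^ᶜ t ≤ C(U) := sup_le ab fun y hy x hx => by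
      obtain ⟨y, hy', rfl⟩ := mem_conj_iff'.mp hy
      exact (hc x (hUK hx) y (hUK hy')).eq
    have d₃ := two_mul_le (K := (T : Subgroup G) ⊓ C(U ^ᶜ t)) (H := U ⊔ U ^ᶜ t)
      (le_inf (sup_le hUT (conj_le_of_mem hUT ht)) (sup_le (le_centralizer_iff.mp (le_sup_right.trans hU2))
        (conj_centralizer U t ▸ conj_mono t ab))) (x := a) (mem_inf.mpr ⟨ha, by
        rw [← conj_centralizer, mem_conj_iff, hU, centralizer_closure]
        rintro x (rfl | rfl)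
        · simpa [mul_assoc] using congrArg (fun y => t⁻¹ * y * t) a₃.eq.symm
        · simpa [mul_assoc] using congrArg (fun y => t⁻¹ * y * t) a₄.eq.symm⟩) fun e => aC (hU2 e)
    have d₄ := two_mul_le (K := (T : Subgroup G) ⊓ N(U ^ᶜ t)) (H := (T : Subgroup G) ⊓ C(U ^ᶜ t))
      (inf_le_inf_left _ (centralizer_le_normalizer _)) (x := t * a * t⁻¹)
      (mem_inf.mpr ⟨mul_mem (mul_mem ht ha) (inv_mem ht), conj_normalizer U t ▸ conj_mem_conj t aU⟩) fun e => aC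
        (conj_mem_conj_iff.mp ((conj_centralizer U t).symm ▸ e.2))
    have d₅ := two_mul_le (K := (T : Subgroup G)) (H := (T : Subgroup G) ⊓ N(U ^ᶜ t)) inf_le_left ht fun e =>
      h.z1 (hKK z h.zK (conj_mono t hUK ((conj_inj.mp (conj_eq_of_mem_normalizer e.2)).ge h.zU)))
    rw [card_bot] at d₁
    nlinarith
  have c₃ : 2 ^ 7 ∣ Nat.card M := by
    obtain ⟨k, hk⟩ := IsPGroup.iff_card.1 T.isPGroup'
    refine dvd_trans ?_ (card_dvd_of_le hT)
    rw [hk] at c128 ⊢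
    exact pow_dvd_pow 2 ((Nat.pow_le_pow_iff_right (a := 2) (by norm_num)).mp c128)
  exact ⟨MulEquiv.ofBijective _ (hinj.bijective_of_nat_card_le (hW.card ▸ Nat.le_of_dvd Nat.card_pos
    (Nat.Coprime.mul_dvd_of_dvd_of_dvd (by norm_num) c9 c₃)))⟩

theorem wr [Finite G] [IsSimpleGroup G] (hG : ¬ IsMulCommutative G) (hQ : IsQTKE G) (T : Sylow 2 G)
    (hM : M ∈ maxTwoLocalsContaining (T : Subgroup G))
    (hS : S ≤ T) (hρ : ρ ∈ M) {t a : G} (ht : t ∈ (T : Subgroup G))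
    (hc : ∀ x ∈ closure ({z, u, ρ} : Set G), ∀ x' ∈ closure ({z, u, ρ} : Set G), Commute x (t * x' * t⁻¹))
    (hp : ∀ g ∈ M, (closure {z, u, ρ} : Subgroup G) ^ᶜ g = closure {z, u, ρ} ∨
      (closure {z, u, ρ} : Subgroup G) ^ᶜ g = (closure {z, u, ρ} : Subgroup G) ^ᶜ t)
    (ha : a ∈ (T : Subgroup G)) (a₁ : a * z * a⁻¹ = z) (a₂ : a * u * a⁻¹ = z * u) (a₃ : Commute a (t * z * t⁻¹))
    (a₄ : Commute a (t * u * t⁻¹))
    (hD : (T : Subgroup G) ⊓ C((closure {z, u, ρ} : Subgroup G) ⊔ (closure {z, u, ρ} : Subgroup G) ^ᶜ t) = ⊥) :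
    False :=
  Cfsg.Agent.S1829.result hG hQ T M hM (equiv h T hM.2 (charP_iff.1 (hQ.2.2 M hM.1.1 ⟨T, hM.2⟩)) hS hρ ht hc hp ha
    a₁ a₂ a₃ a₄ hD)

end Cfsg.Agent.Lib.QZWr
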