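import Cfsg.Agent.Lib.XiDefs
import Cfsg.Agent.Lib.PIrred
import Cfsg.Agent.Lib.PCubed

/-! The passage from `X ∈ Ξ(G,T)` to `H / O₂(H)` (instance of `XiS.XE`). -/

set_option autoImplicit false
set_option linter.unusedSectionVars false
set_option linter.style.haveILetI false

namespace Cfsg.Agent.Lib.XiS.E

open Cfsg Subgroup Cfsg.Agent.Lib.PCoreConj Cfsg.Agent.Lib.PCore Cfsg.Agent.Lib.PCoreResidual
  Cfsg.Agent.Lib.FTDefs
open scoped commutatorElement

universe u

section Q

variable {Q : Type*} [Group Q] [Finite Q] {p : ℕ}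

theorem q3 (hp : p.Prime) (hc : Nat.card Q = p ^ 3) (hn : ¬ IsMulCommutative Q) :
    Nat.card (center Q) = p ∧ _root_.commutator Q = center Q ∧ ∀ x : Q, x ^ p ∈ center Q := by
  haveI := Fact.mk hp
  have hQ : IsPGroup p Q := IsPGroup.of_card hc
  haveI : Nontrivial Q := Finite.one_lt_card_iff_nontrivial.1 (hc ▸ Nat.one_lt_pow (by norm_num) hp.one_lt)
  have hnc : ¬ IsCyclic (Q ⧸ center Q) := fun h => hn (isMulCommutative_of_isCyclic_quotient_center_self Q)
  have hm : Nat.card (center Q) * Nat.card (Q ⧸ center Q) = p ^ 3 := by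
    rw [← hc]; exact (center Q).card_mul_index
  obtain ⟨k, hk, e⟩ := (Nat.dvd_prime_pow hp).1 (Dvd.intro _ hm)
  have h0 : k ≠ 0 := by
    rintro rfl
    haveI := hQ.center_nontrivial
    exact (Finite.one_lt_card (α := center Q)).ne' (by simpa using e)
  have hq : Nat.card (Q ⧸ center Q) = p ^ (3 - k) := by
    have : p ^ k * Nat.card (Q ⧸ center Q) = p ^ k * p ^ (3 - k) := by
      rw [← pow_add, Nat.add_sub_cancel' hk, ← e, hm]
    exact Nat.eq_of_mul_eq_mul_left (pow_pos hp.pos k) this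
  have h1 : k = 1 := by
    by_contra h1
    apply hnc
    apply isCyclic_of_card_dvd_prime (p := p)
    rw [hq]
    have : 3 - k ≤ 1 := by omega
    simpa using pow_dvd_pow p this
  subst h1
  have hZ : Nat.card (center Q) = p := by simpa using e
  have hq2 : Nat.card (Q ⧸ center Q) = p ^ 2 := hq
  have hcomm := IsPGroup.commutative_of_card_eq_prime_sq hq2
  have hle : _root_.commutator Q ≤ center Q := by
    rw [_root_.commutator_def, commutator_le]
    intro a _ b _
    rw [← QuotientGroup.eq_one_iff]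
    change QuotientGroup.mk' (center Q) ⁅a, b⁆ = 1
    rw [map_commutatorElement, commutatorElement_eq_one_iff_mul_comm]
    exact hcomm _ _
  refine ⟨hZ, ?_, fun x => ?_⟩
  · have hd : Nat.card (_root_.commutator Q) ∣ p := hZ ▸ card_dvd_of_le hle
    rcases (Nat.dvd_prime hp).1 hd with h | h
    · exfalso
      apply hn
      have hb : _root_.commutator Q = ⊥ := card_eq_one.1 h
      refine ⟨⟨fun a b => ?_⟩⟩
      rw [← commutatorElement_eq_one_iff_mul_comm, ← mem_bot, ← hb]
      exact commutator_mem_commutator (mem_top a) (mem_top b)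
    · exact eq_of_le_of_card_le hle (by rw [h, hZ])
  · rw [← QuotientGroup.eq_one_iff]
    change QuotientGroup.mk' (center Q) (x ^ p) = 1
    rw [map_pow, ← orderOf_dvd_iff_pow_eq_one]
    have hd : orderOf (QuotientGroup.mk' (center Q) x) ∣ p ^ 2 := hq2 ▸ orderOf_dvd_natCard _
    obtain ⟨j, hj, ej⟩ := (Nat.dvd_prime_pow hp).1 hd
    rw [ej]
    by_cases h2 : j = 2
    · exact absurd (isCyclic_of_orderOf_eq_card _ (by rw [ej, h2, hq2])) hnc
    · have : j ≤ 1 := by omega
      simpa using pow_dvd_pow p this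

theorem q3' (hp : p.Prime) (h2 : p ≠ 2) (hc : Nat.card Q = p ^ 3) (hn : ¬ IsMulCommutative Q) :
    ∃ W : Subgroup Q, (∀ x, x ∈ W ↔ x ^ p = 1) ∧ frattini Q < W := by
  haveI := Fact.mk hp
  obtain ⟨hZ, hD, hx⟩ := q3 hp hc hn
  have hz : ∀ z ∈ center Q, z ^ p = 1 := fun z hz => by
    have := pow_card_eq_one' (G := center Q) (x := ⟨z, hz⟩)
    rw [hZ] at this
    exact congrArg Subtype.val this
  have hmul : ∀ u v : Q, (u * v) ^ p = u ^ p * v ^ p := fun u v => by
    have hw : ⁅v⁻¹, u⁻¹⁆ ∈ center Q := hD ▸ commutator_mem_commutator (mem_top _) (mem_top _)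
    rw [PCubed.mul_pow_of_central (w := ⁅v⁻¹, u⁻¹⁆) (by rw [commutatorElement_def]; group)
      (mem_center_iff.1 hw u).symm (mem_center_iff.1 hw v).symm]
    obtain ⟨m, hm⟩ : p ∣ p.choose 2 := hp.dvd_choose_self two_ne_zero (hp.two_le.lt_of_ne' h2)
    rw [hm, pow_mul, hz _ hw, one_pow, mul_one]
  let φ : Q →* Q := MonoidHom.mk' (fun x => x ^ p) hmul
  have hF : frattini Q ≤ center Q := PIrred.frattini_le_of_pow (p := p) hD.le hx
  refine ⟨φ.ker, fun x => Iff.rfl, lt_of_le_of_lt hF (lt_of_le_of_ne (fun z h => hz z h) fun e => ?_)⟩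
  have h1 : Nat.card φ.ker * Nat.card φ.range = p ^ 3 := by
    rw [← hc, ← index_ker]; exact φ.ker.card_mul_index
  have h3 : Nat.card φ.range ≤ p := hZ ▸ Subgroup.card_le_of_le (by rintro _ ⟨x, rfl⟩; exact hx x)
  rw [← e, hZ] at h1
  have h4 : p ^ 3 ≤ p * p := h1 ▸ Nat.mul_le_mul_left p h3
  have h5 := hp.one_lt
  rw [← sq, Nat.pow_le_pow_iff_right h5] at h4
  omega

end Q

theorem card_map_eq {G G' : Type*} [Group G] [Group G'] (f : G →* G') {A : Subgroup G}
    (h : ∀ a ∈ A, f a = 1 → a = 1) : Nat.card (A.map f) = Nat.card A := by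
  refine (Nat.card_congr (Equiv.ofBijective (f.subgroupMap A) ⟨?_, f.subgroupMap_surjective A⟩)).symm
  rw [injective_iff_map_eq_one]
  intro a ha
  exact Subtype.ext (h a a.2 (congrArg Subtype.val ha))

theorem card_comm_map {G G' : Type*} [Group G] [Group G'] (f : G →* G') {A : Subgroup G}
    (h : ∀ a ∈ A, f a = 1 → a = 1) : Nat.card ↥⁅A.map f, A.map f⁆ = Nat.card ↥⁅A, A⁆ := by
  rw [← map_commutator]
  exact card_map_eq f fun a ha => h a (commutator_le_left_of_le_normalizer le_normalizer ha)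

/-- the data in the ambient group -/
structure Xg {G : Type*} [Group G] (p : ℕ) (X T P : Subgroup G) : Prop where
  hp : p.Prime
  p2 : p ≠ 2
  PX : P ≤ X
  ex : ∀ x ∈ P, x ^ p = 1
  cP : Nat.card P = p ^ 2 * Nat.card ↥⁅P, P⁆
  cD : Nat.card ↥⁅P, P⁆ ∣ p
  XO : X = pCoreOf 2 X ⊔ P
  gen : ∀ Y : Subgroup G, X ≤ N[Y] → P ≤ Y → X ≤ Y
  irr : ∀ Y : Subgroup G, X ⊔ T ≤ N[Y] → P ≤ Y ∨ P ⊓ Y ≤ ⁅P, P⁆

section G

variable {G : Type*} [Group G] [Finite G] {X T : Subgroup G}

theorem quot (h : X ∈ Xi T) : ∃ p : ℕ, p.Prime ∧ p ≠ 2 ∧ (∀ x : X ⧸ pCore 2 X, x ^ p = 1) ∧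
    Nat.card (X ⧸ pCore 2 X) = p ^ 2 * Nat.card (_root_.commutator (X ⧸ pCore 2 X)) ∧
    Nat.card (_root_.commutator (X ⧸ pCore 2 X)) ∣ p := by
  obtain ⟨-, hT, -, ⟨p, hp, h2, hc⟩, irr⟩ := h
  refine ⟨p, hp, h2, ?_⟩
  rcases hc with ⟨hc, hm, he⟩ | ⟨hc, hn⟩
  · have hb : _root_.commutator (X ⧸ pCore 2 X) = ⊥ := by
      rw [eq_bot_iff, _root_.commutator_def, commutator_le]
      intro a _ b _
      rw [mem_bot, commutatorElement_eq_one_iff_mul_comm]
      exact hm.is_comm.comm a b
    rw [hb, card_bot]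
    exact ⟨he, by rw [hc, mul_one], one_dvd _⟩
  obtain ⟨hZ, hD, -⟩ := q3 hp hc hn
  refine ⟨?_, by rw [hD, hZ, hc, pow_succ], by rw [hD, hZ]⟩
  obtain ⟨W, hW, hlt⟩ := q3' hp h2 hc hn
  let π := QuotientGroup.mk' (pCore 2 X)
  have hs : Function.Surjective π := QuotientGroup.mk'_surjective _
  have hY : ∀ y, y ∈ (W.comap π).map X.subtype ↔ y ∈ X ∧ y ^ p ∈ pCoreOf 2 X := fun y => by
    constructor
    · rintro ⟨a, ha, rfl⟩
      refine ⟨a.2, ?_⟩
      have h1 : π (a ^ p) = 1 := by rw [map_pow]; exact (hW _).1 ha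
      exact mem_pCore_iff.1 ((QuotientGroup.eq_one_iff _).1 h1)
    · rintro ⟨hy, h1⟩
      refine ⟨⟨y, hy⟩, (hW _).2 ?_, rfl⟩
      rw [← map_pow]
      exact (QuotientGroup.eq_one_iff _).2 (mem_pCore_iff.2 h1)
  rcases irr ((W.comap π).map X.subtype) (map_mono (comap_mono hlt.le)) (map_subtype_le _)
    (le_normalizer_iff_conj_le.2 fun g hg => conj_le_iff.2 fun y hy => by
      rw [hY] at hy ⊢
      refine ⟨(mem_normalizer_iff.1 (hT hg) y).1 hy.1, ?_⟩
      rw [conj_pow]
      exact (mem_normalizer_iff.1 (le_normalizer_pCoreOf_of hT hg) _).1 hy.2) with e | e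
  · exact absurd (comap_injective hs (map_injective X.subtype_injective e)) hlt.ne'
  · intro x
    obtain ⟨a, rfl⟩ := hs x
    rw [← map_pow]
    exact (QuotientGroup.eq_one_iff _).2 (mem_pCore_iff.2 ((hY a).1 (e.ge a.2)).2)

theorem xg (h : X ∈ Xi T) : ∃ (p : ℕ) (P : Subgroup G), Xg p X T P := by
  obtain ⟨p, hp, h2, he, hc, hd⟩ := quot h
  obtain ⟨hodd, hT, -, -, irr⟩ := h
  haveI := Fact.mk hp
  let π := QuotientGroup.mk' (pCore 2 X)
  have hs : Function.Surjective π := QuotientGroup.mk'_surjective _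
  have hQ : IsPGroup p (X ⧸ pCore 2 X) := fun x => ⟨1, by rw [pow_one, he]⟩
  obtain ⟨S⟩ : Nonempty (Sylow p X) := inferInstance
  have hm : (S : Subgroup X).map π = ⊤ :=
    ((isSylowIn_top S).map_mk' (pCore 2 X)).eq_of_isPGroup (isPGroup_top_iff.2 hQ)
  have hi : ∀ a ∈ (S : Subgroup X), π a = 1 → a = 1 := fun a ha h1 =>
    (disjoint_def.1 (IsPGroup.disjoint_of_ne p 2 h2 _ _ S.isPGroup' (pCore_isPGroup 2 X))) ha
      ((QuotientGroup.eq_one_iff _).1 h1)
  have hi' : ∀ a ∈ (S : Subgroup X), X.subtype a = 1 → a = 1 := fun a _ h1 => Subtype.ext h1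
  have hex : ∀ a ∈ (S : Subgroup X), a ^ p = 1 := fun a ha =>
    hi _ (pow_mem ha p) (by rw [map_pow, he])
  have hD : _root_.commutator (X ⧸ pCore 2 X) = ⁅(S : Subgroup X), (S : Subgroup X)⁆.map π := by
    rw [map_commutator, hm, _root_.commutator_def]
  have hcD : Nat.card (_root_.commutator (X ⧸ pCore 2 X)) = Nat.card ↥⁅(S : Subgroup X), (S : Subgroup X)⁆ := by
    rw [← card_comm_map π hi, hm, _root_.commutator_def]
  have hF : frattini (X ⧸ pCore 2 X) = _root_.commutator (X ⧸ pCore 2 X) := by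
    haveI := hQ.isNilpotent
    exact le_antisymm (PIrred.frattini_le_of_pow (p := p) le_rfl fun x => he x ▸ one_mem _)
      FrattiniFacts.commutator_le_frattini
  have hPhi : twoPhiCore X = ⁅X, X⁆ ⊔ pCoreOf 2 X := by
    have e : _root_.commutator (X ⧸ pCore 2 X) = (_root_.commutator X).map π := by
      rw [_root_.commutator_def, _root_.commutator_def, map_commutator, map_top_of_surjective _ hs]
    rw [twoPhiCore, hF, e, comap_map_eq, QuotientGroup.ker_mk', Subgroup.map_sup, map_subtype_commutator]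
    rfl
  refine ⟨p, (S : Subgroup X).map X.subtype, hp, h2, map_subtype_le _, ?_, ?_, ?_, ?_, ?_, ?_⟩
  · rintro _ ⟨a, ha, rfl⟩
    rw [← map_pow, hex a ha, map_one]
  · rw [card_comm_map _ hi', card_map_eq _ hi', ← hcD, ← hc, ← card_map_eq π hi, hm, card_top]
  · rw [card_comm_map _ hi', ← hcD]; exact hd
  · have e : pCore 2 X ⊔ (S : Subgroup X) = ⊤ := by
      have := comap_map_eq π (S : Subgroup X)
      rw [hm, comap_top, QuotientGroup.ker_mk'] at this
      rw [sup_comm, ← this]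
    have := congrArg (Subgroup.map X.subtype) e
    rw [Subgroup.map_sup, ← MonoidHom.range_eq_map, range_subtype] at this
    exact this.symm
  · intro Y hY hP
    rw [← hodd, oddGenerated, closure_le]
    rintro x ⟨hx, ho⟩
    have h1 : (⟨x, hx⟩ : X) ^ p ∈ pCore 2 X := (QuotientGroup.eq_one_iff _).1 (by
      change π _ = 1
      rw [map_pow, he])
    obtain ⟨k, hk⟩ := isPGroup_iff_forall_mem.1 (pCoreOf_isPGroup 2 X) _ (mem_pCore_iff.1 h1)
    have h3 : x ^ p ^ 1 = 1 := by
      rw [pow_one, ← orderOf_dvd_iff_pow_eq_one]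
      have h4 : orderOf x ∣ p * 2 ^ k := by
        rw [orderOf_dvd_iff_pow_eq_one, pow_mul]; exact hk
      exact (Nat.Coprime.pow_right k (Nat.coprime_two_right.2 ho)).dvd_of_dvd_mul_right h4
    obtain ⟨g, hg, h5⟩ := (isSylowIn_map_subtype S).exists_conj_mem hx h3
    exact (mem_normalizer_iff.1 (hY hg) x).2 (hP h5)
  · intro Y hY
    have hXY := le_sup_left.trans hY
    have hTY := le_sup_right.trans hY
    rcases irr ((X ⊓ Y) ⊔ twoPhiCore X) le_sup_right (sup_le inf_le_left (map_subtype_le _))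
      (le_normalizer_sup (le_normalizer_inf hT hTY) (hPhi ▸ le_normalizer_sup
        (le_normalizer_commutator hT hT) (le_normalizer_pCoreOf_of hT))) with e | e
    · right
      rintro _ ⟨⟨a, ha, rfl⟩, haY⟩
      obtain ⟨b, hb, eb⟩ := e.le (mem_sup_left ⟨a.2, haY⟩)
      obtain rfl : b = a := Subtype.ext eb
      rw [SetLike.mem_coe, mem_comap, hF, hD] at hb
      obtain ⟨c, hc1, hc2⟩ := hb
      have hcS : c ∈ (S : Subgroup X) := commutator_le_left_of_le_normalizer le_normalizer hc1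
      have : c⁻¹ * b = 1 := hi _ (mul_mem (inv_mem hcS) ha) (by rw [map_mul, map_inv, hc2, inv_mul_cancel])
      obtain rfl : c = b := inv_mul_eq_one.1 this
      rw [← map_commutator]
      exact mem_map_of_mem _ hc1
    · left
      haveI := normal_subgroupOf_of_le hXY
      have e1 : Y.subgroupOf X ⊔ (frattini (X ⧸ pCore 2 X)).comap π = ⊤ := by
        apply map_injective X.subtype_injective
        rw [Subgroup.map_sup, subgroupOf_map_subtype, ← MonoidHom.range_eq_map, range_subtype, inf_comm]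
        exact e
      have e2 : (Y.subgroupOf X).map π = ⊤ := by
        refine FrattiniFacts.eq_top_of_sup_le_frattini le_rfl ?_
        have := congrArg (Subgroup.map π) e1
        rwa [Subgroup.map_sup, map_comap_eq_self_of_surjective hs, map_top_of_surjective _ hs] at this
      rintro _ ⟨a, ha, rfl⟩
      obtain ⟨n, hn, en⟩ := e2.ge (mem_top (π a))
      have ho : n⁻¹ * a ∈ pCore 2 X := (QuotientGroup.eq_one_iff _).1 (by
        change π _ = 1
        rw [map_mul, map_inv, en, inv_mul_cancel])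
      obtain ⟨k, hk⟩ := isPGroup_iff_forall_mem.1 (pCore_isPGroup 2 X) _ ho
      have h1 : a ^ 2 ^ k ∈ Y.subgroupOf X := by
        rw [← QuotientGroup.eq_one_iff]
        change QuotientGroup.mk' (Y.subgroupOf X) _ = 1
        have h3 : QuotientGroup.mk' (Y.subgroupOf X) n = 1 := (QuotientGroup.eq_one_iff _).2 hn
        have h4 := congrArg (QuotientGroup.mk' (Y.subgroupOf X)) hk
        rwa [map_pow, map_mul, map_inv, h3, inv_one, one_mul, map_one, ← map_pow] at h4
      refine mem_subgroupOf.1 (mem_of_pow_mem_of_coprime ?_ h1)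
      exact Nat.Coprime.pow_right k (Nat.Coprime.coprime_dvd_left (orderOf_dvd_of_pow_eq_one (hex a ha))
        ((Nat.coprime_primes hp Nat.prime_two).2 h2))

end G

section Push

variable {G Γ : Type*} [Group G] [Group Γ] {H : Subgroup G} (f : H →* Γ) {A B : Subgroup G} {Y : Subgroup Γ}

theorem pull_norm (hA : A ≤ H) (h : (A.subgroupOf H).map f ≤ N[Y]) :
    A ≤ N[(Y.comap f).map H.subtype] := by
  have h1 : A.subgroupOf H ≤ N[Y.comap f] :=
    (map_le_iff_le_comap.1 le_rfl).trans (PCoreConj.le_normalizer_comap f h)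
  have h2 := PCoreConj.le_normalizer_map H.subtype h1
  rwa [subgroupOf_map_subtype_of_le hA] at h2

theorem push_norm (h : A ≤ N[B]) : (A.subgroupOf H).map f ≤ N[(B.subgroupOf H).map f] :=
  PCoreConj.le_normalizer_map f (le_normalizer_subgroupOf h H)

theorem pull_le (hA : A ≤ H) : A ≤ (Y.comap f).map H.subtype ↔ (A.subgroupOf H).map f ≤ Y := by
  rw [map_le_iff_le_comap, ← map_le_map_iff_of_injective H.subtype_injective,
    subgroupOf_map_subtype_of_le hA]

theorem sub_comm (hA : A ≤ H) : ⁅A, A⁆.subgroupOf H = ⁅A.subgroupOf H, A.subgroupOf H⁆ := by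
  apply map_injective H.subtype_injective
  rw [map_commutator, subgroupOf_map_subtype_of_le hA, subgroupOf_map_subtype_of_le
    ((commutator_le_left_of_le_normalizer le_normalizer).trans hA)]

end Push

instance instXE : XE.{u} where
  out := fun {G} _ _ T X H hX hH hq => by
    obtain ⟨p, P, d⟩ := xg hX
    have hp := d.hp
    haveI := Fact.mk hp
    have hXH : X ≤ H := le_sup_left.trans hH
    have hTH : (T : Subgroup G) ≤ H := le_sup_right.trans hH
    have hPH : P ≤ H := d.PX.trans hXH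
    have hOH : pCoreOf 2 X ≤ H := (pCoreOf_le 2 X).trans hXH
    have hTX : (T : Subgroup G) ≤ N[X] := hX.2.1
    let e : Shrink.{0} (H ⧸ pCore 2 H) ≃* (H ⧸ pCore 2 H) := Shrink.mulEquiv
    haveI : Finite (Shrink.{0} (H ⧸ pCore 2 H)) := Finite.of_equiv _ e.symm.toEquiv
    let f : H →* Shrink.{0} (H ⧸ pCore 2 H) := e.symm.toMonoidHom.comp (QuotientGroup.mk' _)
    have hs : Function.Surjective f := e.symm.surjective.comp (QuotientGroup.mk'_surjective _)
    have hk : f.ker = pCore 2 H := by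
      ext x
      rw [MonoidHom.mem_ker, ← QuotientGroup.eq_one_iff]
      exact e.symm.map_eq_one_iff
    have hk2 : IsPGroup 2 f.ker := by rw [hk]; exact pCore_isPGroup 2 H
    have hi : ∀ a ∈ P.subgroupOf H, f a = 1 → a = 1 := fun a ha h1 => by
      obtain ⟨k, hk⟩ := isPGroup_iff_forall_mem.1 hk2 a h1
      refine eq_one_of_coprime_of_pow_eq_one ?_ hk
      have h3 : a ^ p = 1 := Subtype.ext (d.ex a ha)
      exact Nat.Coprime.coprime_dvd_left (orderOf_dvd_of_pow_eq_one h3)
        ((Nat.coprime_primes hp Nat.prime_two).2 d.p2)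
    have hi' : ∀ a ∈ P.subgroupOf H, H.subtype a = 1 → a = 1 := fun a _ h1 => Subtype.ext h1
    have c1 : Nat.card ((P.subgroupOf H).map f) = Nat.card P := by
      rw [card_map_eq f hi, ← card_map_eq _ hi', subgroupOf_map_subtype_of_le hPH]
    have c2 : Nat.card ↥⁅(P.subgroupOf H).map f, (P.subgroupOf H).map f⁆ = Nat.card ↥⁅P, P⁆ := by
      rw [card_comm_map f hi, ← card_comm_map _ hi', subgroupOf_map_subtype_of_le hPH]
    have hsup : (X.subgroupOf H).map f ⊔ ((T : Subgroup G).subgroupOf H).map f =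
        ((X ⊔ (T : Subgroup G)).subgroupOf H).map f := by
      rw [← Subgroup.map_sup, subgroupOf_sup hXH hTH]
    refine ⟨Shrink.{0} (H ⧸ pCore 2 H), inferInstance, inferInstance, f, p, (P.subgroupOf H).map f,
      ((pCoreOf 2 X).subgroupOf H).map f, hs, hk, ⟨hp, d.p2, ?_, ?_, ?_, ?_⟩, ?_, ?_, ?_, ?_, ?_, ?_, ?_, ?_⟩
    · intro r hr h2 K
      haveI := Fact.mk hr
      rw [← map_comap_eq_self_of_surjective hs K, prank_map_of_coprime hr f
        (coprime_card_of_isPGroup (hk2.to_inf_right) ((Nat.coprime_primes hr Nat.prime_two).2 h2))]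
      rw [prank_le_iff hr]
      intro m E hE
      exact (Nat.pow_le_pow_iff_right hr.one_lt).1 (hE.card ▸ hq r hr h2 E hE.comm fun a ha => hE.pow_eq_one ha)
    · rintro _ ⟨a, ha, rfl⟩
      have h3 : a ^ p = 1 := Subtype.ext (d.ex a ha)
      rw [← map_pow, h3, map_one]
    · rw [c1, c2]; exact d.cP
    · rw [c2]; exact d.cD
    · exact pCore_eq_bot_of_equiv e.symm (pCore_quotient_pCore 2 H)
    · have h1 := (((isSylowIn_top T).of_le hTH le_top).subgroupOf (le_refl H)).map f
      rwa [subgroupOf_self, map_top_of_surjective _ hs] at h1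
    · exact push_norm f hTX
    · exact (isPGroup_subgroupOf (pCoreOf_isPGroup 2 X) H).map f
    · rw [hsup]
      exact push_norm f (le_normalizer_pCoreOf_of (sup_le le_normalizer hTX))
    · rw [← Subgroup.map_sup, ← subgroupOf_sup hOH hPH, ← d.XO]
    · intro Y hY hP
      exact (pull_le f hXH).1 (d.gen _ (pull_norm f hXH hY) ((pull_le f hPH).2 hP))
    · intro Y hY
      rw [hsup] at hY
      rcases d.irr _ (pull_norm f hH hY) with h1 | h1
      · exact .inl ((pull_le f hPH).1 h1)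
      · right
        rintro _ ⟨⟨a, ha, rfl⟩, haY⟩
        rw [← map_commutator, ← sub_comm hPH]
        exact mem_map_of_mem _ (h1 ⟨ha, a, haY, rfl⟩)

end Cfsg.Agent.Lib.XiS.E
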