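import Cfsg.Agent.Lib.XiDefs
import Cfsg.Agent.Lib.FStarAct

/-! S1822: pulling the theorem back from `H / O₂(H)`. -/

set_option autoImplicit false
set_option linter.unusedSectionVars false

namespace Cfsg.Agent.Lib.XiS

open Cfsg Subgroup Cfsg.Agent.Lib.PCoreConj Cfsg.Agent.Lib.PCore Cfsg.Agent.Lib.PCoreResidual
  Cfsg.Agent.Lib.FTDefs

universe u

theorem xf_qs {A Γ : Type*} [Group A] [Group Γ] (g : A →* Γ) {K : Subgroup Γ} (hK : IsComponent K)
    (h2 : pCore 2 Γ = ⊥) (hr : g.range = K) (hk : IsPGroup 2 g.ker) : IsQuasisimple (A ⧸ pCore 2 A) := by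
  have e : pCore 2 A = g.ker := by
    refine le_antisymm (fun x hx => ?_) (FStar.le_pCore inferInstance hk)
    have := map_pCoreOf_le (p := 2) g ⊤
    rw [pCoreOf_top, ← MonoidHom.range_eq_map, hr] at this
    have := (this.trans (pCoreOf_le_pCore_of_isSubnormal hK.1)) (mem_map_of_mem g hx)
    rwa [h2] at this
  subst hr
  exact FStarComp.IsQuasisimple.of_mulEquiv hK.2
    ((QuotientGroup.quotientMulEquivOfEq e).trans (QuotientGroup.quotientKerEquivRange g)).symm

theorem xf_lift {H Γ : Type*} [Group H] [Finite H] [Group Γ] (f : H →* Γ) (hf : Function.Surjective f)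
    (hk : f.ker = pCore 2 H) {K : Subgroup Γ} (hK : IsComponent K) :
    ∃ L : Subgroup H, L.map f = K ∧ ⁅L, L⁆ = L ∧ L.IsSubnormal ∧
      ∀ J ≤ L, ⁅J, J⁆ = J → J.IsSubnormal → J = ⊥ ∨ J = L := by
  haveI : Fact (Nat.Prime 2) := ⟨Nat.prime_two⟩
  haveI : Finite Γ := Finite.of_surjective f hf
  have pf := FStarComp.IsComponent.perfect hK
  have e1 : (pResidualOf 2 (K.comap f)).map f = K := by
    rw [map_pResidualOf, map_comap_eq_self_of_surjective hf, FStarAct.pResidualOf_eq_of_perfect 2 pf]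
  have QK : pCore 2 H ≤ K.comap f := hk ▸ ker_le_comap f K
  have key : ∀ J : Subgroup H, K ≤ J.map f → K.comap f ≤ J ⊔ pCore 2 H := fun J h => by
    rw [← hk, ← comap_map_eq]; exact comap_mono h
  have sn : (pResidualOf 2 (K.comap f)).IsSubnormal := subnormalIn_top_iff.1
    ((SubnormalIn.of_normal (pResidualOf_le _ _) (le_normalizer_pResidualOf _ _)).trans
      (subnormalIn_top_iff.2 (hK.1.comap f)))
  refine ⟨_, e1, le_antisymm (commutator_le_left_of_le_normalizer le_normalizer) ?_, sn,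
    fun J h1 h2 h3 => ?_⟩
  · have n := QK.trans (le_normalizer_pResidualOf 2 (K.comap f))
    refine (pResidualOf_mono (key _ ?_)).trans
      (pResidualOf_sup_le (pCore_isPGroup 2 H) (le_normalizer_commutator n n))
    rw [map_commutator, e1, pf]
  · rcases FStarComp.IsComponent.le_or_commutator_eq_bot hK (h3.map hf) with h | h
    · refine Or.inr (le_antisymm h1 ((pResidualOf_mono (key J h)).trans ?_))
      rw [← pCoreOf_top, pResidualOf_sup_pCoreOf (subnormalIn_top_iff.2 h3)]
      exact pResidualOf_le _ _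
    · left
      have : J.map f = ⊥ := by
        rw [← h2, map_commutator]
        exact FStarComp.commutator_eq_bot_mono h le_rfl (e1 ▸ map_mono h1)
      rw [Subgroup.map_eq_bot_iff, hk] at this
      rw [← FStarAct.pResidualOf_eq_of_perfect 2 h2]
      exact pResidualOf_eq_bot_of_isPGroup ((pCore_isPGroup 2 H).to_le this)

variable {G : Type u} [Group G] [Finite G]

theorem xf_odd (X : Subgroup G) : oddGenerated X = pResidualOf 2 X := by
  rw [pResidualOf_eq_closure]
  simp only [oddGenerated, Nat.coprime_two_right]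

theorem xf_norm [XD] [XE.{u}] (T : Sylow 2 G) {X H : Subgroup G} (hX : X ∈ XiStar (T : Subgroup G))
    (hH : X ⊔ (T : Subgroup G) ≤ H) (hq : IsStronglyQuasithin H) (h2 : pCoreOf 2 H ≠ ⊥) : H ≤ N[X] := by
  haveI : Fact (Nat.Prime 2) := ⟨Nat.prime_two⟩
  obtain ⟨Γ, _, _, f, p, P, O, hf, hk, h⟩ := XE.out T X H hX.1 hH hq
  have XH := le_sup_left.trans hH
  have TH := le_sup_right.trans hH
  have QT : pCoreOf 2 H ≤ T := (isSylowIn_of_sylow_le T TH).pCoreOf_le
  have up : ∀ A : Subgroup H, ((A.map f).comap f).map H.subtype = A.map H.subtype ⊔ pCoreOf 2 H :=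
    fun A => by rw [comap_map_eq, Subgroup.map_sup, hk]; rfl
  rcases XD.out h with hn | ⟨K, hK, hl⟩
  · have := le_normalizer_map_subtype (((X.subgroupOf H).map f).comap f)
    rw [up, subgroupOf_map_subtype_of_le XH] at this
    have := le_normalizer_pResidualOf_of (p := 2) this
    rwa [pResidualOf_sup_eq (pCoreOf_isPGroup 2 H) (QT.trans hX.1.2.1), ← xf_odd, hX.1.1] at this
  · exfalso
    obtain ⟨L, l1, l2, l3, l4⟩ := xf_lift f hf hk hK
    have LH : L.map H.subtype ≤ H := map_subtype_le _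
    have LT : L.map H.subtype ⊔ T ≤ H := sup_le LH TH
    have s1 : SubnormalIn (L.map H.subtype ⊔ T) (L.map H.subtype) :=
      (subnormalIn_map_subtype l3).of_le le_sup_left LT
    have inj : ∀ A B : Subgroup ↥(L.map H.subtype ⊔ (T : Subgroup G)),
        A.map (Subgroup.subtype _) = B.map (Subgroup.subtype _) → A = B :=
      fun A B => fun e => map_injective (subtype_injective _) e
    have eL := subgroupOf_map_subtype_of_le (le_sup_left : L.map H.subtype ≤ L.map H.subtype ⊔ T)
    refine hX.2 (L.map H.subtype) ⟨⟨fun e => ?_, inj _ _ ?_, (subnormalIn_iff.1 s1).2, ?_⟩,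
      ⟨T.subtype le_sup_right, rfl⟩, fun e => h2 ?_⟩ ?_ (sup_le ?_ le_sup_right)
    · rw [e, Subgroup.map_bot, eq_comm, map_eq_bot_iff_of_injective _ (subtype_injective _)] at eL
      rw [eL, Subgroup.map_bot] at l1
      exact FStarComp.IsComponent.ne_bot hK l1.symm
    · rw [map_commutator, eL, ← map_commutator, l2]
    · rintro J hJ ⟨j1, j2, j3⟩
      have a1 : J.map (Subgroup.subtype _) ≤ L.map H.subtype := (map_mono hJ.le).trans eL.le
      have a2 : SubnormalIn H (J.map (Subgroup.subtype _)) :=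
        ((subnormalIn_map_subtype j3).of_le a1 le_sup_left).trans (subnormalIn_map_subtype l3)
      have a3 := subgroupOf_map_subtype_of_le a2.le
      rcases l4 ((J.map (Subgroup.subtype _)).subgroupOf H)
        ((map_le_map_iff_of_injective (subtype_injective H)).1 (by rw [a3]; exact a1))
        (map_injective (subtype_injective H) (by rw [map_commutator, a3, ← map_commutator, j2]))
        (subnormalIn_iff.1 a2).2 with e | e
      · rw [e, Subgroup.map_bot, eq_comm, map_eq_bot_iff_of_injective _ (subtype_injective _)] at a3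
        exact j1 a3
      · rw [e] at a3
        exact hJ.ne (inj _ _ (a3.symm.trans eL.symm))
    · exact eq_bot_iff.2 ((pCoreOf_le_of_le_of_le (QT.trans le_sup_right) LT).trans
        (pCoreOf_eq_bot_iff.2 e).le)
    · refine xf_qs (f.comp (inclusion LH)) hK h.o2 ?_ ?_
      · rw [MonoidHom.range_comp, inclusion_range, ← l1]
        congr 1
        exact comap_map_eq_self_of_injective (subtype_injective H) L
      · rw [← MonoidHom.comap_ker, hk]
        exact (pCore_isPGroup 2 H).comap_of_injective _ (inclusion_injective LH)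
    · rw [← l1, ← Subgroup.map_sup] at hl
      have := map_mono (f := H.subtype) (comap_mono (f := f) hl)
      rw [up, up, subgroupOf_map_subtype_of_le XH, Subgroup.map_sup, subgroupOf_map_subtype_of_le TH] at this
      exact (le_sup_left.trans this).trans (sup_le le_rfl (QT.trans le_sup_right))

theorem xf_main [XD] [XE.{u}] (hQ : IsQTKE G) (T : Sylow 2 G) (X : Subgroup G)
    (hX : X ∈ XiStar (T : Subgroup G)) : maxTwoLocalsContaining (X ⊔ (T : Subgroup G)) = {N[X]} := by
  haveI : Fact (Nat.Prime 2) := ⟨Nat.prime_two⟩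
  have key : ∀ M : Subgroup G, IsTwoLocal M → X ⊔ (T : Subgroup G) ≤ M → M ≤ N[X] := by
    intro M hM hl
    refine xf_norm T hX hl (fun p hp h2 => hQ.1 p hp h2 M hM) ?_
    obtain ⟨Y, y1, y2, rfl⟩ := hM
    exact fun e => y2 (eq_bot_iff.2 (e ▸ le_pCoreOf le_normalizer le_rfl y1))
  have ne : pCoreOf 2 X ≠ ⊥ := by
    intro e
    have m : IsTwoLocal N[pCoreOf 2 (X ⊔ (T : Subgroup G))] :=
      ⟨_, pCoreOf_isPGroup _ _, fun e => hX.1.2.2.1 (pCoreOf_eq_bot_iff.1 e), rfl⟩
    have l := le_normalizer_pCoreOf 2 (X ⊔ (T : Subgroup G))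
    have c := hQ.2.2 _ m ⟨T, le_sup_right.trans l⟩
    have n := key _ m l
    generalize N[pCoreOf 2 (X ⊔ (T : Subgroup G))] = M at l c n
    have XM := le_sup_left.trans l
    have a : ⁅pCoreOf 2 M, X⁆ = ⊥ := eq_bot_iff.2 (e ▸ le_trans (le_inf
      (commutator_le_left_of_le_normalizer (XM.trans (le_normalizer_pCoreOf 2 M)))
      (commutator_le_right_of_le_normalizer ((pCoreOf_le 2 M).trans n))) (pCoreOf_inf_le XM))
    have b : X ≤ pCoreOf 2 M := fun x hx => ⟨⟨x, XM hx⟩, c (mem_centralizer_iff.2 fun y hy =>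
      Subtype.ext (commutatorElement_eq_one_iff_mul_comm.1 (mem_bot.1
        (a ▸ commutator_mem_commutator (mem_map_of_mem M.subtype hy) hx)))), rfl⟩
    have X0 : X = ⊥ := (pCoreOf_eq_self ((pCoreOf_isPGroup 2 M).to_le b)).symm.trans e
    obtain ⟨p, hp, -, h⟩ := hX.1.2.2.2.1
    have c1 : Nat.card (X ⧸ pCore 2 X) ∣ 1 := by
      have := card_quotient_dvd_card (pCore 2 X)
      rwa [show Nat.card X = 1 by rw [X0, card_bot]] at this
    rcases h with h | h <;> rw [h.1, Nat.dvd_one, Nat.pow_eq_one] at c1 <;> rcases c1 with c1 | c1 <;>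
      first | exact hp.ne_one c1 | omega
  obtain ⟨M, m1, m2, m3⟩ := exists_maximal_ge (P := IsTwoLocal) (H := N[pCoreOf 2 X])
    ⟨_, pCoreOf_isPGroup _ _, ne, rfl⟩
  have l1 : N[X] ≤ M := (normalizer_le_normalizer_pCoreOf 2 X).trans m2
  have l2 : X ⊔ (T : Subgroup G) ≤ N[X] := sup_le le_normalizer hX.1.2.1
  obtain rfl : M = N[X] := le_antisymm (key M m1 (l2.trans l1)) l1
  ext M'
  exact ⟨fun h => (h.1.2 _ m1 (key M' h.1.1 h.2)).symm, fun h => h ▸ ⟨⟨m1, m3⟩, l2⟩⟩

end Cfsg.Agent.Lib.XiS
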