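import Cfsg.Agent.Lib.XiDefs

/-! A scalar element on the critical section (part XL of S1822). -/

set_option autoImplicit false
set_option linter.unusedSectionVars false

namespace Cfsg.Agent.Lib.XiL

open Cfsg Subgroup Cfsg.Agent.Lib.PCoreConj Cfsg.Agent.Lib.PCore Cfsg.Agent.Lib.PCoreResidual
  Cfsg.Agent.Lib.FTDefs Cfsg.Agent.Lib.XiS SemidirectProduct

theorem scal {V : Type} [Group V] [Finite V] {p r : ℕ} (hp : p.Prime) (hr : r.Prime) (cV : Nat.card V ∣ r ^ 2)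
    (eV : ∀ v w : V, v * w = w * v) (xV : ∀ v : V, v ^ r = 1) (A : Subgroup (MulAut V)) (cA : Nat.card A = p ^ 2)
    (eA : ∀ a ∈ A, ∀ b ∈ A, a * b = b * a) (xA : ∀ a ∈ A, a ^ p = 1) :
    ∃ a ∈ A, a ≠ 1 ∧ ∃ k : ℤ, ∀ v, a v = v ^ k := by
  by_cases hc : Nat.card V = r ^ 2
  · haveI : Finite (V ⋊[A.subtype] A) := Finite.of_equiv _ SemidirectProduct.equivProd.symm
    have h1 : EA r 2 ⊤ (inl : V →* V ⋊[A.subtype] A).range := ⟨le_top, ⟨⟨⟨by
      rintro ⟨_, v, rfl⟩ ⟨_, w, rfl⟩; exact Subtype.ext (by simp [← map_mul, eV v w])⟩⟩, by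
      rintro _ ⟨v, rfl⟩; rw [← map_pow, xV, map_one]⟩, by
      rw [← hc]; exact (Nat.card_congr (MonoidHom.ofInjective inl_injective).toEquiv).symm⟩
    have h2 : EA p 2 ⊤ (inr : A →* V ⋊[A.subtype] A).range := ⟨le_top, ⟨⟨⟨by
      rintro ⟨_, v, rfl⟩ ⟨_, w, rfl⟩
      exact Subtype.ext (by simp only [coe_mul, ← map_mul]; congr 1; exact Subtype.ext (eA _ v.2 _ w.2))⟩⟩, by
      rintro _ ⟨v, rfl⟩; rw [← map_pow, show v ^ p = 1 from Subtype.ext (xA _ v.2), map_one]⟩, by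
      rw [← cA]; exact (Nat.card_congr (MonoidHom.ofInjective inr_injective).toEquiv).symm⟩
    have e : ∀ (a : A) (v : V), (inr a * inl v * (inr a)⁻¹ : V ⋊[A.subtype] A) = inl ((a : MulAut V) v) :=
      fun a v => by rw [← map_inv]; exact (inl_aut a v).symm
    obtain ⟨-, _, ⟨a, rfl⟩, a1, k, hk, -⟩ := regular_abelem2 hr hp h1 h2 (by
      rintro _ ⟨a, rfl⟩
      refine mem_normalizer_of_conj_le (conj_le_iff.2 ?_)
      rintro _ ⟨v, rfl⟩
      exact ⟨_, (e a v).symm⟩) (by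
      refine eq_bot_iff.2 ?_
      rintro _ ⟨⟨a, rfl⟩, ha⟩
      have : a = 1 := Subtype.ext (MulEquiv.ext fun v => inl_injective (φ := A.subtype) (by
        rw [← e, ← mem_centralizer_iff.1 ha _ ⟨v, rfl⟩]; simp))
      rw [this, map_one]; exact one_mem _)
    refine ⟨a, a.2, fun h => a1 (by rw [show a = 1 from Subtype.ext h, map_one]), k, fun v => ?_⟩
    refine inl_injective (φ := A.subtype) ?_
    rw [← e, hk _ ⟨v, rfl⟩, zpow_natCast, map_pow]
  · have : IsCyclic V := by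
      obtain ⟨i, hi, h⟩ := (Nat.dvd_prime_pow hr).1 cV
      haveI := Fact.mk hr
      interval_cases i
      · exact isCyclic_of_card_dvd_prime (p := r) (by simp [h])
      · exact isCyclic_of_card_dvd_prime (p := r) (by simp [h])
      · exact absurd h hc
    obtain ⟨a, ha, a1⟩ : ∃ a ∈ A, a ≠ 1 := by
      by_contra! k
      rw [(eq_bot_iff_forall A).2 k, card_bot] at cA
      exact (Nat.one_lt_pow two_ne_zero hp.one_lt).ne cA
    exact ⟨a, ha, a1, MonoidHom.map_cyclic a.toMonoidHom⟩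

instance instXL : XL where
  out {G} _ _ {p r P R} h hr r2 rp hR hn := by
    haveI := Fact.mk h.hp
    obtain ⟨N, H, h0, h1, h3, h4, h5⟩ := exists_critical_rank2 hr r2 hR (h.rk r hr r2 R)
    have pP : IsPGroup p P := isPGroup_iff_forall_mem.2 fun x hx => ⟨1, by simpa using h.ex x hx⟩
    have cp : ∀ X ≤ P, (Nat.card X).Coprime r := fun X hX => by
      obtain ⟨k, hk⟩ := (pP.to_le hX).exists_card_eq
      rw [hk]; exact ((Nat.coprime_primes h.hp hr).2 rp.symm).pow_left k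
    have nV : ∀ g : N[R], qmap N ⟨g, h0 g.2⟩ ∈ N[H /ₙ N] := fun g =>
      pim_norm h1 (apply_mem_pim (h0 g.2) g.2)
    let ρ : N[R] →* MulAut (H /ₙ N) := (normalizerMonoidHom _).comp
      (((qmap N).comp (inclusion h0)).codRestrict N[H /ₙ N] nV)
    have hρ : ∀ (g : N[R]) (v : H /ₙ N), ((ρ g v : H /ₙ N) : Qt N) =
        qmap N ⟨g, h0 g.2⟩ * v * (qmap N ⟨g, h0 g.2⟩)⁻¹ := fun g v => rfl
    have k1 : ∀ g : N[R], ρ g = 1 ↔ qmap N ⟨g, h0 g.2⟩ ∈ C[H /ₙ N] := fun g =>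
      ⟨fun e v hv => by
        have := hρ g ⟨v, hv⟩
        rw [e] at this
        exact (eq_mul_inv_iff_mul_eq.1 this),
      fun e => MulEquiv.ext fun v => Subtype.ext (by
        rw [hρ, ← mem_centralizer_iff.1 e v v.2]; simp)⟩
    have k2 : ∀ g : N[R], (g : G) ∈ P → ρ g = 1 → (g : G) ∈ C[R] := fun g hg e =>
      h5 _ (zpowers_le.2 g.2) (cp _ (zpowers_le.2 hg)) (by
        rw [pim_zpowers (h0 g.2)]; exact zpowers_le.2 ((k1 g).1 e)) (mem_zpowers _)
    have ho : Odd (Nat.card P) := by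
      obtain ⟨k, hk⟩ := pP.exists_card_eq
      rw [hk]; exact (h.hp.odd_of_ne_two h.p2).pow
    have k3 : ∀ g : N[R], (g : G) ∈ ⁅P, P⁆ → ρ g = 1 := fun g hg => (k1 g).2 (by
      have := gl2_abelian hr h3 h4 (pim_norm (f := qmap N) (hn.trans h1)) (odd_pim ho _)
        (coprime_pim_left (cp P le_rfl) _)
      rw [← pim_comm (hn.trans h0) (hn.trans h0)] at this
      exact this (apply_mem_pim _ hg))
    obtain ⟨x, x1, k, hk⟩ : ∃ x : P, (x : G) ∉ ⁅P, P⁆ ∧ ∃ k : ℤ, ∀ v, ρ (inclusion hn x) v = v ^ k := by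
      by_cases e : ∃ x : P, (x : G) ∉ ⁅P, P⁆ ∧ ρ (inclusion hn x) = 1
      · obtain ⟨x, x1, e⟩ := e
        exact ⟨x, x1, 1, fun v => by simp [e]⟩
      push Not at e
      have ek : (ρ.comp (inclusion hn)).ker = ⁅P, P⁆.subgroupOf P := by
        ext x
        exact ⟨fun k => by_contra fun k' => e x k' k, fun k => k3 _ k⟩
      have c1 := (ρ.comp (inclusion hn)).ker.index_mul_card
      rw [index_ker, ek, Nat.card_congr (subgroupOfEquivOfLe (der_le P)).toEquiv, h.cP] at c1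
      obtain ⟨_, ⟨x, rfl⟩, x1, hk⟩ := scal h.hp hr h4 (fun v w => Subtype.ext (by
          have := h3.1; exact congrArg Subtype.val (mul_comm' v w))) (fun v => Subtype.ext (h3.2 v v.2)) _
        (Nat.eq_of_mul_eq_mul_right Nat.card_pos c1) (by
          rintro _ ⟨a, rfl⟩ _ ⟨b, rfl⟩
          rw [← commutatorElement_eq_one_iff_mul_comm, ← map_commutatorElement]
          exact k3 _ (commutator_mem_commutator a.2 b.2)) (by
          rintro _ ⟨a, rfl⟩
          rw [← map_pow, show a ^ p = 1 from Subtype.ext (h.ex a a.2), map_one])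
      exact ⟨x, fun k => x1 (k3 _ k), hk⟩
    refine ⟨x, x.2, x1, fun w hw => ?_⟩
    refine k2 (inclusion hn x * ⟨w, hw.1⟩ * (inclusion hn x)⁻¹ * ⟨w, hw.1⟩⁻¹) ?_ ?_
    · have := mul_mem x.2 ((mem_normalizer_iff.1 hw.2 _).1 (inv_mem x.2))
      simpa [mul_assoc] using this
    · rw [map_mul, map_mul, map_mul, map_inv, map_inv, ← commutatorElement_def, commutatorElement_eq_one_iff_mul_comm]
      ext1 v
      rw [MulAut.mul_apply, MulAut.mul_apply, hk, hk, map_zpow]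

end Cfsg.Agent.Lib.XiL
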