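import Cfsg.Agent.Lib.QZDefs
import Cfsg.Agent.Lib.XiL
import Cfsg.Agent.Lib.XiE
import Cfsg.Agent.Lib.XiF
import Cfsg.Agent.Lib.FFSolv

/-! S1833: the member of `Ξ(G,T)` (instance of `QZ.QX1`). -/

set_option autoImplicit false
set_option linter.unusedSectionVars false
set_option linter.style.haveILetI false

namespace Cfsg.Agent.Lib.QZ.X1

open Cfsg Subgroup Cfsg.Agent.Lib.PCoreConj Cfsg.Agent.Lib.PCore Cfsg.Agent.Lib.PCoreResidual
  Cfsg.Agent.Lib.FTDefs
open scoped commutatorElement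

universe u

section A

variable {G : Type} [Group G] [Finite G] {r : ℕ} {V T T₀ : Subgroup G} {y : G}

theorem der_not (hr : r.Prime) [V.Normal] (hV : IsElementaryAbelian r V) (cV : Nat.card V ∣ r ^ 2)
    (hT : IsPGroup 2 T₀) (ho : Odd (orderOf y)) (hy : y ∈ N[T₀]) (h : ¬ ⁅T₀, zpowers y⁆ ≤ C[V]) :
    ¬ ⁅T₀, T₀⁆ ≤ C[V] := by
  intro hd
  haveI : Fact (Nat.Prime 2) := ⟨Nat.prime_two⟩
  let ρ : G →* MulAut V := MulAut.conjNormal
  have hk : ∀ g, ρ g = 1 ↔ g ∈ C[V] := fun g =>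
    ⟨fun e v hv => by
      have := congrArg Subtype.val (DFunLike.congr_fun e ⟨v, hv⟩)
      simp only [ρ, MulAut.conjNormal_apply, MulAut.one_apply] at this
      exact (mul_inv_eq_iff_eq_mul.1 this).symm,
    fun e => MulEquiv.ext fun v => Subtype.ext (by
      simp only [ρ, MulAut.conjNormal_apply, MulAut.one_apply]
      rw [← mem_centralizer_iff.1 e v v.2]; simp)⟩
  have hc : IsMulCommutative (T₀.map ρ) := comm_iff_der_eq_bot.2 (by
    rw [← map_commutator, Subgroup.map_eq_bot_iff]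
    exact fun g hg => (hk g).2 (hd hg))
  have hn : zpowers (ρ y) ≤ N[T₀.map ρ] := by
    rw [← MonoidHom.map_zpowers]
    exact le_normalizer_map ρ (zpowers_le.2 hy)
  have hp := hT.map ρ
  have cp : (Nat.card (T₀.map ρ)).Coprime (Nat.card (zpowers (ρ y))) :=
    coprime_of_isPGroup_left Nat.prime_two hp (by
      rw [Nat.card_zpowers]
      exact Nat.Coprime.coprime_dvd_left (orderOf_map_dvd ρ y) (Nat.coprime_two_right.2 ho))
  have h0 := cop_comm_inf_cent_of_comm hc hn cp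
  have hQ : ⁅T₀.map ρ, zpowers (ρ y)⁆ ≤ T₀.map ρ := commutator_le_left_of_le_normalizer hn
  have ne : ⁅T₀.map ρ, zpowers (ρ y)⁆ ≠ ⊥ := fun e => h (by
    rw [← MonoidHom.map_zpowers, ← map_commutator, Subgroup.map_eq_bot_iff] at e
    exact fun g hg => (hk g).1 (e hg))
  have nQ : ρ y ∈ N[⁅T₀.map ρ, zpowers (ρ y)⁆] :=
    normalizer_commutator_ge_right _ _ (mem_zpowers _)
  generalize ⁅T₀.map ρ, zpowers (ρ y)⁆ = Q at h0 hQ ne nQ
  have key : ∀ a ∈ Q, a * ρ y = ρ y * a → a = 1 := fun a ha e => mem_bot.1 (h0 ▸ mem_inf.2 ⟨ha, by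
    rw [centralizer_zpowers_eq]; exact mem_centralizer_singleton_iff.2 e⟩)
  obtain ⟨s, hs, e⟩ := exists_mem_orderOf_eq (dvd_card_of_isPGroup_of_ne_bot (hp.to_le hQ) ne)
  have s1 : s ≠ 1 := fun h => by rw [h, orderOf_one] at e; omega
  have hs' : ρ y * s * (ρ y)⁻¹ ∈ Q := (mem_normalizer_iff.1 nQ s).1 hs
  have s2 : s ^ 2 = 1 := e ▸ pow_orderOf_eq_one s
  have cm : ∀ a ∈ Q, ∀ b ∈ Q, a * b = b * a := fun a ha b hb =>
    congrArg Subtype.val (hc.is_comm.comm ⟨a, hQ ha⟩ ⟨b, hQ hb⟩)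
  have E := (ea_zpowers Nat.prime_two hs e).sup_zpowers Nat.prime_two hs' (by
    rw [centralizer_zpowers_eq]; exact mem_centralizer_singleton_iff.2 (cm _ hs' _ hs))
    (by rw [conj_pow, s2]; simp) (fun k => by
      classical
      rw [mem_zpowers_iff_mem_range_orderOf, e] at k
      simp only [Finset.mem_image, Finset.mem_range] at k
      obtain ⟨i, hi, k⟩ := k
      interval_cases i
      · exact s1 (by simpa using k.symm)
      · exact s1 (key s hs (by rw [pow_one] at k; exact (eq_mul_inv_iff_mul_eq.1 k))))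
  obtain ⟨a, ha, a1, k, hk'⟩ := XiL.scal Nat.prime_two hr cV (fun v w => hV.1.is_comm.comm v w)
    (fun v => Subtype.ext (hV.2 v v.2)) _ E.2.2 (fun a ha b hb => cm a (E.1 ha) b (E.1 hb)) E.2.1.2
  refine a1 (key a (E.1 ha) (MulEquiv.ext fun v => ?_))
  rw [MulAut.mul_apply, MulAut.mul_apply, hk', hk', map_zpow]

theorem irr (hr : r.Prime) (r2 : r ≠ 2) [V.Normal] (hV : IsElementaryAbelian r V) (cV : Nat.card V ∣ r ^ 2)
    (hT : IsPGroup 2 T) (h : ¬ ⁅T, T⁆ ≤ C[V]) :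
    Nat.card V = r ^ 2 ∧ ∀ W ≤ V, T ≤ N[W] → W = ⊥ ∨ W = V := by
  haveI := Fact.mk hr
  have nV : ∀ L : Subgroup G, L ≤ N[V] := fun L => le_top.trans (normal_iff_top_le.1 inferInstance)
  have c2 : Nat.card V = r ^ 2 := by
    obtain ⟨i, hi, e⟩ := (Nat.dvd_prime_pow hr).1 cV
    by_contra k
    refine h (der_le_cent_of_cyclic (isCyclic_of_card_dvd_prime (p := r) ?_) (nV T))
    interval_cases i
    · simp [e]
    · simp [e]
    · exact absurd e k
  refine ⟨c2, fun W hW hn => ?_⟩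
  by_contra k
  push Not at k
  have cW : Nat.card W = r := by
    obtain ⟨i, hi, e⟩ := (Nat.dvd_prime_pow hr).1 ((card_dvd_of_le hW).trans cV)
    interval_cases i
    · exact absurd (card_eq_one.1 e) k.1
    · simpa using e
    · exact absurd (eq_of_le_of_card_le hW (by rw [e, c2])) k.2
  have VW : V ≤ N[W] := (le_centralizer_iff.1 (hW.trans (le_centralizer_iff_isMulCommutative.2 hV.1))).trans (centralizer_le_normalizer _)
  have q := card_quo_mul (⟨hW, VW⟩ : NormalIn W V)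
  rw [cW, c2, sq] at q
  have q' := Nat.eq_of_mul_eq_mul_right hr.pos q
  have a := der_le_cent_of_cyclic (isCyclic_of_card_dvd_prime (p := r) q'.dvd)
    (pim_norm (f := qmap W) (nV T))
  have TT : ⁅T, T⁆ ≤ N[W] := (der_le T).trans hn
  rw [← pim_comm hn hn, ← commutator_eq_bot_iff_le_centralizer', ← pim_comm VW TT,
    pim_eq_bot_iff ((commutator_le_left_of_le_normalizer (nV _)).trans VW), pker_qmap] at a
  exact h (cop_le_cent_of_comm_le (nV _) (coprime_of_isPGroup hr Nat.prime_two r2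
    (isPGroup_of_isElementaryAbelian hV) (hT.to_le (der_le T))) a
    (der_le_cent_of_cyclic (isCyclic_of_card_dvd_prime (p := r) cW.dvd) hn))

theorem core [Group.IsSolvable G] (o2 : pCore 2 G = ⊥)
    (rk : ∀ r : ℕ, r.Prime → r ≠ 2 → ∀ H : Subgroup G, prank r H ≤ 2) (hT : IsPGroup 2 T) (h0 : T₀ ≤ T)
    (ho : Odd (orderOf y)) (hy : y ∈ N[T₀]) (h : ⁅T₀, zpowers y⁆ ≠ ⊥) :
    ∃ (r : ℕ) (D : Subgroup G), r.Prime ∧ r ≠ 2 ∧ D.Normal ∧ (∀ x ∈ D, x ^ r = 1) ∧
      ((Nat.card D = r ^ 2 ∧ IsMulCommutative D) ∨ (Nat.card D = r ^ 3 ∧ ¬ IsMulCommutative D)) ∧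
      (∀ Y, phiOf D ≤ Y → Y ≤ D → T ≤ N[Y] → Y = phiOf D ∨ Y = D) ∧ ¬ ⁅T₀, zpowers y⁆ ≤ C[D] := by
  have p1 : IsPGroup 2 ↥⁅T₀, zpowers y⁆ :=
    hT.to_le ((commutator_le_left_of_le_normalizer (zpowers_le.2 hy)).trans h0)
  obtain ⟨r, hr, hR⟩ : ∃ r : ℕ, r.Prime ∧ ¬ ⁅T₀, zpowers y⁆ ≤ C[pCore r G] := by
    by_contra k
    push Not at k
    haveI : Group.IsSolvable (⊤ : Subgroup G) := inferInstance
    exact h (FFSolv.eq_bot_of_forall_le_centralizer (H := ⊤) (p := 2) (by rw [pCoreOf_top, o2]) le_top p1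
      fun q hq => by rw [pCoreOf_top]; exact k q hq)
  haveI := Fact.mk hr
  have ne : pCore r G ≠ ⊥ := fun e => hR (by rw [e, centralizer_bot']; exact le_top)
  have r2 : r ≠ 2 := fun e => ne (e ▸ o2)
  obtain ⟨D, d1, d2, -, -, d4, d5⟩ := critical_odd hr r2 (pCore_isPGroup r G) ne
  have nR : ∀ L : Subgroup G, L ≤ N[pCore r G] := fun L => le_top.trans (normal_iff_top_le.1 inferInstance)
  haveI nD : D.Normal := normal_iff_top_le.2 ((nR _).trans d2)
  have pD : IsPGroup r D := (pCore_isPGroup r G).to_le d1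
  have cp := coprime_of_isPGroup hr Nat.prime_two r2 pD p1
  have nc : ¬ ⁅T₀, zpowers y⁆ ≤ C[D] := fun e => hR (d5 _ (nR _)
    (coprime_of_isPGroup_left Nat.prime_two p1 ((Nat.coprime_primes hr Nat.prime_two).2 r2)) e)
  haveI nP : (phiOf D).Normal :=
    normal_iff_top_le.2 ((normal_iff_top_le.1 nD).trans (normalizer_le_normalizer_phiOf D))
  obtain ⟨Γ, _, _, π, hs, kπ⟩ : ∃ (Γ : Type) (_ : Group Γ) (_ : Finite Γ) (π : G →* Γ),
      Function.Surjective π ∧ π.ker = phiOf D :=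
    ⟨_, _, inferInstance, _, QuotientGroup.mk'_surjective _, QuotientGroup.ker_mk' _⟩
  haveI : (D.map π).Normal := nD.map π hs
  have eV : IsElementaryAbelian r (D.map π) := elem_of_phiOf_eq_bot hr (pD.map π) (by
    rw [← map_phiOf hr pD, Subgroup.map_eq_bot_iff, kπ])
  have cm : Nat.card (D.map π) * Nat.card (phiOf D) = Nat.card D := by
    rw [← card_mul_relIndex (phiOf_le D), ← kπ, ← relIndex_ker, mul_comm]
  have c3 := rank2_exponent_p hr (rk r hr r2 D) d4
  have cV : Nat.card (D.map π) ∣ r ^ 2 := by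
    by_cases e : phiOf D = ⊥
    · exact (Dvd.intro _ cm).trans (card_eq_pow_prank hr (elem_of_phiOf_eq_bot hr pD e) ▸
        pow_dvd_pow r (rk r hr r2 D))
    · exact Nat.dvd_of_mul_dvd_mul_right hr.pos ((mul_dvd_mul_left _ (dvd_card_of_isPGroup_of_ne_bot
        (pD.to_le (phiOf_le D)) e)).trans (cm ▸ c3))
  have k1 := der_not hr eV cV (T₀ := T₀.map π) (y := π y) ((hT.to_le h0).map π)
    (Odd.of_dvd_nat ho (orderOf_map_dvd π y)) (le_normalizer_map π (zpowers_le.2 hy) (by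
      rw [MonoidHom.map_zpowers]; exact mem_zpowers _)) (fun e => nc (le_cent_of_comm_le_phiOf cp (by
        rw [← MonoidHom.map_zpowers, ← map_commutator, ← commutator_eq_bot_iff_le_centralizer',
          ← map_commutator, Subgroup.map_eq_bot_iff, kπ] at e
        exact e)))
  obtain ⟨c2, ir⟩ := irr hr r2 eV cV (hT.map π)
    (fun e => k1 ((commutator_mono (map_mono h0) (map_mono h0)).trans e))
  refine ⟨r, D, hr, r2, nD, d4, ?_, fun Y y1 y2 y3 => ?_, nc⟩
  · by_cases e : phiOf D = ⊥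
    · rw [e, card_bot, mul_one, c2] at cm
      exact .inl ⟨cm.symm, (elem_of_phiOf_eq_bot hr pD e).1⟩
    · refine .inr ⟨Nat.dvd_antisymm c3 ?_, fun k => e (phiOf_eq_bot_of_elem hr ⟨k, d4⟩)⟩
      rw [← cm, c2, pow_succ r 2]
      exact mul_dvd_mul_left _ (dvd_card_of_isPGroup_of_ne_bot (pD.to_le (phiOf_le D)) e)
  · rcases ir _ (map_mono y2) (le_normalizer_map π y3) with e | e
    · rw [Subgroup.map_eq_bot_iff, kπ] at e
      exact .inl (le_antisymm e y1)
    · right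
      have := congrArg (comap π) e
      rwa [comap_map_eq, comap_map_eq, kπ, sup_eq_left.2 y1, sup_eq_left.2 (phiOf_le D)] at this

end A

section B

variable {G : Type u} [Group G] [Finite G]

theorem push (T : Sylow 2 G) {M : Subgroup G} (hT : (T : Subgroup G) ≤ M) (hq : IsStronglyQuasithin M) :
    ∃ (Γ : Type) (_ : Group Γ) (_ : Finite Γ) (f : M →* Γ), Function.Surjective f ∧ f.ker = pCore 2 M ∧
      pCore 2 Γ = ⊥ ∧ ∀ r : ℕ, r.Prime → r ≠ 2 → ∀ H : Subgroup Γ, prank r H ≤ 2 := by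
  let e : Shrink.{0} (M ⧸ pCore 2 M) ≃* (M ⧸ pCore 2 M) := Shrink.mulEquiv
  haveI : Finite (Shrink.{0} (M ⧸ pCore 2 M)) := Finite.of_equiv _ e.symm.toEquiv
  let f : M →* Shrink.{0} (M ⧸ pCore 2 M) := e.symm.toMonoidHom.comp (QuotientGroup.mk' _)
  have hs : Function.Surjective f := e.symm.surjective.comp (QuotientGroup.mk'_surjective _)
  have hk : f.ker = pCore 2 M := by
    ext x
    rw [MonoidHom.mem_ker, ← QuotientGroup.eq_one_iff]
    exact e.symm.map_eq_one_iff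
  have hk2 : IsPGroup 2 f.ker := by rw [hk]; exact pCore_isPGroup 2 M
  refine ⟨_, _, inferInstance, f, hs, hk, pCore_eq_bot_of_equiv e.symm (pCore_quotient_pCore 2 M), ?_⟩
  intro r hr h2 K
  haveI := Fact.mk hr
  rw [← map_comap_eq_self_of_surjective hs K, prank_map_of_coprime hr f
    (coprime_card_of_isPGroup (hk2.to_inf_right) ((Nat.coprime_primes hr Nat.prime_two).2 h2))]
  rw [prank_le_iff hr]
  intro m E hE
  exact (Nat.pow_le_pow_iff_right hr.one_lt).1 (hE.card ▸ hq r hr h2 E hE.comm fun a ha => hE.pow_eq_one ha)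

instance instQX1 : QX1.{u} where
  out := fun {G} _ _ T h M hT hO T₀ y h0 hy ho hn hc => by
    haveI : Fact (Nat.Prime 2) := ⟨Nat.prime_two⟩
    obtain ⟨Γ, _, _, f, hs, hk, o2, rk⟩ := push T hT (h.rank M hO)
    haveI := h.solv M hT hO
    haveI : Group.IsSolvable Γ := solvable_of_surjective hs
    have h0M := h0.trans hT
    have yM : zpowers y ≤ M := zpowers_le.2 hy
    have ey : ((zpowers y).subgroupOf M).map f = zpowers (f ⟨y, hy⟩) := by
      rw [← MonoidHom.map_zpowers]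
      congr 1
      apply map_injective M.subtype_injective
      rw [subgroupOf_map_subtype_of_le yM, MonoidHom.map_zpowers]; rfl
    have im : ∀ A B : Subgroup G, A ≤ M → B ≤ M →
        (⁅A, B⁆.subgroupOf M).map f = ⁅(A.subgroupOf M).map f, (B.subgroupOf M).map f⁆ := fun A B a b => by
      rw [subgroupOf_comm a b, map_commutator]
    have T1 : ⁅T₀, zpowers y⁆ ≤ M := (commutator_le_left_of_le_normalizer (zpowers_le.2 hn)).trans h0M
    have ker : ∀ A : Subgroup G, A ≤ M → ((A.subgroupOf M).map f = ⊥ ↔ A ≤ pCoreOf 2 M) := fun A a => by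
      rw [← le_bot_iff, ← XiS.E.pull_le f a, MonoidHom.comap_bot, hk]; rfl
    obtain ⟨r, D, hr, r2, nD, ex, cD, ir, nc⟩ := core (T := ((T : Subgroup G).subgroupOf M).map f)
      (T₀ := (T₀.subgroupOf M).map f) (y := f ⟨y, hy⟩) o2 rk
      ((isPGroup_subgroupOf T.isPGroup' M).map f) (map_mono (comap_mono h0))
      (Odd.of_dvd_nat ho ((orderOf_map_dvd f _).trans (orderOf_mk y hy).dvd))
      (XiS.E.push_norm (H := M) f (zpowers_le.2 hn) (ey ▸ mem_zpowers _))
      (fun e => hc ((ker _ T1).1 (by rw [im _ _ h0M yM, ey, e])))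
    haveI := Fact.mk hr
    have pD : IsPGroup r D := isPGroup_iff_forall_mem.2 fun x hx => ⟨1, by rw [pow_one, ex x hx]⟩
    have cp : (Nat.card D).Coprime 2 :=
      coprime_of_isPGroup_left hr pD ((Nat.coprime_primes Nat.prime_two hr).2 r2.symm)
    obtain ⟨X, hX⟩ : ∃ X, X = pResidualOf 2 ((D.comap f).map M.subtype) := ⟨_, rfl⟩
    have XM : X ≤ M := hX ▸ (pResidualOf_le _ _).trans (map_subtype_le _)
    have nX : M ≤ N[X] := hX ▸ le_normalizer_pResidualOf_of (le_normalizer_map_subtype (D.comap f))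
    have eX : (X.subgroupOf M).map f = D := by
      rw [hX, ← map_pResidualOf_subtype, map_subtype_subgroupOf, map_pResidualOf,
        map_comap_eq_self_of_surjective hs]
      exact le_antisymm (pResidualOf_le _ _) (le_pResidualOf_of_coprime le_rfl cp)
    have OX : pCoreOf 2 X ≤ pCoreOf 2 M := pCoreOf_le_of_normal XM nX
    let g : X →* D := (f.comp (inclusion XM)).codRestrict D fun x => eX.le ⟨inclusion XM x, x.2, rfl⟩
    have gs : Function.Surjective g := fun d => by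
      obtain ⟨x, hx, e⟩ := eX.ge d.2
      exact ⟨⟨x, hx⟩, Subtype.ext e⟩
    have gk : pCore 2 X = g.ker := by
      ext x
      rw [mem_pCore_iff, MonoidHom.mem_ker, ← Subtype.coe_inj]
      change _ ↔ inclusion XM x ∈ f.ker
      rw [hk, mem_pCore_iff]
      exact ⟨fun a => OX a, fun a => pCoreOf_inf_le XM (mem_inf.2 ⟨a, x.2⟩)⟩
    let e : X ⧸ pCore 2 X ≃* D :=
      (QuotientGroup.quotientMulEquivOfEq gk).trans (QuotientGroup.quotientKerEquivOfSurjective g gs)
    have he : ∀ x : X, e (QuotientGroup.mk' _ x) = g x := fun x => rfl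
    have hF : ∀ x : X, (x : G) ∈ twoPhiCore X ↔ f (inclusion XM x) ∈ phiOf D := fun x => by
      have a : (x : G) ∈ twoPhiCore X ↔ QuotientGroup.mk' _ x ∈ frattini (X ⧸ pCore 2 X) :=
        ⟨fun ⟨z, hz, ez⟩ => (Subtype.ext ez : z = x) ▸ hz, fun hz => ⟨x, hz, rfl⟩⟩
      have b : f (inclusion XM x) ∈ phiOf D ↔ g x ∈ frattini D :=
        ⟨fun ⟨z, hz, ez⟩ => (Subtype.ext ez : z = g x) ▸ hz, fun hz => ⟨g x, hz, rfl⟩⟩
      rw [a, b, ← he]
      exact ⟨fun hz => frattini_le_comap_frattini_of_surjective (φ := e.toMonoidHom) e.surjective hz,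
        fun hz => by
          simpa using frattini_le_comap_frattini_of_surjective (φ := e.symm.toMonoidHom) e.symm.surjective hz⟩
    refine ⟨X, ⟨?_, hT.trans nX, fun k => hO ?_, ⟨r, hr, r2, ?_⟩, fun Y y1 y2 y3 => ?_⟩, XM, nX, fun k => nc ?_⟩
    · rw [XiS.xf_odd, hX, pResidualOf_idem]
    · exact eq_bot_iff.2 ((pCoreOf_le_of_le_of_le ((isSylowIn_of_sylow_le T hT).pCoreOf_le.trans le_sup_right)
        (sup_le XM hT)).trans (pCoreOf_eq_bot_iff.2 k).le)
    · rw [Nat.card_congr e.toEquiv]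
      rcases cD with ⟨c, m⟩ | ⟨c, m⟩
      · refine .inl ⟨c, ⟨⟨fun a b => e.injective (by rw [map_mul, map_mul, m.is_comm.comm])⟩⟩,
          fun x => e.injective ?_⟩
        rw [map_pow, map_one]
        exact Subtype.ext (ex _ (e x).2)
      · exact .inr ⟨c, fun k => m ⟨⟨fun a b => e.symm.injective (by rw [map_mul, map_mul, k.is_comm.comm])⟩⟩⟩
    · rcases ir ((Y.subgroupOf M).map f) (fun d hd => by
          obtain ⟨x, hx, rfl⟩ := eX.ge (phiOf_le D hd)
          exact mem_map_of_mem f (y1 ((hF ⟨x, hx⟩).2 hd))) (eX ▸ map_mono (comap_mono y2))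
          (XiS.E.push_norm f y3) with k | k
      · exact .inl (le_antisymm (fun x hx => (hF ⟨x, y2 hx⟩).2 (k.le ⟨inclusion XM ⟨x, y2 hx⟩, hx, rfl⟩)) y1)
      · refine .inr (le_antisymm y2 fun x hx => ?_)
        obtain ⟨z, hz, ez⟩ := k.ge (eX.le ⟨⟨x, XM hx⟩, hx, rfl⟩)
        have := y1 ((hF (⟨z, y2 hz⟩⁻¹ * ⟨x, hx⟩)).2 (by
          rw [map_mul, map_mul, map_inv, map_inv]
          change (f z)⁻¹ * f ⟨x, XM hx⟩ ∈ _
          rw [ez, inv_mul_cancel]; exact one_mem _))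
        exact (mul_mem_cancel_left (inv_mem (mem_subgroupOf.1 hz))).1 this
    · rw [← ey, ← im _ _ h0M yM, ← eX, ← commutator_eq_bot_iff_le_centralizer, ← im _ _ T1 XM,
        ker _ ((commutator_le_right_of_le_normalizer (T1.trans nX)).trans XM)]
      exact k.trans OX

end B

end Cfsg.Agent.Lib.QZ.X1
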