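import Cfsg.Agent.Lib.QZDefs
import Cfsg.Agent.Lib.XiE
import Cfsg.Agent.Lib.FFMod
import Cfsg.Agent.Lib.JComp
import Cfsg.Agent.Lib.BlkBase

/-! No failure of factorization on `X ∈ Ξ(G,T)` (instance of `QZ.QX2`). -/

set_option autoImplicit false
set_option linter.unusedSectionVars false
set_option linter.style.haveILetI false

namespace Cfsg.Agent.Lib.QZX2

open Cfsg Subgroup Cfsg.Agent.Lib.PCoreConj Cfsg.Agent.Lib.PCore Cfsg.Agent.Lib.PCoreResidual
  Cfsg.Agent.Lib.PReduced Cfsg.Agent.Lib.ThompsonJ Cfsg.Agent.Lib.FFSolv Cfsg.Agent.Lib.FFMod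
  Cfsg.Agent.Lib.XiS.E Cfsg.Agent.Lib.LocIdx Cfsg.Agent.Lib.LocFour
open scoped commutatorElement

universe u

theorem burn {G : Type*} [Group G] {Q A : Subgroup G} [Finite Q] [Finite A] {p : ℕ} (hp : p.Prime) (p2 : p ≠ 2)
    (hQ : IsPGroup p Q) (hA : IsPGroup 2 A) (h : ⁅Q, A⁆ ≤ ⁅Q, Q⁆) : ⁅Q, A⁆ = ⊥ := by
  haveI := Fact.mk hp
  haveI := hQ.isNilpotent
  refine CoprimeBasic.commutator_eq_bot_of_le_frattini
    (IsPGroup.coprime_card_of_ne 2 p p2.symm _ _ hA hQ) (h.trans ?_)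
  rw [← map_subtype_commutator]
  exact map_mono FrattiniFacts.commutator_le_frattini

theorem cent_of_three {G : Type*} [Group G] {K : Subgroup G} (h3 : Nat.card K = 3) {y : G}
    (hy : y ∈ normalizer (K : Set G)) (ho : Odd (orderOf y)) : y ∈ centralizer (K : Set G) := by
  haveI : Finite K := Nat.finite_of_card_ne_zero (by omega)
  haveI : IsCyclic K := isCyclic_of_prime_card (p := 3) h3
  have h1 : Nat.card (MulAut K) = 2 := by rw [IsCyclic.card_mulAut, h3]; decide
  have h2 : (⟨y, hy⟩ : normalizer (K : Set G)) ^ 2 ∈ K.normalizerMonoidHom.ker := by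
    rw [MonoidHom.mem_ker, map_pow, ← h1, pow_card_eq_one']
  rw [normalizerMonoidHom_ker] at h2
  exact mem_of_pow_mem_of_coprime (Nat.coprime_two_right.2 ho) (mem_subgroupOf.1 h2)

theorem conj_X {G : Type*} [Group G] {H : Subgroup G} {g : G} (hg : g ∈ H) (s : G) :
    (X H s) ^ᶜ g = X H (g * s * g⁻¹) := by
  rw [X, X, conj_commutator, conj_zpowers, conj_eq_of_mem_normalizer (le_normalizer_pCoreOf 3 H hg)]

theorem faith_core {G : Type*} [Group G] {V H Q : Subgroup G} (h : Faith V H) (hQ : Q ≤ H)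
    (hn : H ≤ normalizer (Q : Set G)) {p : ℕ} (hp : p.Prime) (p2 : p ≠ 2) (pQ : IsPGroup p Q) {t : G}
    (ht : t ∈ H) (htv : Tv V t) (hne : ⁅Q, zpowers t⁆ ≠ ⊥)
    (irr : ∀ Y : Subgroup G, H ≤ normalizer (Y : Set G) → Y ≤ Q → Y = Q ∨ Y ≤ ⁅Q, Q⁆)
    (hc : ⁅Q, Q⁆ = ⊥ → Nat.card Q ∣ p ^ 2) {y : G} (hy : y ∈ H) (ho : Odd (orderOf y)) :
    y ∈ centralizer (Q : Set G) := by
  haveI := h.finV
  haveI := h.finH
  haveI := Fact.mk hp
  haveI : Finite Q := finite_of_le hQ
  haveI : Finite (zpowers t) := finite_of_le (zpowers_le.2 ht)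
  have hQt : ⁅Q, zpowers t⁆ ≤ Q := commutator_le_left_of_le_normalizer ((zpowers_le.2 ht).trans hn)
  obtain ⟨x, hx, hxt⟩ : ∃ x ∈ Q, x * t ≠ t * x := by
    by_contra hh
    push Not at hh
    refine hne (commutator_eq_bot_iff_le_centralizer'.2 (zpowers_le.2 (mem_centralizer_iff.2 hh)))
  have hx' : ⁅x, t⁆ ∈ Q := hQt (commutator_mem_commutator hx (mem_zpowers t))
  have hne' : zpowers ⁅x, t⁆ ≠ ⊥ := fun e =>
    hxt (commutatorElement_eq_one_iff_mul_comm.1 (zpowers_eq_bot.1 e))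
  have h1 : (centralizer (zpowers ⁅x, t⁆ : Set G)).relIndex V ≤ 4 := by
    refine (relIndex_le_of_le_left (Faith.inf_le_centralizer x t)
      (relIndex_ne_zero_of_finite _ _)).trans (relIndex_inf_le.trans ?_)
    rw [htv.2, (htv.conj (h.norm (hQ hx))).2]
  obtain ⟨h2, -⟩ := h.small p2 (zpowers_le.2 (hQ hx')) (pQ.to_le (zpowers_le.2 hx')) hne' (by omega) (Or.inr h1)
  obtain rfl : p = 3 := by
    haveI : Finite (zpowers ⁅x, t⁆) := finite_of_le (zpowers_le.2 hx')
    have h4 := dvd_card_of_isPGroup_of_ne_bot (pQ.to_le (zpowers_le.2 hx')) hne'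
    rw [h2] at h4
    exact (Nat.prime_dvd_prime_iff_eq hp Nat.prime_three).1 h4
  have hQ3 : Q ≤ pCoreOf 3 H := le_pCoreOf hQ hn pQ
  have hX : ⁅Q, zpowers t⁆ = X H t :=
    (Faith.eq_bot_or_eq_of_card (h.card_X ht htv) (commutator_mono hQ3 le_rfl)).resolve_left hne
  have hm : ∀ g ∈ H, g * t * g⁻¹ ∈ H := fun g hg => mul_mem (mul_mem hg ht) (inv_mem hg)
  have hv : ∀ g ∈ H, Tv V (g * t * g⁻¹) := fun g hg => htv.conj (h.norm hg)
  have hle : ∀ g ∈ H, X H (g * t * g⁻¹) ≤ Q := fun g hg => by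
    rw [← conj_X hg]
    exact conj_le_of_mem_normalizer (hX ▸ hQt) (hn hg)
  have hcj : ∀ g ∈ H, ∀ k ∈ H, (X H (g * t * g⁻¹)) ^ᶜ k = X H ((k * g) * t * (k * g)⁻¹) := fun g _ k hk => by
    rw [conj_X hk]
    congr 1
    group
  have hN : (⨆ g : H, X H (g * t * (g : G)⁻¹)) = Q := by
    refine (irr _ (le_normalizer_iff_conj_le.2 fun k hk => ?_) (iSup_le fun g : H => hle g g.2)).resolve_right
      fun hh => hne (burn hp p2 pQ (isPGroup_zpowers (k := 1) (h.sq_eq ht htv)) ?_)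
    · rw [conj_iSup]
      refine iSup_le fun g => ?_
      rw [hcj g g.2 k hk]
      exact le_iSup (fun g : H => X H (g * t * (g : G)⁻¹)) ⟨k * g, mul_mem hk g.2⟩
    · refine le_trans ?_ hh
      rw [hX]
      refine le_trans (le_of_eq ?_) (le_iSup (fun g : H => X H (g * t * (g : G)⁻¹)) 1)
      simp
  have h9 : Nat.card Q ∣ 3 ^ 2 := hc (commutator_eq_bot_iff_le_centralizer.2 (by
    conv_lhs => rw [← hN]
    exact iSup_le fun g => le_centralizer_iff.1 (hQ3.trans (h.le_centralizer_X (hm g g.2) (hv g g.2)))))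
  rw [mem_centralizer_iff_le, ← hN]
  refine iSup_le fun g => mem_centralizer_iff_le.1 (cent_of_three (h.card_X (hm g g.2) (hv g g.2)) ?_ ho)
  by_contra hyn
  have hg := g.2
  have hg1 : y * g ∈ H := mul_mem hy hg
  have hg2 : y * (y * g) ∈ H := mul_mem hy hg1
  have e1 := hcj g hg y hy
  have e2 := hcj _ hg1 y hy
  have n1 : X H (g * t * (g : G)⁻¹) ≠ X H ((y * g) * t * (y * g)⁻¹) := fun e =>
    hyn (mem_normalizer_iff_conj_eq.2 (e1.trans e.symm))
  have n2 : X H ((y * (y * g)) * t * (y * (y * g))⁻¹) ≠ X H ((y * g) * t * (y * g)⁻¹) := fun e =>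
    n1 (conj_inj.1 (e1.trans (e.symm.trans e2.symm)))
  have n3 : X H ((y * (y * g)) * t * (y * (y * g))⁻¹) ≠ X H (g * t * (g : G)⁻¹) := fun e => by
    refine hyn (mem_of_pow_mem_of_coprime (Nat.coprime_two_right.2 ho) (mem_normalizer_iff_conj_eq.2 ?_))
    rw [sq, ← conj_conj, e1, e2, e]
  have hs : X H (g * t * (g : G)⁻¹) ⊔ X H ((y * g) * t * (y * g)⁻¹) = Q := by
    have l1 := sup_le (hle g hg) (hle _ hg1)
    refine eq_of_le_of_card_le l1 ?_
    haveI := finite_of_le l1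
    obtain ⟨i, hi, ei⟩ := (Nat.dvd_prime_pow Nat.prime_three).1 ((card_dvd_of_le l1).trans h9)
    have c1 := h.card_X (hm g hg) (hv g hg)
    have c2 := h.card_X (hm _ hg1) (hv _ hg1)
    by_cases hi2 : i = 2
    · rw [ei, hi2]
      exact Nat.le_of_dvd (by norm_num) h9
    · have : 3 ^ i ≤ 3 := by
        calc 3 ^ i ≤ 3 ^ 1 := Nat.pow_le_pow_right (by norm_num) (by omega)
          _ = 3 := by norm_num
      exact absurd ((eq_of_le_of_card_le le_sup_left (by rw [ei, c1]; exact this)).trans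
        (eq_of_le_of_card_le le_sup_right (by rw [ei, c2]; exact this)).symm) n1
  have f1 := le_sup_left.trans (h.far_le_C (hm _ hg2) (hv _ hg2) (hm g hg) (hv g hg)
    fun e => n3 (h.near (hm _ hg2) (hv _ hg2) (hm g hg) (hv g hg) e).1)
  have f2 := le_sup_left.trans (h.far_le_C (hm _ hg2) (hv _ hg2) (hm _ hg1) (hv _ hg1)
    fun e => n2 (h.near (hm _ hg2) (hv _ hg2) (hm _ hg1) (hv _ hg1) e).1)
  have f3 := le_centralizer_iff.1 ((hle _ hg2).trans (hs.ge.trans (sup_le f1 f2)))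
  exact h.W_ne_bot (hm _ hg2) (hv _ hg2) ((inf_eq_left.2 f3).symm.trans (h.W_inf (hm _ hg2) (hv _ hg2)))

section Core

variable {H : Type*} [Group H] [Finite H] {p : ℕ} {X T P : Subgroup H} [X.Normal]

instance normO : (pCoreOf 2 X).Normal := normal_iff_top_le.2 (le_normalizer_pCoreOf_of le_normalizer_of_normal)

theorem pP (h : Xg p X T P) : IsPGroup p P := fun x => ⟨1, Subtype.ext (by rw [pow_one]; exact h.ex x x.2)⟩

theorem O_le (hT : IsSylowIn 2 T ⊤) : pCoreOf 2 X ≤ T :=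
  (le_pCoreOf le_top le_normalizer_of_normal (pCoreOf_isPGroup 2 X)).trans hT.pCoreOf_le

theorem L1 (h : Xg p X T P) (hT : IsSylowIn 2 T ⊤) (hZ : ¬ X ≤ centralizer (omegaOneCenter 2 T : Set H))
    {C : Subgroup H} (h1 : X ⊔ T ≤ normalizer (C : Set H)) (h2 : C ≤ centralizer (omegaOneCenter 2 T : Set H)) :
    X ⊓ C ≤ pCoreOf 2 X ⊔ ⁅P, P⁆ := by
  have hn : X ⊔ T ≤ normalizer ((X ⊓ C : Subgroup H) : Set H) := PCoreConj.le_normalizer_inf le_normalizer_of_normal h1
  rcases h.irr (pCoreOf 2 X ⊔ (X ⊓ C)) (le_normalizer_sup le_normalizer_of_normal hn) with e | e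
  · refine absurd (h.XO.le.trans (sup_le ((O_le hT).trans (le_centralizer_omegaOneCenter 2 T)) fun q hq => ?_)) hZ
    obtain ⟨k, hk⟩ := exists_pow_mem_of_mem_sup (p := 2) ((pCoreOf_le 2 X).trans (le_sup_left.trans hn))
      (fun a ha => (isPGroup_iff_forall_mem.1 (pCoreOf_isPGroup 2 X) a ha).imp
        fun k (hk : a ^ 2 ^ k = 1) => by rw [hk]; exact one_mem _) (e hq)
    refine h2 (mem_of_pow_mem_of_coprime ?_ hk.2)
    exact Nat.Coprime.pow_right k (Nat.Coprime.coprime_dvd_left (orderOf_dvd_of_pow_eq_one (h.ex q hq))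
      ((Nat.coprime_primes h.hp Nat.prime_two).2 h.p2))
  · intro x hx
    have hx1 : x ∈ P ⊔ pCoreOf 2 X := by rw [sup_comm, ← h.XO]; exact hx.1
    obtain ⟨q, hq, o, ho, rfl⟩ := (mem_sup_iff_of_le_normalizer le_normalizer_of_normal).1 hx1
    refine mul_mem (mem_sup_right (e ⟨hq, ?_⟩)) (mem_sup_left ho)
    have := mul_mem (mem_sup_right (S := pCoreOf 2 X) hx) (mem_sup_left (T := X ⊓ C) (inv_mem ho))
    rwa [mul_inv_cancel_right] at this

theorem map_X (h : Xg p X T P) {K : Type*} [Group K] (f : H →* K) (hf : pCoreOf 2 X ≤ f.ker) :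
    X.map f = P.map f := by
  conv_lhs => rw [h.XO]
  rw [Subgroup.map_sup, (Subgroup.map_eq_bot_iff _).2 hf, bot_sup_eq]

theorem L2 (h : Xg p X T P) {A : Subgroup H} (hA : IsPGroup 2 A) (h1 : ⁅X, A⁆ ≤ pCoreOf 2 X ⊔ ⁅P, P⁆) :
    ⁅X, A⁆ ≤ pCoreOf 2 X := by
  let π := QuotientGroup.mk' (pCoreOf 2 X)
  have hk : π.ker = pCoreOf 2 X := QuotientGroup.ker_mk' _
  have e := map_X h π hk.ge
  rw [← hk, ← Subgroup.map_eq_bot_iff, map_commutator, e]
  refine burn h.hp h.p2 ((pP h).map π) (hA.map π) ?_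
  have := map_mono (f := π) h1
  rwa [Subgroup.map_sup, (Subgroup.map_eq_bot_iff _).2 hk.ge, bot_sup_eq, map_commutator, map_commutator, e] at this

theorem L3 (h : Xg p X T P) (hT : IsSylowIn 2 T ⊤) (hZ : ¬ X ≤ centralizer (omegaOneCenter 2 T : Set H))
    {C : Subgroup H} (h1 : X ⊔ T ≤ normalizer (C : Set H)) (h2 : C ≤ centralizer (omegaOneCenter 2 T : Set H))
    {A : Subgroup H} (hA : A ≤ T) (h3 : ⁅X, A⁆ ≤ C) : ⁅X, A⁆ ≤ pCoreOf 2 X :=
  L2 h (hT.isPGroup.to_le hA) ((le_inf (commutator_le_left _ _) h3).trans (L1 h hT hZ h1 h2))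

/-- the kernel of the action on `X / O₂(X)` -/
def D (X : Subgroup H) [X.Normal] : Subgroup H :=
  (centralizer ((X.map (QuotientGroup.mk' (pCoreOf 2 X)) : Subgroup _) : Set (H ⧸ pCoreOf 2 X))).comap
    (QuotientGroup.mk' (pCoreOf 2 X))

theorem le_D {A : Subgroup H} : A ≤ D X ↔ ⁅X, A⁆ ≤ pCoreOf 2 X := by
  rw [D, ← map_le_iff_le_comap, ← commutator_eq_bot_iff_le_centralizer', ← map_commutator,
    Subgroup.map_eq_bot_iff, QuotientGroup.ker_mk']

theorem normD : (D X).Normal := by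
  haveI := (inferInstance : X.Normal).map _ (QuotientGroup.mk'_surjective (pCoreOf 2 X))
  exact Subgroup.Normal.comap inferInstance _

theorem core (hs : Group.IsSolvable H) (hc : CharPIn 2 (⊤ : Subgroup H)) (h : Xg p X T P)
    (hT : IsSylowIn 2 T ⊤) (hZ : ¬ X ≤ centralizer (omegaOneCenter 2 T : Set H)) {T₀ : Subgroup H} {y : H}
    (h0 : T₀ ≤ T) (ho : Odd (orderOf y)) (hy : y ∈ normalizer (T₀ : Set H))
    (hn : ¬ ⁅⁅T₀, zpowers y⁆, X⁆ ≤ pCoreOf 2 X) : X ≤ normalizer (Blk.Bm 2 T : Set H) := by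
  obtain ⟨V, hV, hZV⟩ : ∃ V : Subgroup H, IsPRed 2 V ⊤ ∧ omegaOneCenter 2 T ≤ V :=
    ⟨_, isPRed_largest 2 ⊤, omegaOneCenter_le_largest hc hT⟩
  haveI : V.Normal := normal_iff_top_le.2 hV.norm
  have hr : Red V := ⟨inferInstance, hs, hV.elem.2, hV.red.2⟩
  have hVT : V ≤ T := hV.le_pCoreOf.trans hT.pCoreOf_le
  have hO : pCoreOf 2 X ≤ (ψ V).ker := by
    rw [ker_ψ]
    exact (le_pCoreOf le_top le_normalizer_of_normal (pCoreOf_isPGroup 2 X)).trans hV.red.pCoreOf_le
  have hL : ∀ A ≤ T, ⁅X, A⁆ ≤ centralizer (V : Set H) → ⁅X, A⁆ ≤ pCoreOf 2 X := fun A hA h3 =>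
    L3 h hT hZ le_normalizer_of_normal (centralizer_anti hZV) hA h3
  have eX := map_X h (ψ V) hO
  have hXn : (⊤ : Subgroup H).map (ψ V) ≤ normalizer ((X.map (ψ V) : Subgroup (Hol V)) : Set (Hol V)) :=
    le_normalizer_map _ le_normalizer_of_normal
  have hJ : J 2 T ≤ D X := by
    refine J_le_iff.2 fun A hA => ?_
    obtain ⟨h1, -⟩ := hr.offender (A := A) (fun a ha => by rw [hA.abExp.pow ha]; exact one_mem _)
      fun B hB => (JComp.card_mul_le hA hB (inf_le_left.trans hVT) (fun u hu => hr.sq u hu.1)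
        inf_le_right).trans (Nat.mul_le_mul_left _ (card_le_of_le (le_inf
          (inf_le_right.trans inf_le_left) ((inf_le_left.trans hB).trans hA.abExp.le_centralizer))))
    refine h1.trans (sup_le ((closure_le _).2 ?_) (le_D.2 (hL _ (inf_le_left.trans hA.le)
      ((commutator_mono le_rfl inf_le_right).trans (commutator_le_right _ _)))))
    rintro t ⟨ht, htv⟩
    refine zpowers_le.1 (le_D.2 (hL _ (zpowers_le.2 (hA.le ht)) ?_))
    by_contra hh
    have key := faith_core hr.faith (Q := X.map (ψ V)) (map_mono le_top) hXn h.hp h.p2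
      (by rw [eX]; exact (pP h).map _) (mem_range t) (tv_iff.2 htv)
      (by rwa [← MonoidHom.map_zpowers, ← map_commutator, Ne, Subgroup.map_eq_bot_iff, ker_ψ])
      (fun Y hY hYQ => by
        rcases h.irr (Y.comap (ψ V)) (le_top.trans ((le_comap_map _ _).trans (le_normalizer_comap _ hY))) with e | e
        · exact Or.inl (le_antisymm hYQ (by rw [eX]; exact map_le_iff_le_comap.2 e))
        · right
          intro z hz
          obtain ⟨q, hq, rfl⟩ := eX.le (hYQ hz)
          rw [eX, ← map_commutator]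
          exact mem_map_of_mem _ (e ⟨hq, hz⟩))
      (fun e => by
        rw [eX, ← map_commutator, Subgroup.map_eq_bot_iff, ker_ψ] at e
        obtain ⟨m, hm⟩ := card_dvd_of_le (le_inf (commutator_le_left_of_le_normalizer le_normalizer) e)
        have h5 := card_map_mul (V := V) P
        rw [hm, h.cP, mul_comm (Nat.card ↥⁅P, P⁆) m, ← mul_assoc] at h5
        rw [eX]
        exact Dvd.intro m (Nat.eq_of_mul_eq_mul_right Nat.card_pos h5))
      (mem_range y) (Odd.of_dvd_nat ho (orderOf_map_dvd _ _))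
    have hE : ((centralizer ((X.map (ψ V) : Subgroup (Hol V)) : Set (Hol V))).comap (ψ V)).Normal :=
      normal_iff_top_le.2 ((le_comap_map _ _).trans (le_normalizer_comap _ (PCoreConj.le_normalizer_centralizer hXn)))
    have h6 : ⁅T₀, zpowers y⁆ ≤ (centralizer ((X.map (ψ V) : Subgroup (Hol V)) : Set (Hol V))).comap (ψ V) :=
      (commutator_mono le_rfl (zpowers_le.2 (mem_comap.2 key))).trans (commutator_le_right _ _)
    rw [← map_le_iff_le_comap, ← commutator_eq_bot_iff_le_centralizer', ← map_commutator,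
      Subgroup.map_eq_bot_iff, ker_ψ] at h6
    rw [commutator_comm] at hn
    exact hn (hL _ ((commutator_le_left_of_le_normalizer (zpowers_le.2 hy)).trans h0) h6)
  have hR : X ≤ normalizer ((T ⊓ D X : Subgroup H) : Set H) := by
    refine le_normalizer_of_commutator_le ?_
    rw [commutator_comm]
    exact (le_D.1 inf_le_right).trans (le_inf (O_le hT) (le_D.2 (commutator_le_right _ _)))
  have hJ' : J 2 T ≤ T ⊓ D X := le_inf (J_le 2 T) hJ
  have hZ0 : X ≤ normalizer (centralizer (ZJ 2 T : Set H) : Set H) := by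
    rw [← ZJ_eq_of_J_le hJ' inf_le_left]
    exact PCoreConj.le_normalizer_centralizer (hR.trans (normalizer_le_normalizer_ZJ 2 _))
  have hB : Blk.Bm 2 T ≤ T ⊓ D X := le_inf (Blk.Bm_le 2 T) (le_D.2 (L3 h hT hZ
    (sup_le hZ0 (PCoreConj.le_normalizer_centralizer (le_normalizer.trans (normalizer_le_normalizer_ZJ 2 T))))
    (centralizer_anti (Blk.omegaOneCenter_le_ZJ 2 T)) (Blk.Bm_le 2 T)
    ((commutator_mono le_rfl (Blk.Bm_le_cent 2 T)).trans (commutator_le_right_of_le_normalizer hZ0))))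
  rw [← Blk.Bm_eq_of_le hB inf_le_left]
  exact hR.trans (Blk.normalizer_le_normalizer_Bm 2 _)

end Core

theorem xg_of_map {H G : Type*} [Group H] [Group G] {f : H →* G} (hf : Function.Injective f) {p : ℕ}
    {X T P : Subgroup H} (h : Xg p (X.map f) (T.map f) (P.map f)) : Xg p X T P where
  hp := h.hp
  p2 := h.p2
  PX := (map_le_map_iff_of_injective hf).1 h.PX
  ex := fun x hx => hf (by rw [map_pow, h.ex _ (mem_map_of_mem f hx), map_one])
  cP := by
    have := h.cP
    rwa [← map_commutator, card_map_of_injective hf, card_map_of_injective hf] at this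
  cD := by
    have := h.cD
    rwa [← map_commutator, card_map_of_injective hf] at this
  XO := map_injective hf (by rw [Subgroup.map_sup, map_pCoreOf_of_injective hf]; exact h.XO)
  gen := fun Y h1 h2 => (map_le_map_iff_of_injective hf).1 (h.gen _ (le_normalizer_map f h1) (map_mono h2))
  irr := fun Y h1 => by
    rcases h.irr (Y.map f) (by rw [← Subgroup.map_sup]; exact le_normalizer_map f h1) with e | e
    · exact Or.inl ((map_le_map_iff_of_injective hf).1 e)
    · right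
      rw [← Subgroup.map_inf _ _ _ hf, ← map_commutator] at e
      exact (map_le_map_iff_of_injective hf).1 e

instance instQX2 : QZ.QX2.{u} where
  out := by
    intro G _ _ T hyp M hTM hM T₀ y h0 hyM ho hy X hX hXM hMX hn hZ
    obtain ⟨p, P, hg⟩ := xg hX
    have hf := M.subtype_injective
    have eX := subgroupOf_map_subtype_of_le hXM
    have eT := subgroupOf_map_subtype_of_le hTM
    have e0 := subgroupOf_map_subtype_of_le (h0.trans hTM)
    have eP := subgroupOf_map_subtype_of_le (hg.PX.trans hXM)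
    haveI : (X.subgroupOf M).Normal := normal_subgroupOf_of_le hMX
    have key := core (X := X.subgroupOf M) (T := (T : Subgroup G).subgroupOf M) (P := P.subgroupOf M) (p := p)
      (T₀ := T₀.subgroupOf M) (y := ⟨y, hyM⟩) (hyp.solv M hTM hM)
      (charPIn_top_iff.2 (charPIn_iff.2 (hyp.ch2 M hTM hM)))
      (xg_of_map hf (by rw [eX, eT, eP]; exact hg))
      (JComp.isSylowIn_of_map hf (by
        rw [eT, ← MonoidHom.range_eq_map, range_subtype]
        exact (isSylowIn_top T).of_le hTM le_top))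
      (fun e => hZ (by
        have := (map_mono (f := M.subtype) e).trans (map_centralizer_subtype _).le
        rw [eX, JComp.map_omegaOneCenter hf, eT] at this
        exact this.trans inf_le_right))
      (subgroupOf_mono M h0) (by rwa [← orderOf_injective M.subtype hf])
      (le_normalizer_subgroupOf (zpowers_le.2 hy) M (mem_subgroupOf.2 (mem_zpowers y)))
      (fun e => hn (by
        have := map_mono (f := M.subtype) e
        rwa [map_commutator, map_commutator, MonoidHom.map_zpowers, map_pCoreOf_of_injective hf, eX, e0] at this))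
    have := le_normalizer_map M.subtype key
    rwa [eX, Blk.map_Bm hf, eT, ← Blk.baumann_eq] at this

end Cfsg.Agent.Lib.QZX2
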