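import Cfsg.Agent.Lib.QZDefs
import Cfsg.Agent.Lib.FFSolv
import Cfsg.Agent.Lib.CoprimeBasic
import Cfsg.Agent.Lib.PCoreResidual

/-! The piece `QY` of S1833. -/

set_option autoImplicit false

namespace Cfsg.Agent.Lib.QZY

open Subgroup Cfsg Cfsg.Agent.Lib.PCoreConj Cfsg.Agent.Lib.PCore Cfsg.Agent.Lib.PCoreResidual
open scoped Pointwise commutatorElement

local notation "C(" X ")" => centralizer (SetLike.coe (X : Subgroup _))
local notation "N(" X ")" => normalizer (SetLike.coe (X : Subgroup _))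

universe u

theorem key {Γ : Type*} [Group Γ] [Finite Γ] [Group.IsSolvable Γ] {T V : Subgroup Γ} [V.Normal]
    (hT : IsSylowIn 2 T ⊤) (hV : IsPGroup 2 V) (hc : V ≤ C(V))
    (hZ : ∀ v ∈ V, v ∈ C(T) → v ^ 2 = 1 → v ∈ center Γ)
    (h : ∀ T₀ ≤ T, ∀ y : Γ, Odd (orderOf y) → y ∈ N(T₀) → ⁅T₀, zpowers y⁆ ≤ C(V)) :
    ∀ y : Γ, Odd (orderOf y) → y ∈ C(V) := by
  have nm : ∀ (X : Subgroup Γ) [X.Normal] (Y : Subgroup Γ), Y ≤ N(X) :=
    fun X hX _ => le_top.trans (normal_iff_top_le.mp hX)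
  let f := QuotientGroup.mk' C(V)
  have hf : ∀ x, f x = 1 ↔ x ∈ C(V) := fun x => QuotientGroup.eq_one_iff x
  have hs : Function.Surjective f := QuotientGroup.mk'_surjective _
  have dec : ∀ (r : ℕ) [Fact r.Prime] (R : Subgroup Γ), IsSylowIn r R ((pCore r (Γ ⧸ C(V))).comap f) →
      C(V) ⊔ R = (pCore r (Γ ⧸ C(V))).comap f := fun r _ R hR =>
    hR.sup_eq_of_pow_mem (fun x hx => by rw [mem_comap, (hf x).mpr hx]; exact one_mem _) (nm _ _) fun x hx => by
      obtain ⟨k, hk⟩ := isPGroup_iff_forall_mem.mp (pCore_isPGroup r _) _ hx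
      exact ⟨k, (hf _).mp (by rw [map_pow, hk])⟩
  have h₁ : ∀ r : ℕ, r.Prime → r ≠ 2 → pCore r (Γ ⧸ C(V)) = ⊥ := fun r hr h2 => by
    have := Fact.mk hr
    obtain ⟨R, hR⟩ := exists_isSylowIn r ((pCore r (Γ ⧸ C(V))).comap f)
    have e := dec r R hR
    set B := (pCore r (Γ ⧸ C(V))).comap f with hB
    have a₁ : ⁅V, B⁆ ≤ ⁅V, R⁆ := by
      rw [← e]
      exact commutator_sup_le (le_normalizer_of_le_centralizer (centralizer_anti (commutator_le_left V R)))
        (le_normalizer_commutator (nm _ _) le_normalizer)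
        ((commutator_eq_bot_iff_le_centralizer'.mpr le_rfl).le.trans bot_le) le_rfl
    have a₂ : ⁅V, B⁆ = ⊥ := by
      by_contra hn
      obtain ⟨x, hx, hxc, hx1, hx2⟩ := exists_mem_centralizer_pow_eq_one hT.isPGroup
        (hV.to_le (commutator_le_left V B)) (nm _ _) hn
      have : IsMulCommutative V := ⟨⟨fun a b => Subtype.ext (hc b.2 a a.2)⟩⟩
      have a₃ := CoprimeBasic.centralizer_inf_commutator_eq_bot (A := R) (K := V) (nm _ _)
        (IsPGroup.coprime_card_of_ne r 2 h2 R V hR.isPGroup hV)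
      exact hx1 (mem_bot.mp (a₃.le ⟨center_le_centralizer _ (hZ x (commutator_le_left V B hx) hxc hx2), a₁ hx⟩))
    refine eq_bot_iff.mpr fun x hx => ?_
    obtain ⟨g, rfl⟩ := hs x
    exact mem_bot.mpr ((hf g).mpr (commutator_eq_bot_iff_le_centralizer'.mp a₂ hx))
  have h₂ : ∀ x : Γ ⧸ C(V), Odd (orderOf x) → x ∈ C(pCore 2 (Γ ⧸ C(V))) := fun x hx => by
    have hS := hT.inf_normal (N := (pCore 2 (Γ ⧸ C(V))).comap f) le_top (nm _ _)
    have e := dec 2 _ hS
    set T₀ := T ⊓ (pCore 2 (Γ ⧸ C(V))).comap f with hT₀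
    have lift : ∀ n ∈ (pCore 2 (Γ ⧸ C(V))).comap f, ∃ t ∈ T₀, f t = f n := fun n hn => by
      obtain ⟨d, hd, t, ht, rfl⟩ := (mem_sup_iff_of_le_normalizer' (nm _ _)).mp (e.ge hn)
      exact ⟨t, ht, by rw [map_mul, (hf d).mpr hd, one_mul]⟩
    obtain ⟨g, rfl⟩ := hs x
    obtain ⟨n, hn, w, hw, rfl⟩ := hS.frattini (g := g) (nm _ ⊤ (mem_top g))
    obtain ⟨t, ht, e₁⟩ := lift n hn
    have e₂ : f (n * w) = f (t * w) := by rw [map_mul, map_mul, e₁]
    rw [e₂] at hx ⊢
    obtain ⟨b, hb, ho, e₃⟩ := exists_preimage_coprime (p := 2) f (isOfFinOrder_of_finite (t * w))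
      (Nat.coprime_two_right.mpr hx)
    have a := h T₀ inf_le_left b (Nat.coprime_two_right.mp ho)
      (zpowers_le_of_mem (mul_mem (le_normalizer ht) hw) hb)
    intro q hq
    obtain ⟨q, rfl⟩ := hs q
    obtain ⟨s, hs', e₄⟩ := lift q hq
    rw [← e₃, ← e₄, ← commutatorElement_eq_one_iff_mul_comm, ← map_commutatorElement]
    exact (hf _).mpr (a (commutator_mem_commutator hs' (mem_zpowers b)))
  intro y hy
  by_contra hn
  have ho : Odd (orderOf (f y)) := hy.of_dvd_nat (orderOf_map_dvd f y)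
  obtain ⟨r, hr, hd⟩ := Nat.exists_prime_and_dvd (n := orderOf (f y)) fun e => hn ((hf y).mp (orderOf_eq_one_iff.mp e))
  have h2 : r ≠ 2 := by
    rintro rfl
    exact (Nat.not_even_iff_odd.mpr ho) (even_iff_two_dvd.mpr hd)
  have hor : orderOf (f y ^ (orderOf (f y) / r)) = r := orderOf_pow_orderOf_div (orderOf_pos _).ne' hd
  have := FFSolv.eq_bot_of_forall_le_centralizer (H := ⊤) (A := zpowers (f y ^ (orderOf (f y) / r))) (p := r)
    (by rw [pCoreOf_top, h₁ r hr h2]) le_top (isPGroup_zpowers_of_orderOf (k := 1) (by rw [hor, pow_one]))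
    fun q hq => by
      rw [pCoreOf_top]
      by_cases hq2 : q = 2
      · subst hq2
        exact zpowers_le_of_mem (pow_mem (h₂ _ ho) _)
      · rw [h₁ q hq hq2, centralizer_bot']
        exact le_top
  rw [zpowers_eq_bot.mp this, orderOf_one] at hor
  exact hr.ne_one hor.symm

instance instQY : QZ.QY.{u} where
  out := fun {G} _ _ T hyp M hM hO => by
    set Z := omegaOneCenter 2 (T : Subgroup G) with hZ
    by_contra! hh
    obtain ⟨hn, h⟩ := hh
    have hTC : (T : Subgroup G) ≤ C(Z) := le_centralizer_omegaOneCenter 2 _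
    have hTM := hTC.trans hM
    have hQT : pCoreOf 2 M ≤ T := (isSylowIn_of_sylow_le T hTM).pCoreOf_le
    have hZC : Z ≤ C(pCoreOf 2 M) := (omegaOneCenter_le_centralizer 2 _).trans (centralizer_anti hQT)
    have hZQ : Z ≤ pCoreOf 2 M := (le_inf ((omegaOneCenter_le 2 _).trans hTM) hZC).trans (hyp.ch2 M hTM hO)
    set V := nclIn Z M with hV
    have hMV : M ≤ N(V) := le_normalizer_nclIn Z M
    have hVQ : V ≤ pCoreOf 2 M := nclIn_le hZQ (le_normalizer_pCoreOf 2 M)
    have hVC : V ≤ C(pCoreOf 2 M) := nclIn_le_centralizer (le_normalizer_pCoreOf 2 M) hZC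
    have hVZ : V ≤ C(Z) := hVQ.trans (hQT.trans hTC)
    have := hyp.solv M hTM hO
    have := CoprimeBasic.solvable_of_le hM
    have := normal_subgroupOf_of_le (hM.trans hMV)
    have k := key (T := (T : Subgroup G).subgroupOf C(Z)) (V := V.subgroupOf C(Z))
      (by simpa using (isSylowIn_of_sylow_le T hTC).subgroupOf le_rfl)
      (isPGroup_subgroupOf ((pCoreOf_isPGroup 2 M).to_le hVQ) _)
      (by rw [centralizer_subgroupOf hVZ]; exact comap_mono (hVC.trans (centralizer_anti hVQ)))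
      (fun v hv hvT hv2 => by
        rw [centralizer_subgroupOf hTC] at hvT
        have : (v : G) ∈ Z := mem_omegaOneCenter_iff.mpr ⟨hQT (hVQ hv), hvT, by simpa using congrArg Subtype.val hv2⟩
        exact mem_center_iff.mpr fun g => Subtype.ext (g.2 _ this).symm)
      (fun T₀ hT₀ y hy hyN => by
        have a := h (T₀.map (C(Z)).subtype) y (map_le_iff_le_comap.mpr hT₀) (hM y.2) (by simpa using hy)
          (by rw [normalizer_eq_subgroupOf] at hyN; exact hyN)
        rw [centralizer_subgroupOf hVZ]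
        refine commutator_le.mpr fun t ht x hx => ?_
        obtain ⟨n, rfl⟩ := mem_zpowers_iff.mp hx
        exact le_centralizer_iff.mp hVC (a (commutator_mem_commutator (mem_map_of_mem _ ht)
          (zpow_mem (mem_zpowers (y : G)) n))))
    have hE : pResidualOf 2 C(Z) ≤ M ⊓ C(V) := le_inf ((pResidualOf_le 2 _).trans hM)
      (pResidualOf_le_iff.mpr fun x hx ho => by
        have := k ⟨x, hx⟩ (by simpa using Nat.coprime_two_right.mp ho)
        rwa [centralizer_subgroupOf hVZ] at this)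
    refine hn ?_
    rw [← pResidualOf_eq_of_le hE (inf_le_right.trans (centralizer_anti (le_nclIn Z M)))]
    exact le_normalizer_pResidualOf_of (le_normalizer_inf le_normalizer (le_normalizer_centralizer hMV))

end Cfsg.Agent.Lib.QZY
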