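/-
The numerical inequality for the principal block in the situation of `U₃(4)`.
-/
import Mathlib

set_option autoImplicit false

namespace Cfsg.Agent.Lib.R2Ly

def Bs (x y w : ℤ) : ℤ := 235 * (20 * x ^ 2 + y ^ 2 + 4 * (5 * w - y) ^ 2) + (20 * x + y + 16 * (5 * w - y)) ^ 2

def Qf (x y w : ℤ) : ℤ := -8 * x ^ 2 - 128 * (x * y) + 432 * (x * w) + 144 * y ^ 2 - 1080 * (y * w) + 2901 * w ^ 2

def Lf (x y w : ℤ) : ℤ := 5000 * x + 4161 * (5 * w - y)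

def Ok (x y n : ℤ) : Prop := 0 ≤ 64 * n - 3 * y - 60 * x ∧ 4 * x ≤ 64 * n - 60 * x ∧ y ≤ 64 * n - 3 * y - 60 * x

instance (x y n : ℤ) : Decidable (Ok x y n) := by unfold Ok; infer_instance

def Chk (x y w : ℤ) : Prop := (x - y) % 4 = 0 → Bs x y w ≤ 75200 → 0 ≤ Qf x y w ∧ Ok x y 5 ∧ ∀ n : Fin 6, Ok x y n →
  0 ≤ Qf x y w * (64 * n - 3 * y - 60 * x + 192) + y ^ 2 * Lf x y w ∧ ∀ k : Fin 3, (1 : ℤ) ≤ k →
    33 * ((64 * n - 3 * y - 60 * x) ^ 2 + 128 * k + y ^ 2 - 320) ≤ (64 * n - 3 * y - 60 * x + 64 * k) ^ 2 →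
    0 ≤ Qf x y w * (64 * n - 3 * y - 60 * x + 64 * k) + y ^ 2 * Lf x y w

instance (x y w : ℤ) : Decidable (Chk x y w) := by unfold Chk; infer_instance

theorem chk : ∀ (i : Fin 9) (j : Fin 35) (l : Fin 11), Chk ((i : ℕ) - 4) ((j : ℕ) - 17) ((l : ℕ) - 5) := by
  decide +kernel

/-- The lower bound for the degree. -/
def Bd (x y d : ℤ) : Prop := y = 0 ∨ ∃ n₀ n₁ k : ℕ, d = n₀ + 64 * k ∧ n₀ + 3 * y + 60 * x = 64 * n₁ ∧ 4 * x ≤ n₀ + 3 * y ∧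
  y ≤ n₀ ∧ (3 ≤ k ∨ (1 ≤ k ∧ 33 * ((n₀ : ℤ) ^ 2 + 128 * k + y ^ 2 - 320) ≤ d ^ 2))

theorem point {x y w d : ℤ} (h4 : 4 ∣ x - y) (hB : Bs x y w ≤ 75200) (d0 : 0 < d) (h : Bd x y d) :
    0 ≤ Qf x y w * d + y ^ 2 * Lf x y w := by
  have b := hB
  unfold Bs at b
  have s1 := sq_nonneg (20 * x + y + 16 * (5 * w - y))
  have s2 := sq_nonneg x
  have s3 := sq_nonneg y
  have s4 := sq_nonneg (5 * w - y)
  have x1 : -5 < x ∧ x < 5 := abs_lt.1 (abs_lt_of_sq_lt_sq (by omega) (by omega))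
  have y1 : -18 < y ∧ y < 18 := abs_lt.1 (abs_lt_of_sq_lt_sq (by omega) (by omega))
  have z1 : -9 < 5 * w - y ∧ 5 * w - y < 9 := abs_lt.1 (abs_lt_of_sq_lt_sq (by omega) (by omega))
  have c := chk ⟨(x + 4).toNat, by omega⟩ ⟨(y + 17).toNat, by omega⟩ ⟨(w + 5).toNat, by omega⟩
  simp only at c
  rw [show (((x + 4).toNat : ℕ) : ℤ) - 4 = x by omega, show (((y + 17).toNat : ℕ) : ℤ) - 17 = y by omega,
    show (((w + 5).toNat : ℕ) : ℤ) - 5 = w by omega] at c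
  obtain ⟨q, o5, c⟩ := c (by omega) hB
  obtain rfl | ⟨n₀, n₁, k, rfl, e, h₁, h₂, h₃⟩ := h
  · simpa using mul_nonneg q d0.le
  have mono : ∀ d d' : ℤ, d ≤ d' → 0 ≤ Qf x y w * d + y ^ 2 * Lf x y w → 0 ≤ Qf x y w * d' + y ^ 2 * Lf x y w :=
    fun d d' l e => by have := mul_le_mul_of_nonneg_left l q; omega
  by_cases k3 : 3 ≤ k
  · by_cases n5 : n₁ < 6
    · exact mono _ _ (by simp only; omega) (c ⟨n₁, n5⟩ ⟨by simp only; omega, by simp only; omega, by simp only; omega⟩).1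
    · exact mono _ _ (by simp only; omega) (c ⟨5, by omega⟩ o5).1
  obtain ⟨k1, h₃⟩ := h₃.resolve_left k3
  by_cases n5 : n₁ < 6
  · have e' : (n₀ : ℤ) = 64 * n₁ - 3 * y - 60 * x := by omega
    rw [e'] at h₃ ⊢
    exact (c ⟨n₁, n5⟩ ⟨by simp only; omega, by simp only; omega, by simp only; omega⟩).2 ⟨k, by omega⟩
      (by simp only; omega) h₃
  · have : (93 : ℤ) ≤ n₀ := by omega
    have : k = 1 ∨ k = 2 := by omega
    obtain rfl | rfl := this <;> push_cast at h₃ <;> nlinarith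

theorem final {ι : Type*} (s : Finset ι) (x y w d : ι → ℤ) (h4 : ∀ i ∈ s, 4 ∣ x i - y i) (d0 : ∀ i ∈ s, 0 < d i)
    (h : ∀ i ∈ s, Bd (x i) (y i) (d i)) (xx : ∑ i ∈ s, x i * x i = 15) (xy : ∑ i ∈ s, x i * y i = -1)
    (xw : ∑ i ∈ s, x i * w i = -1) (yy : ∑ i ∈ s, y i * y i = 319) (yw : ∑ i ∈ s, y i * w i = 63)
    (ww : ∑ i ∈ s, w i * w i = 15) (r₁ : ∑ i ∈ s, (y i : ℚ) * y i * x i / d i = -1)
    (r₂ : ∑ i ∈ s, (y i : ℚ) * y i * (5 * w i - y i) / d i = -4) : False := by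
  have quad : ∀ a b c e f g : ℤ, ∑ i ∈ s, (a * (x i * x i) + b * (x i * y i) + c * (x i * w i) + e * (y i * y i) +
      f * (y i * w i) + g * (w i * w i)) = 15 * a - b - c + 319 * e + 63 * f + 15 * g := fun a b c e f g => by
    simp only [Finset.sum_add_distrib, ← Finset.mul_sum, xx, xy, xw, yy, yw, ww]; ring
  have hB : ∀ i ∈ s, Bs (x i) (y i) (w i) ≤ 75200 := fun i hi => by
    obtain ⟨κ, hκ⟩ : ∃ κ, κ = 20 * x i + y i + 16 * (5 * w i - y i) := ⟨_, rfl⟩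
    obtain ⟨a, ha⟩ : ∃ a, a = 20 * (235 * x i + κ) := ⟨_, rfl⟩
    obtain ⟨c, hc⟩ : ∃ c, c = 4 * (235 * (5 * w i - y i) + 4 * κ) := ⟨_, rfl⟩
    obtain ⟨b, hb⟩ : ∃ b, b = 235 * y i + κ - c := ⟨_, rfl⟩
    have l := Finset.single_le_sum (f := fun j => (a * x j + b * y j + 5 * c * w j) ^ 2) (fun _ _ => sq_nonneg _) hi
    rw [Finset.sum_congr rfl fun j _ => show _ = a ^ 2 * (x j * x j) + 2 * a * b * (x j * y j) + 10 * a * c * (x j * w j) +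
      b ^ 2 * (y j * y j) + 10 * b * c * (y j * w j) + 25 * c ^ 2 * (w j * w j) by ring, quad] at l
    have e₁ : a * x i + b * y i + 5 * c * w i = Bs (x i) (y i) (w i) := by subst hb hc ha hκ; unfold Bs; ring
    have e₂ : 15 * a ^ 2 - 2 * a * b - 10 * a * c + 319 * b ^ 2 + 63 * (10 * b * c) + 15 * (25 * c ^ 2) =
      75200 * Bs (x i) (y i) (w i) := by subst hb hc ha hκ; unfold Bs; ring
    simp only [e₁, e₂] at l
    nlinarith
  have p : ∀ i ∈ s, (0 : ℚ) ≤ (Qf (x i) (y i) (w i) : ℤ) + (5000 * ((y i : ℚ) * y i * x i / d i) +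
      4161 * ((y i : ℚ) * y i * (5 * w i - y i) / d i)) := fun i hi => by
    have dp : (0 : ℚ) < d i := by exact_mod_cast d0 i hi
    have : (0 : ℚ) ≤ ((Qf (x i) (y i) (w i) * d i + y i ^ 2 * Lf (x i) (y i) (w i) : ℤ) : ℚ) := by
      exact_mod_cast point (h4 i hi) (hB i hi) (d0 i hi) (h i hi)
    refine (div_nonneg this dp.le).trans_eq ?_
    unfold Lf; push_cast; field_simp
  have := Finset.sum_nonneg p
  rw [Finset.sum_add_distrib, Finset.sum_add_distrib, ← Finset.mul_sum, ← Finset.mul_sum, r₁, r₂, ← Int.cast_sum,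
    Finset.sum_congr rfl fun j _ => show _ = -8 * (x j * x j) + -128 * (x j * y j) + 432 * (x j * w j) +
      144 * (y j * y j) + -1080 * (y j * w j) + 2901 * (w j * w j) by unfold Qf; ring, quad] at this
  norm_num at this

end Cfsg.Agent.Lib.R2Ly
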