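/-
An extraspecial group of order `32` does not act faithfully on an odd subgroup of a strongly quasithin group.
-/
import Cfsg.Agent.Lib.FTBG4a
import Cfsg.Agent.Lib.Involves
import Cfsg.Prelude.Def_Quasithin

set_option autoImplicit false
set_option linter.unusedSectionVars false

namespace Cfsg.Agent.Lib.R2Q

open Subgroup Cfsg.Agent.Lib.PCoreConj Cfsg.Agent.Lib.PCore Cfsg.Agent.Lib.PCoreResidual
  Cfsg.Agent.Lib.FTDefs
open scoped commutatorElement

universe u

/-- The relators. -/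
def words {X : Type*} [Group X] (b t v x y : X) : List X :=
  [b * b, t * t, ⁅b, t⁆, ⁅b, v⁆, ⁅b, x⁆, ⁅b, y⁆, ⁅x, t⁆, ⁅y, t⁆, ⁅v, t⁆ * b, ⁅x, y⁆ * b]

theorem words_map {X Y : Type*} [Group X] [Group Y] (f : X →* Y) (b t v x y : X) :
    words (f b) (f t) (f v) (f x) (f y) = (words b t v x y).map f := by
  simp [words, map_commutatorElement]

theorem LK {U : Type*} [Group U] [Finite U] {p : ℕ} (hp : p.Prime) (h2 : p ≠ 2) (hc : Nat.card U ∣ p ^ 2)
    {β τ ν μ κ : MulAut U} (h : ∀ w ∈ words β τ ν μ κ, w = 1) : β = 1 := by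
  simp only [words, List.forall_mem_cons, commutatorElement_eq_one_iff_mul_comm] at h
  obtain ⟨b2, t2, bt, bv, bx, by', xt, yt, vt, xy, -⟩ := h
  have cm : ∀ x y : U, x * y = y * x := fun x y =>
    mem_cent_iff.1 (comm_iff_le_cent.1 (comm_of_card_dvd_sq (P := (⊤ : Subgroup U)) hp (by rwa [card_top]))
      (mem_top y)) x trivial
  have od : Odd (Nat.card U) := ((hp.odd_of_ne_two h2).pow).of_dvd_nat hc
  have sq : ∀ x : U, x * x = 1 → x = 1 := fun x e => by
    obtain ⟨k, hk⟩ := od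
    have := pow_card_eq_one' (x := x)
    rwa [hk, pow_succ, pow_mul, pow_two, e, one_pow, one_mul] at this
  have ap : ∀ {f g f' g' : MulAut U}, f * g = f' * g' → ∀ x, f (g x) = f' (g' x) := fun e x => by
    rw [← MulAut.mul_apply, e, MulAut.mul_apply]
  have bb : ∀ x, β (β x) = x := fun x => by rw [← MulAut.mul_apply, b2, MulAut.one_apply]
  have tt : ∀ x, τ (τ x) = x := fun x => by rw [← MulAut.mul_apply, t2, MulAut.one_apply]
  have vt' : ν * τ = τ * β * ν := by
    have e : ⁅ν, τ⁆ = β := by rw [← mul_right_cancel_iff (a := β), vt, b2]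
    rw [← bt, ← e]; group
  have xy' : μ * κ = β * (κ * μ) := by
    have e : ⁅μ, κ⁆ = β := by rw [← mul_right_cancel_iff (a := β), xy, b2]
    rw [← e]; group
  let I : MulAut U → Subgroup U := fun σ =>
    { carrier := {x | β x = x⁻¹ ∧ σ x = x}
      one_mem' := by simp
      mul_mem' := fun {a b} ha hb => ⟨by rw [map_mul, ha.1, hb.1, mul_inv_rev, cm], by rw [map_mul, ha.2, hb.2]⟩
      inv_mem' := fun {a} ha => ⟨by rw [map_inv, ha.1], by rw [map_inv, ha.2]⟩ }
  have m1 : ∀ x ∈ I τ, ν x ∈ I (τ * β) := fun x hx =>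
    ⟨by rw [ap bv, hx.1, map_inv], by rw [← ap vt', hx.2]⟩
  have dj : I τ ⊓ I (τ * β) = ⊥ := eq_bot_iff.2 fun x hx => sq x (by
    have := hx.2.2
    rw [MulAut.mul_apply, hx.1.1, map_inv, hx.1.2] at this
    exact mul_eq_one_iff_inv_eq.2 this)
  have I1 : I τ = ⊥ := by
    by_contra ne
    have l1 : Nat.card (I τ) ≤ Nat.card (I (τ * β)) := Nat.card_le_card_of_injective
      (fun x => ⟨ν x.1, m1 _ x.2⟩) fun x y e => Subtype.ext (ν.injective (congrArg Subtype.val e))
    have l2 : Nat.card (I τ) * Nat.card (I (τ * β)) ≤ p ^ 2 := by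
      rw [← Nat.card_prod]
      refine (Nat.card_le_card_of_injective (fun x : I τ × I (τ * β) => (x.1 : U) * x.2) ?_).trans
        (Nat.le_of_dvd (pow_pos hp.pos 2) hc)
      exact mul_injective_of_disjoint (disjoint_iff.2 dj)
    obtain ⟨i, hi, e⟩ := (Nat.dvd_prime_pow hp).1 ((card_subgroup_dvd_card (I τ)).trans hc)
    have e1 : Nat.card (I τ) = p := by
      obtain _ | _ | _ | i := i
      · exact absurd (eq_bot_of_card_eq _ e) ne
      · simpa using e
      · have := hp.one_lt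
        have h3 : p ^ 2 * p ^ 2 ≤ p ^ 2 := by
          calc _ ≤ _ := Nat.mul_le_mul e.ge (e.ge.trans l1)
            _ ≤ _ := l2
        have : 1 < p ^ 2 := Nat.one_lt_pow two_ne_zero this
        nlinarith
      · omega
    obtain ⟨⟨x, hx⟩, x1⟩ := ne_bot_iff_exists_ne_one.1 ne
    have x1' : x ≠ 1 := fun e => x1 (Subtype.ext e)
    have z : I τ ≤ zpowers x := by
      haveI := Fact.mk hp
      intro y hy
      obtain ⟨k, hk⟩ := mem_zpowers_of_prime_card (g := (⟨x, hx⟩ : I τ)) e1 x1 (g' := ⟨y, hy⟩)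
      exact ⟨k, congrArg Subtype.val hk⟩
    have m2 : μ x ∈ I τ := ⟨by rw [ap bx, hx.1, map_inv], by rw [← ap xt, hx.2]⟩
    have m3 : κ x ∈ I τ := ⟨by rw [ap by', hx.1, map_inv], by rw [← ap yt, hx.2]⟩
    obtain ⟨i, hi⟩ := z m2
    obtain ⟨j, hj⟩ := z m3
    beta_reduce at hi hj
    have e2 : μ (κ x) = κ (μ x) := by rw [← hi, ← hj, map_zpow, map_zpow, ← hi, ← hj, ← zpow_mul, ← zpow_mul, mul_comm]
    have e3 := ap xy' x
    rw [e2, MulAut.mul_apply, ← hi, map_zpow, (zpow_mem m3 i).1] at e3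
    have e4 := sq _ (mul_eq_one_iff_eq_inv.2 e3)
    rw [← map_zpow, hi, map_eq_one_iff _ κ.injective, map_eq_one_iff _ μ.injective] at e4
    exact x1' e4
  have I2 : ∀ y ∈ I (τ * β), y = 1 := fun y hy => by
    obtain ⟨x, rfl⟩ := ν.surjective y
    have : x ∈ I τ := ⟨ν.injective (by rw [← ap bv, hy.1, map_inv]), ν.injective (by rw [ap vt', hy.2])⟩
    rw [I1, mem_bot] at this
    rw [this, map_one]
  ext u
  obtain ⟨x, hd⟩ : ∃ x, x = u * (β u)⁻¹ := ⟨_, rfl⟩
  have hx : β x = x⁻¹ := by rw [hd, map_mul, map_inv, bb, mul_inv_rev, inv_inv]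
  have a1 : x * τ x ∈ I τ := ⟨by rw [map_mul, ap bt, hx, map_inv, mul_inv_rev, cm], by rw [map_mul, tt, cm]⟩
  have a2 : x * (τ x)⁻¹ ∈ I (τ * β) := ⟨by rw [map_mul, map_inv, ap bt, hx, map_inv, mul_inv_rev, cm],
    by rw [MulAut.mul_apply, map_mul, map_inv, ap bt, hx, map_inv, inv_inv, map_mul, map_inv, tt, cm]⟩
  rw [I1, mem_bot] at a1
  have a3 := sq x (by rw [← mul_inv_eq_one.1 (I2 _ a2)] at a1; exact a1)
  rw [MulAut.one_apply]
  exact (mul_inv_eq_one.1 (hd ▸ a3)).symm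

/-- The action on a `p`-group of rank at most two. -/
theorem RK0 {M : Type} [Group M] [Finite M] {p : ℕ} (hp : p.Prime) (h2 : p ≠ 2) {P Q : Subgroup M}
    (hP : IsPGroup p P) (hr : prank p P ≤ 2) (hQ : IsPGroup 2 Q) (hn : Q ≤ N[P]) {b t v x y : Q}
    (h : ∀ w ∈ words b t v x y, (w : M) ∈ C[P]) : (b : M) ∈ C[P] := by
  haveI := Fact.mk hp
  rcases eq_or_ne P ⊥ with rfl | hne
  · exact centralizer_bot'.ge trivial
  obtain ⟨H, h1, h3, -, -, h4, h5⟩ := critical_odd hp h2 hP hne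
  have hH := hP.to_le h1
  have hc : Nat.card (H /ₙ phiOf H) ∣ p ^ 2 := by
    replace hr := (prank_mono hp h1).trans hr
    by_cases e : phiOf H = ⊥
    · exact (card_pim_dvd _ H).trans
        (card_eq_pow_prank hp (elem_of_phiOf_eq_bot hp hH e) ▸ pow_dvd_pow p hr)
    exact Nat.dvd_of_mul_dvd_mul_right hp.pos ((mul_dvd_mul_left _ (dvd_card_of_isPGroup_of_ne_bot
      (hH.to_le (phiOf_le H)) e)).trans (card_quo_mul (.phiOf H) ▸ rank2_exponent_p hp hr h4))
  have n1 := hn.trans h3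
  have n2 := n1.trans (normalizer_le_normalizer_phiOf H)
  let θ : Q →* MulAut (H /ₙ phiOf H) := (H /ₙ phiOf H).normalizerMonoidHom.comp
    (((qmap (phiOf H)).comp (inclusion n2)).codRestrict _ fun q => apply_mem_norm_pim (n2 q.2) (n1 q.2))
  have k : ∀ q : Q, θ q = 1 ↔ qmap (phiOf H) ⟨q, n2 q.2⟩ ∈ C[H /ₙ phiOf H] := fun q => by
    rw [← MonoidHom.mem_ker, ← MonoidHom.comap_ker, normalizerMonoidHom_ker]
    rfl
  have e := (k b).1 (LK hp h2 hc (β := θ b) (τ := θ t) (ν := θ v) (μ := θ x) (κ := θ y) fun w hw => by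
    rw [words_map] at hw
    obtain ⟨q, hq, rfl⟩ := List.mem_map.1 hw
    exact (k q).2 (pim_cent (zpowers_le.2 (centralizer_le h1 (h q hq))) (apply_mem_pim _ (mem_zpowers _))))
  have hb : zpowers (b : M) ≤ Q := zpowers_le.2 b.2
  have cp := coprime_of_isPGroup_left Nat.prime_two (hQ.to_le hb) ((Nat.coprime_primes hp Nat.prime_two).2 h2)
  refine h5 _ (hb.trans hn) cp (cop_le_cent_of_quo_phiOf (hb.trans n1)
    (coprime_of_isPGroup_left hp hH cp) ?_) (mem_zpowers _)
  rw [pim_zpowers (n2 b.2)]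
  exact zpowers_le.2 e

theorem RK1 {M : Type} [Group M] [Finite M] {S : Type*} [Group S] [Finite S] (g : M →* S)
    (hM : IsStronglyQuasithin M) {X Q : Subgroup S} (hX : Odd (Nat.card X)) (hQ : IsPGroup 2 Q) (hn : Q ≤ N[X])
    (h1 : X ≤ g.range) (h2 : Q ≤ g.range) {b t v x y : Q} (h : ∀ w ∈ words b t v x y, (w : S) ∈ C[X]) :
    (b : S) ∈ C[X] := by
  haveI := Fact.mk Nat.prime_two
  refine le_cent1_iff.1 (le_of_forall_sylow fun p hp hd => ?_)
  haveI := Fact.mk hp
  have p2 : p ≠ 2 := by rintro rfl; exact Nat.not_even_iff_odd.2 hX (even_iff_two_dvd.2 hd)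
  obtain ⟨R, hR, nR⟩ := cop_exists_sylow hp hn (coprime_of_isPGroup_left Nat.prime_two hQ
    (Nat.coprime_two_right.2 hX)).symm (Or.inl (solv_of_isPGroup Nat.prime_two hQ))
  refine ⟨R, hR, le_cent1_iff.2 ?_⟩
  obtain ⟨P, hP⟩ := exists_isSylowIn p (R.comap g)
  have mP : P.map g = R := by
    have := hP.map g
    rw [map_comap_eq_self (hR.le.trans h1)] at this
    exact this.eq_of_isPGroup hR.isPGroup
  have nY : (R ⊔ Q).comap g ≤ N[R.comap g] := fun z hz =>
    le_normalizer_comap g (mem_comap.2 (sup_le le_normalizer nR hz))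
  have mY : ((R ⊔ Q).comap g ⊓ N[P]).map g = R ⊔ Q := by
    refine le_antisymm ((map_mono inf_le_left).trans (map_comap_le _ _)) (sup_le ?_ fun q hq => ?_)
    · exact mP.ge.trans (map_mono (le_inf (hP.le.trans (comap_mono le_sup_left)) le_normalizer))
    obtain ⟨z, rfl⟩ := h2 hq
    obtain ⟨n, hn, k, hk, rfl⟩ := hP.frattini_mem (comap_mono le_sup_left) nY (mem_comap.2 (mem_sup_right hq))
    rw [map_mul]
    exact mul_mem ((mP.ge.trans (map_mono (le_inf (hP.le.trans (comap_mono le_sup_left)) le_normalizer))) hn)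
      (mem_map_of_mem g hk)
  obtain ⟨Q₁, hQ₁⟩ := exists_isSylowIn 2 ((R ⊔ Q).comap g ⊓ N[P])
  have s1 := hQ₁.map g
  rw [mY] at s1
  obtain ⟨_, hz, e⟩ := s1.exists_le_conj le_sup_right hQ
  obtain ⟨z, hz', rfl⟩ := mY.ge hz
  have hQ₀ := hQ₁.conj_of_mem hz'
  have lift : ∀ q : Q, ∃ r : ↥(Q₁ ^ᶜ z), g r = q := fun q => by
    obtain ⟨_, ⟨r, hr, rfl⟩, e⟩ := mem_conj_iff'.1 (e q.2)
    exact ⟨⟨_, conj_mem_conj z hr⟩, by simpa using e⟩
  generalize Q₁ ^ᶜ z = Q₀ at hQ₀ lift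
  have nR' : ∀ q ∈ Q₀, g q ∈ N[R] := fun q hq => sup_le le_normalizer nR (hQ₀.le hq).1
  have nC : Q₀ ≤ N[Q₀ ⊓ (C[R]).comap g] := le_normalizer_inf le_normalizer fun q hq =>
    le_normalizer_comap g (mem_comap.2 (normalizer_le_normalizer_centralizer R (nR' q hq)))
  have nP : Q₀ ≤ N[P] := hQ₀.le.trans inf_le_right
  have h0 : IsPGroup 2 ↥(Q₀ ⊓ (C[R]).comap g) := hQ₀.isPGroup.to_le inf_le_left
  have mP' := cop_map_inf_cent' g (inf_le_left.trans nP) (coprime_of_isPGroup hp Nat.prime_two p2 hP.isPGroup h0)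
    (Or.inl (solv_of_isPGroup Nat.prime_two h0))
  rw [mP, inf_of_le_left (le_cent_comm.1 ((map_mono inf_le_right).trans (map_comap_le _ _)))] at mP'
  choose l hl using lift
  have k := RK0 hp p2 (hP.isPGroup.to_le (inf_le_left : P ⊓ C[Q₀ ⊓ (C[R]).comap g] ≤ P))
    ((prank_le_iff hp).2 fun m E hE => (Nat.pow_le_pow_iff_right hp.one_lt).1
      (hE.card ▸ hM p hp p2 E hE.comm fun a ha => hE.pow_eq_one ha)) hQ₀.isPGroup
    (le_normalizer_inf nP (nC.trans (normalizer_le_normalizer_centralizer _)))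
    (b := l b) (t := l t) (v := l v) (x := l x) (y := l y) fun w hw => by
      refine centralizer_le inf_le_right (le_cent_comm.1 le_rfl ⟨w.2, ?_⟩)
      have e1 : g w ∈ (words (l b) (l t) (l v) (l x) (l y)).map (g.comp Q₀.subtype) := List.mem_map.2 ⟨w, hw, rfl⟩
      rw [← words_map] at e1
      simp only [MonoidHom.comp_apply, coe_subtype, hl] at e1
      have e2 := words_map Q.subtype b t v x y
      simp only [coe_subtype] at e2
      rw [e2] at e1
      obtain ⟨q, hq, e⟩ := List.mem_map.1 e1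
      exact mem_comap.2 (e ▸ centralizer_le hR.le (h q hq))
  rw [← hl b, ← mP']
  refine mem_cent_iff.2 ?_
  rintro _ ⟨r, hr, rfl⟩
  rw [← map_mul, ← map_mul, mem_cent_iff.1 k r hr]

/-- The centralizer of an involution in a section of a quasithin group is covered by a strongly quasithin group. -/
theorem cover {G : Type*} [Group G] [Finite G] (hG : IsQuasithin G) {S : Type*} [Group S] (e : Involves S G) {a : S}
    (a1 : a ≠ 1) (a2 : a * a = 1) : ∃ (M : Type) (_ : Group M) (_ : Finite M) (g : M →* S),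
      IsStronglyQuasithin M ∧ c[a] ≤ g.range := by
  haveI := Fact.mk Nat.prime_two
  obtain ⟨K, f, hf⟩ := Involves.involves_iff.1 e
  obtain ⟨P, hP⟩ := exists_isSylowIn 2 ((zpowers a).comap f)
  have ha : IsPGroup 2 (zpowers a) := isPGroup_iff_forall_mem.2 fun x ⟨k, hk⟩ =>
    ⟨1, by rw [← hk, pow_one, ← zpow_natCast, ← zpow_mul, mul_comm, zpow_mul, zpow_natCast, pow_two, a2, one_zpow]⟩
  have mP : P.map f = zpowers a := by
    have := hP.map f
    rw [map_comap_eq_self_of_surjective hf] at this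
    exact this.eq_of_isPGroup ha
  have hl : IsTwoLocal N[P.map K.subtype] := ⟨_, hP.isPGroup.map _, fun k => a1 (by
    rw [map_eq_bot_iff_of_injective _ K.subtype_injective] at k
    rw [k, Subgroup.map_bot] at mP
    exact zpowers_eq_bot.1 mP.symm), rfl⟩
  let φ : Shrink.{0} N[P] →* N[P.map K.subtype] :=
    ((K.subtype.comp (N[P]).subtype).codRestrict _ fun n => le_normalizer_map K.subtype (mem_map_of_mem _ n.2)).comp
      (Shrink.mulEquiv.{0}).toMonoidHom
  have hφ : Function.Injective φ := fun x y e => Shrink.mulEquiv.injective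
    (Subtype.ext (Subtype.ext (congrArg (fun z : ↥N[P.map K.subtype] => (z : G)) e)))
  refine ⟨Shrink.{0} N[P], inferInstance, Finite.of_injective φ hφ,
    (f.comp (N[P]).subtype).comp (Shrink.mulEquiv.{0}).toMonoidHom, fun p hp p2 E hE h => ?_, fun x hx => ?_⟩
  · rw [← card_map_of_injective hφ]
    refine hG p hp p2 _ hl _ inferInstance ?_
    rintro _ ⟨x, hx, rfl⟩
    rw [← map_pow, h x hx, map_one]
  · obtain ⟨z, rfl⟩ := hf x
    obtain ⟨n, hn, k, hk, rfl⟩ := hP.frattini (le_normalizer_comap f (mem_comap.2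
      (centralizer_le_normalizer _ ((centralizer_zpowers_eq a).ge hx))))
    obtain ⟨m, hm, e⟩ := mP.ge hn
    exact ⟨Shrink.mulEquiv.symm ⟨m * k, mul_mem (le_normalizer hm) hk⟩, by simp [e]⟩

end Cfsg.Agent.Lib.R2Q
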