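import Cfsg.Agent.Lib.ChevTw3
import Cfsg.Agent.Lib.PSL2Small

/-! The groups `L₂(q)`, `q` odd, and `²G₂(q)` have no quaternion sections. -/

namespace Cfsg.Agent.Lib.ReeQ

open Cfsg.Lie Cfsg.Agent.Lib.ChevEval Cfsg.Agent.Lib.ChevMono Cfsg.Agent.Lib.ChevGood
  Cfsg.Agent.Lib.ChevWeyl Cfsg.Agent.Lib.BNCore Cfsg.Agent.Lib.ChevFil Subgroup
  Cfsg.Agent.Lib.ChevFil.Cx Cfsg.Agent.Lib.BNTwist Cfsg.Agent.Lib.ChevBN Cfsg.Agent.Lib.BNSub
  Cfsg.Agent.Lib.LieIface Cfsg.Agent.Lib.BNCent Cfsg.Agent.Lib.ChevProd Cfsg.Agent.Lib.ChevUn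
  Cfsg.Agent.Lib.ChevTw Cfsg.Agent.Lib.ChevTw2 Cfsg.Agent.Lib.ChevTw3

/-- no 2-subgroup has a quaternion quotient -/
def Nq (G : Type*) [Group G] : Prop := ∀ P : Subgroup G, IsPGroup 2 P → ∀ x ∈ P, ∀ y ∈ P,
  x * x ≠ 1 → y * y ≠ 1 → x * y * (x * y) ≠ 1 → x * y = y * x

variable {G : Type*} [Group G]

theorem Nq.of_inj {H : Type*} [Group H] (h : Nq G) (f : H →* G) (hf : Function.Injective f) : Nq H :=
  fun P hP x hx y hy a b c => hf (by
    simpa using h _ (hP.map f) _ (mem_map_of_mem f hx) _ (mem_map_of_mem f hy)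
      (by simpa [← map_mul, map_eq_one_iff f hf] using a) (by simpa [← map_mul, map_eq_one_iff f hf] using b)
      (by simpa [← map_mul, map_eq_one_iff f hf] using c))

theorem idx4 [Finite G] (hG : IsPGroup 2 G) (A : Subgroup G) (h : ¬ 8 ∣ A.index) (x y : G) :
    x * x ∈ A ∨ y * y ∈ A ∨ x * y * (x * y) ∈ A := by
  obtain ⟨k, hk⟩ := hG.index A
  obtain ⟨n, hn⟩ := IsPGroup.iff_card.1 (hG.to_subgroup A)
  have hc := A.card_mul_index
  rcases k with _ | _ | _ | k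
  · simp [index_eq_one.1 hk]
  · exact .inl (mul_self_mem_of_index_two hk x)
  · obtain ⟨K, h1, h2⟩ := Sylow.exists_subgroup_card_pow_succ (p := 2) (n := n)
      ⟨2, by rw [← hc, hn, hk]; ring⟩ hn
    have h3 : K.index = 2 := by
      have := K.card_mul_index
      rw [← hc, h1, hn, hk] at this
      exact Nat.eq_of_mul_eq_mul_left (pow_pos two_pos (n + 1)) (this.trans (by ring))
    have h4 : (A.subgroupOf K).index = 2 := by
      have := relIndex_mul_index h2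
      rw [h3, hk] at this
      exact Nat.eq_of_mul_eq_mul_right two_pos this
    have h5 : ∀ w ∈ K, w * w ∈ A := fun w hw => mul_self_mem_of_index_two h4 ⟨w, hw⟩
    have := mul_mem_iff_of_index_two h3 (a := x) (b := y)
    by_cases a : x ∈ K
    · exact .inl (h5 x a)
    by_cases b : y ∈ K
    · exact .inr (.inl (h5 y b))
    · exact .inr (.inr (h5 _ (by tauto)))
  · exact absurd ⟨2 ^ k, by rw [hk]; ring⟩ h

theorem nq_of_sbn [Finite G] (S : SBN 3 G (Fin 1)) {k : ℕ} (hk : Odd k) (hH : ∀ h ∈ S.H, h ^ (2 * k) = 1)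
    (hN : ∀ h ∈ S.H, S.n0 * h * (S.n0 * h) = 1) : Nq G := by
  have h0 : S.n0 ∉ S.P ∅ := fun h => S.not_both ((S.H_U _ (S.N_inf_B S.n0_mem h)).mono (S.Y_le 0) le_rfl)
    (S.n0_U.mono (S.Y_le 0) le_rfl)
  have h1 : ∀ g, g ∈ S.P ∅ ∨ S.DC (S.n 0) g := fun g => S.mem_P_single (by
    rw [show ({0} : Set (Fin 1)) = Set.univ from Set.eq_univ_of_forall (Subsingleton.elim · _), S.P_univ]; trivial)
  have h2 : ∀ g, g ∈ S.P ∅ ∨ S.DC S.n0 g := fun g => (h1 g).imp_right fun h =>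
    SBN.DC.of_H (k := S.n0⁻¹ * S.n 0) (by simpa using h) (by
      simpa using inv_mem (SBN.DC.unique S (S.n_mem 0) S.n0_mem ((h1 _).resolve_left h0) (SBN.DC.self ..)))
  have hU := S.U_le_P ∅
  have hH' := S.H_le_P ∅
  have key : ∀ x j, x ^ 2 ^ j = 1 → x * x ∈ S.P ∅ → x * x = 1 := fun x j hj hx => by
    rcases h2 x with h | ⟨u, hu, h, hh, u', hu', e⟩
    · obtain ⟨u, hu, h, hh, e⟩ := S.mem_P_empty.1 h
      have : ∀ n : ℕ, x ^ n * (h ^ n)⁻¹ ∈ S.U := fun n => by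
        induction n with
        | zero => simpa using one_mem _
        | succ n ih => convert mul_mem hu (S.H_U h hh _ ih) using 1; rw [pow_succ' x, e, pow_succ' h]; group
      have h3 := this (2 * k)
      rw [hH h hh, inv_one, mul_one] at h3
      obtain ⟨a, ha⟩ := S.pU ⟨_, h3⟩
      replace ha : (x * x) ^ (k * 3 ^ a) = 1 := by rw [pow_mul, ← sq, ← pow_mul x]; exact congrArg Subtype.val ha
      have := pow_gcd_eq_one.2 ⟨ha, show (x * x) ^ 2 ^ j = 1 by rw [← sq, ← pow_mul, mul_comm, pow_mul, hj, one_pow]⟩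
      rwa [(Nat.coprime_two_right.2 (hk.mul (Odd.pow (by decide)))).pow_right, pow_one] at this
    · have h3 := hN h hh
      have h4 : S.n0 * h * (u' * u) * (S.n0 * h)⁻¹ = 1 := S.V_inf_B (by
        simpa [mul_assoc] using S.n0_U _ (S.H_U h hh _ (mul_mem hu' hu))) (by
          rw [inv_eq_of_mul_eq_one_right h3]
          convert mul_mem (mul_mem (inv_mem (hU hu)) hx) (inv_mem (hU hu')) using 1
          rw [e]; group)
      rw [mul_inv_eq_one, mul_eq_left] at h4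
      calc x * x = u * (S.n0 * h * (u' * u) * (S.n0 * h)) * u' := by rw [e]; group
        _ = 1 := by rw [h4, mul_one, h3, mul_one, eq_inv_of_mul_eq_one_left h4, mul_inv_cancel]
  have hc : Nat.card (Option S.U) = Nat.card (G ⧸ S.P ∅) := Nat.card_eq_of_bijective
    (fun o => o.elim ((1 : G) : G ⧸ S.P ∅) fun u => ((u * S.n0 : G) : G ⧸ S.P ∅)) ⟨by
      have : ∀ u : S.U, ((1 : G) : G ⧸ S.P ∅) ≠ (u * S.n0 : G) := fun u h => h0 (by
        simpa [mul_mem_cancel_left (hU u.2)] using QuotientGroup.eq.1 h)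
      rintro (_ | u) (_ | v) h
      · rfl
      · exact absurd h (this v)
      · exact absurd h.symm (this u)
      · have := S.V_inf_B (S.n0_Ui _ (mul_mem (inv_mem u.2) v.2)) (by simpa [mul_assoc] using QuotientGroup.eq.1 h)
        rw [mul_inv_eq_one, mul_eq_left, inv_mul_eq_one] at this
        rw [Subtype.ext this], fun q => by
      obtain ⟨g, rfl⟩ := QuotientGroup.mk_surjective q
      rcases h2 g with h | ⟨u, hu, h, hh, u', hu', rfl⟩
      · exact ⟨none, QuotientGroup.eq.2 (by simpa using h)⟩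
      · exact ⟨some ⟨u, hu⟩, QuotientGroup.eq.2 (by simpa [mul_assoc] using mul_mem (hH' hh) (hU hu'))⟩⟩
  intro P hP x hx y hy a b c
  obtain ⟨ω, hω⟩ : ∃ ω : G ⧸ S.P ∅, ¬ 8 ∣ (MulAction.stabilizer P ω).index := by
    by_contra! h
    have := Fintype.ofFinite (MulAction.orbitRel.Quotient P (G ⧸ S.P ∅))
    have h8 : 8 ∣ Nat.card (G ⧸ S.P ∅) := by
      rw [Nat.card_congr (MulAction.selfEquivSigmaOrbits P _), Nat.card_sigma]
      exact Finset.dvd_sum fun i _ => by simpa [MulAction.index_stabilizer] using h i.out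
    obtain ⟨n, hn⟩ := IsPGroup.iff_card.1 S.pU
    rw [← hc, Finite.card_option, hn] at h8
    have : 3 ^ n % 8 = 1 ∨ 3 ^ n % 8 = 3 := by
      clear hn h8
      induction n with
      | zero => simp
      | succ n ih => omega
    omega
  obtain ⟨g, rfl⟩ := QuotientGroup.mk_surjective ω
  have : ∀ w : P, w * w ∈ MulAction.stabilizer P (g : G ⧸ S.P ∅) → w.1 * w = 1 := fun w hw => by
    obtain ⟨j, hj⟩ := hP w
    have := key (g⁻¹ * w * g⁻¹⁻¹) j (by rw [conj_pow, ← Subgroup.coe_pow, hj]; simp)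
      (by simpa [mul_assoc] using QuotientGroup.eq.1 (show (g : G ⧸ S.P ∅) = (w * w * g : G) from hw.symm))
    rwa [conj_mul, conj_eq_one_iff] at this
  rcases idx4 hP _ hω ⟨x, hx⟩ ⟨y, hy⟩ with h | h | h
  exacts [absurd (this _ h) a, absurd (this _ h) b, absurd (this _ h) c]

section
variable {D : ChevalleyDatum} {F : Type*} [Field F] (C : Cx D F)

include C

theorem H_pow [Fintype F] {h : D.group F} (hh : h ∈ H) : h ^ (Fintype.card F - 1) = 1 := by
  obtain ⟨d, e, -⟩ := Mn.diag C hh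
  obtain ⟨d', e', -⟩ := Mn.diag C (inv_mem hh)
  have : Matrix.diagonal d * Matrix.diagonal d' = 1 := by rw [← e, ← e', ← map_mul, mul_inv_cancel, map_one]
  rw [Matrix.diagonal_mul_diagonal, ← Matrix.diagonal_one, Matrix.diagonal_eq_diagonal_iff] at this
  refine mat_inj ?_
  rw [map_pow, e, Matrix.diagonal_pow, map_one, ← Matrix.diagonal_one]
  exact congrArg _ (funext fun i => FiniteField.pow_card_sub_one_eq_one _ (left_ne_zero_of_mul_eq_one (this i)))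

theorem H_inv (p : ℕ) [Fact p.Prime] [CharP F p] {n h : D.group F} (hh : h ∈ H)
    (hn : Mn (mat n) (ng D)) : n⁻¹ * h * n * h = 1 := by
  have key : ∀ i < D.rank, ∃ c c' : F, c * c' = 1 ∧ (∀ t, h * C.x (sp D i) t * h⁻¹ = C.x (sp D i) (c * t)) ∧
      ∀ t, h * C.x (ng D (sp D i)) t * h⁻¹ = C.x (ng D (sp D i)) (c' * t) := fun i hi => by
    have s1 := C.h0.sp_lt i hi
    have s2 := C.h0.ng_lt s1
    obtain ⟨c, hc, h1⟩ := Mn.conj (C := C) hh s1 s1
    obtain ⟨c', -, h2⟩ := Mn.conj (C := C) hh s2 s2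
    refine ⟨c, c', ?_, h1, h2⟩
    have h3 : (nq C i c)⁻¹ * (h * nq C i 1 * h⁻¹) ∈ H := by
      have a := Mn.inv' (C := C) (L := [i]) (Good.nil.cons hi) (mn_nq C hi hc)
      have b := (Mn.mul hh (mn_nq C hi one_ne_zero) (C.h0.w_lt i hi)).mul (inv_mem hh) fun _ h => h
      have := (a.mul b (C.h0.w_lt i hi)).congr (v' := fun s => s) fun s hs => C.h0.w_w hi hs
      rwa [← map_mul, ← map_mul, ← map_mul] at this
    have h4 : h * nq C i 1 * h⁻¹ = C.x (sp D i) c * C.x (ng D (sp D i)) (-c') * C.x (sp D i) c := by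
      rw [← mul_one c, ← h1, ← mul_neg_one c', ← h2, nq, inv_one]; group
    have hp := (X_le_U C s1).2 (pos_sp C.h0 hi)
    have := x_eq_one C s2 (disj C ((X_le_V C s2).2 ((pos_sp C.h0 hi).ng C.h0) (C.x_mem _ (c⁻¹ + -c')))
      (mul_mem (hp (C.x_mem _ c)) ((sbn C p).H_U _ h3 _ (inv_mem (hp (C.x_mem _ c))))) h3 (by
        rw [h4, nq, x_add, x_neg, x_neg]; group))
    rw [← neg_eq_iff_add_eq_zero, neg_inj] at this
    rw [← this, mul_inv_cancel₀ hc]
  have k2 : ∀ r s c c', r < D.nroots → s = ng D r → c * c' = 1 → (∀ t, h * C.x r t * h⁻¹ = C.x r (c * t)) →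
      (∀ t, h * C.x s t * h⁻¹ = C.x s (c' * t)) → C.X r ≤ centralizer {n⁻¹ * h * n * h} := by
    rintro r _ c c' hr rfl e h1 h2 _ ⟨t, rfl⟩
    obtain ⟨a, -, h3⟩ := Mn.conj (C := C) hn hr (C.h0.ng_lt hr)
    rw [mem_centralizer_singleton_iff, eq_comm, ← mul_inv_eq_iff_eq_mul]
    calc _ = n⁻¹ * (h * (n * (h * C.x r t * h⁻¹) * n⁻¹) * h⁻¹) * n := by group
      _ = _ := by rw [h1, h3, h2, show c' * (a * (c * t)) = c * c' * (a * t) by ring, e, one_mul, ← h3]; group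
  have : centralizer {n⁻¹ * h * n * h} = ⊤ := (sbn C p).gen _
    (fun i => have ⟨_, _, e, a, b⟩ := key i i.2; k2 _ _ _ _ (C.h0.sp_lt i i.2) rfl e a b)
    fun i => have ⟨_, _, e, a, b⟩ := key i i.2; k2 _ _ _ _ (C.h0.ng_lt (C.h0.sp_lt i i.2))
      (C.h0.ng_ng (C.h0.sp_lt i i.2)).symm ((mul_comm _ _).trans e) b a
  refine eq_one_of_central C (mul_mem ?_ hh) fun r _ =>
    (mem_centralizer_singleton_iff.1 (this ▸ mem_top (C.x r 1))).symm
  have a := hn.inv (B := mat n⁻¹) (by rw [← map_mul, inv_mul_cancel, map_one]) (fun _ => C.h0.ng_lt) fun _ => C.h0.ng_ng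
  have := ((a.mul hh fun _ h => h).mul hn fun _ => C.h0.ng_lt).congr (v' := fun s => s) fun _ => C.h0.ng_ng
  rwa [← map_mul, ← map_mul] at this

end

theorem ree_tw {K : Type*} [Field K] [Fintype K] {m : ℕ} [Fact (Nat.Prime 3)] [CharP K 3]
    (hK : Fintype.card K = 3 ^ (2 * m + 1)) :
    ∃ σ, Tw (sbn (cG2 K) 3) σ πG orbG (inc (cG2 K) (g2Words K (3 ^ m))) := by
  obtain ⟨-, φ, ψ, h1, h2, h3, h4⟩ := exists_theta 3 hK
  have h := ChevTG2.agree
  let C := cx ChevTG2.sys (ChevTG2.rels K)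
  obtain ⟨σ, hσ⟩ := exists_isog 3 h ChevTG2.sys (ChevTG2.rels K) isoG φ
  have hl : ∀ r, lamG r = 1 ∨ lamG r = 3 ∨ 12 ≤ r := fun r => by
    by_cases hr : r < 12
    · revert r; decide
    · omega
  have T := twi_of h ChevTG2.sys (ChevTG2.rels K) (bar := barG) (bar' := barG) (P := lk [1, 0])
    (π := πG) (ψ := fun r t => if lamG r = 3 then ψ t else φ t) (σ := σ)
    (by decide +kernel) (by decide +kernel) (fun r hr t => by
      rw [hσ r hr]
      rcases hl r with e | e | e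
      · simp [e]
      · simp [e, h2]
      · exact absurd hr (not_lt.2 e))
    (fun r => by
      split_ifs
      exacts [fun t => ⟨_, h3 t⟩, fun t => ⟨_, h4 t⟩]) fun i hi => by simp
  have hs : ∀ r ∈ [7, 8, 9, 4, 3, 2], ∀ t, σ (C.x r t) = C.x (barG r) (ψ t) := fun r hr t => by
    obtain ⟨a, b⟩ : r < 12 ∧ lamG r = 3 := by revert r; decide
    exact (T.σx r a t).trans (by rw [if_pos b])
  have hs' : ∀ r ∈ [6, 10, 11, 5, 1, 0], ∀ t, σ (C.x r t) = C.x (barG r) (φ t) := fun r hr t => by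
    obtain ⟨a, b⟩ : r < 12 ∧ lamG r ≠ 3 := by revert r; decide
    exact (T.σx r a t).trans (by rw [if_neg b])
  simp only [List.forall_mem_cons, List.not_mem_nil, IsEmpty.forall_iff, implies_true, and_true,
    barG, lk, List.getD_cons_succ, List.getD_cons_zero] at hs hs'
  have W := fun (a b c d e f : K) {W₁ W₂} => wd_eq C h ((mon2_sound a b).prod
    ((mon2_sound c d).prod (mon2_sound e f))) (p := 3) (by exact_mod_cast CharP.cast_eq_zero K 3)
    (W₁ := W₁) (W₂ := W₂)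
  have G1 : ∀ a b c d e f, σ (wd C [(7, a), (6, b), (8, c), (9, d), (10, e), (11, f)]) =
      wd C [(7, φ b), (6, ψ a), (8, ψ a * φ b + φ e), (9, ψ a * φ b ^ 2 + φ f),
        (10, ψ c - ψ a * φ b ^ 3), (11, ψ d - ψ a ^ 2 * φ b ^ 3)] := fun a b c d e f => by
    simpa [m6, hs, hs', x_add, sub_eq_add_neg, mul_assoc] using W (ψ a) (φ b) (ψ c) (ψ d) (φ e) (φ f)
      (W₁ := [(6, 1, m6 1 0 0 0 0 0), (7, 1, m6 0 1 0 0 0 0), (10, 1, m6 0 0 1 0 0 0),
        (11, 1, m6 0 0 0 1 0 0), (8, 1, m6 0 0 0 0 1 0), (9, 1, m6 0 0 0 0 0 1)])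
      (W₂ := [(7, 1, m6 0 1 0 0 0 0), (6, 1, m6 1 0 0 0 0 0), (8, 1, m6 1 1 0 0 0 0),
        (8, 1, m6 0 0 0 0 1 0), (9, 1, m6 1 2 0 0 0 0), (9, 1, m6 0 0 0 0 0 1),
        (10, 1, m6 0 0 1 0 0 0), (10, -1, m6 1 3 0 0 0 0), (11, 1, m6 0 0 0 1 0 0),
        (11, -1, m6 2 3 0 0 0 0)]) (by decide +kernel)
  have G2 : ∀ a b c d e f, σ (wd C [(4, a), (5, b), (3, c), (2, d), (1, e), (0, f)]) =
      wd C [(4, φ b), (5, ψ a), (3, φ e - ψ a * φ b), (2, ψ a * φ b ^ 2 + φ f),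
        (1, ψ c + ψ a * φ b ^ 3), (0, ψ d - ψ a ^ 2 * φ b ^ 3)] := fun a b c d e f => by
    simpa [m6, hs, hs', x_add, sub_eq_add_neg, mul_assoc] using W (ψ a) (φ b) (ψ c) (ψ d) (φ e) (φ f)
      (W₁ := [(5, 1, m6 1 0 0 0 0 0), (4, 1, m6 0 1 0 0 0 0), (1, 1, m6 0 0 1 0 0 0),
        (0, 1, m6 0 0 0 1 0 0), (3, 1, m6 0 0 0 0 1 0), (2, 1, m6 0 0 0 0 0 1)])
      (W₂ := [(4, 1, m6 0 1 0 0 0 0), (5, 1, m6 1 0 0 0 0 0), (3, 1, m6 0 0 0 0 1 0),
        (3, -1, m6 1 1 0 0 0 0), (2, 1, m6 1 2 0 0 0 0), (2, 1, m6 0 0 0 0 0 1),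
        (1, 1, m6 0 0 1 0 0 0), (1, 1, m6 1 3 0 0 0 0), (0, 1, m6 0 0 0 1 0 0),
        (0, -1, m6 2 3 0 0 0 0)]) (by decide +kernel)
  have wU : ∀ t u v : K, reeWordU (3 ^ m) t u v = [(7, φ t), (6, t), (8, t * φ t + φ u),
      (9, t * φ t ^ 2 + φ v), (10, u), (11, v)] := fun t u v => by
    simp only [reeWordU, h1, pow_succ t, mul_comm 2, pow_mul, mul_comm t]; rfl
  have wV : ∀ t u v : K, reeWordV (3 ^ m) t u v = [(4, -φ t), (5, -t), (3, -(t * φ t + φ u)),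
      (2, -(t * φ t ^ 2 + φ v)), (1, -u), (0, -v)] := fun t u v => by rw [reeWordV, wU]; rfl
  have hL : ∀ a, Lst C {i | orbG i = a} cG [7, 6, 8, 9, 10, 11] := fun a =>
    lst_of h _ _ (by revert a; decide +kernel)
  have T' := T.tw (C := C) 3 (S := g2Words K (3 ^ m)) (orb := orbG) (by decide +kernel)
    (by decide +kernel)
    (fun i j _ => by
      have : πG^[0] i = j ∨ πG^[1] i = j := by revert i j; decide +kernel
      exact this.elim (⟨_, ·⟩) (⟨_, ·⟩))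
    (by
      rintro _ ⟨t, u, v, rfl | rfl⟩
      · rw [wU, G1]; congr 1; simp [h3, h2]; constructor <;> ring
      · rw [wV, G2]; congr 1; simp [h3, ← h2 t]; refine ⟨?_, ?_, ?_, ?_⟩ <;> ring)
    (fun k y hy he => by
      obtain ⟨ts, h5, rfl⟩ := (hL k).form 3 hy
      rcases ts with _ | ⟨a, _ | ⟨b, _ | ⟨c, _ | ⟨d, _ | ⟨e, _ | ⟨f, _ | _⟩⟩⟩⟩⟩⟩ <;> simp at h5
      have := prod_uniq (hL k).sort (hL k).lt (ts := [_, _, _, _, _, _]) (ts' := [_, _, _, _, _, _])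
        rfl rfl ((G1 ..).symm.trans he)
      simp only [List.cons.injEq] at this
      obtain ⟨rfl, e2, rfl, rfl, -⟩ := this
      exact ⟨_, ⟨b, e, f, .inl rfl⟩, by rw [wU, e2]; rfl⟩)
    (fun a => ⟨_, ⟨1, 0, 0, .inr rfl⟩, (hL a).mem_Y' 3 (by rw [wV]; simp; decide), by
      rw [wV]; exact (hL a).ne_one (by simp; decide) (by simp)⟩)
    (by
      rintro _ ⟨t, u, v, rfl | rfl⟩
      exacts [⟨0, .inl ((hL 0).mem_Y 3 (by rw [wU]; simp))⟩,
        ⟨0, .inr ((hL 0).mem_Y' 3 (by rw [wV]; simp; decide))⟩])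
  exact ⟨_, T'⟩

theorem nq_ree (h : IsoRee G) : Nq G := by
  obtain ⟨K, _, _, m, -, hK, ⟨e⟩⟩ := h
  have : Fact (Nat.Prime 3) := ⟨Nat.prime_three⟩
  have : CharP K 3 := charP_of_card_eq_prime_pow hK
  obtain ⟨σ, T⟩ := ree_tw hK
  have L := lin (cG2 K) 3
  refine Nq.of_inj (nq_of_sbn (T.sbn L) (k := (Fintype.card K - 1) / 2) ?_ (fun h hh => T.finj ?_)
    fun h hh => T.finj ?_) e.toMonoidHom e.injective
  · have : 3 ^ (2 * m + 1) % 4 = 3 := by rw [pow_succ, pow_mul, Nat.mul_mod, Nat.pow_mod]; simp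
    rw [hK, Nat.odd_iff]; omega
  · have : 3 ^ (2 * m + 1) % 2 = 1 := by simp [Nat.pow_mod]
    rw [map_pow, map_one, Nat.mul_div_cancel' (by omega), H_pow (cG2 K) hh]
  · have h0 : Lg _ Set.univ (inc (cG2 K) _ (T.sbn L).n0) := (T.exists_n0 L).choose_spec
    have h1 := lg_of ChevTG2.agree ChevTG2.sys (ChevTG2.rels K) 3 (P := fun _ => True) (L := [0, 1, 0, 1, 0, 1])
      (by decide +kernel)
    have h2 : Mn (mat (nL (cG2 K) [0, 1, 0, 1, 0, 1])) (ng chevG2) :=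
      (mn_nL _ (by simp [Good]; decide)).congr (all_roots ChevTG2.agree
        (P := fun r => wL ChevTG2.X.w [0, 1, 0, 1, 0, 1] r = ng chevG2 r) (by decide +kernel))
    have h3 : nL (cG2 K) [0, 1, 0, 1, 0, 1] * nL (cG2 K) [0, 1, 0, 1, 0, 1] = 1 := by
      let n : ℕ → List (ℕ × ℤ × ℕ) := fun i =>
        [(sp chevG2 i, 1, 0), (ng chevG2 (sp chevG2 i), -1, 0), (sp chevG2 i, 1, 0)]
      simpa [n, nL, nq, mul_assoc] using wd_eq (cG2 K) ChevTG2.agree (mon1_sound (1 : K)) Int.cast_zero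
        (W₁ := ([0, 1, 0, 1, 0, 1, 0, 1, 0, 1, 0, 1].map n).flatten) (W₂ := []) (by decide +kernel)
    have h4 := mul_mem (Lg.mul L h0 h1) (show inc (cG2 K) _ h ∈ _ from hh)
    have e : ∀ N a b : chevG2.group K, N * N = 1 → N⁻¹ * (N * a * b) * N * (N * a * b) = 1 → a * b * (a * b) = 1 :=
      fun N a b h e => by
        rw [← e, show N⁻¹ * (N * a * b) * N * (N * a * b) = a * b * (N * N) * (a * b) by group, h, mul_one]
    simpa only [map_mul, map_one] using e _ _ _ h3 (H_inv (cG2 K) 3 h4 h2)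

open Matrix in
open scoped MatrixGroups in
theorem nq_L2 {F : Type*} [Field F] [Finite F] (h2 : (2 : F) ≠ 0) : Nq PSL(2, F) := by
  intro P hP x hx y hy a b _
  have : Nontrivial P := ⟨⟨x, hx⟩, 1, fun h => a (by simp [show x = 1 from congrArg Subtype.val h])⟩
  have := hP.center_nontrivial
  obtain ⟨z, hz⟩ := exists_ne (1 : center P)
  obtain ⟨Z, hZ⟩ := QuotientGroup.mk_surjective z.1.1
  have key : ∀ X : SL(2, F), (X : PSL(2, F)) ∈ P → (X : PSL(2, F)) * X ≠ 1 → X.1 * Z.1 = Z.1 * X.1 := fun X hX h => by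
    have h1 : ((X * Z : SL(2, F)) : PSL(2, F)) = (Z * X : SL(2, F)) := by
      simpa [hZ] using congrArg Subtype.val (mem_center_iff.1 z.2 ⟨_, hX⟩)
    obtain ⟨r, h3, h4⟩ := Matrix.SpecialLinearGroup.mem_center_iff.1 ((QuotientGroup.eq (s := center SL(2, F)) (a := X * Z) (b := Z * X)).1 h1)
    have h5 : Z * X = X * Z * ((X * Z)⁻¹ * (Z * X)) := by group
    replace h5 : Z.1 * X.1 = X.1 * Z.1 * scalar _ r := h4 ▸ congrArg Subtype.val h5
    rcases sq_eq_one_iff.1 h3 with rfl | rfl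
    · simp [h5]
    · refine absurd (sq (X : PSL(2, F)) ▸ PSL2Small.mk_pow_of_eq_neg_one (PSL2Small.pow_two_of_trace ?_)) h
      have h6 : Z.1 * Z⁻¹.1 = 1 := congrArg Subtype.val (mul_inv_cancel Z)
      have h7 : Z⁻¹.1 * Z.1 = 1 := congrArg Subtype.val (inv_mul_cancel Z)
      have := congrArg (fun A => (A * Z⁻¹.1).trace) h5
      simp only [map_neg, map_one, mul_neg, mul_one, neg_mul, trace_neg] at this
      rw [trace_mul_cycle, h7, one_mul, Matrix.mul_assoc, h6, mul_one, eq_neg_iff_add_eq_zero, ← two_mul] at this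
      exact (mul_eq_zero.1 this).resolve_left h2
  obtain ⟨X, rfl⟩ := QuotientGroup.mk_surjective x
  obtain ⟨Y, rfl⟩ := QuotientGroup.mk_surjective y
  have hX := key X hx a
  have hY := key Y hy b
  refine congrArg (QuotientGroup.mk' _) (Subtype.ext (show X.1 * Y.1 = Y.1 * X.1 from ?_) : X * Y = Y * X)
  have h0 : Z.1 0 1 ≠ 0 ∨ Z.1 1 0 ≠ 0 ∨ Z.1 0 0 - Z.1 1 1 ≠ 0 := by
    by_contra! h
    refine hz (Subtype.ext (Subtype.ext (hZ.symm.trans ((QuotientGroup.eq_one_iff _).2 (mem_center_iff.2 fun g =>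
      Subtype.ext (show g.1 * Z.1 = Z.1 * g.1 from ?_))))))
    ext i j
    fin_cases i <;> fin_cases j <;> simp [mul_apply, h.1, h.2.1, sub_eq_zero.1 h.2.2, mul_comm]
  simp only [← Matrix.ext_iff, Fin.forall_fin_two, mul_apply, Fin.sum_univ_two] at hX hY ⊢
  obtain ⟨⟨a1, a2⟩, a3, -⟩ := hX
  obtain ⟨⟨b1, b2⟩, b3, -⟩ := hY
  rcases h0 with h | h | h <;> refine ⟨⟨?_, ?_⟩, ?_, ?_⟩ <;> refine mul_left_cancel₀ h ?_ <;> grind

end Cfsg.Agent.Lib.ReeQ
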