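import Cfsg.Agent.Lib.RepT8D

set_option autoImplicit false
set_option maxRecDepth 100000
set_option Elab.async false

namespace Cfsg.Agent.Lib.RepT8
open Cfsg.Agent.Lib.PermNet Cfsg.Agent.Lib.MatRep

def r24 : List (List Nat) := [[13, 9, 12, 8]]

theorem h24_0 : RelOn c ms r24 0 248 := relOn ok _ 0 248 248 (by decide +kernel)

theorem h24 : RelOn c ms r24 0 248 := h24_0

def r25 : List (List Nat) := [[13, 10, 12, 11, 11]]

theorem h25_0 : RelOn c ms r25 0 248 := relOn ok _ 0 248 248 (by decide +kernel)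

theorem h25 : RelOn c ms r25 0 248 := h25_0

def r26 : List (List Nat) := [[14, 14, 5, 1]]

theorem h26_0 : RelOn c ms r26 0 248 := relOn ok _ 0 248 248 (by decide +kernel)

theorem h26 : RelOn c ms r26 0 248 := h26_0

def r27 : List (List Nat) := [[15, 1, 14, 0]]

theorem h27_0 : RelOn c ms r27 0 248 := relOn ok _ 0 248 248 (by decide +kernel)

theorem h27 : RelOn c ms r27 0 248 := h27_0

def r28 : List (List Nat) := [[15, 5, 14, 4]]

theorem h28_0 : RelOn c ms r28 0 248 := relOn ok _ 0 248 248 (by decide +kernel)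

theorem h28 : RelOn c ms r28 0 248 := h28_0

def r29 : List (List Nat) := [[15, 9, 14, 8]]

theorem h29_0 : RelOn c ms r29 0 248 := relOn ok _ 0 248 248 (by decide +kernel)

theorem h29 : RelOn c ms r29 0 248 := h29_0

def r30 : List (List Nat) := [[6, 8, 15, 6, 14, 6, 8, 15, 6, 14]]

theorem h30_0 : RelOn c ms r30 0 124 := relOn ok _ 0 124 124 (by decide +kernel)

theorem h30_1 : RelOn c ms r30 124 248 := relOn ok _ 124 124 248 (by decide +kernel)

theorem h30 : RelOn c ms r30 0 248 := (h30_0).trans h30_1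

def r31 : List (List Nat) := [[15, 3, 5, 1, 2, 14, 3, 0, 4, 2, 9]]

theorem h31_0 : RelOn c ms r31 0 124 := relOn ok _ 0 124 124 (by decide +kernel)

theorem h31_1 : RelOn c ms r31 124 248 := relOn ok _ 124 124 248 (by decide +kernel)

theorem h31 : RelOn c ms r31 0 248 := (h31_0).trans h31_1

def r32 : List (List Nat) := [[7, 15, 6, 3, 5, 1, 2, 7, 14, 6, 3, 0, 4, 2, 5, 9, 7, 15, 6, 3, 5, 1, 2, 9, 15]]

theorem h32_0 : RelOn c ms r32 0 62 := relOn ok _ 0 62 62 (by decide +kernel)

theorem h32_1 : RelOn c ms r32 62 124 := relOn ok _ 62 62 124 (by decide +kernel)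

theorem h32_2 : RelOn c ms r32 124 186 := relOn ok _ 124 62 186 (by decide +kernel)

theorem h32_3 : RelOn c ms r32 186 248 := relOn ok _ 186 62 248 (by decide +kernel)

theorem h32 : RelOn c ms r32 0 248 := (((h32_0).trans h32_1).trans h32_2).trans h32_3

def r33 : List (List Nat) := [[15, 12, 14, 12]]

theorem h33_0 : RelOn c ms r33 0 248 := relOn ok _ 0 248 248 (by decide +kernel)

theorem h33 : RelOn c ms r33 0 248 := h33_0

def r34 : List (List Nat) := [[9, 11, 11, 15, 10, 10, 8, 11, 11, 14, 10, 10]]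

theorem h34_0 : RelOn c ms r34 0 124 := relOn ok _ 0 124 124 (by decide +kernel)

theorem h34_1 : RelOn c ms r34 124 248 := relOn ok _ 124 124 248 (by decide +kernel)

theorem h34 : RelOn c ms r34 0 248 := (h34_0).trans h34_1


end Cfsg.Agent.Lib.RepT8
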