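import Cfsg.Agent.Lib.RepT8C0
import Cfsg.Agent.Lib.RepT8C1
import Cfsg.Agent.Lib.RepT8C2
import Cfsg.Agent.Lib.RepT8C3

set_option autoImplicit false
set_option maxRecDepth 100000
set_option Elab.async false

namespace Cfsg.Agent.Lib.RepT8
open Cfsg.Agent.Lib.Words Cfsg.Agent.Lib.PermNet Cfsg.Agent.Lib.MatRep

theorem hall : RelOn c ms (r0 ++ (r1 ++ (r2 ++ (r3 ++ (r4 ++ (r5 ++ (r6 ++ (r7 ++ (r8 ++ (r9 ++ (r10 ++ (r11 ++ (r12 ++ (r13 ++ (r14 ++ (r15 ++ (r16 ++ (r17 ++ (r18 ++ (r19 ++ (r20 ++ (r21 ++ (r22 ++ (r23 ++ (r24 ++ (r25 ++ (r26 ++ (r27 ++ (r28 ++ (r29 ++ (r30 ++ (r31 ++ (r32 ++ (r33 ++ (r34 ++ (r35 ++ (r36 ++ (r37)))))))))))))))))))))))))))))))))))))) 0 248 := h0.append (h1.append (h2.append (h3.append (h4.append (h5.append (h6.append (h7.append (h8.append (h9.append (h10.append (h11.append (h12.append (h13.append (h14.append (h15.append (h16.append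 (h17.append (h18.append (h19.append (h20.append (h21.append (h22.append (h23.append (h24.append (h25.append (h26.append (h27.append (h28.append (h29.append (h30.append (h31.append (h32.append (h33.append (h34.append (h35.append (h36.append (h37)))))))))))))))))))))))))))))))))))))

theorem hinv : RelOn c ms (invs 8) 0 248 := hall.mono (by decide +kernel)

/-- The generators of `Spor.Th` as matrices for a Chevalley basis of the invariant Lie algebra. -/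
noncomputable def f : ℕ → (Matrix (Fin 248) (Fin 248) (ZMod 3))ˣ := gen c ms

/-- The defining relators. -/
def K : List (List ℕ) := [[0, 0],
  [2, 2],
  [4, 4],
  [6, 6],
  [8, 8],
  [0, 2, 0, 2, 0, 2],
  [0, 8, 0, 8],
  [2, 4, 2, 4, 2, 4],
  [2, 6, 2, 6],
  [2, 8, 2, 8],
  [0, 7, 5, 7, 5, 7, 5, 7, 5],
  [4, 8, 4, 8],
  [6, 8, 6, 8, 6, 8],
  [2, 4, 6, 8, 2, 4, 6, 8, 2, 4, 6, 8, 2, 4, 6, 8, 2, 4, 6, 8, 2, 4, 6, 8, 2, 4, 6, 8, 2, 4, 6, 8],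
  [10, 10, 10, 10, 10, 10, 10],
  [11, 1, 10, 0],
  [11, 3, 10, 2],
  [11, 5, 10, 4],
  [10, 6, 10, 6],
  [9, 11, 8, 10, 11, 11, 11, 9, 10, 10, 10],
  [12, 12, 12],
  [13, 1, 12, 0],
  [13, 3, 12, 2],
  [13, 5, 12, 4],
  [13, 7, 12, 6],
  [13, 9, 12, 8],
  [13, 10, 12, 11, 11],
  [14, 14, 5, 1],
  [15, 1, 14, 0],
  [15, 5, 14, 4],
  [15, 9, 14, 8],
  [6, 8, 15, 6, 14, 6, 8, 15, 6, 14],
  [15, 3, 5, 1, 2, 14, 3, 0, 4, 2, 9],
  [7, 15, 6, 3, 5, 1, 2, 7, 14, 6, 3, 0, 4, 2, 5, 9, 7, 15, 6, 3, 5, 1, 2, 9, 15],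
  [15, 12, 14, 12],
  [9, 11, 11, 15, 10, 10, 8, 11, 11, 14, 10, 10],
  [0, 4, 11, 15, 11, 15, 11, 15],
  [0, 4, 11, 15, 10, 14, 11, 15, 10, 14, 11, 15, 10, 14, 11, 15, 10, 14],
  [6, 11, 11, 14, 10, 10, 6, 11, 11, 14, 10, 10, 6, 11, 11, 14, 10, 10, 6, 11, 11, 14, 10, 10, 11, 11, 9, 7, 5, 6, 8, 10, 10, 10, 9, 7, 5, 6, 8, 11, 7, 5, 6, 5, 1]]

theorem rels : ∀ w ∈ K, wval f w = 1 := rels_of hinv (hall.mono (by decide +kernel)) (by decide +kernel)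

theorem ne : wval f [0] ≠ 1 := ne_one ok hinv _ 0 2 (by decide +kernel)

end Cfsg.Agent.Lib.RepT8
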