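import Cfsg.Agent.Lib.RepT8D

set_option autoImplicit false
set_option maxRecDepth 100000
set_option Elab.async false

namespace Cfsg.Agent.Lib.RepT8
open Cfsg.Agent.Lib.PermNet Cfsg.Agent.Lib.MatRep

def r0 : List (List Nat) := [[0, 1], [2, 3], [4, 5]]

theorem h0_0 : RelOn c ms r0 0 248 := relOn ok _ 0 248 248 (by decide +kernel)

theorem h0 : RelOn c ms r0 0 248 := h0_0

def r1 : List (List Nat) := [[6, 7], [8, 9], [10, 11]]

theorem h1_0 : RelOn c ms r1 0 248 := relOn ok _ 0 248 248 (by decide +kernel)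

theorem h1 : RelOn c ms r1 0 248 := h1_0

def r2 : List (List Nat) := [[12, 13], [14, 15], [0, 0]]

theorem h2_0 : RelOn c ms r2 0 248 := relOn ok _ 0 248 248 (by decide +kernel)

theorem h2 : RelOn c ms r2 0 248 := h2_0

def r3 : List (List Nat) := [[2, 2], [4, 4], [6, 6]]

theorem h3_0 : RelOn c ms r3 0 248 := relOn ok _ 0 248 248 (by decide +kernel)

theorem h3 : RelOn c ms r3 0 248 := h3_0

def r4 : List (List Nat) := [[8, 8]]

theorem h4_0 : RelOn c ms r4 0 248 := relOn ok _ 0 248 248 (by decide +kernel)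

theorem h4 : RelOn c ms r4 0 248 := h4_0

def r5 : List (List Nat) := [[0, 2, 0, 2, 0, 2]]

theorem h5_0 : RelOn c ms r5 0 248 := relOn ok _ 0 248 248 (by decide +kernel)

theorem h5 : RelOn c ms r5 0 248 := h5_0

def r6 : List (List Nat) := [[0, 8, 0, 8]]

theorem h6_0 : RelOn c ms r6 0 248 := relOn ok _ 0 248 248 (by decide +kernel)

theorem h6 : RelOn c ms r6 0 248 := h6_0

def r7 : List (List Nat) := [[2, 4, 2, 4, 2, 4]]

theorem h7_0 : RelOn c ms r7 0 248 := relOn ok _ 0 248 248 (by decide +kernel)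

theorem h7 : RelOn c ms r7 0 248 := h7_0

def r8 : List (List Nat) := [[2, 6, 2, 6]]

theorem h8_0 : RelOn c ms r8 0 248 := relOn ok _ 0 248 248 (by decide +kernel)

theorem h8 : RelOn c ms r8 0 248 := h8_0

def r9 : List (List Nat) := [[2, 8, 2, 8]]

theorem h9_0 : RelOn c ms r9 0 248 := relOn ok _ 0 248 248 (by decide +kernel)

theorem h9 : RelOn c ms r9 0 248 := h9_0

def r10 : List (List Nat) := [[0, 7, 5, 7, 5, 7, 5, 7, 5]]

theorem h10_0 : RelOn c ms r10 0 124 := relOn ok _ 0 124 124 (by decide +kernel)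

theorem h10_1 : RelOn c ms r10 124 248 := relOn ok _ 124 124 248 (by decide +kernel)

theorem h10 : RelOn c ms r10 0 248 := (h10_0).trans h10_1

def r11 : List (List Nat) := [[4, 8, 4, 8]]

theorem h11_0 : RelOn c ms r11 0 248 := relOn ok _ 0 248 248 (by decide +kernel)

theorem h11 : RelOn c ms r11 0 248 := h11_0

def r12 : List (List Nat) := [[6, 8, 6, 8, 6, 8]]

theorem h12_0 : RelOn c ms r12 0 248 := relOn ok _ 0 248 248 (by decide +kernel)

theorem h12 : RelOn c ms r12 0 248 := h12_0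


end Cfsg.Agent.Lib.RepT8
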