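import Cfsg.Agent.Lib.Rk3Iso

/-! The checks on unions of orbits, with the bits counted in blocks. -/

set_option autoImplicit false

namespace Cfsg.Agent.Lib.Rk3Fast

open Cfsg.Agent.Lib.PermNet Cfsg.Agent.Lib.Rk3Aut Cfsg.Agent.Lib.Rk3Emb

noncomputable def popc' (b m c : ℕ) : ℕ → ℕ → ℕ :=
  Nat.rec (motive := fun _ => ℕ → ℕ → ℕ) (fun _ acc => acc)
    (fun _ ih x acc => force (popc b (Nat.land x m) acc) fun acc' => force (Nat.shiftRight x b) fun x' => ih x' acc') c

theorem popc'_eq (b c x acc : ℕ) : popc' b (2 ^ b - 1) c x acc = popc (b * c) x acc := by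
  induction c generalizing x acc with
  | zero => rfl
  | succ c ih =>
    change popc' b _ c (x >>> b) (popc b (x &&& (2 ^ b - 1)) acc) = _
    simp only [ih, popc_eq, Finset.card_filter, Nat.mul_succ, add_comm (b * c), Finset.sum_range_add, add_assoc,
      Nat.testBit_shiftRight, Nat.testBit_and, Nat.testBit_two_pow_sub_one]
    congr 2
    exact Finset.sum_congr rfl fun i hi => by simp [Finset.mem_range.1 hi]

noncomputable def orbsK' (nets : NL) (ws : List (List ℕ)) (N : ℕ) (l : List (ℕ × List ℕ)) :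
    (List (ℕ × ℕ) → Bool) → Bool :=
  List.rec (motive := fun _ => (List (ℕ × ℕ) → Bool) → Bool) (fun k => k [])
    (fun a _ ih k => forceB (grow nets ws a.2 (pt a.1)) fun q => band (subB q (ones N))
      (forceB (popc' 60 (2 ^ 60 - 1) (N / 60 + 1) q (nat_lit 0)) fun n => ih fun Q => k ((q, n) :: Q))) l

theorem orbsK'_eq (nets : NL) (ws : List (List ℕ)) (N : ℕ) (l : List (ℕ × List ℕ)) :
    orbsK' nets ws N l = orbsK nets ws N l := by
  induction l with
  | nil => rfl
  | cons a l ih =>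
    funext k
    change (band (subB _ _) (orbsK' nets ws N l fun Q => k ((_, popc' _ _ _ _ 0) :: Q))) =
      band (subB _ _) (orbsK nets ws N l fun Q => k ((_, popc _ _ 0) :: Q))
    cases h : subB (grow nets ws a.2 (pt a.1)) (ones N)
    · rfl
    · have := (ms_subB h).trans (ms_ones N).le
      rw [ih, popc'_eq, popc_ncard, popc_ncard, Set.inter_eq_left.2 this,
        Set.inter_eq_left.2 (this.trans (Set.Iio_subset_Iio (by omega)))]

noncomputable def unionB' (nets : NL) (ws : List (List ℕ)) (N : ℕ) (l : List (ℕ × List ℕ)) (c : ℕ)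
    (k : ℕ → ℕ → Bool) : Bool :=
  orbsK' nets ws N l fun Q => band (subB c (Q.foldr (fun q r => Nat.lor q.1 r) 0)) (allSub k Q 0 0)

theorem unionB'_eq : unionB' = unionB := by
  funext nets ws N l c k
  rw [unionB', orbsK'_eq, unionB]

noncomputable def rowsB' (nets : NL) (n N k b c : ℕ) (bs cs : List (List ℕ)) (lb lc : List (ℕ × List ℕ))
    (ln : List (List ℕ × ℕ × ℕ)) (fin : ℕ → ℕ → Bool) : Bool :=
  decide (1 ≤ b ∧ b < 1 + k ∧ 1 + k ≤ c ∧ c < N) && bs.all (lt n) && cs.all (lt n) && fixB nets bs (pt b) &&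
  fixB nets cs (pt c) && ln.all (fun t => lt n t.1 && Nat.beq (appW nets t.1 (pt t.2.1)) (pt b) &&
    Nat.beq (appW nets t.1 (pt c)) (pt t.2.2)) &&
  unionB' nets bs N lb (ones N) fun mb sb => !(Nat.beq sb k && mb.testBit 0 && !mb.testBit b) ||
    unionB' nets cs N lc (ones N) fun mc sc => !(Nat.beq sc k && !mc.testBit 0 && !mc.testBit c &&
      ln.all fun t => mc.testBit t.2.1 == mb.testBit t.2.2) || fin mb mc

theorem rowsB'_eq : rowsB' = rowsB := by
  funext nets n N k b c bs cs lb lc ln fin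
  rw [rowsB', unionB'_eq, rowsB]

end Cfsg.Agent.Lib.Rk3Fast
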