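import Cfsg.Agent.Lib.Rk3Main

/-! A group that permutes a labelled set of objects acts on the graph of a rank 3 model. -/

set_option autoImplicit false

namespace Cfsg.Agent.Lib.Rk3Lab

open Cfsg.Agent.Lib.PermNet Cfsg.Agent.Lib.Words Cfsg.Agent.Lib.Rk3Aut Cfsg.Agent.Lib.Rk3Emb Cfsg.Agent.Lib.Rk3Iso
  Equiv MulAction

variable {k l : ℕ} {H T : Subgroup (Perm ℕ)} (M : Model k l H) (E : Ext (1 + k + l) H T)
include M E

theorem eq_one_of_comm {g : Perm ℕ} (hg : ∀ i, 1 + k + l ≤ i → g i = i) (h : ∀ t ∈ T, g * t = t * g) : g = 1 := by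
  have h0 : g 0 = 0 := by
    have key : ∀ {b lo n}, InOrb H b (ivl lo n) → 1 < n → g 0 ∉ ms (ivl lo n) := fun {b lo n} ho hn hx => by
      have : ∀ j ∈ ms (ivl lo n), g 0 = j := fun j hj => by
        obtain ⟨u, hu, rfl⟩ := trans_of_inOrb ho hx hj
        rw [← Perm.mul_apply, ← h u (E.le hu), Perm.mul_apply, M.fix0 u hu]
      have e := (this lo (ms_ivl _ _ ▸ ⟨le_rfl, by omega⟩)).symm.trans (this (lo + 1) (ms_ivl _ _ ▸ ⟨by omega, by omega⟩))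
      omega
    have h₁ := key M.orbb M.ne.1
    have h₂ := key M.orbc M.ne.2.1
    have := lt_of_fix hg (i := 0) (by omega)
    rw [ms_ivl, Set.mem_Ico] at h₁ h₂
    omega
  refine Equiv.ext fun i => ?_
  by_cases hi : i < 1 + k + l
  · obtain ⟨t, ht, rfl⟩ := E.tr i hi
    rw [← Perm.mul_apply, h t ht, Perm.mul_apply, h0, Perm.one_apply]
  · exact hg i (not_lt.1 hi)

variable {S Y α : Type*} [Group S] [MulAction S Y] {D : Subgroup (S × Perm ℕ)} (hD : D.map (MonoidHom.snd _ _) = T)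
  {v : Y} {lab : ℕ → Y} (hl : ∀ d ∈ D, lab (d.2 0) = d.1 • v)
include hD hl

omit M in
theorem exists_mem {x : ℕ} (hx : x < 1 + k + l) : ∃ d ∈ D, d.2 0 = x := by
  obtain ⟨_, hg, rfl⟩ := E.tr x hx
  obtain ⟨d, hd, rfl⟩ : _ ∈ D.map (MonoidHom.snd _ _) := hD ▸ hg
  exact ⟨d, hd, rfl⟩

omit M in
theorem lab_smul {d : S × Perm ℕ} (hd : d ∈ D) {x : ℕ} (hx : x < 1 + k + l) : lab (d.2 x) = d.1 • lab x := by
  obtain ⟨d', hd', rfl⟩ := exists_mem E hD hl hx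
  rw [hl d' hd', ← mul_smul]
  exact hl _ (mul_mem hd hd')

variable {F : Y → Y → α} (hF : ∀ (s : S) a b, F (s • a) (s • b) = F a b) {b c : S × Perm ℕ} (hb : b ∈ D) (hc : c ∈ D)
  (hb' : b.2 0 ∈ ms (ivl 1 k)) (hc' : c.2 0 ∈ ms (ivl (1 + k) l)) (h₁ : F v v ≠ F v (b.1 • v))
  (h₂ : F v v ≠ F v (c.1 • v)) (h₃ : F v (b.1 • v) ≠ F v (c.1 • v))
include hF hb hc hb' hc' h₁ h₂ h₃

theorem lab_spec {x y : ℕ} (hx : x < 1 + k + l) (hy : y < 1 + k + l) :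
    (Orb T k x y ↔ F (lab x) (lab y) = F v (b.1 • v)) ∧ (lab x = lab y → x = y) := by
  have h0 : lab 0 = v := (hl 1 D.one_mem).trans (one_smul _ _)
  have inv : ∀ d ∈ D, ∀ x < 1 + k + l, ∀ y < 1 + k + l, F (lab (d.2 x)) (lab (d.2 y)) = F (lab x) (lab y) :=
    fun d hd x hx y hy => by rw [lab_smul E hD hl hd hx, lab_smul E hD hl hd hy, hF]
  have hn := M.ne
  have key : ∀ {r lo n}, InOrb H r (ivl lo n) → lo + n ≤ 1 + k + l → ∀ d ∈ D, d.2 0 ∈ ms (ivl lo n) →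
      ∀ y ∈ ms (ivl lo n), F v (lab y) = F v (d.1 • v) := fun ho hn d hd h y hy => by
    obtain ⟨_, hu, rfl⟩ := trans_of_inOrb ho h hy
    obtain ⟨u, hu', rfl⟩ : _ ∈ D.map (MonoidHom.snd _ _) := hD ▸ E.le hu
    have := inv u hu' 0 (by omega) _ (lt_of_lt_of_le (ms_ivl _ _ ▸ h).2 hn)
    rwa [show u.2 0 = 0 from M.fix0 _ hu, h0, hl d hd] at this
  obtain ⟨d, hd, rfl⟩ := exists_mem E hD hl hx
  have hT : d.2 ∈ T := hD ▸ ⟨d, hd, rfl⟩
  obtain ⟨y, rfl⟩ := d.2.surjective y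
  replace hy : y < 1 + k + l := by simpa using lt_of_fix (E.fix _ (T.inv_mem hT)) hy
  have e := inv d hd 0 (by omega) y hy
  have e' := inv d hd 0 (by omega) 0 (by omega)
  rw [orb_iff M E hT, e, h0, show d.2⁻¹ (d.2 y) = y by simp]
  rw [h0] at e e'
  by_cases y₀ : y = 0
  · subst y₀
    exact ⟨by simp [ms_ivl, h0, h₁], fun _ => rfl⟩
  by_cases y₁ : y ∈ ms (ivl 1 k)
  · have := key M.orbb (by omega) b hb hb' y y₁
    exact ⟨iff_of_true y₁ this, fun h => absurd (e'.symm.trans (h ▸ e.trans this)) h₁⟩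
  · have := key M.orbc le_rfl c hc hc' y (by rw [ms_ivl, Set.mem_Ico] at y₁ ⊢; omega)
    exact ⟨iff_of_false y₁ (this ▸ h₃.symm), fun h => absurd (e'.symm.trans (h ▸ e.trans this)) h₂⟩

theorem exists_rep (h : ∀ s : S, ∀ x < 1 + k + l, ∃ x' < 1 + k + l, lab x' = s • lab x) :
    ∃ φ : S →* Perm ℕ, T ≤ φ.range ∧ φ.range ≤ autG (Orb T k) (1 + k + l) ∧ Subgroup.center S ≤ φ.ker ∧
      ∀ s ∈ φ.ker, ∀ x < 1 + k + l, s • lab x = lab x := by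
  have sp := fun {x y} => lab_spec M E hD hl hF hb hc hb' hc' h₁ h₂ h₃ (x := x) (y := y)
  obtain ⟨φ, p₁, p₂⟩ := exists_phi lab (fun x hx y hy => (sp hx hy).2) h
  have hT : T ≤ φ.range := by
    rw [← hD]
    rintro _ ⟨d, hd, rfl⟩
    have hT : d.2 ∈ T := hD ▸ ⟨d, hd, rfl⟩
    refine ⟨d.1, Equiv.ext fun x => ?_⟩
    by_cases hx : x < 1 + k + l
    · exact (sp (lt_of_fix (p₁ _) hx) (lt_of_fix (E.fix _ hT) hx)).2 ((p₂ _ x hx).trans (lab_smul E hD hl hd hx).symm)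
    · exact (p₁ _ x (not_lt.1 hx)).trans (E.fix _ hT x (not_lt.1 hx)).symm
  refine ⟨φ, hT, ?_, fun s hs => eq_one_of_comm M E (p₁ s) fun t ht => ?_, fun s hs x hx => by
    rw [← p₂ s x hx, show φ s = 1 from hs, Perm.one_apply]⟩
  · rintro _ ⟨s, rfl⟩
    refine ⟨p₁ s, fun x y => ?_⟩
    by_cases hx : x < 1 + k + l ∧ y < 1 + k + l
    · rw [(sp hx.1 hx.2).1, (sp (lt_of_fix (p₁ _) hx.1) (lt_of_fix (p₁ _) hx.2)).1, p₂ s x hx.1, p₂ s y hx.2, hF]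
    · refine iff_of_false (fun h => hx ?_) fun h => hx ⟨(orb_lt E h).1, (orb_lt E h).2.1⟩
      exact ⟨by simpa using lt_of_fix (p₁ s⁻¹) (orb_lt E h).1, by simpa using lt_of_fix (p₁ s⁻¹) (orb_lt E h).2.1⟩
  · obtain ⟨t, rfl⟩ := hT ht
    rw [← map_mul, ← map_mul, Subgroup.mem_center_iff.1 hs]

end Cfsg.Agent.Lib.Rk3Lab
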