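import Cfsg.Agent.Lib.RuMin
import Cfsg.Agent.Lib.RuMod

/-! The Rudvalis lattice in coordinates; generators of its automorphism group and their relations. -/

set_option autoImplicit false
set_option maxRecDepth 100000

namespace Cfsg.Agent.Lib.RuLat

open Cfsg.Agent.Lib.GMat Cfsg.Agent.Lib.RuLatD Cfsg.Agent.Lib.PermNet Cfsg.Agent.Lib.Words Cfsg.Agent.Lib.PermGroup
  Cfsg.Spor Matrix Equiv

def B : Matrix RuIdx (Fin 28) Z := (mat 28 Bc).submatrix e id

theorem B_eq (x : Fin 28 → Z) : B *ᵥ x = ∑ j, x j • b j := by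
  ext1 p
  simp only [mulVec, dotProduct, Finset.sum_apply, Pi.smul_apply, smul_eq_mul, mul_comm (x _)]
  rfl

theorem tab_eq (f : ℕ → RuVec) (p : RuIdx) (j : Fin 28) : mat 28 (tab f) (e p) j = f j p := by simp [mat, tab]

theorem of_tab {X : Mat} {f : ℕ → RuVec} (h : mul Bc X = tab f) (hX : X.length ≤ 28) (j : Fin 28) :
    B *ᵥ (mat 28 X).col j = f j := by
  ext1 p
  rw [← tab_eq f, ← h, mat_mul _ hX]
  rfl

def mpL (k : ℕ) : RuVec →ₗ[Z] RuVec where
  toFun := mp k
  map_add' v w := by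
    funext ⟨n, t⟩
    rcases k with _ | _ | _ | _ | k
    rotate_right
    · rfl
    all_goals fin_cases t <;> simp [mp, ruRj, ruRk, ruSign, mul_add, add_comm] <;> split_ifs <;> rfl
  map_smul' v w := by
    funext ⟨n, t⟩
    rcases k with _ | _ | _ | _ | k <;> fin_cases t <;> simp [mp, ruRj, ruRk, ruSign, ruShift, mul_left_comm]

theorem mp_mem (k : ℕ) {v : RuVec} (hv : v ∈ ruLattice) : mp k v ∈ ruLattice :=
  AddSubgroup.mem_sInf.2 fun L hL => by
    obtain ⟨h₀, h₁, h₂, h₃, h₄⟩ := hL.2 v (AddSubgroup.mem_sInf.1 hv L hL)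
    rcases k with _ | _ | _ | _ | k
    exacts [h₀, h₁, h₂, h₃, h₄]

theorem smul_eq (z : Z) (v : RuVec) : z • v = z.re • v + z.im • gI • v := by
  ext p <;> simp [gI] <;> ring

theorem b_mem (j : Fin 28) : b j ∈ ruLattice := by
  have : b j = _ := funext fun p => (congrArg (mat 28 · (e p) j) hW).trans (tab_eq _ p j)
  rw [this]
  induction (W.getD j ([], 0)).1 with
  | nil =>
    rcases Nat.lt_or_ge (W.getD j ([], 0)).2 ruTable.length with h | h
    · exact AddSubgroup.mem_sInf.2 fun L hL => hL.1 _ (List.getD_eq_getElem _ _ h ▸ List.getElem_mem h)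
    · exact List.getD_eq_default _ _ h ▸ zero_mem _
  | cons k w ih => exact mp_mem k ih

theorem mem_iff {v : RuVec} : v ∈ ruLattice ↔ ∃ x, B *ᵥ x = v := by
  refine ⟨fun h => AddSubgroup.mem_sInf.1 h (LinearMap.range B.mulVecLin).toAddSubgroup ⟨fun v hv => ?_, ?_⟩, ?_⟩
  · obtain ⟨j, hj, rfl⟩ := List.getElem_of_mem hv
    exact ⟨_, (of_tab hT (by decide) ⟨j, hj.trans (by decide)⟩).trans (List.getD_eq_getElem _ _ hj)⟩
  · have : ∀ k, mul Bc (X k) = tab (fun j => mp k (b j)) → (X k).length ≤ 28 → ∀ x,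
        mp k (B *ᵥ x) ∈ LinearMap.range B.mulVecLin := fun k h h' x => by
      rw [B_eq, show mp k = mpL k from rfl, map_sum]
      exact sum_mem fun j _ => map_smul (mpL k) _ _ ▸ Submodule.smul_mem _ _ ⟨_, of_tab h h' j⟩
    rintro _ ⟨x, rfl⟩
    exact ⟨Submodule.smul_mem _ _ ⟨x, rfl⟩, this 1 hX1 (by decide) x, this 2 hX2 (by decide) x,
      this 3 hX3 (by decide) x, this 4 hX4 (by decide) x⟩
  · rintro ⟨x, rfl⟩
    rw [B_eq]
    exact sum_mem fun j _ => smul_eq _ _ ▸ add_mem (zsmul_mem (b_mem j) _)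
      (zsmul_mem (gI_smul_mem_ruLattice (b_mem j)) _)

theorem B_inj : Function.Injective B.mulVec := fun x y h => by
  have : (mat 28 Dh).submatrix id e * B = (4 : Z) • 1 := by
    rw [B, submatrix_mul_equiv, ← mat_mul _ (by decide), hD, mat_sc, submatrix_id_id]
  have h := congrArg ((mat 28 Dh).submatrix id e).mulVec h
  rw [mulVec_mulVec, mulVec_mulVec, this, smul_mulVec, smul_mulVec, one_mulVec, one_mulVec] at h
  exact smul_right_injective _ (by decide) h

noncomputable def β : (Fin 28 → Z) ≃ ruLattice :=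
  ofBijective (fun x => ⟨B *ᵥ x, mem_iff.2 ⟨x, rfl⟩⟩)
    ⟨fun _ _ h => B_inj (congrArg Subtype.val h), fun v => (mem_iff.1 v.2).imp fun _ h => Subtype.ext h⟩

def bb (j : Fin 28) : ruLattice := ⟨b j, b_mem j⟩

theorem β_single (j : Fin 28) : β (Pi.single j 1) = bb j := Subtype.ext ((B_eq _).trans (by simp [Pi.single_apply, bb]))

theorem induct (A : AddSubgroup ruLattice) (h : ∀ j, bb j ∈ A ∧ ruI (bb j) ∈ A) (v : ruLattice) : v ∈ A := by
  obtain ⟨x, e⟩ := mem_iff.1 v.2
  have : v = ∑ j, ((x j).re • bb j + (x j).im • ruI (bb j)) := Subtype.ext (by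
    rw [← e, B_eq, AddSubgroup.val_finsetSum]
    exact Finset.sum_congr rfl fun j _ => smul_eq _ _)
  exact this ▸ sum_mem fun j _ => add_mem (zsmul_mem (h j).1 _) (zsmul_mem (h j).2 _)

noncomputable def Ψ : GL (Fin 28) Z →* Perm ruLattice := β.permCongrHom.toMonoidHom.comp (MulAction.toPermHom _ _)

theorem Ψ_apply (u : GL (Fin 28) Z) (x : Fin 28 → Z) : Ψ u (β x) = β (u.1 *ᵥ x) :=
  congrArg (fun x => β (u.1 *ᵥ x)) (β.symm_apply_apply x)

theorem norm_B (x : Fin 28 → Z) : (ruNorm (B *ᵥ x) : Z) = star x ⬝ᵥ mat 28 G *ᵥ x := by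
  have : ∀ v : RuVec, (ruNorm v : Z) = star v ⬝ᵥ v := fun v => by
    simp [ruNorm, dotProduct, Zsqrtd.norm_eq_mul_conj, mul_comm]
  rw [this, star_mulVec, ← dotProduct_mulVec, mulVec_mulVec, B, conjTranspose_submatrix, submatrix_mul_equiv,
    ← mat_ct, ← mat_mul _ (by decide), hG, submatrix_id_id]

noncomputable abbrev U : Subgroup (GL (Fin 28) Z) := fourRu.comap Ψ

theorem mem_U {u : GL (Fin 28) Z} (h : u.1ᴴ * mat 28 G * u.1 = mat 28 G) : u ∈ U := by
  have h₁ : ∀ x y, β (x + y) = β x + β y := fun x y => Subtype.ext (mulVec_add B x y)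
  have h₂ : ∀ x, β (gI • x) = ruI (β x) := fun x => Subtype.ext (mulVec_smul B gI x)
  refine ⟨β.forall_congr_right.1 fun x => β.forall_congr_right.1 fun y => ?_, β.forall_congr_right.1 fun x => ?_,
    β.forall_congr_right.1 fun x => Int.cast_injective (α := Z) ?_⟩
  · rw [← h₁, Ψ_apply, Ψ_apply, Ψ_apply, mulVec_add, h₁]
  · rw [← h₂, Ψ_apply, Ψ_apply, mulVec_smul, h₂]
  · rw [Ψ_apply]
    refine (norm_B _).trans (.trans ?_ (norm_B _).symm)
    rw [star_mulVec, ← dotProduct_mulVec, mulVec_mulVec, mulVec_mulVec, h]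

theorem hM (i : ℕ) : (mul (M' i) (M i) = sc 28 1 ∧ mul (ct 28 (M i)) G = mul G (M' i)) ∧ (M i).length ≤ 28 ∧
    (M' i).length ≤ 28 := by
  rcases i with _ | _ | _ | _ | _ | i
  exacts [⟨hM0, by decide⟩, ⟨hM1, by decide⟩, ⟨hM2, by decide⟩, ⟨hM3, by decide⟩, ⟨hM4, by decide⟩, ⟨hM5, le_rfl, le_rfl⟩]

theorem hM' (i : ℕ) : mat 28 (M' i) * mat 28 (M i) = 1 := by rw [← mat_mul _ (hM i).2.1, (hM i).1.1, mat_sc, one_smul]

noncomputable def y (i : ℕ) : U := ⟨⟨mat 28 (M i), mat 28 (M' i), mul_eq_one_comm.1 (hM' i), hM' i⟩, mem_U (by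
  rw [← mat_ct, ← mat_mul _ (by decide), (hM i).1.2, mat_mul _ (hM i).2.2, mul_assoc, hM', mul_one])⟩

noncomputable def κ : U →* GL (Fin 28) (ZMod 73) := (Units.map RuMod.κ.mapMatrix.toMonoidHom).comp U.subtype

theorem norm_bb (j : Fin 28) : ruNorm (b j) = 16 := (hpar j j.2).2.1

theorem κ_inj {u : U} (h : κ u = 1) : u = 1 := by
  have h₁ : ∀ j, B *ᵥ u.1.1 *ᵥ Pi.single j 1 = B *ᵥ Pi.single j 1 := fun j => funext fun p => by
    have h₂ : RuMod.κ ((B *ᵥ u.1.1 *ᵥ Pi.single j 1) p) = RuMod.κ ((B *ᵥ Pi.single j 1) p) := by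
      rw [RingHom.map_mulVec, RingHom.map_mulVec RuMod.κ B (Pi.single j 1)]
      refine congrFun (congrArg _ (funext fun i => (RingHom.map_mulVec ..).trans ?_)) p
      rw [show u.1.1.map RuMod.κ = 1 from congrArg Units.val h, one_mulVec]
    have h₃ : ruNorm (B *ᵥ Pi.single j 1) = 16 := (congrArg (fun v : ruLattice => ruNorm v.1) (β_single j)).trans (norm_bb j)
    have h₄ : ruNorm (B *ᵥ u.1.1 *ᵥ Pi.single j 1) = 16 :=
      (congrArg (fun v : ruLattice => ruNorm v.1) (Ψ_apply u.1 (Pi.single j 1))).symm.trans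
        ((u.2.2.2 (β (Pi.single j 1))).trans h₃)
    generalize B *ᵥ u.1.1 *ᵥ Pi.single j 1 = v, B *ᵥ Pi.single j 1 = w at *
    have h₅ : ∀ v : RuVec, (v p).norm ≤ ruNorm v := fun v =>
      Finset.single_le_sum (fun q _ => GaussianInt.norm_nonneg (v q)) (Finset.mem_univ p)
    have h₆ : (((v p - w p).norm : ℤ) : ZMod 73) = 0 := by
      rw [← map_intCast RuMod.κ, Zsqrtd.norm_eq_mul_conj, map_mul, map_sub, h₂, sub_self, zero_mul]
    have h₇ : (v p - w p).norm + (v p + w p).norm = 2 * ((v p).norm + (w p).norm) := by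
      simp only [Zsqrtd.norm_def, Zsqrtd.re_sub, Zsqrtd.im_sub, Zsqrtd.re_add, Zsqrtd.im_add]; ring
    have := h₅ v
    have := h₅ w
    have := GaussianInt.norm_nonneg (v p + w p)
    exact sub_eq_zero.1 (GaussianInt.norm_eq_zero.1 (Int.eq_zero_of_dvd_of_nonneg_of_lt
      (GaussianInt.norm_nonneg _) (by omega) ((ZMod.intCast_zmod_eq_zero_iff_dvd _ 73).1 h₆)))
  exact Subtype.ext (Units.ext (Matrix.ext fun i j => by simpa [one_apply, Pi.single_apply] using congrFun (B_inj (h₁ j)) i))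

noncomputable def Y : ℕ → U := ext y 6 RuT.defs

theorem hY : ∀ w ∈ RuT.K1 ++ RuT.K2, wval Y w = 1 := fun w hw => by
  have h := MatRep.rels_of RuMod.hinv (RuMod.h₁.append RuMod.h₂) (by decide +kernel)
  refine κ_inj ((map_wval κ Y w).trans ((wval_congr (eq_of_defRels 6 RuT.defs (by decide +kernel)
    (fun w hw => by rw [← map_wval, Y, ext_rels y 6 _ (by decide +kernel) w hw, map_one])
    (derive [] h _ (by decide +kernel)) fun i hi => ?_) ?_).trans (h w hw)))
  · have := MatRep.val_wval RuMod.hinv (w := [2 * i]) (by simp; omega)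
    rw [wval_single, MatRep.mval, List.map_singleton, List.prod_singleton] at this
    rw [Y, ext_of_lt _ _ hi]
    exact Units.ext (.trans (Matrix.ext fun r j => (RuMod.key i hi r j).symm) this.symm)
  · revert w
    decide +kernel

/-- The generators: four that fix `bb 0`, the scalar `i`, one more, and ten words. -/
noncomputable def z (i : ℕ) : fourRu := Ψ.subgroupComap fourRu (Y i)

theorem hz : ∀ w ∈ RuT.K1 ++ RuT.K2, wval z w = 1 := fun w hw =>
  (map_wval _ Y w).symm.trans (by rw [hY w hw, map_one])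

theorem z_smul {i : ℕ} (hi : i < 6) (x : Fin 28 → Z) : z i • β x = β (mat 28 (M i) *ᵥ x) := by
  rw [z, Y, ext_of_lt _ _ hi]
  exact Ψ_apply _ _

theorem act {w : List ℕ} (hw : ∀ l ∈ w, l < 6) : ((w.foldr (fun l X => mul (M l) X) [[1]]).length ≤ 28) ∧
    wval z (w.map (2 * ·)) • bb 0 = β ((mat 28 (w.foldr (fun l X => mul (M l) X) [[1]])).col 0) := by
  induction w with
  | nil => exact ⟨by decide, (one_smul _ _).trans ((β_single 0).symm.trans (congrArg β (by decide +kernel)))⟩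
  | cons l w ih =>
    obtain ⟨h₁, h₂⟩ := List.forall_mem_cons.1 hw
    refine ⟨(List.length_map _).trans_le (hM l).2.1, ?_⟩
    rw [List.map_cons, ← List.singleton_append, wval_append, wval_single, mul_smul, (ih h₂).2, z_smul h₁,
      List.foldr_cons, mat_mul _ (ih h₂).1]
    rfl

theorem act' {w : List ℕ} {V : Mat} (h : (∀ l ∈ w, l < 6) ∧ mul Bc (w.foldr (fun l X => mul (M l) X) [[1]]) = V) :
    (wval z (w.map (2 * ·)) • bb 0).1 = fun p => mat 28 V (e p) 0 := by
  rw [(act h.1).2, ← h.2, mat_mul _ (act h.1).1]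
  rfl

/-- The multiples of a vector by the units. -/
def ln (v : ruLattice) : Set ruLattice := Set.range fun k : Fin 4 => ruI^[k] v

theorem val_iter (k : ℕ) (v : ruLattice) : (ruI^[k] v).1 = gI ^ k • v.1 := by
  induction k with
  | zero => exact (one_smul _ _).symm
  | succ k ih => rw [Function.iterate_succ_apply', pow_succ', mul_smul, ← ih]; rfl

theorem smul_iter (s : fourRu) (k : ℕ) (v : ruLattice) : s • ruI^[k] v = ruI^[k] (s • v) :=
  Function.Semiconj.iterate_right (f := s.1) s.2.2.1 k v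

theorem ln_iter (k : ℕ) (v : ruLattice) : ln (ruI^[k] v) = ln v := by
  induction k with
  | zero => rfl
  | succ k ih =>
    rw [← ih, Function.iterate_succ_apply']
    refine (congrArg Set.range (funext fun j => Subtype.ext ?_)).trans
      ((Equiv.addRight (1 : Fin 4)).surjective.range_comp _)
    exact (val_iter (j + 1) _).trans (.trans (by rw [(by decide : ∀ j : Fin 4, gI ^ (j + 1).1 = gI ^ (j.1 + 1))])
      (val_iter (j + 1).1 _).symm)

open Pointwise

theorem smul_ln (s : fourRu) (v : ruLattice) : s • ln v = ln (s • v) := by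
  rw [ln, Set.smul_set_range]
  exact congrArg _ (funext fun k => smul_iter s k v)

theorem fix_hs : ∀ w ∈ RuT.hs, wval z w • ln (bb 0) = ln (bb 0) := by
  refine mem_of_slp (A := MulAction.stabilizer fourRu (ln (bb 0))) hz _ [(6, [4, 4]), (7, [2, 4, 2]), (8, [12, 5, 12, 4]),
    (9, [12, 10, 12, 10]), (10, [12, 5, 0, 4, 0]), (11, [12, 12]), (12, [10, 2, 16, 2]), (13, [5, 14, 14, 4]),
    (14, [0, 18, 18, 0]), (15, [16, 16])] ((List.range 5).map fun i => [2 * i]) (gp_le.2 fun w hw => ?_) (by decide +kernel)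
  obtain ⟨i, hi, rfl⟩ := List.mem_map.1 hw
  have : ∀ i ∈ List.range 5, (∀ l ∈ [i], l < 6) ∧ ∀ p, mat 28 (mul Bc (mul (M i) [[1]])) (e p) 0 =
      (gI ^ (i / 4) • b 0) p := by decide +kernel
  refine (smul_ln _ _).trans (.trans (congrArg ln (Subtype.ext ?_)) (ln_iter (i / 4) _))
  exact (act' ⟨(this i hi).1, rfl⟩).trans ((funext (this i hi).2).trans (val_iter _ (bb 0)).symm)

def F (s t : Set ruLattice) : Set ℤ := Set.image2 (fun v w => ruNorm (v + w).1) s t

theorem F_smul (g : fourRu) (s t : Set ruLattice) : F (g • s) (g • t) = F s t := by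
  rw [F, ← Set.image_smul, ← Set.image_smul, Set.image2_image_left, Set.image2_image_right]
  exact Set.image2_congr' fun v w => (congrArg (fun v : ruLattice => ruNorm v.1) (g.2.1 v w).symm).trans (g.2.2.2 _)

theorem mem_F {n : ℤ} {v w : ruLattice} :
    n ∈ F (ln v) (ln w) ↔ ∃ j k : Fin 4, ruNorm (gI ^ j.1 • v.1 + gI ^ k.1 • w.1) = n := by
  simp only [F, ln, Set.mem_image2, Set.mem_range, exists_exists_eq_and, AddSubgroup.coe_add, val_iter]

def wc : List ℕ := [5, 1, 3, 1, 3, 1, 3, 1, 5]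

theorem F_ne : F (ln (bb 0)) (ln (bb 0)) ≠ F (ln (bb 0)) (wval z [10] • ln (bb 0)) ∧
    F (ln (bb 0)) (ln (bb 0)) ≠ F (ln (bb 0)) (wval z (wc.map (2 * ·)) • ln (bb 0)) ∧
    F (ln (bb 0)) (wval z [10] • ln (bb 0)) ≠ F (ln (bb 0)) (wval z (wc.map (2 * ·)) • ln (bb 0)) := by
  have h₁ := act' (w := [5]) (V := [[0], [-4]] ++ List.replicate 26 [0]) (by decide +kernel)
  have h₂ := act' (w := wc) (V := [[-1], [0], [-1], [0], [0], [gI], [-gI], [0], [0], [-gI], [0], [-gI], [gI], [gI], [1],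
    [-1], [-gI], [0], [0], [-gI], [0], [0], [-gI], [-1], [1], [gI], [0], [0]]) (by decide +kernel)
  refine ⟨fun h => absurd (Set.ext_iff.1 h 0) ?_, fun h => absurd (Set.ext_iff.1 h 0) ?_,
    fun h => absurd (Set.ext_iff.1 h 40) ?_⟩ <;>
  · simp only [smul_ln, mem_F, show (wval z [10] • bb 0).1 = _ from h₁, h₂]
    decide +kernel

theorem card_min : {v : ruLattice | ruNorm v.1 = 16}.encard ≤ (16240 : ℕ) := by
  open RuMin Z4Min in
  have ad : ∀ v w, co (v + w) = ps.map fun p => (bif p.2 then (v p.1).im else (v p.1).re) +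
      bif p.2 then (w p.1).im else (w p.1).re := fun v w => List.map_congr_left fun ⟨p, c⟩ _ => by cases c <;> rfl
  have h₁ : ∀ v w, par (co (v + w)) = par (co v) ^^^ par (co w) := fun v w => ad v w ▸ par_add ..
  have h₂ : ∀ v w i, syn cols (co (v + w)) i = syn cols (co v) i + syn cols (co w) i := fun v w i => ad v w ▸ syn_add ..
  have h₃ : par (co 0) = 0 := by simpa using h₁ 0 0
  have h₄ : ∀ i, syn cols (co 0) i = 0 := fun i => by simpa using h₂ 0 0 i
  have h₅ := induct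
    { carrier := {v | Sp gs (par (co v.1)) ∧ ∀ i, syn cols (co v.1) i = 0}
      zero_mem' := ⟨h₃ ▸ sp_zero _, h₄⟩
      add_mem' := fun {v w} h k => ⟨h₁ v.1 w.1 ▸ h.1.xor k.1, fun i => (h₂ v.1 w.1 i).trans (by rw [h.2, k.2, add_zero])⟩
      neg_mem' := fun {v} h => ⟨by
        have := h₁ v.1 (-v.1)
        rw [add_neg_cancel, h₃, eq_comm, Nat.xor_eq_zero_iff] at this
        exact this ▸ h.1, fun i => by simpa [h₄, h.2 i] using (h₂ v.1 (-v.1) i).symm⟩ }
    fun j => by
      have := fun u hu => (basis j j.2 u hu).imp sp_of_spB fun h i => (add_zero _).symm.trans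
        (show D (0, 0) i = 0 by simp [D] ▸ syn_of_synB h i)
      exact ⟨by simpa [bb] using this 1 (by simp), this gI (by simp)⟩
  refine le_trans (Set.encard_le_encard_of_injOn (f := fun v : ruLattice => co v.1) (t := S cols gs 0) (fun v hv => ⟨List.length_map _,
    (Nat.xor_zero _).symm ▸ (h₅ v).1, .trans ?_ hv, (h₅ v).2⟩) fun v _ w _ h => Subtype.ext (funext fun p => ?_)) card_le
  · simp [ruNorm, co, ps, nrm, Fintype.sum_prod_type, Fin.sum_univ_succ, List.finRange_succ, Zsqrtd.norm_def, List.product]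
    ring
  · have := fun c => List.map_inj_left.1 h (p, c) (by revert p c; decide +kernel)
    exact Zsqrtd.ext (this false) (this true)

theorem exists_lab_eq {lab : ℕ → Set ruLattice} (inj : Set.InjOn lab (Set.Iio 4060))
    (h : ∀ x < 4060, ∃ s : fourRu, lab x = s • ln (bb 0)) {v : ruLattice} (hv : ruNorm v.1 = 16) :
    ∃ x < 4060, lab x = ln v := by
  choose s hs using h
  have nm : ∀ (k : ℕ) (v : ruLattice), ruNorm (ruI^[k] v).1 = ruNorm v.1 := fun k v => by
    simp [val_iter, ruNorm, Zsqrtd.norm_mul, show (gI ^ k).norm = 1 from (map_pow Zsqrtd.normMonoidHom _ _).trans (one_pow k)]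
  have h16 : ∀ s : fourRu, ruNorm (s • bb 0).1 = 16 := fun s => (s.2.2.2 _).trans (norm_bb 0)
  let f : Fin 4060 × Fin 4 → ruLattice := fun p => ruI^[p.2] (s p.1 p.1.2 • bb 0)
  have hf : ∀ p, ln (f p) = lab p.1 := fun p => by rw [ln_iter, hs _ p.1.2, smul_ln]
  have fi : Function.Injective f := fun ⟨x, j⟩ ⟨y, k⟩ e => by
    obtain rfl : x = y := Fin.ext (inj x.2 y.2 ((hf (x, j)).symm.trans (e ▸ hf (y, k))))
    have := congrArg Subtype.val e
    rw [val_iter, val_iter] at this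
    rw [show j = k from (by decide : ∀ j k : Fin 4, gI ^ j.1 = gI ^ k.1 → j = k) j k
      (smul_left_injective _ (fun e => by simpa [e, ruNorm] using h16 (s x x.2)) this)]
  obtain ⟨p, rfl⟩ : v ∈ Set.range f := by
    rw [(Set.finite_range f).eq_of_subset_of_encard_le (t := {v : ruLattice | ruNorm v.1 = 16})
      (Set.range_subset_iff.2 fun p => (nm _ _).trans (h16 _)) (card_min.trans (le_trans (by simp) fi.encard_range))]
    exact hv
  exact ⟨p.1, p.1.2, (hf p).symm⟩

theorem mem_center {s : fourRu} (h : ∀ j, s • ln (bb j) = ln (bb j)) : s ∈ Subgroup.center fourRu := by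
  have : ∀ j, ∃ m : Fin 4, ruI^[m] (bb j) = s • bb j := fun j => ((smul_ln s _).symm.trans (h j)).le ⟨0, rfl⟩
  choose m hm using this
  have hm' : ∀ j, (s • bb j).1 = gI ^ (m j).1 • b j := fun j => by rw [← hm, val_iter]; rfl
  have h₀ : ∀ j, m j = m 0 := fun ⟨j, hj⟩ => by
    induction j using Nat.strong_induction_on with
    | _ j ih =>
      obtain ⟨h₁ | rfl, -, h₂⟩ := hpar j hj
      · refine .trans (Fin.ext (h₂ _ (m _).2 _ (m _).2 ?_ ?_)) (ih _ h₁ (h₁.trans hj))
        · rw [← hm' ⟨j, hj⟩, ← hm' ⟨_, h₁.trans hj⟩]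
          exact (congrArg (fun v : ruLattice => ruNorm v.1) (s.2.1 _ _).symm).trans (s.2.2.2 _)
        · rw [← hm' ⟨j, hj⟩, ← hm' ⟨_, h₁.trans hj⟩]
          exact (congrArg (fun v : ruLattice => ruNorm v.1) ((s.2.1 _ (ruI _)).trans
            (congrArg _ (s.2.2.1 _))).symm).trans (s.2.2.2 _)
      · rfl
  have h₁ := induct ((AddMonoidHom.mk' s.1 s.2.1).eqLocus (AddMonoidHom.mk' (ruI^[m 0]) fun v w =>
    Subtype.ext (by simp [val_iter]))) fun j => by
      have : s • bb j = ruI^[m 0] (bb j) := h₀ j ▸ (hm j).symm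
      exact ⟨this, (s.2.2.1 _).trans ((congrArg ruI this).trans (Function.Commute.iterate_self ..).symm)⟩
  exact Subgroup.mem_center_iff.2 fun g => Subtype.ext (Equiv.ext fun v =>
    (congrArg g.1 (h₁ v)).trans ((smul_iter g _ v).trans (h₁ _).symm))

end Cfsg.Agent.Lib.RuLat
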