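import Cfsg.Agent.Lib.Z4Min
import Cfsg.Agent.Lib.RuLatD

/-! The Rudvalis lattice has at most 16240 vectors of the least norm. -/

set_option autoImplicit false
set_option maxRecDepth 100000
set_option Elab.async false

namespace Cfsg.Agent.Lib.RuMin

open Cfsg.Agent.Lib.Z4Min Cfsg.Spor

def cols : List (ℕ × ℕ) := [(1, 129128), (2, 272294), (4, 345959), (12, 388947), (22, 511826), (57, 267988), (100, 239437), (64, 196485), (156, 445324), (347, 173817), (597, 159506), (970, 440757), (1718, 450609), (1797, 334428), (1515, 208937), (1024, 518529), (3590, 158825), (6548, 139082), (15197, 240474), (11496, 450618), (30032, 268701), (25233, 55969), (22502, 159612), (16384, 276396), (33536, 399593), (34815, 310488), (33524, 518015), (34343, 391982), (33196, 109251), (34092, 471052), (33964, 49366), (32768, 118309), (88152, 489289), (69671, 140927), (83979, 145690), (65536, 172518), (92276, 456526), (73728, 492507), (77824, 483544), (96256, 333934), (135221, 92883), (157724, 119705), (161914, 296561), (131072, 440999), (149537, 270849), (143440, 117368), (153696, 292258), (139330, 456956), (271103, 306785), (262144, 45500), (289920, 117300), (282112,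 436358), (275712, 221728), (268248, 173774), (285100, 351164), (293643, 271935)]

def gs : List ℕ := [36328989633308193, 18299251449083228, 9310737586395221, 4791694245110056, 2538871186145908, 1432677312001033, 864302545919101, 163827239173171, 94558000997692, 56075098853221, 16492677781098, 641444282428, 371151405157, 220493119503, 66122940502, 4278190080, 16711680, 65280, 255]

theorem c0 : cntB cols (gs.drop 1) (0 ^^^ 36328989633308193) 4608 = true := by decide +kernel

theorem c1 : cntB cols (gs.drop 2) (0 ^^^ 18299251449083228) 4608 = true := by decide +kernel

theorem c2 : cntB cols (gs.drop 3) (0 ^^^ 9310737586395221) 2048 = true := by decide +kernel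

theorem c3 : cntB cols (gs.drop 4) (0 ^^^ 4791694245110056) 2048 = true := by decide +kernel

theorem c4 : cntB cols (gs.drop 4) 0 2928 = true := by decide +kernel

theorem card_le : (S cols gs 0).encard ≤ (16240 : ℕ) :=
  S_cons (S_cons (S_cons (S_cons (S_le c4) (S_le c3)) (S_le c2)) (S_le c1)) (S_le c0)

def ps : List (RuIdx × Bool) := ((List.finRange 7).product (List.finRange 4)).product [false, true]

/-- The real coordinates. -/
def co (v : RuVec) : List ℤ := ps.map fun p => bif p.2 then (v p.1).im else (v p.1).re

theorem basis : ∀ j < 28, ∀ u ∈ [1, gI], spB gs (par (co (u • RuLatD.b j))) = true ∧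
    synB cols (co (u • RuLatD.b j)) 0 0 = true := by decide +kernel

end Cfsg.Agent.Lib.RuMin
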