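import Cfsg.Agent.Lib.RuRR

set_option autoImplicit false
set_option maxRecDepth 100000
set_option Elab.async false

namespace Cfsg.Agent.Lib.RuR
open Cfsg.Agent.Lib.PermNet Cfsg.Agent.Lib.Words Cfsg.Agent.Lib.PermGroup Cfsg.Agent.Lib.Rk3Aut Cfsg.Agent.Lib.Rk3Emb
  Cfsg.Agent.Lib.Rk3PH Cfsg.Agent.Lib.Rk3Iso Cfsg.Agent.Lib.Rk3Fast

theorem phc0 : (decide (4060 ≤ 2 ^ 12 ∧ ¬ 5 ∣ 2304 ∧ 2304 < pcN phcR ∧ ¬ 1755 ∣ 15600 ∧ 0 < 1755) && (pcG phcP).all (lt 19) &&
    (pcG phcR).all (lt 19) && pcOK phcP && pcOK phcR && phcP.all (fun e => Nat.beq e.2.1 5) &&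
    phcR.all (fun e => Nat.beq e.2.1 2) && relsOnB nets 4060 12 (pcR phcP) 0 12 && relsOnB nets 4060 12 (pcR phcR) 0 12) = true := by decide +kernel

theorem phc1_0 : List.all (List.take 406 (NW phcR)) phcF = true := by decide +kernel

theorem phc1_1 : List.all (List.take 368 (List.drop 406 (NW phcR))) phcF = true := by decide +kernel

theorem phc1_2 : List.all (List.take 276 (List.drop 368 (List.drop 406 (NW phcR)))) phcF = true := by decide +kernel

theorem phc1_3 : List.all (List.take 373 (List.drop 276 (List.drop 368 (List.drop 406 (NW phcR))))) phcF = true := by decide +kernel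

theorem phc1_4 : List.all (List.take 401 (List.drop 373 (List.drop 276 (List.drop 368 (List.drop 406 (NW phcR)))))) phcF = true := by decide +kernel

theorem phc1_5 : List.all (List.take 410 (List.drop 401 (List.drop 373 (List.drop 276 (List.drop 368 (List.drop 406 (NW phcR))))))) phcF = true := by decide +kernel

theorem phc1_6 : List.all (List.take 425 (List.drop 410 (List.drop 401 (List.drop 373 (List.drop 276 (List.drop 368 (List.drop 406 (NW phcR)))))))) phcF = true := by decide +kernel

theorem phc1_7 : List.all (List.take 372 (List.drop 425 (List.drop 410 (List.drop 401 (List.drop 373 (List.drop 276 (List.drop 368 (List.drop 406 (NW phcR))))))))) phcF = true := by decide +kernel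

theorem phc1_8 : List.all (List.take 392 (List.drop 372 (List.drop 425 (List.drop 410 (List.drop 401 (List.drop 373 (List.drop 276 (List.drop 368 (List.drop 406 (NW phcR)))))))))) phcF = true := by decide +kernel

theorem phc1_9 : List.all (List.take 351 (List.drop 392 (List.drop 372 (List.drop 425 (List.drop 410 (List.drop 401 (List.drop 373 (List.drop 276 (List.drop 368 (List.drop 406 (NW phcR))))))))))) phcF = true := by decide +kernel

theorem phc1_10 : List.all (List.take 312 (List.drop 351 (List.drop 392 (List.drop 372 (List.drop 425 (List.drop 410 (List.drop 401 (List.drop 373 (List.drop 276 (List.drop 368 (List.drop 406 (NW phcR)))))))))))) phcF = true := by decide +kernel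

theorem phc1_11 : List.all (List.drop 312 (List.drop 351 (List.drop 392 (List.drop 372 (List.drop 425 (List.drop 410 (List.drop 401 (List.drop 373 (List.drop 276 (List.drop 368 (List.drop 406 (NW phcR)))))))))))) phcF = true := by decide +kernel

end Cfsg.Agent.Lib.RuR
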