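import Cfsg.Agent.Lib.RuRR

set_option autoImplicit false
set_option maxRecDepth 100000
set_option Elab.async false

namespace Cfsg.Agent.Lib.RuR
open Cfsg.Agent.Lib.PermNet Cfsg.Agent.Lib.Words Cfsg.Agent.Lib.PermGroup Cfsg.Agent.Lib.Rk3Aut Cfsg.Agent.Lib.Rk3Emb
  Cfsg.Agent.Lib.Rk3PH Cfsg.Agent.Lib.Rk3Iso Cfsg.Agent.Lib.Rk3Fast

theorem phc2_0 : List.all (List.take 8 phcS) (spB nets 4060 12 19 15600 (pcG phcP) phcL) = true := by decide +kernel

theorem phc2_1 : List.all (List.drop 8 phcS) (spB nets 4060 12 19 15600 (pcG phcP) phcL) = true := by decide +kernel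

theorem fxb : ((ivl 1 1755).testBit 1 && fixB nets us (pt 1) && unionB' nets us 4060 ol1 (ivl 1 1755) fun q s =>
    !q.testBit 1 || Nat.beq q (pt 1) || !(Nat.ble (s * 0) 20480 && Nat.beq (20480 % s) 0)) = true := by decide +kernel

theorem fxc : ((ivl 1756 2304).testBit 1756 && fixB nets L1 (pt 1756) && unionB' nets L1 4060 ol2 (ivl 1756 2304) fun q s =>
    !q.testBit 1756 || Nat.beq q (pt 1756) || !(Nat.ble (s * 0) 15600 && Nat.beq (15600 % s) 0)) = true := by decide +kernel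

theorem rw : rowsB' nets 19 4060 1755 1 1756 P2 Kc ol3 ol4 rwN (finB nets 20 1755 1 1756 rwA) = true := by decide +kernel

theorem prim : ((ivl 1 1755).testBit 1 && List.all P2 (lt 19) && fixB nets P2 (pt 1) && unionB' nets P2 4060 ol5 (ivl 1 1755) fun q s =>
    !q.testBit 1 || Nat.beq q (pt 1) || Nat.beq s 1755 || !Nat.beq (1755 % s) 0) = true := by decide +kernel

theorem ch0 : (List.all ws4 (lt 19) && levelB nets ws4 [] 1 [1, 0, 3, 1, 0, 2, 3, 4, 1, 3, 2, 1, 0, 3, 2, 1, 6, 3, 8, 0] 1 1755 1755) = true := by decide +kernel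

theorem ch1 : (List.all P2 (lt 19) && levelB nets P2 [1] 30 [2, 3, 4, 5, 6, 7, 8, 9, 10, 11] 28 1720 1024) = true := by decide +kernel

theorem ch2 : (List.all ws5 (lt 19) && levelB nets ws5 [30, 1] 4 [0, 1, 0, 0, 1, 0, 0] 4 1428 20) = true := by decide +kernel

theorem ex : exec nets 4060 20 (ivl 1 1755) (fun l => sepB l 4060) prog [ones 4060] = true := by decide +kernel

theorem rels0_0 : RelsOn nets 4060 12 rels0 0 12 :=
  relsOn_of_B _ _ _ _ _ 12 _ (by decide +kernel) (by decide +kernel)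

end Cfsg.Agent.Lib.RuR
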