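import Cfsg.Agent.Lib.RuTR

set_option autoImplicit false
set_option maxRecDepth 100000
set_option Elab.async false

namespace Cfsg.Agent.Lib.RuT
open Cfsg.Agent.Lib.PermNet Cfsg.Agent.Lib.Words Cfsg.Agent.Lib.PermGroup Cfsg.Agent.Lib.Rk3Aut Cfsg.Agent.Lib.Rk3Emb
  Cfsg.Agent.Lib.Rk3PH Cfsg.Agent.Lib.Rk3Iso

theorem mod : (fixB nets hs (pt 0) && fixB nets hs (ivl 1 1755) &&
    fixB nets hs (ivl (1 + 1755) 2304) && subB (ivl 1 1755) (grow nets hs sb (pt 1)) &&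
    subB (ivl (1 + 1755) 2304) (grow nets hs sc (pt (1 + 1755)))) = true := by decide +kernel

theorem tr : subB (ones 4060) (grow nets ls [15, 12, 2, 13, 0, 1, 12, 2, 13, 0, 1, 12, 2, 13, 0, 1, 12, 2, 15, 12, 13, 0, 0] (pt 0)) = true := by decide +kernel

theorem rels0_0 : RelsOn nets 4060 12 rels0 0 6 :=
  relsOn_of_B _ _ _ _ _ 6 _ (by decide +kernel) (by decide +kernel)

theorem rels0_6 : RelsOn nets 4060 12 rels0 6 12 :=
  relsOn_of_B _ _ _ _ _ 6 _ (by decide +kernel) (by decide +kernel)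

end Cfsg.Agent.Lib.RuT
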