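import Cfsg.Agent.Lib.RuTaP

set_option autoImplicit false
set_option maxRecDepth 100000

namespace Cfsg.Agent.Lib.RuTa
open Cfsg.Agent.Lib.TCCore

theorem k0 : P.RowsS 0 5 := P.rowsS_of_chk _ _ [nat_lit 0x2010102020102010301010101020102000080003030103020102010201030201020301010104040301010201020101020301040100008000202040403010301030101010303010101014010040100400050001400050001401004000500] (by decide +kernel)
theorem s0 : P.RowsS 0 5 := k0

end Cfsg.Agent.Lib.RuTa
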