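import Cfsg.Agent.Lib.TCDefs

set_option autoImplicit false
set_option maxRecDepth 100000

namespace Cfsg.Agent.Lib.RuTa
open Cfsg.Agent.Lib.TCCore

noncomputable def l0 : T := .leaf (nat_lit 0) (nat_lit 0x4506d07504506504506d07507d08505504d08507d08503b02403afff02401b06406c03c05c03c04403c04403c04403c06c07403c02a03b02dfff0e402404304b03302b02303303b03303b06305b05305b04b045012034fff02400901a01a01a01a01a02201a02201a02201a02201a01a03404501bfff0e4012009009009009009011009011009011009011009009009011009fff000)

end Cfsg.Agent.Lib.RuTa
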