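import Cfsg.Agent.Lib.GL2Solv
import Cfsg.Agent.Lib.EMod
import Cfsg.Agent.Lib.PReduced
import Cfsg.Agent.Lib.ThompsonJ
import Cfsg.Agent.Lib.FStarAct
import Cfsg.Agent.Lib.FStarCharP

/-! Perfect groups of odd `p`-rank at most two: solvable normal subgroups are central modulo
`O_{2,F}`. -/

set_option autoImplicit false
set_option linter.style.haveILetI false

namespace Cfsg.Agent.Lib.SQTLemma

open Subgroup Cfsg Cfsg.Agent.Lib.PCoreConj Cfsg.Agent.Lib.PCore Cfsg.Agent.Lib.PCoreResidual
  Cfsg.Agent.Lib.PCoreMod Cfsg.Agent.Lib.PReduced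
open scoped commutatorElement

variable {G : Type*} [Group G]

theorem pRankLE_quotient [Finite G] {p k : ℕ} [Fact p.Prime] (h : PRankLE p k G) (N : Subgroup G)
    [N.Normal] (hN : (Nat.card N).Coprime p) : PRankLE p k (G ⧸ N) := by
  intro A hA hAp
  obtain ⟨P, hP⟩ := exists_isSylowIn p (A.comap (QuotientGroup.mk' N))
  have hAP : IsPGroup p A := isPGroup_of_isElementaryAbelian ⟨hA, hAp⟩
  have h1 := hP.map (QuotientGroup.mk' N)
  rw [map_comap_eq_self_of_surjective (QuotientGroup.mk'_surjective N)] at h1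
  have h2 := h1.eq_of_isPGroup hAP
  have hd : ∀ x ∈ P, x ∈ N → x = 1 := fun x hx hxN =>
    FStarCharP.eq_one_of_coprime_of_mem hP.isPGroup (orderOf_coprime_of_mem hxN hN) hx
  have h3 : Nat.card P ≤ p ^ k := by
    refine h P (isMulCommutative_iff_forall.2 fun a ha b hb => ?_) fun a ha => ?_
    · rw [← commutatorElement_eq_one_iff_mul_comm]
      refine hd _ (commutator_le_left_of_le_normalizer le_normalizer
        (commutator_mem_commutator ha hb)) ?_
      rw [← QuotientGroup.eq_one_iff, ← QuotientGroup.mk'_apply, map_commutatorElement,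
        commutatorElement_eq_one_iff_mul_comm]
      exact isMulCommutative_iff_forall.1 hA _ (hP.le ha) _ (hP.le hb)
    · refine hd _ (pow_mem ha p) ?_
      rw [← QuotientGroup.eq_one_iff, ← QuotientGroup.mk'_apply, map_pow]
      exact hAp _ (hP.le ha)
  rw [← h2]
  exact (Nat.le_of_dvd Nat.card_pos (card_map_dvd P _)).trans h3

theorem card_le_card_commutator_mul {B : Subgroup G} [Finite B] {x : G} (hx : x ∈ B) :
    Nat.card B ≤ Nat.card (⁅B, B⁆ : Subgroup G) *
      Nat.card (B ⊓ centralizer ({x} : Set G) : Subgroup G) := by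
  classical
  haveI : Finite (⁅B, B⁆ : Subgroup G) :=
    finite_of_le (commutator_le_left_of_le_normalizer le_normalizer)
  haveI : Finite (B ⊓ centralizer ({x} : Set G) : Subgroup G) := finite_of_le inf_le_left
  rw [← card_mul_relIndex (inf_le_left : B ⊓ centralizer ({x} : Set G) ≤ B), mul_comm]
  refine Nat.mul_le_mul_right _ ?_
  let f : B ⧸ (B ⊓ centralizer ({x} : Set G)).subgroupOf B → (⁅B, B⁆ : Subgroup G) :=
    fun u => ⟨⁅(u.out : G), x⁆, commutator_mem_commutator u.out.2 hx⟩
  refine Nat.card_le_card_of_injective f fun u v huv => ?_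
  rw [← QuotientGroup.out_eq' u, ← QuotientGroup.out_eq' v, QuotientGroup.eq, mem_subgroupOf]
  refine ⟨((u.out)⁻¹ * v.out).2, ?_⟩
  have h1 : ⁅(u.out : G), x⁆ = ⁅(v.out : G), x⁆ := congrArg Subtype.val huv
  refine mem_centralizer_singleton_iff.2 ?_
  simp only [commutatorElement_def] at h1
  have h2 : (u.out : G) * x * (u.out : G)⁻¹ = (v.out : G) * x * (v.out : G)⁻¹ :=
    mul_right_cancel h1
  show ((u.out : G)⁻¹ * v.out) * x = x * ((u.out : G)⁻¹ * v.out)
  calc ((u.out : G)⁻¹ * v.out) * x = (u.out : G)⁻¹ * ((v.out : G) * x * (v.out : G)⁻¹) * v.out := by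
        group
    _ = x * ((u.out : G)⁻¹ * v.out) := by rw [← h2]; group

theorem isElementaryAbelian_zpowers' {p : ℕ} {x : G} (h : x ^ p = 1) :
    IsElementaryAbelian p (zpowers x) := by
  refine ⟨inferInstance, ?_⟩
  rintro _ ⟨n, rfl⟩
  show (x ^ n) ^ p = 1
  rw [← zpow_natCast, ← zpow_mul, mul_comm, zpow_mul, zpow_natCast, h, one_zpow]

/-- A group of exponent `p` and rank at most two has abelianization of order at most `p ^ 2`. -/
theorem card_le_of_exponent [Finite G] {p : ℕ} [hp : Fact p.Prime] (h : PRankLE p 2 G)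
    {B : Subgroup G} (hB : ∀ x ∈ B, x ^ p = 1) :
    Nat.card B ≤ Nat.card (⁅B, B⁆ : Subgroup G) * p ^ 2 := by
  have hBp : IsPGroup p B := isPGroup_iff_forall_mem.2 fun x hx => ⟨1, by simpa using hB x hx⟩
  by_cases hc : B ≤ centralizer (B : Set G)
  · have := h B (isMulCommutative_iff_forall.2 fun a ha b hb => hc hb a ha) hB
    exact this.trans (Nat.le_mul_of_pos_left _ Nat.card_pos)
  obtain ⟨x, hxB, hx⟩ := SetLike.not_le_iff_exists.1 hc
  have hne : B ≠ ⊥ := by rintro rfl; exact hc bot_le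
  set Z := B ⊓ centralizer (B : Set G) with hZ
  have hZne : Z ≠ ⊥ := center_ne_bot hBp hne
  have hZe : IsElementaryAbelian p Z :=
    ⟨isMulCommutative_center B, fun a ha => hB a ha.1⟩
  have hxe := isElementaryAbelian_zpowers' (hB x hxB)
  have hA : IsElementaryAbelian p (Z ⊔ zpowers x : Subgroup G) :=
    isElementaryAbelian_sup hZe hxe (inf_le_right.trans (centralizer_anti (zpowers_le.2 hxB)))
  have hAB : Z ⊔ zpowers x ≤ B := sup_le inf_le_left (zpowers_le.2 hxB)
  have hlt : Z < Z ⊔ zpowers x := lt_of_le_of_ne le_sup_left fun e =>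
    hx ((le_sup_right.trans e.ge : zpowers x ≤ Z) (mem_zpowers x)).2
  have hAcard : p ^ 2 ≤ Nat.card (Z ⊔ zpowers x : Subgroup G) := by
    obtain ⟨a, ha⟩ := (IsPGroup.iff_card (p := p)).1 (hBp.to_le (inf_le_left : Z ≤ B))
    obtain ⟨b, hb⟩ := (IsPGroup.iff_card (p := p)).1 (hBp.to_le hAB)
    have h1 := card_lt_of_lt hlt
    have h2 : 1 < Nat.card Z := (one_lt_card_iff_ne_bot Z).2 hZne
    rw [ha] at h2
    rw [ha, hb] at h1
    rw [hb]
    have h3 : a ≠ 0 := by rintro rfl; simp at h2
    have h4 := (Nat.pow_lt_pow_iff_right hp.out.one_lt).1 h1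
    exact Nat.pow_le_pow_right hp.out.pos (by omega)
  have hC : B ⊓ centralizer ({x} : Set G) ≤ Z ⊔ zpowers x := by
    rintro y ⟨hyB, hy⟩
    have hye := isElementaryAbelian_zpowers' (hB y hyB)
    have hA2 : IsElementaryAbelian p ((Z ⊔ zpowers x) ⊔ zpowers y : Subgroup G) := by
      refine isElementaryAbelian_sup hA hye (sup_le
        (inf_le_right.trans (centralizer_anti (zpowers_le.2 hyB))) ?_)
      rw [zpowers_le]
      rintro _ ⟨n, rfl⟩
      exact (Commute.zpow_left (mem_centralizer_singleton_iff.1 hy) n).eq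
    have h1 := eq_of_le_of_card_le (le_sup_left : Z ⊔ zpowers x ≤ (Z ⊔ zpowers x) ⊔ zpowers y)
      ((h _ hA2.1 hA2.2).trans hAcard)
    rw [h1]
    exact (le_sup_right : zpowers y ≤ _) (mem_zpowers y)
  refine (card_le_card_commutator_mul hxB).trans (Nat.mul_le_mul_left _ ?_)
  exact (Nat.le_of_dvd Nat.card_pos (card_dvd_of_le hC)).trans (h _ hA.1 hA.2)

theorem pResidualOf_le_centralizer [Finite G] [Group.IsPerfect G] {p : ℕ} [hp : Fact p.Prime]
    (hp2 : p ≠ 2) (hr : PRankLE p 2 G) (N : Subgroup G) [N.Normal] [Group.IsSolvable N]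
    (B : Subgroup G) : B.Normal → IsPGroup p B →
    pResidualOf p (⁅N, ⊤⁆ : Subgroup G) ≤ centralizer (B : Set G) := by
  induction B using WellFoundedLT.induction with
  | ind B ih =>
  intro hBn hB
  set R := pResidualOf p (⁅N, ⊤⁆ : Subgroup G) with hR
  haveI hRn : R.Normal := pResidualOf_normal p _
  by_cases hB1 : B = ⊥
  · rw [hB1, centralizer_bot']; exact le_top
  by_cases hBR : ⁅B, R⁆ = B
  swap
  · refine pResidualOf_le_centralizer_of_commutator hB le_normalizer_of_normal ?_
    have hle : ⁅B, R⁆ ≤ B := commutator_le_left _ _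
    exact ih _ (lt_of_le_of_ne hle hBR) inferInstance (hB.to_le hle)
  exfalso
  set D := ⁅B, B⁆ with hD
  have hDB : D < B := commutator_lt hB hB le_normalizer hB1
  have hDR : ⁅D, R⁆ = ⊥ := commutator_eq_bot_iff_le_centralizer'.2
    (ih D hDB inferInstance (hB.to_le hDB.le))
  have hBD : ⁅B, D⁆ = ⊥ := by
    rw [← hBR]
    refine commutator_commutator_eq_bot_of_rotate ?_ (eq_bot_iff.mpr ?_)
    · rw [commutator_comm R D, hDR, commutator_bot_left]
    · exact (commutator_mono (commutator_le_left D B) le_rfl).trans hDR.le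
  have hcen : ∀ f ∈ D, ∀ x ∈ B, Commute x f := fun f hf x hx =>
    commutatorElement_eq_one_iff_commute.mp (mem_bot.mp (hBD ▸ commutator_mem_commutator hx hf))
  -- the subgroup of elements whose `p`-th power lies in `D`
  let q := QuotientGroup.mk' D
  have hqc : ∀ x ∈ B, ∀ y ∈ B, Commute (q x) (q y) := fun x hx y hy => by
    rw [← commutatorElement_eq_one_iff_commute, ← map_commutatorElement]
    exact (QuotientGroup.eq_one_iff _).2 (commutator_mem_commutator hx hy)
  -- the subgroup generated by `D` and the `p`-th powers is proper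
  let F : Subgroup G := (frattini B).map B.subtype
  haveI hFn : F.Normal := normal_iff_top_le.2 (PIrred.le_normalizer_map_frattini le_normalizer_of_normal)
  have hFB : F < B := by
    refine lt_of_le_of_ne (map_subtype_le _) fun he => ?_
    have : Nontrivial B := (nontrivial_iff_ne_bot B).mpr hB1
    refine FrattiniFacts.frattini_ne_top (G := B) ?_
    rw [← map_subtype_subgroupOf (frattini B)]
    show F.subgroupOf B = ⊤
    rw [he, subgroupOf_self]
  have hFR : ⁅F, R⁆ = ⊥ := commutator_eq_bot_iff_le_centralizer'.2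
    (ih F hFB inferInstance (hB.to_le hFB.le))
  have hBF : ⁅B, F⁆ = ⊥ := by
    rw [← hBR]
    refine commutator_commutator_eq_bot_of_rotate ?_ (eq_bot_iff.mpr ?_)
    · rw [commutator_comm R F, hFR, commutator_bot_left]
    · exact (commutator_mono (commutator_le_left F B) le_rfl).trans hFR.le
  have hcenF : ∀ f ∈ F, ∀ x ∈ B, Commute x f := fun f hf x hx =>
    commutatorElement_eq_one_iff_commute.mp (mem_bot.mp (hBF ▸ commutator_mem_commutator hx hf))
  have hm2 : p ∣ p.choose 2 := hp.out.dvd_choose_self (by norm_num)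
    (lt_of_le_of_ne hp.out.two_le hp2.symm)
  have hmul : ∀ x ∈ B, ∀ y ∈ B, (x * y) ^ p = x ^ p * y ^ p := fun x hx y hy => by
    have hc : ⁅y, x⁆ ∈ D := commutator_mem_commutator hy hx
    rw [ThompsonJ.mul_pow_of_commutator_comm (hcen _ hc x hx) (hcen _ hc y hy)]
    obtain ⟨k, hk⟩ := hm2
    rw [hk, pow_mul, ← ThompsonJ.commutatorElement_pow_left (hcen _ hc y hy),
      commutatorElement_eq_one_iff_commute.mpr
        (hcenF _ (PIrred.pow_mem_map_frattini hB hy) x hx).symm, one_pow, one_mul]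
  let Ω : Subgroup G :=
    { carrier := {x | x ∈ B ∧ x ^ p = 1}
      one_mem' := ⟨one_mem _, one_pow _⟩
      mul_mem' := fun {x y} hx hy => ⟨mul_mem hx.1 hy.1, by rw [hmul x hx.1 y hy.1, hx.2, hy.2, one_mul]⟩
      inv_mem' := fun {x} hx => ⟨inv_mem hx.1, by rw [inv_pow, hx.2, inv_one]⟩ }
  have hΩ : B ≤ Ω := by
    rw [← hBR, commutator_le]
    intro x hx b hb
    have h1 : b * x⁻¹ * b⁻¹ ∈ B := hBn.conj_mem _ (inv_mem hx) b
    have e : ⁅x, b⁆ = x * (b * x⁻¹ * b⁻¹) := by rw [commutatorElement_def]; group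
    rw [e]
    refine ⟨mul_mem hx h1, ?_⟩
    have h3 : Commute (x ^ p) b :=
      commutatorElement_eq_one_iff_commute.mp (mem_bot.mp (hFR ▸ commutator_mem_commutator
        (PIrred.pow_mem_map_frattini hB hx) hb))
    rw [hmul x hx _ h1, conj_pow, inv_pow, ← h3.inv_left.eq]
    group
  have hexp : ∀ x ∈ B, x ^ p = 1 := fun x hx => (hΩ hx).2
  have hV : IsElementaryAbelian p (B.map q) := by
    refine ⟨isMulCommutative_iff_forall.2 ?_, ?_⟩
    · rintro _ ⟨x, hx, rfl⟩ _ ⟨y, hy, rfl⟩
      exact (hqc x hx y hy).eq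
    · rintro _ ⟨x, hx, rfl⟩
      rw [← map_pow, hexp x hx, map_one]
  have hVcard : Nat.card (B.map q) ≤ p ^ 2 := by
    have h1 := card_le_of_exponent hr hexp
    have h2 := card_eq_card_map_mul q B
    have h3 : B ⊓ q.ker = D := by rw [QuotientGroup.ker_mk', inf_eq_right.2 hDB.le]
    rw [h3] at h2
    rw [h2, mul_comm] at h1
    exact Nat.le_of_mul_le_mul_left h1 Nat.card_pos
  haveI hVn : (B.map q).Normal := hBn.map q (QuotientGroup.mk'_surjective _)
  haveI : NeZero p := ⟨hp.out.ne_zero⟩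
  let ρ := EMod.rep hV q (fun x => le_normalizer_of_normal (mem_top (q x)))
  have hfin : Module.finrank (ZMod p) (EMod.EM hV) ≤ 2 := by
    have h1 := Module.natCard_eq_pow_finrank (K := ZMod p) (V := EMod.EM hV)
    rw [EMod.card_em, Nat.card_zmod] at h1
    rw [h1] at hVcard
    exact (Nat.pow_le_pow_iff_right hp.out.one_lt).1 hVcard
  have h2 : (2 : ZMod p) ≠ 0 := by
    intro h
    have : ((2 : ℕ) : ZMod p) = 0 := by exact_mod_cast h
    rw [ZMod.natCast_eq_zero_iff] at this
    exact hp2 ((Nat.prime_dvd_prime_iff_eq hp.out Nat.prime_two).1 this)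
  have hker : (⁅N, ⊤⁆ : Subgroup G) ≤ (centralizer ((B.map q : Subgroup _) : Set (G ⧸ D))).comap q := by
    rw [commutator_le]
    intro n hn x _
    rw [mem_comap, ← EMod.rep_eq_one_iff (h := hV) q (fun x => le_normalizer_of_normal (mem_top (q x)))]
    have h3 := GL2Solv.commute_of_finrank_le h2 hfin ρ N hn x
    show ρ ⁅n, x⁆ = 1
    rw [commutatorElement_def, map_mul, map_mul, map_mul, h3, mul_assoc (ρ x), ← map_mul ρ n,
      mul_inv_cancel, map_one, mul_one, ← map_mul, mul_inv_cancel, map_one]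
  have : ⁅B, R⁆ ≤ D := by
    rw [commutator_le]
    intro x hx r hr
    have h3 := hker (pResidualOf_le p _ hr) (q x) (mem_map_of_mem q hx)
    rw [← QuotientGroup.eq_one_iff, ← QuotientGroup.mk'_apply, map_commutatorElement,
      commutatorElement_eq_one_iff_mul_comm]
    exact h3
  rw [hBR] at this
  exact absurd hDB (not_lt_of_ge this)

/-- In a perfect group with `O₂ = 1` and all odd ranks at most two, `[N, G]` has odd order for
every solvable normal subgroup `N`. -/
theorem coprime_card_commutator [Finite G] [Group.IsPerfect G] (hO : pCore 2 G = ⊥)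
    (hr : ∀ p : ℕ, p.Prime → p ≠ 2 → PRankLE p 2 G) (N : Subgroup G) [N.Normal]
    [Group.IsSolvable N] : (Nat.card (⁅N, ⊤⁆ : Subgroup G)).Coprime 2 := by
  rw [coprime_card_iff_forall_pow]
  intro x hx hx2
  have hxN : x ∈ N := commutator_le_left N ⊤ hx
  have hF : fittingSubgroup G ≤ centralizer ({x} : Set G) := by
    refine FStar.fitting_le_of_forall_pCore_le fun p hp => ?_
    by_cases hp2 : p = 2
    · rw [hp2, hO]; exact bot_le
    · have h1 := pResidualOf_le_centralizer hp2 (hr p hp.out hp2) N (pCore p G) inferInstance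
        (pCore_isPGroup p G)
      have h2 : (orderOf x).Coprime p := Nat.Coprime.coprime_dvd_left
        (orderOf_dvd_of_pow_eq_one hx2) ((Nat.coprime_primes Nat.prime_two hp.out).2 (Ne.symm hp2))
      intro y hy
      exact mem_centralizer_singleton_iff.2 (h1 (mem_pResidualOf hx h2) y hy)
  have hle := FStar.map_fitting_le_of_subnormal (Normal.isSubnormal (inferInstance : N.Normal))
  have h1 : (⟨x, hxN⟩ : N) ∈ fittingSubgroup N := by
    refine FStar.centralizer_fitting_le_of_isSolvable fun y hy => Subtype.ext ?_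
    exact mem_centralizer_singleton_iff.1 (hF (hle (mem_map_of_mem _ hy)))
  have h2 : zpowers x ≤ pCore 2 G := FStarAct.le_pCore_of_le_fitting
    (zpowers_le.2 (hle (mem_map_of_mem _ h1))) (isPGroup_zpowers (k := 1) (by simpa using hx2))
  rw [hO] at h2
  exact mem_bot.1 (h2 (mem_zpowers x))

theorem isSolvable_of_commutator {D : Subgroup G} (h : Group.IsSolvable (⁅D, D⁆ : Subgroup G)) :
    Group.IsSolvable D := by
  have hle : ⁅D, D⁆ ≤ D := commutator_le_left_of_le_normalizer le_normalizer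
  refine Group.isSolvable_of_ker_le_range (inclusion hle) (Abelianization.of (G := D)) ?_
  rw [Abelianization.ker_of, inclusion_range]
  intro x hx
  rw [mem_subgroupOf]
  have := mem_map_of_mem D.subtype hx
  rwa [commutator_def, map_commutator, ← MonoidHom.range_eq_map, range_subtype] at this

/-- proper subnormal subgroups of a `𝒞`-component are solvable -/
theorem isSolvable_of_lt [Finite G] {L : Subgroup G}
    (h : ∀ K : Subgroup G, K < L → ¬ (K ≠ ⊥ ∧ ⁅K, K⁆ = K ∧ K.IsSubnormal)) (D : Subgroup G) :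
    D.IsSubnormal → D < L → Group.IsSolvable D := by
  induction D using WellFoundedLT.induction with
  | ind D ih =>
    intro hD hDL
    by_cases hb : D = ⊥
    · rw [hb]; infer_instance
    have hle : ⁅D, D⁆ ≤ D := commutator_le_left_of_le_normalizer le_normalizer
    have hlt : ⁅D, D⁆ < D := lt_of_le_of_ne hle fun e => h D hDL ⟨hb, e, hD⟩
    refine isSolvable_of_commutator (ih _ hlt ?_ (hlt.trans hDL))
    exact subnormalIn_top_iff.1 ((SubnormalIn.of_normal hle
      (le_normalizer_commutator le_normalizer le_normalizer)).trans (subnormalIn_top_iff.2 hD))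

theorem exists_pow_mem_pCoreOf [Finite G] {L D : Subgroup G} (hL : ⁅L, L⁆ = L)
    (hr : ∀ p : ℕ, p.Prime → p ≠ 2 → PRankLE p 2 L) (hDL : D ≤ L)
    (hD : L ≤ normalizer (D : Set G)) [Group.IsSolvable D] {x : G} (hx : x ∈ ⁅D, L⁆) :
    ∃ m : ℕ, m.Coprime 2 ∧ x ^ m ∈ pCoreOf 2 L := by
  haveI : Group.IsPerfect L := isPerfect_iff.2 hL
  let q := QuotientGroup.mk' (pCore 2 L)
  haveI := normal_subgroupOf_of_le hD
  haveI : ((D.subgroupOf L).map q).Normal := Normal.map inferInstance q (QuotientGroup.mk'_surjective _)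
  haveI : Group.IsSolvable (D.subgroupOf L) :=
    Group.isSolvable_of_isSolvable_injective (f := (subgroupOfEquivOfLe hDL).toMonoidHom)
      (subgroupOfEquivOfLe hDL).injective
  haveI : Group.IsSolvable ((D.subgroupOf L).map q) :=
    Group.isSolvable_of_surjective (f := q.subgroupMap _) (q.subgroupMap_surjective _)
  have h1 := coprime_card_commutator (pCore_quotient_pCore 2 L) (fun p hp hp2 => by
    haveI := Fact.mk hp
    exact pRankLE_quotient (hr p hp hp2) _ (coprime_card_of_isPGroup (pCore_isPGroup 2 L)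
      ((Nat.coprime_primes hp Nat.prime_two).2 hp2))) ((D.subgroupOf L).map q)
  refine ⟨_, h1, ?_⟩
  have h2 : ⁅D, L⁆ = (⁅D.subgroupOf L, ⊤⁆ : Subgroup L).map L.subtype := by
    rw [map_commutator, subgroupOf_map_subtype_of_le hDL, ← MonoidHom.range_eq_map, range_subtype]
  rw [h2] at hx
  obtain ⟨y, hy, rfl⟩ := hx
  have h3 : q y ∈ (⁅(D.subgroupOf L).map q, ⊤⁆ : Subgroup _) := by
    have := mem_map_of_mem q hy
    rwa [map_commutator, ← MonoidHom.range_eq_map,
      MonoidHom.range_eq_top.2 (QuotientGroup.mk'_surjective _)] at this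
  have h4 := orderOf_dvd_iff_pow_eq_one.1 (orderOf_dvd_natCard _ h3)
  rw [← map_pow] at h4
  rw [← map_pow]
  exact mem_map_of_mem _ ((QuotientGroup.eq_one_iff _).1 h4)

theorem exists_isPRed [Finite G] {L : Subgroup G} (hL : ⁅L, L⁆ = L)
    (hr : ∀ p : ℕ, p.Prime → p ≠ 2 → PRankLE p 2 L)
    (hsol : ∀ D < L, L ≤ normalizer (D : Set G) → Group.IsSolvable D) (V : Subgroup G) :
    V ≤ omegaOneCenter 2 (pCoreOf 2 L) → L ≤ normalizer (V : Set G) →
    ¬ L ≤ centralizer (V : Set G) → ∃ W, IsPRed 2 W L ∧ ¬ L ≤ centralizer (W : Set G) := by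
  induction V using WellFoundedLT.induction with
  | ind V ih =>
    intro hV hLV hn
    by_cases hex : ∃ V' < V, L ≤ normalizer (V' : Set G) ∧ ¬ L ≤ centralizer (V' : Set G)
    · obtain ⟨V', h1, h2, h3⟩ := hex
      exact ih V' h1 (h1.le.trans hV) h2 h3
    push Not at hex
    have hVe := isElementaryAbelian_of_le (isElementaryAbelian_omegaOneCenter 2 _) hV
    have hO : pResidualOf 2 L = L := FStarAct.pResidualOf_eq_of_perfect 2 hL
    refine ⟨V, ⟨hV.trans ((omegaOneCenter_le 2 _).trans (pCoreOf_le 2 L)), hVe,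
      redOn_of_forall hLV fun D hDL hD hDp => ?_⟩, hn⟩
    have hlt : D < L := lt_of_le_of_ne hDL fun e => by
      subst e
      exact hn (hO ▸ pResidualOf_le_of_pow_mem hDp)
    haveI := hsol D hlt hD
    by_contra hc
    apply hn
    rw [← hO]
    refine axb_module hVe.1 (isPGroup_of_isElementaryAbelian hVe) (hDL.trans hLV) hDp
      (hO.symm ▸ hLV) ?_ ?_
    · rw [hO]
      intro x hx
      obtain ⟨m, hm, hxm⟩ := exists_pow_mem_pCoreOf hL hr hDL hD hx
      obtain ⟨k, hk⟩ := hDp x (commutator_le_left_of_le_normalizer hD hx)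
      have h1 : x ^ m ∈ centralizer (V : Set G) :=
        centralizer_anti hV (le_centralizer_omegaOneCenter 2 _ hxm)
      obtain ⟨u, v, huv⟩ := Nat.isCoprime_iff_coprime.2 (hm.pow_right k)
      have : x = (x ^ m) ^ u * (x ^ 2 ^ k) ^ v := by
        rw [← zpow_natCast, ← zpow_natCast, ← zpow_mul, ← zpow_mul, ← zpow_add, mul_comm _ u,
          mul_comm _ v, huv, zpow_one]
      rw [this]
      exact mul_mem (zpow_mem h1 u) (zpow_mem hk v)
    · rw [hO]
      refine hex _ (lt_of_le_of_ne inf_le_left fun e => hc ?_)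
        (le_normalizer_inf hLV (le_normalizer_centralizer hD))
      exact le_centralizer_iff.1 (inf_eq_left.1 e)

end Cfsg.Agent.Lib.SQTLemma
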