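import Cfsg.Prelude.Def_QuasithinSetup
import Cfsg.Agent.Lib.SW1
import Cfsg.Agent.Lib.TransferFrobenius
import Cfsg.Agent.Lib.PCoreResidual

/-! The data `SW.D` exist under the hypotheses of S1829. -/

set_option autoImplicit false

namespace Cfsg.Agent.SW

open Cfsg Subgroup Equiv Equiv.Perm Cfsg.Agent.Lib.PCoreConj Cfsg.Agent.Lib.PCore
  Cfsg.Agent.Lib.PCoreResidual
open scoped Pointwise

namespace Z0

abbrev P4 := Perm (Fin 4)

def e (k : ℕ) : P4 := swap 0 1 ^ (k % 2) * (swap 0 2 * swap 1 3) ^ (k / 2 % 2) * (swap 0 1 * swap 2 3) ^ (k / 4)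
def c : P4 := swap 0 1 * swap 0 2

theorem ed : ∀ x < 8, ∀ y < 8, e x * e y = e (d8 x y) := by decide +kernel
theorem m1 : ∀ p < 64, ∀ q < 128, mu p q % 8 = d8 (p % 8) (q % 8) ∧ mu p q / 8 % 8 = d8 (p / 8 % 8) (q / 8 % 8) ∧
    mu p q / 64 = q / 64 := by decide +kernel
theorem m2 : ∀ p < 128, 64 ≤ p → ∀ q < 128, mu p q % 8 = d8 (p % 8) (q / 8 % 8) ∧
    mu p q / 8 % 8 = d8 (p / 8 % 8) (q % 8) ∧ mu p q / 64 = 1 - q / 64 := by decide +kernel
theorem einj : ∀ x < 8, ∀ y < 8, e x = e y → x = y := by decide +kernel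
theorem enorm : ∀ σ : P4, ∀ k ∈ [0, 2, 4, 6], ∃ l ∈ [0, 2, 4, 6], σ * e k * σ⁻¹ = e l := by decide +kernel
theorem ecent : ∀ σ : P4, σ * e 4 * σ⁻¹ = e 4 ∨ σ * e 4 * σ⁻¹ = e 0 → ∃ k < 8, σ = e k := by decide +kernel
theorem ff1 : ∀ p < 64, FF 9 p → p % 8 ∈ [0, 2, 4, 6] ∧ p / 8 % 8 ∈ [0, 2, 4, 6] := by decide +kernel
theorem ff2 : ∀ k ∈ [0, 2, 4, 6], ∀ l ∈ [0, 2, 4, 6], FF 9 (k + 8 * l) ∧ (k + 8 * l) % 8 = k ∧
    (k + 8 * l) / 8 % 8 = l := by decide +kernel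

theorem sc_mem (u : P4 × P4) : sumCongrHom _ _ u ∈ blockStabilizerS4wr2 := by
  rw [blockStabilizerS4wr2, MulAction.mem_stabilizer_iff, Set.smul_set_insert, Set.smul_set_singleton,
    Set.smul_set_range, Set.smul_set_range]
  exact congrArg₂ (fun a b => ({a, b} : Set (Set _))) (u.1.surjective.range_comp Sum.inl)
    (u.2.surjective.range_comp Sum.inr)

def tt : Perm (Fin 4 ⊕ Fin 4) := Equiv.sumComm _ _

theorem tt_mem : tt ∈ blockStabilizerS4wr2 := by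
  rw [blockStabilizerS4wr2, MulAction.mem_stabilizer_iff, Set.smul_set_insert, Set.smul_set_singleton,
    Set.smul_set_range, Set.smul_set_range]
  exact Set.pair_comm _ _

theorem tt_tt : tt * tt = 1 := by ext (x | x) <;> rfl
theorem tt_sc (u : P4 × P4) : tt * sumCongrHom _ _ u = sumCongrHom _ _ u.swap * tt := by ext (x | x) <;> rfl

theorem of_mem {g : Perm (Fin 4 ⊕ Fin 4)} (h : g ∈ blockStabilizerS4wr2) :
    ∃ u, g = sumCongrHom _ _ u ∨ g = sumCongrHom _ _ u * tt := by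
  rw [blockStabilizerS4wr2, MulAction.mem_stabilizer_iff, Set.smul_set_insert] at h
  rcases h.le (Set.mem_insert _ _) with h | h
  · obtain ⟨u, hu⟩ := mem_sumCongrHom_range_of_perm_mapsTo_inl (σ := g) fun x hx => h.le ⟨x, hx, rfl⟩
    exact ⟨u, Or.inl hu.symm⟩
  · obtain ⟨u, hu⟩ := mem_sumCongrHom_range_of_perm_mapsTo_inl (σ := tt * g) fun x hx => by
      obtain ⟨y, hy⟩ := (Set.mem_singleton_iff.1 h).le ⟨x, hx, rfl⟩
      exact ⟨y, (congrArg tt hy :)⟩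
    exact ⟨u.swap, Or.inr (by rw [← tt_sc, hu, ← mul_assoc, tt_tt, one_mul])⟩

variable {G : Type*} [Group G]

/-- the wreath product structure of `M` -/
structure Wr (M : Subgroup G) (κ : P4 × P4 →* G) (t : G) : Prop where
  inj : Function.Injective κ
  t2 : t * t = 1
  tc : ∀ u, t * κ u = κ u.swap * t
  nt : ∀ u, κ u ≠ t
  mem : ∀ g, g ∈ M ↔ ∃ u, g = κ u ∨ g = κ u * t

theorem exists_wr {M : Subgroup G} (φ : M ≃* blockStabilizerS4wr2) : ∃ κ t, Wr M κ t := by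
  let ι := M.subtype.comp φ.symm.toMonoidHom
  have hι : Function.Injective ι := M.subtype_injective.comp φ.symm.injective
  refine ⟨ι.comp ((sumCongrHom _ _).codRestrict _ sc_mem), ι ⟨tt, tt_mem⟩, fun u v h => ?_, ?_, fun u => ?_,
    fun u h => ?_, fun g => ⟨fun h => ?_, ?_⟩⟩
  · exact sumCongrHom_injective (congrArg Subtype.val (hι h))
  · rw [← map_mul, ← map_one ι]
    exact congrArg ι (Subtype.ext tt_tt)
  · simp only [MonoidHom.comp_apply, ← map_mul]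
    exact congrArg ι (Subtype.ext (tt_sc u))
  · exact Sum.inl_ne_inr (congrArg (fun g : blockStabilizerS4wr2 => g.1 (Sum.inl 0)) (hι h))
  · have : g = ι (φ ⟨g, h⟩) := by simp [ι]
    obtain ⟨u, hu | hu⟩ := of_mem (φ ⟨g, h⟩).2
    · exact ⟨u, Or.inl (this.trans (congrArg ι (Subtype.ext hu)))⟩
    · refine ⟨u, Or.inr (this.trans ?_)⟩
      simp only [MonoidHom.comp_apply, ← map_mul]
      exact congrArg ι (Subtype.ext hu)
  · rintro ⟨u, rfl | rfl⟩
    exacts [(φ.symm _).2, mul_mem (φ.symm _).2 (φ.symm _).2]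

/-- the element with code `p` -/
def nn (κ : P4 × P4 →* G) (t : G) (p : ℕ) : G := κ (e (p % 8), e (p / 8 % 8)) * t ^ (p / 64)

namespace Wr
variable {M : Subgroup G} {κ : P4 × P4 →* G} {t : G}

theorem nk {p : ℕ} (hp : p < 64) : nn κ t p = κ (e (p % 8), e (p / 8 % 8)) := by
  rw [nn, Nat.div_eq_of_lt hp, pow_zero, mul_one]

theorem n64 : nn κ t 64 = t := by
  rw [nn, show ((e (64 % 8), e (64 / 8 % 8)) : P4 × P4) = 1 by decide, map_one, one_mul, pow_one]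

variable (h : Wr M κ t)
include h

theorem card : Nat.card M = 1152 := by
  have : Nat.card ((P4 × P4) ⊕ (P4 × P4)) = 1152 := by
    rw [Nat.card_sum, Nat.card_prod, Nat.card_perm, Nat.card_fin]; rfl
  rw [← this]
  refine (Nat.card_congr (Equiv.ofBijective (Sum.elim (fun u => (⟨κ u, (h.mem _).2 ⟨u, Or.inl rfl⟩⟩ : M))
    fun u => ⟨κ u * t, (h.mem _).2 ⟨u, Or.inr rfl⟩⟩) ⟨?_, fun g => ?_⟩)).symm
  · have k : ∀ u v, κ u ≠ κ v * t := fun u v e => h.nt (v⁻¹ * u) (by rw [map_mul, e, map_inv, inv_mul_cancel_left])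
    rintro (u | u) (v | v) e <;> replace e := congrArg Subtype.val e
    exacts [congrArg _ (h.inj e), (k _ _ e).elim, (k _ _ e.symm).elim, congrArg _ (h.inj (mul_right_cancel e))]
  · obtain ⟨u, e | e⟩ := (h.mem _).1 g.2
    exacts [⟨Sum.inl u, Subtype.ext e.symm⟩, ⟨Sum.inr u, Subtype.ext e.symm⟩]

theorem mul (p : ℕ) (hp : p < 128) (q : ℕ) (hq : q < 128) : nn κ t p * nn κ t q = nn κ t (mu p q) := by
  have l : ∀ x, x % 8 < 8 := fun x => Nat.mod_lt _ (by decide)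
  rcases lt_or_ge p 64 with c | c
  · obtain ⟨a1, a2, a3⟩ := m1 p c q hq
    rw [nk c, nn, nn, a1, a2, a3, ← ed _ (l _) _ (l _), ← ed _ (l _) _ (l _), ← mul_assoc, ← map_mul]
    rfl
  · obtain ⟨a1, a2, a3⟩ := m2 p hp c q hq
    rw [nn, nn, nn, a1, a2, a3, ← ed _ (l _) _ (l _), ← ed _ (l _) _ (l _), show p / 64 = 1 by omega, pow_one,
      mul_assoc, ← mul_assoc t, h.tc, mul_assoc, ← mul_assoc, ← map_mul]
    congr 1
    rcases (by omega : q / 64 = 0 ∨ q / 64 = 1) with e | e <;> simp [e, h.t2]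

theorem ninj (p : ℕ) (hp : p < 128) (q : ℕ) (hq : q < 128) (e : nn κ t p = nn κ t q) : p = q := by
  have l : ∀ x, x % 8 < 8 := fun x => Nat.mod_lt _ (by decide)
  have k : ∀ u v, κ u ≠ κ v * t := fun u v e => h.nt (v⁻¹ * u) (by rw [map_mul, e, map_inv, inv_mul_cancel_left])
  have i : p / 64 = q / 64 := by
    unfold nn at e
    rcases (by omega : p / 64 = 0 ∨ p / 64 = 1) with a | a <;> rcases (by omega : q / 64 = 0 ∨ q / 64 = 1) with b | b <;>
      rw [a, b] at e ⊢ <;> simp only [pow_zero, pow_one, mul_one] at e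
    exacts [(k _ _ e).elim, (k _ _ e.symm).elim]
  rw [nn, nn, i] at e
  have := Prod.ext_iff.1 (h.inj (mul_right_cancel e))
  have h1 := einj _ (l _) _ (l _) this.1
  have h2 := einj _ (l _) _ (l _) this.2
  omega

theorem n0 : nn κ t 0 = 1 := by
  have := h.mul 0 (by decide) 0 (by decide)
  rw [show mu 0 0 = 0 by decide +kernel] at this
  simpa using this

/-- the subgroup given by a set of codes -/
def sub (P : ℕ → Prop) (h0 : P 0) (hm : ∀ p < 128, ∀ q < 128, P p → P q → P (mu p q))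
    (hi : ∀ p < 128, P p → P (iv p)) : Subgroup G where
  carrier := {g | ∃ p < 128, P p ∧ g = nn κ t p}
  one_mem' := ⟨0, by decide, h0, h.n0.symm⟩
  mul_mem' := by
    rintro _ _ ⟨p, hp, a, rfl⟩ ⟨q, hq, b, rfl⟩
    exact ⟨_, mu_lt p q, hm p hp q hq a b, h.mul p hp q hq⟩
  inv_mem' := by
    rintro _ ⟨p, hp, a, rfl⟩
    exact ⟨_, iv_lt p, hi p hp a, inv_eq_of_mul_eq_one_right (by rw [h.mul p hp _ (iv_lt p), mu_iv p hp, h.n0])⟩

/-- the Sylow subgroup -/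
def S : Subgroup G := h.sub (fun _ => True) trivial (fun _ _ _ _ _ _ => trivial) fun _ _ _ => trivial
/-- `O₂(M)` -/
def A : Subgroup G := h.sub (FF 9) (by decide) (by decide +kernel) (by decide +kernel)
/-- the second four group -/
def V : Subgroup G := h.sub (· ∈ [0, 16, 32, 48]) (by decide)
  (fun p _ q _ a b => (by decide +kernel : ∀ p ∈ [0, 16, 32, 48], ∀ q ∈ [0, 16, 32, 48], mu p q ∈ [0, 16, 32, 48]) p a q b)
  (by decide +kernel)

theorem cardS : Nat.card h.S = 2 ^ 7 := by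
  rw [← Nat.card_fin (2 ^ 7)]
  refine (Nat.card_congr (Equiv.ofBijective (fun p : Fin (2 ^ 7) => (⟨nn κ t p, p, p.2, trivial, rfl⟩ : h.S))
    ⟨fun p q e => Fin.ext (h.ninj _ p.2 _ q.2 (congrArg Subtype.val e)), ?_⟩)).symm
  rintro ⟨_, p, hp, -, rfl⟩
  exact ⟨⟨p, hp⟩, rfl⟩

theorem pS : IsPGroup 2 h.S := IsPGroup.of_card h.cardS

theorem kA (u : P4 × P4) {a : G} (ha : a ∈ h.A) : κ u * a * (κ u)⁻¹ ∈ h.A := by
  obtain ⟨p, -, f, rfl⟩ := ha
  obtain ⟨k, hk, e1⟩ := enorm u.1 _ (ff1 p f.1 f).1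
  obtain ⟨l, hl, e2⟩ := enorm u.2 _ (ff1 p f.1 f).2
  obtain ⟨a1, a2, a3⟩ := ff2 k hk l hl
  refine ⟨_, a1.1.trans (by decide), a1, ?_⟩
  rw [nk f.1, nk a1.1, a2, a3, ← e1, ← e2, ← map_inv, ← map_mul, ← map_mul]
  rfl

theorem ti : t⁻¹ = t := inv_eq_of_mul_eq_one_right h.t2

theorem MA [Finite G] : M ≤ normalizer (h.A : Set G) := fun g hg => mem_normalizer_fintype fun a ha => by
  obtain ⟨u, rfl | rfl⟩ := (h.mem g).1 hg
  · exact h.kA u ha
  · have : t * a * t⁻¹ ∈ h.A := by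
      obtain ⟨p, hp, f, rfl⟩ := ha
      refine ⟨_, mu_lt _ _, (by decide +kernel : ∀ p < 128, FF 9 p → FF 9 (mu (mu 64 p) 64)) p hp f, ?_⟩
      rw [← h.mul _ (mu_lt _ _) _ (by decide), ← h.mul _ (by decide) p hp, n64, h.ti]
    simpa [mul_assoc] using h.kA u this

theorem na {g : G} (hg : g ∈ M) (hz : g * nn κ t 36 * g⁻¹ = nn κ t 4 ∨ g * nn κ t 36 * g⁻¹ = nn κ t 32 ∨
    g * nn κ t 36 * g⁻¹ = nn κ t 36) : g ∈ h.S := by
  have key : ∀ u, (κ u * nn κ t 36 * (κ u)⁻¹ = nn κ t 4 ∨ κ u * nn κ t 36 * (κ u)⁻¹ = nn κ t 32 ∨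
      κ u * nn κ t 36 * (κ u)⁻¹ = nn κ t 36) → κ u ∈ h.S := fun u hu => by
    rw [nk (p := 36) (by decide), nk (p := 4) (by decide), nk (p := 32) (by decide), ← map_inv, ← map_mul,
      ← map_mul] at hu
    simp only [h.inj.eq_iff, Prod.ext_iff] at hu
    obtain ⟨k, hk, e1⟩ := ecent u.1 (by rcases hu with a | a | a; exacts [.inl a.1, .inr a.1, .inl a.1])
    obtain ⟨l, hl, e2⟩ := ecent u.2 (by rcases hu with a | a | a; exacts [.inr a.2, .inl a.2, .inl a.2])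
    refine ⟨k + 8 * l, by omega, trivial, ?_⟩
    rw [nk (by omega), show (k + 8 * l) % 8 = k by omega, show (k + 8 * l) / 8 % 8 = l by omega, ← e1, ← e2]
  obtain ⟨u, rfl | rfl⟩ := (h.mem g).1 hg
  · exact key u hz
  · have : t * nn κ t 36 * t⁻¹ = nn κ t 36 := by
      rw [nk (by decide), h.tc, mul_inv_cancel_right]; rfl
    refine mul_mem (key u ?_) ⟨64, by decide, trivial, n64.symm⟩
    rwa [show κ u * t * nn κ t 36 * (κ u * t)⁻¹ = κ u * (t * nn κ t 36 * t⁻¹) * (κ u)⁻¹ by group, this] at hz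

end Wr

theorem nz {z g : G} (hz : z * z = 1) : g ∈ normalizer (zpowers z : Set G) ↔ g * z = z * g := by
  refine ⟨fun hg => ?_, fun hg => centralizer_le_normalizer _ (mem_centralizer_iff.2 fun _ ⟨k, hk⟩ =>
    hk ▸ ((Commute.zpow_right hg k).symm :))⟩
  obtain ⟨k, hk⟩ := (mem_normalizer_iff.1 hg z).1 (mem_zpowers z)
  have z2 : z ^ (2 : ℤ) = 1 := by rw [zpow_two, hz]
  rcases Int.even_or_odd' k with ⟨j, rfl | rfl⟩
  · simp only [zpow_mul, z2, one_zpow] at hk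
    have : z = 1 := by simpa [mul_inv_eq_one] using hk.symm
    simp [this]
  · simp only [zpow_add, zpow_mul, z2, one_zpow, one_mul, zpow_one] at hk
    exact (eq_mul_inv_iff_mul_eq.1 hk).symm

end Z0

open Z0

theorem exists_D {G : Type*} [Group G] [Finite G] [IsSimpleGroup G]
    (_hG : ¬ IsMulCommutative G) (hQ : Cfsg.IsQTKE G) (T : Sylow 2 G) (M : Subgroup G)
    (hM : M ∈ Cfsg.maxTwoLocalsContaining (T : Subgroup G))
    (hW : Nonempty (↥M ≃* ↥Cfsg.blockStabilizerS4wr2)) : Nonempty (D G) := by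
  obtain ⟨φ⟩ := hW
  obtain ⟨κ, t, h⟩ := exists_wr φ
  obtain ⟨S, hS⟩ := h.pS.exists_le_sylow
  have eS : h.S = S := by
    refine eq_of_le_of_card_ge hS ?_
    obtain ⟨k, hk⟩ := IsPGroup.iff_card.1 T.isPGroup'
    have d := card_dvd_of_le hM.2
    rw [h.card, hk] at d
    rw [h.cardS, Nat.card_congr (Sylow.equiv S T).toEquiv, hk]
    refine Nat.pow_le_pow_right (by decide) (not_lt.1 fun l => ?_)
    exact absurd ((pow_dvd_pow 2 l).trans d) (by decide)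
  have ne : ∀ p < 128, p ≠ 0 → nn κ t p ≠ 1 := fun p hp h0 e => h0 (h.ninj p hp 0 (by decide) (e.trans h.n0.symm))
  have z2 : nn κ t 36 * nn κ t 36 = 1 := by
    rw [h.mul _ (by decide) _ (by decide), show mu 36 36 = 0 by decide +kernel, h.n0]
  have NA : normalizer (h.A : Set G) = M := hM.1.2 _ ⟨h.A, h.pS.to_le fun _ ⟨p, hp, _, e⟩ => ⟨p, hp, trivial, e⟩,
    fun e => ne 4 (by decide) (by decide) (mem_bot.1 (e ▸ (⟨4, by decide, by decide, rfl⟩ : _ ∈ h.A))), rfl⟩ h.MA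
  have kk : ∀ {u v : P4 × P4}, u = v → κ u = κ v := congrArg κ
  have ch := hQ.2.2 (normalizer (zpowers (nn κ t 36) : Set G)) ⟨_, h.pS.to_le (zpowers_le.2 ⟨36, by decide, trivial, rfl⟩),
    fun e => ne 36 (by decide) (by decide) (zpowers_eq_bot.1 e), rfl⟩ ⟨S, eS ▸ by
      rintro _ ⟨p, hp, -, rfl⟩
      rw [nz z2, h.mul p hp _ (by decide), h.mul _ (by decide) p hp,
        (by decide +kernel : ∀ p < 128, mu p 36 = mu 36 p) p hp]⟩
  refine ⟨⟨nn κ t, κ (c, 1), S, pCoreOf 2 (normalizer (zpowers (nn κ t 36) : Set G)), h.mul, h.ninj, fun g => ?_,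
    ?_, ?_, ?_, ?_, ?_, ?_, ?_, ?_, fun g h1 h2 => eS ▸ h.na (NA ▸ mem_normalizer_fintype ?_) h2,
    pCoreOf_isPGroup _ _, fun q hq => (nz z2).1 (pCoreOf_le _ _ hq), fun g hg q hq =>
      (mem_normalizer_iff.1 (le_normalizer_pCoreOf 2 _ ((nz z2).2 hg)) q).1 hq, fun g hg hc => ?_,
    fun A h1 h2 h3 => ?_, fun U hU s hs => Lib.TransferFrobenius.thompson_transfer' ?_ S hU hs⟩⟩
  · rw [← eS]
    exact ⟨fun ⟨p, hp, _, e⟩ => ⟨p, hp, e⟩, fun ⟨p, hp, e⟩ => ⟨p, hp, trivial, e⟩⟩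
  · rw [← map_pow, ← map_one κ]; exact kk (by decide)
  iterate 2
    rw [Wr.nk (by decide), Wr.nk (by decide), ← map_inv, ← map_mul, ← map_mul]; exact kk (by decide)
  · rw [Wr.nk (by decide), ← map_inv, ← map_mul, ← map_mul]; exact kk (by decide)
  iterate 3
    rw [Wr.nk (by decide), ← map_mul, ← map_mul]; exact kk (by decide)
  · rw [Wr.n64, h.tc, mul_assoc _ t, h.t2, mul_one, ← map_mul, ← map_mul]; exact kk (by decide)
  · rintro _ ⟨p, -, f, rfl⟩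
    obtain ⟨q, f', e⟩ := h1 p f
    exact ⟨q, f'.1.trans (by decide), f', e⟩
  · exact ⟨⟨g, (nz z2).2 hg⟩, ch (mem_centralizer_iff.2 fun q hq => Subtype.ext (hc q ⟨q, hq, rfl⟩).symm), rfl⟩
  · have l : A ≤ normalizer (h.V : Set G) := fun a ha => mem_normalizer_fintype (by
      rintro _ ⟨p, hp, f, rfl⟩
      rcases List.mem_cons.1 f with rfl | f
      · rw [h.n0, mul_one, mul_inv_cancel]; exact one_mem _
      · obtain ⟨q, f', e⟩ := h3 a ha p f
        exact ⟨q, (by decide : ∀ q ∈ [16, 32, 48], q < 128) q f', List.mem_cons_of_mem _ f', e⟩)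
    have := hQ.1 3 Nat.prime_three (by decide) _ ⟨h.V, h.pS.to_le fun _ ⟨p, hp, _, e⟩ => ⟨p, hp, trivial, e⟩,
      fun e => ne 16 (by decide) (by decide) (mem_bot.1 (e ▸ (⟨16, by decide, by decide, rfl⟩ : _ ∈ h.V))), rfl⟩
      (A.subgroupOf _) ⟨⟨fun a b => Subtype.ext (Subtype.ext (h1 _ a.2 _ b.2))⟩⟩
      fun a ha => Subtype.ext (h2 _ ha)
    rwa [Nat.card_congr (subgroupOfEquivOfLe l).toEquiv] at this
  · refine (IsSimpleGroup.eq_bot_or_eq_top_of_normal (pResidual 2 G) inferInstance).resolve_left fun e => ?_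
    obtain ⟨k, hk⟩ := IsPGroup.iff_card.1 ((pResidual_eq_bot_iff.1 e).to_subgroup M)
    exact absurd (Nat.prime_three.dvd_of_dvd_pow (hk ▸ h.card ▸ (by decide : 3 ∣ 1152))) (by decide)

end Cfsg.Agent.SW
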