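import Cfsg.Agent.Lib.SW1

/-! Sylow theory and weak closure for `SW.D`. -/

set_option autoImplicit false

namespace Cfsg.Agent.SW

def MK : List ℕ := [9, 18, 10, 17]

theorem ff_com : ∀ m ∈ MK, ∀ p < 64, ∀ q < 64, FF m p → FF m q → mu p q = mu q p := by decide +kernel
theorem ff_sq : ∀ m ∈ MK, ∀ p < 64, FF m p → mu p p = 0 := by decide +kernel
theorem ff_card : ∀ m ∈ MK, ((Finset.range 128).filter (FF m)).card = 16 := by decide +kernel
theorem t_card : ∀ r < 128, 64 ≤ r → mu r r = 0 →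
    ((Finset.range 128).filter (fun q => mu q r = mu r q ∧ mu q q = 0)).card ≤ 12 := by decide +kernel
theorem pair_bits1 : ∀ q < 64, ∀ q' < 64, mu q q' = mu q' q →
    q &&& 1 = 0 ∨ q' &&& 2 = 0 ∨ mu q q ≠ 0 ∨ mu q' q' ≠ 0 := by decide +kernel
theorem pair_bits2 : ∀ q < 64, ∀ q' < 64, mu q q' = mu q' q →
    q &&& 8 = 0 ∨ q' &&& 16 = 0 ∨ mu q q ≠ 0 ∨ mu q' q' ≠ 0 := by decide +kernel
theorem mk_opp : ∀ m ∈ MK, 27 - m ∈ MK := by decide
theorem mk_add : ∀ a ∈ [1, 2], ∀ b ∈ [8, 16], a + b ∈ MK := by decide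
theorem bits_or : ∀ q < 64, ∀ a ∈ [1, 2], ∀ b ∈ [8, 16], q &&& a = 0 → q &&& b = 0 → FF (a + b) q := by
  decide +kernel
theorem mk_nc : ∀ m ∈ MK, ∀ m' ∈ MK, m = m' ∨
    ∃ p ∈ [1, 2, 8, 16], ∃ p' ∈ [1, 2, 8, 16], FF m p ∧ FF m' p' ∧ mu p p' ≠ mu p' p := by decide +kernel
theorem opp1 : ∀ m ∈ MK, ∀ r < 64, ∃ p < 64, FF m p ∧ FF (27 - m) (mu (iv p) r) ∧
    mu p (mu (iv p) r) = r := by decide +kernel
theorem opp2 : ∀ m ∈ MK, ∀ m' ∈ MK, ∀ p < 64, ∀ q < 64, mu p q = 27 → FF m p → FF m' q →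
    m' = 27 - m := by decide +kernel
theorem mu64 : ∀ p < 64, ∀ q < 64, mu p q < 64 := by decide +kernel
theorem iv64 : ∀ p < 64, iv p < 64 := by decide +kernel
theorem cj64 : ∀ r < 128, ∀ p < 64, cj r p < 64 := by decide +kernel
theorem cj_ff : ∀ m ∈ MK, ∀ r < 64, ∀ p < 64, FF m p → FF m (cj r p) := by decide +kernel
theorem ffus_tab : ∀ r < 128, ∀ m ∈ MK, ∀ m' ∈ MK, (∀ p ∈ [1, 2, 8, 16], FF m p → FF m' (cj r p)) →
    (m' = m ∧ (r < 64 ∨ m = 9 ∨ m = 18)) ∨ (64 ≤ r ∧ m + m' = 27 ∧ m ≠ 9 ∧ m ≠ 18) := by decide +kernel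

theorem FF.lt {m p : ℕ} (h : FF m p) : p < 128 := lt_trans h.1 (by norm_num)

namespace D

variable {G : Type*} [Group G] (d : D G)

/-- the subgroup given by a set of codes -/
def sub (P : ℕ → Prop) (h0 : P 0) (hm : ∀ p < 128, ∀ q < 128, P p → P q → P (mu p q))
    (hi : ∀ p < 128, P p → P (iv p)) : Subgroup G where
  carrier := {g | ∃ p < 128, P p ∧ g = d.n p}
  one_mem' := ⟨0, by norm_num, h0, d.n0.symm⟩
  mul_mem' := by
    rintro _ _ ⟨p, hp, h1, rfl⟩ ⟨q, hq, h2, rfl⟩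
    exact ⟨_, mu_lt _ _, hm p hp q hq h1 h2, d.mul p hp q hq⟩
  inv_mem' := by
    rintro _ ⟨p, hp, h1, rfl⟩
    exact ⟨_, iv_lt _, hi p hp h1, d.ninv hp⟩

theorem mem_sub {P h0 hm hi} {g : G} : g ∈ d.sub P h0 hm hi ↔ ∃ p < 128, P p ∧ g = d.n p := Iff.rfl

theorem n_mem_sub {P h0 hm hi} {p : ℕ} (hp : p < 128) : d.n p ∈ d.sub P h0 hm hi ↔ P p :=
  ⟨fun ⟨q, hq, h, e⟩ => d.inj p hp q hq e ▸ h, fun h => ⟨p, hp, h, rfl⟩⟩

theorem sub_le {P h0 hm hi} : d.sub P h0 hm hi ≤ (d.S : Subgroup G) := by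
  rintro _ ⟨p, hp, -, rfl⟩; exact d.nS hp

theorem sub_p {P h0 hm hi} : IsPGroup 2 (d.sub P h0 hm hi) := d.S.2.to_le d.sub_le

/-- `T0 = D8 × D8` -/
def T0 : Subgroup G := d.sub (· < 64) (by norm_num) (fun p _ q _ a b => mu64 p a q b)
  (fun p _ a => iv64 p a)

theorem mem_T0 {g : G} : g ∈ d.T0 ↔ ∃ p < 64, g = d.n p :=
  ⟨fun ⟨p, _, h, e⟩ => ⟨p, h, e⟩, fun ⟨p, h, e⟩ => ⟨p, by omega, h, e⟩⟩

/-- `g` maps `FF m` into `FF m'` -/
def Mp (g : G) (m m' : ℕ) : Prop := ∀ p, FF m p → ∃ q, FF m' q ∧ d.Mv g p q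

variable {d}

theorem mv_of_mem {g : G} {p : ℕ} (h : g * d.n p * g⁻¹ ∈ (d.S : Subgroup G)) : ∃ q < 128, d.Mv g p q :=
  (d.memS _).1 h

theorem Mv.mem {g : G} {p q : ℕ} (h : d.Mv g p q) (hq : q < 128) :
    g * d.n p * g⁻¹ ∈ (d.S : Subgroup G) := by rw [show g * d.n p * g⁻¹ = d.n q from h]; exact d.nS hq

theorem Mv.sq {g : G} {p q : ℕ} (h : d.Mv g p q) (hp : p < 128) (hq : q < 128) :
    mu p p = 0 ↔ mu q q = 0 := by
  have a := h.mul h hp hp hq hq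
  constructor
  · intro e; rw [e] at a; exact a.uniq (Mv.zero g) (mu_lt _ _) (by norm_num)
  · intro e; rw [e] at a; exact a.inj (Mv.zero g) (mu_lt _ _) (by norm_num)

theorem Mp.trans {g h : G} {a b c : ℕ} (h1 : d.Mp g a b) (h2 : d.Mp h b c) : d.Mp (h * g) a c := by
  intro p hp
  obtain ⟨q, hq, e⟩ := h1 p hp
  obtain ⟨r, hr, e'⟩ := h2 q hq
  exact ⟨r, hr, e.trans e'⟩

theorem Mp.symm {g : G} {a b : ℕ} (h : d.Mp g a b) (ha : a ∈ MK) (hb : b ∈ MK) : d.Mp g⁻¹ b a := by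
  have : ∀ p, ∃ q, FF a p → FF b q ∧ d.Mv g p q := fun p => by
    by_cases hp : FF a p
    · obtain ⟨q, hq⟩ := h p hp; exact ⟨q, fun _ => hq⟩
    · exact ⟨0, fun h => absurd h hp⟩
  choose f hf using this
  intro q hq
  obtain ⟨p, hp, e⟩ := Finset.surjOn_of_injOn_of_card_le (s := (Finset.range 128).filter (FF a))
    (t := (Finset.range 128).filter (FF b)) f
    (fun p hp => by
      have := (hf p (Finset.mem_filter.1 hp).2).1
      exact Finset.mem_coe.2 (Finset.mem_filter.2 ⟨Finset.mem_range.2 this.lt, this⟩))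
    (fun p hp p' hp' e => by
      have a1 := (Finset.mem_filter.1 hp).2
      have a2 := (Finset.mem_filter.1 hp').2
      exact (hf p a1).2.inj (e ▸ (hf p' a2).2) a1.lt a2.lt)
    (by rw [ff_card a ha, ff_card b hb])
    (Finset.mem_coe.2 (Finset.mem_filter.2 ⟨Finset.mem_range.2 hq.lt, hq⟩))
  have a1 := (Finset.mem_filter.1 hp).2
  exact ⟨p, a1, (e ▸ (hf p a1).2).symm⟩

theorem Mp.of_n {m r : ℕ} (hm : m ∈ MK) (hr : r < 64) : d.Mp (d.n r) m m := fun p hp =>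
  ⟨_, cj_ff m hm r hr p hp.1 hp, Mv.of_cj (by omega) hp.lt rfl⟩

theorem Mp.inj {g : G} {a a' b : ℕ} (h : d.Mp g a b) (h' : d.Mp g a' b) (ha : a ∈ MK) (ha' : a' ∈ MK)
    (hb : b ∈ MK) : a = a' := by
  rcases mk_nc a ha a' ha' with e | ⟨p, -, p', -, h1, h2, h3⟩
  · exact e
  · obtain ⟨q, hq, e⟩ := h p h1
    obtain ⟨q', hq', e'⟩ := h' p' h2
    exact absurd ((e.com e' h1.lt h2.lt hq.lt hq'.lt).2 (ff_com b hb q hq.1 q' hq'.1 hq hq')) h3

variable (d)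

/-- the normalizer of `FF m` -/
def NF (m : ℕ) (hm : m ∈ MK) : Subgroup G where
  carrier := {g | d.Mp g m m}
  one_mem' := fun p hp => ⟨p, hp, by unfold Mv; group⟩
  mul_mem' := fun h1 h2 => Mp.trans h2 h1
  inv_mem' := fun h => Mp.symm h hm hm

theorem four (g : G) {m : ℕ} (hm : m ∈ MK) (h : ∀ p, FF m p → g * d.n p * g⁻¹ ∈ (d.S : Subgroup G)) :
    ∃ m' ∈ MK, d.Mp g m m' := by
  have : ∀ p, ∃ q, FF m p → q < 128 ∧ d.Mv g p q := fun p => by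
    by_cases hp : FF m p
    · obtain ⟨q, hq⟩ := mv_of_mem (h p hp); exact ⟨q, fun _ => hq⟩
    · exact ⟨0, fun h => absurd h hp⟩
  choose f hf using this
  have hc : ∀ p p', FF m p → FF m p' → mu (f p) (f p') = mu (f p') (f p) := fun p p' a b =>
    ((hf p a).2.com (hf p' b).2 a.lt b.lt (hf p a).1 (hf p' b).1).1 (ff_com m hm p a.1 p' b.1 a b)
  have hs : ∀ p, FF m p → mu (f p) (f p) = 0 := fun p a =>
    ((hf p a).2.sq a.lt (hf p a).1).1 (ff_sq m hm p a.1 a)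
  have h64 : ∀ p, FF m p → f p < 64 := by
    intro p0 a0
    by_contra hn
    have := Finset.card_le_card_of_injOn (s := (Finset.range 128).filter (FF m))
      (t := (Finset.range 128).filter (fun q => mu q (f p0) = mu (f p0) q ∧ mu q q = 0)) f
      (fun p hp => by
        have a := (Finset.mem_filter.1 hp).2
        exact Finset.mem_coe.2 (Finset.mem_filter.2 ⟨Finset.mem_range.2 (hf p a).1, hc p p0 a a0, hs p a⟩))
      (fun p hp p' hp' e => by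
        have a1 := (Finset.mem_filter.1 hp).2
        have a2 := (Finset.mem_filter.1 hp').2
        exact (hf p a1).2.inj (e ▸ (hf p' a2).2) a1.lt a2.lt)
    have h2 := t_card _ (hf p0 a0).1 (by omega) (hs p0 a0)
    rw [ff_card m hm] at this
    omega
  have k1 : ∃ a ∈ [1, 2], ∀ p, FF m p → f p &&& a = 0 := by
    by_cases e : ∀ p, FF m p → f p &&& 1 = 0
    · exact ⟨1, by simp, e⟩
    · push Not at e
      obtain ⟨p0, a0, e⟩ := e
      refine ⟨2, by simp, fun p a => ?_⟩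
      have := pair_bits1 _ (h64 p0 a0) _ (h64 p a) (hc p0 p a0 a)
      have := hs p0 a0; have := hs p a
      tauto
  have k2 : ∃ a ∈ [8, 16], ∀ p, FF m p → f p &&& a = 0 := by
    by_cases e : ∀ p, FF m p → f p &&& 8 = 0
    · exact ⟨8, by simp, e⟩
    · push Not at e
      obtain ⟨p0, a0, e⟩ := e
      refine ⟨16, by simp, fun p a => ?_⟩
      have := pair_bits2 _ (h64 p0 a0) _ (h64 p a) (hc p0 p a0 a)
      have := hs p0 a0; have := hs p a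
      tauto
  obtain ⟨a, ha, k1⟩ := k1
  obtain ⟨b, hb, k2⟩ := k2
  refine ⟨a + b, ?_, fun p hp => ⟨f p, bits_or _ (h64 p hp) a ha b hb (k1 p hp) (k2 p hp), (hf p hp).2⟩⟩
  exact mk_add a ha b hb

theorem four' (g : G) (m : ℕ) (hm : m ∈ [9, 18, 10, 17])
    (h : ∀ p, FF m p → g * d.n p * g⁻¹ ∈ (d.S : Subgroup G)) : ∀ p, FF m p → ∃ q < 64, d.Mv g p q := by
  obtain ⟨m', -, h'⟩ := d.four g hm h
  intro p hp
  obtain ⟨q, a, b⟩ := h' p hp
  exact ⟨q, a.1, b⟩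

theorem norm_T0 [Finite G] {g : G} (h : ∀ p < 64, g * d.n p * g⁻¹ ∈ (d.S : Subgroup G)) :
    g ∈ Subgroup.normalizer (d.T0 : Set G) := by
  apply Subgroup.mem_normalizer_fintype
  intro a ha
  obtain ⟨r, hr, rfl⟩ := d.mem_T0.1 ha
  obtain ⟨p, -, h1, h2, h3⟩ := opp1 9 (by decide) r hr
  obtain ⟨q, hq, e⟩ := d.four' g 9 (by decide) (fun p a => h p a.1) p h1
  obtain ⟨q', hq', e'⟩ := d.four' g 18 (by decide) (fun p a => h p a.1) _ h2
  have := e.mul e' h1.lt h2.lt (by omega) (by omega)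
  rw [h3] at this
  exact d.mem_T0.2 ⟨_, mu64 _ hq _ hq', this⟩

theorem mv_T0 {g : G} (hg : g ∈ Subgroup.normalizer (d.T0 : Set G)) {p : ℕ} (hp : p < 64) :
    ∃ q < 64, d.Mv g p q := d.mem_T0.1 ((Subgroup.mem_normalizer_iff.1 hg _).1 (d.mem_T0.2 ⟨p, hp, rfl⟩))

theorem four_T0 {g : G} (hg : g ∈ Subgroup.normalizer (d.T0 : Set G)) {m : ℕ} (hm : m ∈ MK) :
    ∃ m' ∈ MK, d.Mp g m m' := d.four g hm fun p hp => by
  obtain ⟨q, hq, e⟩ := d.mv_T0 hg hp.1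
  exact e.mem (by omega)

theorem opp {g : G} (hg : g ∈ Subgroup.normalizer (d.T0 : Set G)) {m m' : ℕ} (hm : m ∈ MK) (hm' : m' ∈ MK)
    (h : d.Mp g m m') : d.Mp g (27 - m) (27 - m') := by
  obtain ⟨m2, hm2, h2⟩ := d.four_T0 hg (mk_opp m hm)
  obtain ⟨r, hr, e⟩ := d.mv_T0 (inv_mem hg) (p := 27) (by norm_num)
  have e := e.symm
  rw [inv_inv] at e
  obtain ⟨p, -, h1, h3, h4⟩ := opp1 m hm r hr
  obtain ⟨q, hq, a⟩ := h p h1
  obtain ⟨q', hq', a'⟩ := h2 _ h3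
  have := a.mul a' h1.lt h3.lt hq.lt hq'.lt
  rw [h4] at this
  rw [← opp2 m' hm' m2 hm2 q hq.1 q' hq'.1 (this.uniq e (mu_lt _ _) (by norm_num)) hq hq']
  exact h2

theorem na' {g : G} (hg : g ∈ Subgroup.normalizer (d.T0 : Set G)) (h : d.Mp g 9 9) :
    g ∈ (d.S : Subgroup G) := by
  refine d.na g h ?_
  obtain ⟨q, hq, e⟩ := h 36 (by decide)
  obtain ⟨q', hq', e'⟩ := d.opp hg (by decide) (by decide) h 36 (by decide)
  obtain rfl := e.uniq e' hq.lt hq'.lt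
  have h0 : q ≠ 0 := by
    rintro rfl
    exact absurd (e.inj (Mv.zero g) (by norm_num) (by norm_num)) (by norm_num)
  have : ∀ q < 64, FF 9 q → FF (27 - 9) q → q ≠ 0 → q = 4 ∨ q = 32 ∨ q = 36 := by decide
  rcases this q hq.1 hq hq' h0 with rfl | rfl | rfl
  · exact Or.inl e
  · exact Or.inr (Or.inl e)
  · exact Or.inr (Or.inr e)

theorem pow4 {g : G} (hg : g ∈ Subgroup.normalizer (d.T0 : Set G)) : g ^ 4 ∈ (d.S : Subgroup G) := by
  obtain ⟨m1, hm1, h9⟩ := d.four_T0 hg (m := 9) (by decide)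
  obtain ⟨m2, hm2, h10⟩ := d.four_T0 hg (m := 10) (by decide)
  have h18 : d.Mp g 18 (27 - m1) := d.opp hg (by decide) hm1 h9
  have h17 : d.Mp g 17 (27 - m2) := d.opp hg (by decide) hm2 h10
  have n1 : m2 ≠ m1 := by
    rintro rfl; exact absurd (h9.inj h10 (by decide) (by decide) hm1) (by norm_num)
  have n2 : m2 ≠ 27 - m1 := by
    rintro rfl; exact absurd (h18.inj h10 (by decide) (by decide) hm2) (by norm_num)
  refine d.na' (pow_mem hg 4) ?_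
  rw [show g ^ 4 = g * (g * (g * g)) by simp [pow_succ, mul_assoc]]
  simp only [MK, List.mem_cons, List.not_mem_nil, or_false] at hm1 hm2
  rcases hm1 with rfl | rfl | rfl | rfl
  · exact ((h9.trans h9).trans h9).trans h9
  · exact ((h9.trans h18).trans h9).trans h18
  · rcases hm2 with rfl | rfl | rfl | rfl
    · exact ((h9.trans h10).trans h9).trans h10
    · exact ((h9.trans h10).trans h18).trans h17
    · exact absurd rfl n1
    · exact absurd rfl n2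
  · rcases hm2 with rfl | rfl | rfl | rfl
    · exact ((h9.trans h17).trans h18).trans h10
    · exact ((h9.trans h17).trans h9).trans h17
    · exact absurd rfl n2
    · exact absurd rfl n1

/-- weak closure of `T0`, and `N(T0) = T` -/
theorem wc [Finite G] {g : G} (h : ∀ p < 64, g * d.n p * g⁻¹ ∈ (d.S : Subgroup G)) :
    g ∈ (d.S : Subgroup G) := by
  have hN : IsPGroup 2 (Subgroup.normalizer (d.T0 : Set G)) := by
    intro k
    obtain ⟨j, hj⟩ := d.S.2 ⟨_, d.pow4 k.2⟩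
    refine ⟨2 + j, Subtype.ext ?_⟩
    have := congrArg Subtype.val hj
    simp only [SubgroupClass.coe_pow, OneMemClass.coe_one] at this ⊢
    rw [pow_add, pow_mul]; exact this
  have hle : (d.S : Subgroup G) ≤ Subgroup.normalizer (d.T0 : Set G) := fun a ha =>
    d.norm_T0 fun p hp => mul_mem (mul_mem ha (d.nS (by omega))) (inv_mem ha)
  rw [← d.S.3 hN hle]
  exact d.norm_T0 h

theorem two_in [Finite G] {X P R : Subgroup G} (hP : P ≤ X) (hR : R ≤ X) (pP : IsPGroup 2 P)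
    (pR : IsPGroup 2 R) : ∃ x ∈ X, ∃ g : G, (∀ a ∈ P, g * a * g⁻¹ ∈ (d.S : Subgroup G)) ∧
      ∀ a ∈ R, g * (x * a * x⁻¹) * g⁻¹ ∈ (d.S : Subgroup G) := by
  haveI : Fact (Nat.Prime 2) := ⟨Nat.prime_two⟩
  obtain ⟨U, hU⟩ := (pP.comap_subtype (K := X)).exists_le_sylow
  obtain ⟨V, hV⟩ := (pR.comap_subtype (K := X)).exists_le_sylow
  obtain ⟨x, hx⟩ := MulAction.exists_smul_eq X V U
  obtain ⟨U', hU'⟩ := (U.2.map X.subtype).exists_le_sylow
  obtain ⟨g, hg⟩ := MulAction.exists_smul_eq G U' d.S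
  have key : ∀ a : X, a ∈ (U : Subgroup X) → g * a * g⁻¹ ∈ (d.S : Subgroup G) := fun a ha => by
    rw [← hg]
    exact Subgroup.smul_mem_pointwise_smul _ (MulAut.conj g) _ (hU' ⟨a, ha, rfl⟩)
  refine ⟨x, x.2, g, fun a ha => key ⟨a, hP ha⟩ (hU ha), fun a ha => ?_⟩
  have : x * ⟨a, hR ha⟩ * x⁻¹ ∈ (U : Subgroup X) := by
    rw [← hx]
    exact Subgroup.smul_mem_pointwise_smul _ (MulAut.conj x) _ (hV ha)
  exact key _ this

theorem emb [Finite G] (X R : Subgroup G) (hX : ∀ p < 64, d.n p ∈ X) (hR : R ≤ X) (pR : IsPGroup 2 R) :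
    ∃ x ∈ X, ∀ a ∈ R, x * a * x⁻¹ ∈ (d.S : Subgroup G) := by
  obtain ⟨x, hx, g, h1, h2⟩ := d.two_in (P := d.T0)
    (fun a ha => by obtain ⟨p, hp, rfl⟩ := d.mem_T0.1 ha; exact hX p hp) hR d.sub_p pR
  have hg := d.wc fun p hp => h1 _ (d.mem_T0.2 ⟨p, hp, rfl⟩)
  refine ⟨x, hx, fun a ha => ?_⟩
  have := mul_mem (mul_mem (inv_mem hg) (h2 a ha)) hg
  simpa [mul_assoc] using this

theorem burn [Finite G] (X : Subgroup G) (hX : ∀ p < 64, d.n p ∈ X) (g : G)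
    (hg : ∀ p < 64, g * d.n p * g⁻¹ ∈ X) : ∃ x ∈ X, ∃ r < 128, x * g = d.n r := by
  obtain ⟨x, hx, h⟩ := d.emb X (d.T0.map (MulAut.conj g).toMonoidHom) hX
    (by rintro _ ⟨a, ha, rfl⟩; obtain ⟨p, hp, rfl⟩ := d.mem_T0.1 ha; exact hg p hp) (d.sub_p.map _)
  refine ⟨x, hx, (d.memS _).1 (d.wc fun p hp => ?_)⟩
  have := h _ ⟨_, d.mem_T0.2 ⟨p, hp, rfl⟩, rfl⟩
  simpa [mul_assoc] using this

theorem mem_cen {p : ℕ} {g : G} : g ∈ Subgroup.centralizer {d.n p} ↔ d.Mv g p p := by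
  rw [Subgroup.mem_centralizer_singleton_iff]
  exact ⟨Mv.of_com, Mv.to_com⟩

theorem conj_mv {g k : G} {p q : ℕ} (h : d.Mv g p q) (hk : d.Mv k p p) : d.Mv (g * k * g⁻¹) q q := by
  have := (h.symm.trans hk).trans h
  rwa [← mul_assoc] at this

theorem naz [Finite G] : ¬ IsConj (d.n 4) (d.n 36) := by
  intro h
  obtain ⟨g, hg⟩ := isConj_iff.1 h
  have t1 : ∀ p < 64, cj p 36 = 36 ∧ cj p 4 = 4 := by decide +kernel
  have t2 : ∀ r < 128, cj r 4 ≠ 36 := by decide +kernel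
  obtain ⟨x, hx, r, hr, e⟩ := d.burn (Subgroup.centralizer {d.n 36})
    (fun p hp => d.mem_cen.2 (Mv.of_cj (by omega) (by norm_num) (t1 p hp).1)) g
    (fun p hp => d.mem_cen.2 (d.conj_mv hg (Mv.of_cj (by omega) (by norm_num) (t1 p hp).2)))
  have := Mv.trans (p := 4) hg (d.mem_cen.1 hx)
  rw [e] at this
  exact t2 r hr ((Mv.of_cj hr (by norm_num) rfl).uniq this (cj_lt _ _) (by norm_num))

theorem mp_n {r m m' : ℕ} (hr : r < 128) (hm : m ∈ MK) (hm' : m' ∈ MK) (h : d.Mp (d.n r) m m') :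
    (m' = m ∧ (r < 64 ∨ m = 9 ∨ m = 18)) ∨ (64 ≤ r ∧ m + m' = 27 ∧ m ≠ 9 ∧ m ≠ 18) := by
  refine ffus_tab r hr m hm m' hm' fun p _ hp => ?_
  obtain ⟨q, hq, e⟩ := h p hp
  rwa [(Mv.of_cj hr hp.lt rfl).uniq e (cj_lt _ _) hq.lt]

theorem ffus [Finite G] {g : G} {m m' : ℕ} (hm : m ∈ MK) (hm' : m' ∈ MK) (h : d.Mp g m m') :
    m' = m ∨ (m + m' = 27 ∧ m ≠ 9 ∧ m ≠ 18) := by
  obtain ⟨x, hx, r, hr, e⟩ := d.burn (d.NF m' hm') (fun p hp => Mp.of_n hm' hp) g (fun p hp => by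
    have := ((h.symm hm hm').trans (Mp.of_n hm hp)).trans h
    rwa [← mul_assoc] at this)
  have := h.trans hx
  rw [e] at this
  have := d.mp_n hr hm hm' this
  tauto

end D

end Cfsg.Agent.SW
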