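import Cfsg.Agent.Lib.SW2

/-! S1829: the fusion of `s1`. -/

set_option autoImplicit false

namespace Cfsg.Agent.SW

def ph (p : ℕ) : ℕ := (p + p / 8 + p / 64) % 2

theorem ph_mu : ∀ p < 128, ∀ q < 128, ph p = 0 → ph q = 0 → ph (mu p q) = 0 := by decide +kernel
theorem ph_iv : ∀ p < 128, ph p = 0 → ph (iv p) = 0 := by decide +kernel
theorem ph_x : ∀ p < 128, (ph (mu p 1) = 0 ∧ ¬ ph p = 0) ∨ (ph p = 0 ∧ ¬ ph (mu p 1) = 0) := by
  decide +kernel
theorem ph_inv : ∀ u < 128, ph u = 0 → mu u u = 0 → FF 9 u ∨ ∃ r ∈ [0, 2, 16, 18], cj r u = 9 := by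
  decide +kernel
theorem a_dec : ∀ u < 64, FF 9 u → ∃ a ∈ [0, 2, 4, 6], ∃ b ∈ [0, 16, 32, 48], u = mu a b := by
  decide +kernel
theorem f2_mu : ∀ p < 128, ∀ q < 128, FF 2 p → FF 2 q → FF 2 (mu p q) := by decide +kernel
theorem f2_iv : ∀ p < 128, FF 2 p → FF 2 (iv p) := by decide +kernel
theorem f2_1 : ∀ p < 128, FF 2 p → cj p 1 = 1 := by decide +kernel
theorem f2_ff : ∀ p < 64, FF 18 p ∨ FF 10 p → FF 2 p := by decide +kernel
set_option synthInstance.maxSize 1024 in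
theorem eb_tab : ∀ u < 64, FF 18 u → FF 10 u ∨ FF 17 u →
    u = 0 ∨ u ∈ [4, 32, 36] ∨ u ∈ [1, 5, 33, 37, 8, 40, 12, 44] := by decide +kernel
set_option synthInstance.maxSize 1024 in
theorem z_tab : ∀ q < 64, FF 18 q → FF 10 q → q = 0 ∨ q = 1 ∨ q = 5 ∨ q = 36 ∨ q = 4 ∨ q = 32 ∨
      q = 33 ∨ q = 37 := by decide +kernel
theorem cm_tab : ∀ u ∈ [1, 5, 33, 37, 8, 40, 12, 44], ∀ c < 128, mu c u = mu u c → ∀ e < 128,
    mu e u = mu u e → cm c e ∈ [0, 4, 32] := by decide +kernel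
theorem cm_eb : ∀ q < 64, ∀ q' < 64, FF 18 q → FF 10 q' → cm q q' = 0 ∨ cm q q' = 32 := by
  decide +kernel
theorem ff_mu : ∀ m ∈ MK, ∀ p < 64, ∀ q < 64, FF m p → FF m q → FF m (mu p q) := by decide +kernel
theorem ff_0 : ∀ m ∈ MK, FF m 0 := by decide
theorem b_dec : ∀ p < 64, FF 10 p → ∃ i ∈ [0, 1], ∃ j ∈ [0, 4], ∃ k ∈ [0, 16], ∃ l ∈ [0, 32],
    p = mu (mu i j) (mu k l) := by decide +kernel

namespace D

variable {G : Type*} [Group G] {d : D G}

theorem Mv.inv {g : G} {p q : ℕ} (h : d.Mv g p q) (hp : p < 128) (hq : q < 128) :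
    d.Mv g (iv p) (iv q) := by
  unfold Mv at *; rw [← d.ninv hp, ← d.ninv hq, ← h]; group

theorem Mv.cm {g : G} {p q p' q' : ℕ} (h1 : d.Mv g p q) (h2 : d.Mv g p' q') (hp : p < 128)
    (hp' : p' < 128) (hq : q < 128) (hq' : q' < 128) : d.Mv g (cm p p') (cm q q') := by
  unfold Mv at *; rw [← d.ncm hp hp', ← d.ncm hq hq', ← h1, ← h2]; group

theorem Mv.one (p : ℕ) : d.Mv 1 p p := by unfold Mv; group

theorem Mv.ne0 {g : G} {p : ℕ} (h : d.Mv g p 0) (hp : p < 128) : p = 0 :=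
  h.inj (Mv.zero g) hp (by norm_num)

theorem Mv.cj' (r : ℕ) {p q : ℕ} (h : r < 128 ∧ p < 128 ∧ cj r p = q) : d.Mv (d.n r) p q :=
  Mv.of_cj h.1 h.2.1 h.2.2

theorem Mp.of_tab {r m m' : ℕ} (hr : r < 128) (h : ∀ p < 64, FF m p → FF m' (cj r p)) :
    d.Mp (d.n r) m m' := fun p hp => ⟨_, h p hp.1 hp, Mv.of_cj hr hp.lt rfl⟩

theorem Mp.of_gen {g : G} {m' : ℕ} (hm' : m' ∈ MK)
    (h : ∀ i ∈ [1, 4, 16, 32], ∃ q, FF m' q ∧ d.Mv g i q) : d.Mp g 10 m' := by
  have h' : ∀ i ∈ [0, 1, 4, 16, 32], i < 128 ∧ ∃ q, FF m' q ∧ d.Mv g i q := by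
    intro i hi
    rw [List.mem_cons] at hi
    rcases hi with rfl | hi
    · exact ⟨by norm_num, 0, ff_0 m' hm', Mv.zero g⟩
    · refine ⟨?_, h i hi⟩
      revert i; decide
  have k : ∀ a b, (a < 128 ∧ ∃ q, FF m' q ∧ d.Mv g a q) → (b < 128 ∧ ∃ q, FF m' q ∧ d.Mv g b q) →
      (mu a b < 128 ∧ ∃ q, FF m' q ∧ d.Mv g (mu a b) q) := by
    rintro a b ⟨ha, q, h1, h2⟩ ⟨hb, q', h3, h4⟩
    exact ⟨mu_lt _ _, _, ff_mu m' hm' q h1.1 q' h3.1 h1 h3, h2.mul h4 ha hb h1.lt h3.lt⟩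
  intro p hp
  obtain ⟨i, hi, j, hj, a, ha, l, hl, rfl⟩ := b_dec p hp.1 hp
  refine (k _ _ (k _ _ (h' i ?_) (h' j ?_)) (k _ _ (h' a ?_) (h' l ?_))).2
  · clear * - hi; revert i; decide
  · clear * - hj; revert j; decide
  · clear * - ha; revert a; decide
  · clear * - hl; revert l; decide

variable (d)

theorem x2B : d.Mp d.x2 10 10 := Mp.of_gen (by decide) (by
  simp only [List.mem_cons, List.not_mem_nil, or_false]
  rintro i (rfl | rfl | rfl | rfl)
  · exact ⟨1, by decide, d.x21⟩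
  · exact ⟨4, by decide, d.x24⟩
  · exact ⟨48, by decide, d.x2b⟩
  · exact ⟨16, by decide, d.x2a⟩)

theorem toW {u : ℕ} (hu : FF 9 u) : ∃ k, ∃ w ∈ [0, 4, 32, 36], d.Mv k u w := by
  obtain ⟨a, ha, b, hb, rfl⟩ := a_dec u hu.1 hu
  have x16 : d.Mv d.x 16 16 := Mv.of_com d.x16
  have x32 : d.Mv d.x 32 32 := Mv.of_com d.x32
  have x48 : d.Mv d.x 48 48 := x16.mul' x32 (by decide +kernel)
  have xb : d.Mv d.x b b := by
    simp only [List.mem_cons, List.not_mem_nil, or_false] at hb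
    rcases hb with rfl | rfl | rfl | rfl
    exacts [Mv.zero _, x16, x32, x48]
  have h1 : ∃ k, ∃ w ∈ [0, 4], d.Mv k a w ∧ d.Mv k b b := by
    simp only [List.mem_cons, List.not_mem_nil, or_false] at ha
    rcases ha with rfl | rfl | rfl | rfl
    · exact ⟨1, 0, by decide, Mv.one _, Mv.one _⟩
    · exact ⟨_, 4, by decide, Mv.trans d.xb d.xc, xb.trans xb⟩
    · exact ⟨1, 4, by decide, Mv.one _, Mv.one _⟩
    · exact ⟨_, 4, by decide, d.xc, xb⟩
  obtain ⟨k, w, hw, a1, a2⟩ := h1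
  have xw : d.Mv d.x2 w w := by
    simp only [List.mem_cons, List.not_mem_nil, or_false] at hw
    rcases hw with rfl | rfl
    exacts [Mv.zero _, d.x24]
  have h2 : ∃ k, ∃ v ∈ [0, 32], d.Mv k b v ∧ d.Mv k w w := by
    simp only [List.mem_cons, List.not_mem_nil, or_false] at hb
    rcases hb with rfl | rfl | rfl | rfl
    · exact ⟨1, 0, by decide, Mv.one _, Mv.one _⟩
    · exact ⟨_, 32, by decide, d.x2b.trans d.x2c, xw.trans xw⟩
    · exact ⟨1, 32, by decide, Mv.one _, Mv.one _⟩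
    · exact ⟨_, 32, by decide, d.x2c, xw⟩
  obtain ⟨k', v, hv, b1, b2⟩ := h2
  have l1 : a < 128 := by clear * - ha; revert a; decide
  have l2 : b < 128 := by clear * - hb; revert b; decide
  have l3 : w < 128 := by clear * - hw; revert w; decide
  have l4 : v < 128 := by clear * - hv; revert v; decide
  refine ⟨_, mu w v, ?_, (a1.mul a2 l1 l2 l3 l2).trans (b2.mul b1 l3 l2 l3 l4)⟩
  clear * - hw hv; revert w v; decide +kernel

theorem nz32 [Finite G] {g : G} (h : d.Mv g 36 32) : False :=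
  d.naz (h.trans (Mv.cj' 64 (q := 4) (by decide +kernel))).isConj.symm

theorem thom_s : ∃ h, ∃ v ∈ [4, 32, 36, 9], d.Mv h 1 v := by
  obtain ⟨g, u, hu, h1, h2⟩ := d.thom (d.sub (fun p => ph p = 0) (by decide) ph_mu ph_iv) (by
    rw [Subgroup.relIndex_eq_two_iff]
    refine ⟨d.n 1, d.nS (by norm_num), fun b hb => ?_⟩
    obtain ⟨r, hr, rfl⟩ := (d.memS _).1 hb
    rw [d.mul r hr 1 (by norm_num), d.n_mem_sub (mu_lt _ _), d.n_mem_sub hr]
    exact ph_x r hr) (d.n 1) (by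
      rw [pow_two, d.mul' (r := 0) (by norm_num) (by norm_num) (by decide +kernel), d.n0])
  have h2 : d.Mv g 1 u := h2
  rcases ph_inv u hu h1 ((h2.sq (by norm_num) hu).1 (by decide +kernel)) with a | ⟨r, hr, a⟩
  · obtain ⟨k, w, hw, e⟩ := d.toW a
    refine ⟨_, w, ?_, h2.trans e⟩
    have : w ≠ 0 := by
      rintro rfl; exact absurd ((h2.trans e).ne0 (by norm_num)) (by norm_num)
    simp only [List.mem_cons, List.not_mem_nil, or_false] at hw ⊢
    tauto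
  · refine ⟨_, 9, by decide, h2.trans (Mv.of_cj ?_ hu a)⟩
    clear * - hr; revert r; decide

theorem s_fus [Finite G] : ∃ g, d.Mp g 18 18 ∧ (d.Mp g 10 10 ∨ d.Mp g 10 17) ∧
    ∃ w ∈ [4, 32, 36], d.Mv g 1 w := by
  obtain ⟨h, v, hv, e⟩ := d.thom_s
  have : ∀ v ∈ [4, 32, 36, 9], v < 128 ∧ ∃ c ∈ [9, 4], ∃ c' ∈ [18, 64], c < 128 ∧ c' < 128 ∧
    cj c v = v ∧ cj c' v = v ∧ mu c v = mu v c ∧ mu c' v = mu v c' ∧ cm c c' = 36 := by decide +kernel
  obtain ⟨lv, c, -, c', -, lc, lc', a1, a2, a3, a4, a5⟩ := this v hv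
  obtain ⟨x, hx, g, h1, h2⟩ := d.two_in (X := Subgroup.centralizer {d.n 1})
    (P := d.sub (FF 2) (by decide) f2_mu f2_iv)
    (R := ((d.S : Subgroup G) ⊓ Subgroup.centralizer {d.n v}).map (MulAut.conj h⁻¹).toMonoidHom)
    (by rintro _ ⟨p, hp, a, rfl⟩; exact d.mem_cen.2 (Mv.of_cj hp (by norm_num) (f2_1 p hp a)))
    (by rintro _ ⟨a, ha, rfl⟩; exact d.mem_cen.2 (d.conj_mv e.symm (d.mem_cen.1 ha.2)))
    d.sub_p (d.S.2.to_inf_left.map _)
  obtain ⟨m1, hm1, hE⟩ := d.four g (m := 18) (by decide) fun p hp =>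
    h1 _ ⟨p, hp.lt, f2_ff p hp.1 (Or.inl hp), rfl⟩
  obtain ⟨m2, hm2, hB⟩ := d.four g (m := 10) (by decide) fun p hp =>
    h1 _ ⟨p, hp.lt, f2_ff p hp.1 (Or.inr hp), rfl⟩
  obtain rfl : m1 = 18 := by have := d.ffus (by decide) hm1 hE; tauto
  have hB' : d.Mp g 10 10 ∨ d.Mp g 10 17 := by
    rcases d.ffus (by decide) hm2 hB with rfl | ⟨a, -⟩
    · exact Or.inl hB
    · obtain rfl : m2 = 17 := by omega
      exact Or.inr hB
  refine ⟨g, hE, hB', ?_⟩
  obtain ⟨u, hu, eu⟩ := hE 1 (by decide)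
  have hu' : FF 10 u ∨ FF 17 u := by
    rcases hB' with a | a <;> obtain ⟨u', hu', eu'⟩ := a 1 (by decide) <;>
      obtain rfl := eu.uniq eu' hu.lt hu'.lt <;> tauto
  rcases eb_tab u hu.1 hu hu' with rfl | a | a
  · exact absurd (eu.ne0 (by norm_num)) (by norm_num)
  · exact ⟨u, a, eu⟩
  exfalso
  have k : ∀ c < 128, cj c v = v → ∃ q < 128, d.Mv (g * (x * h⁻¹)) c q := fun c lc a => by
    apply mv_of_mem
    have := h2 _ ⟨_, ⟨d.nS lc, d.mem_cen.2 (Mv.of_cj lc lv a)⟩, rfl⟩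
    simpa [mul_assoc] using this
  have kv : d.Mv (g * (x * h⁻¹)) v u := (e.symm.trans (d.mem_cen.1 hx)).trans eu
  obtain ⟨q, lq, b1⟩ := k c lc a1
  obtain ⟨q', lq', b2⟩ := k c' lc' a2
  have b3 := b1.cm b2 lc lc' lq lq'
  rw [a5] at b3
  have := cm_tab u a q lq ((b1.com kv lc lv lq hu.lt).1 a3) q' lq' ((b2.com kv lc' lv lq' hu.lt).1 a4)
  simp only [List.mem_cons, List.not_mem_nil, or_false] at this
  rcases this with b | b | b <;> rw [b] at b3
  · exact absurd (b3.ne0 (by norm_num)) (by norm_num)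
  · exact d.naz b3.isConj.symm
  · exact d.nz32 b3

theorem fix32 {g : G} (hE : d.Mp g 18 18) (hB : d.Mp g 10 10) : d.Mv g 32 32 := by
  obtain ⟨q, hq, e⟩ := hE 8 (by decide)
  obtain ⟨q', hq', e'⟩ := hB 16 (by decide)
  have := e.cm e' (by norm_num) (by norm_num) hq.lt hq'.lt
  rw [show cm 8 16 = 32 by decide +kernel] at this
  rcases cm_eb q hq.1 q' hq'.1 hq hq' with a | a <;> rw [a] at this
  · exact absurd (this.ne0 (by norm_num)) (by norm_num)
  · exact this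

theorem s_fus2 [Finite G] : ∃ g, d.Mp g 18 18 ∧ d.Mp g 10 10 ∧ (d.Mv g 1 4 ∨ d.Mv g 1 36) := by
  have : ∃ g, d.Mp g 18 18 ∧ d.Mp g 10 10 ∧ ∃ w ∈ [4, 32, 36], d.Mv g 1 w := by
    obtain ⟨g, hE, hB | hB, w, hw, e⟩ := d.s_fus
    · exact ⟨g, hE, hB, w, hw, e⟩
    · have : ∀ w ∈ [4, 32, 36], w < 128 ∧ cj 64 w ∈ [4, 32, 36] := by decide +kernel
      exact ⟨_, hE.trans (Mp.of_tab (r := 64) (by norm_num) (by decide +kernel)),
        hB.trans (Mp.of_tab (r := 64) (by norm_num) (by decide +kernel)), _, (this w hw).2,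
        e.trans (Mv.of_cj (by norm_num) (this w hw).1 rfl)⟩
  obtain ⟨g, hE, hB, w, hw, e⟩ := this
  refine ⟨g, hE, hB, ?_⟩
  simp only [List.mem_cons, List.not_mem_nil, or_false] at hw
  rcases hw with rfl | rfl | rfl
  · exact Or.inl e
  · exact absurd (e.inj (d.fix32 hE hB) (by norm_num) (by norm_num)) (by norm_num)
  · exact Or.inr e

theorem no_swap [Finite G] {g : G} (hB : d.Mp g 10 10) (h : d.Mv g 4 32) : False := by
  have t1 : ∀ p < 64, cj p 32 = 32 ∧ cj p 4 = 4 := by decide +kernel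
  obtain ⟨x, hx, r, hr, e⟩ := d.burn (Subgroup.centralizer {d.n 32} ⊓ d.NF 10 (by decide))
    (fun p hp => ⟨d.mem_cen.2 (Mv.of_cj (by omega) (by norm_num) (t1 p hp).1), Mp.of_n (by decide) hp⟩) g
    (fun p hp => ⟨d.mem_cen.2 (d.conj_mv h (Mv.of_cj (by omega) (by norm_num) (t1 p hp).2)),
      (d.NF 10 (by decide)).mul_mem ((d.NF 10 (by decide)).mul_mem hB (Mp.of_n (by decide) hp))
        ((d.NF 10 (by decide)).inv_mem hB)⟩)
  have a := h.trans (d.mem_cen.1 hx.1)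
  have b := hB.trans hx.2
  rw [e] at a b
  have c := d.mp_n hr (by decide) (by decide) b
  have l : r < 64 := by omega
  have := (Mv.of_cj hr (by norm_num) (t1 r l).2).uniq a (by norm_num) (by norm_num)
  omega

theorem not_z [Finite G] {g : G} (hE : d.Mp g 18 18) (hB : d.Mp g 10 10) (h : d.Mv g 1 36) : False := by
  have main : ∀ g, d.Mp g 10 10 → d.Mv g 1 36 → d.Mv g 32 32 → d.Mv g 4 33 → False := by
    intro g hB h1 h32 h4
    have g5 : d.Mv g 5 5 := h1.mul' h4 (by decide +kernel)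
    have g36 : d.Mv g 36 1 := h4.mul' h32 (by decide +kernel)
    have x33 : d.Mv d.x2 33 17 := d.x21.mul' d.x2a (by decide +kernel)
    have x17 : d.Mv d.x2 17 49 := d.x21.mul' d.x2b (by decide +kernel)
    have x36 : d.Mv d.x2 36 20 := d.x24.mul' d.x2a (by decide +kernel)
    have c4 : IsConj (d.n 4) (d.n 4) := IsConj.refl _
    have c32 : IsConj (d.n 4) (d.n 32) := (Mv.cj' 64 (by decide +kernel)).isConj
    have c16 := c32.trans d.x2a.isConj
    have c48 := c16.trans d.x2b.isConj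
    have c33 := h4.isConj
    have c17 := c33.trans x33.isConj
    have c49 := c17.trans x17.isConj
    have c37 : IsConj (d.n 4) (d.n 37) := c33.trans (Mv.cj' 2 (by decide +kernel)).isConj
    have c21 : IsConj (d.n 4) (d.n 21) := c17.trans (Mv.cj' 2 (by decide +kernel)).isConj
    have c53 : IsConj (d.n 4) (d.n 53) := c49.trans (Mv.cj' 2 (by decide +kernel)).isConj
    obtain ⟨q, hq, e⟩ := hB 20 (by decide)
    have nq : ¬ IsConj (d.n 4) (d.n q) := fun a => d.naz (a.trans (x36.trans e).isConj.symm)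
    have b17 : d.Mv (d.n 2) 17 21 := Mv.cj' 2 (by decide +kernel)
    have B2 : d.Mp (d.n 2) 10 10 := Mp.of_n (by decide) (by norm_num)
    have : ∀ q < 64, FF 10 q → q = 0 ∨ q = 1 ∨ q = 5 ∨ q = 36 ∨ q = 20 ∨ q = 52 ∨ q = 4 ∨ q = 32 ∨
      q = 16 ∨ q = 48 ∨ q = 33 ∨ q = 17 ∨ q = 49 ∨ q = 37 ∨ q = 21 ∨ q = 53 := by
      intro q hq; interval_cases q <;> simp [FF]
    rcases this q hq.1 hq with rfl | rfl | rfl | rfl | rfl | rfl | rfl | rfl | rfl | rfl | rfl | rfl |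
      rfl | rfl | rfl | rfl
    · exact absurd (e.ne0 (by norm_num)) (by norm_num)
    · exact absurd (e.inj g36 (by norm_num) (by norm_num)) (by norm_num)
    · exact absurd (e.inj g5 (by norm_num) (by norm_num)) (by norm_num)
    · exact absurd (e.inj h1 (by norm_num) (by norm_num)) (by norm_num)
    · have g21 : d.Mv g 21 48 := h1.mul' e (by decide +kernel)
      exact d.no_swap ((((hB.trans d.x2B).trans B2).trans hB).trans d.x2B)
        ((((h4.trans x33).trans b17).trans g21).trans d.x2c)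
    · have g21 : d.Mv g 21 16 := h1.mul' e (by decide +kernel)
      exact d.no_swap (((((hB.trans d.x2B).trans B2).trans hB).trans d.x2B).trans d.x2B)
        (((((h4.trans x33).trans b17).trans g21).trans d.x2b).trans d.x2c)
    all_goals exact nq ‹_›
  have h32 := d.fix32 hE hB
  have g33 : d.Mv g 33 4 := h.mul' h32 (by decide +kernel)
  obtain ⟨q, hq, e⟩ := hE 4 (by decide)
  obtain ⟨q', hq', e'⟩ := hB 4 (by decide)
  obtain rfl := e.uniq e' hq.lt hq'.lt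
  rcases z_tab q hq.1 hq hq' with rfl | rfl | rfl | rfl | rfl | rfl | rfl | rfl
  · exact absurd (e.ne0 (by norm_num)) (by norm_num)
  · exact d.naz (e.trans h).isConj
  · exact d.naz ((e.trans (Mv.cj' 2 (by decide +kernel))).trans h).isConj
  · exact d.naz e.isConj
  · exact absurd (e.inj g33 (by norm_num) (by norm_num)) (by norm_num)
  · exact absurd (e.inj h32 (by norm_num) (by norm_num)) (by norm_num)
  · exact main g hB h h32 e
  · exact main _ (hB.trans (Mp.of_n (r := 2) (by decide) (by norm_num)))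
      (h.trans (Mv.cj' 2 (by decide +kernel))) (h32.trans (Mv.cj' 2 (by decide +kernel)))
      (e.trans (Mv.cj' 2 (by decide +kernel)))

theorem exists_g [Finite G] : ∃ g, d.Mp g 18 18 ∧ d.Mp g 10 10 ∧ d.Mv g 1 4 ∧ d.Mv g 32 32 := by
  obtain ⟨g, hE, hB, h | h⟩ := d.s_fus2
  · exact ⟨g, hE, hB, h, d.fix32 hE hB⟩
  · exact (d.not_z hE hB h).elim

end D

end Cfsg.Agent.SW
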