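import Cfsg.Agent.Lib.SW3

/-! S1829: the element `y` of order 3. -/

set_option autoImplicit false

namespace Cfsg.Agent.SW

def lin (s a b c e p : ℕ) : ℕ :=
  mu (mu (if p &&& 1 = 0 then 0 else a) (if p &&& 4 = 0 then 0 else b))
    (mu (if p &&& s = 0 then 0 else c) (if p &&& 32 = 0 then 0 else e))

theorem lin_lt (s a b c e p : ℕ) : lin s a b c e p < 128 := mu_lt _ _
theorem lin_dec : ∀ s ∈ [8, 16], ∀ p < 64, FF (26 - s) p →
    p = mu (mu (p &&& 1) (p &&& 4)) (mu (p &&& s) (p &&& 32)) := by decide +kernel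
theorem bit_dec : ∀ s ∈ [1, 4, 8, 16, 32], ∀ p < 64, p &&& s = 0 ∨ p &&& s = s := by decide +kernel
theorem cenB_tab : ∀ p < 64, cj p 1 = 1 → cj p 16 = 16 → FF 10 p := by decide +kernel
set_option synthInstance.maxSize 1024 in
theorem b_tab : ∀ q < 64, ∀ e < 64, FF 10 q → FF 18 e → mu e q ≠ mu q e →
    q = 16 ∨ q = 48 ∨ q = 17 ∨ q = 49 ∨ q = 21 ∨ q = 53 ∨ q = 20 ∨ q = 52 := by decide +kernel
theorem e_ff : ∀ e < 64, FF 18 e → FF 18 (lin 8 4 5 e 32 e) ∧ FF 18 (cj 2 e) := by decide +kernel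
set_option synthInstance.maxSize 1024 in
theorem e_tab : ∀ e < 64, ∀ p < 64, FF 18 e → FF 10 p → mu e 16 ≠ mu 16 e →
    lin 8 4 5 e 32 (lin 8 4 5 e 32 e) = 8 → cj 2 (lin 8 4 5 e 32 (cj 2 e)) = cj p 8 → e = 8 ∨ e = 9 := by
  decide +kernel
theorem c_ff : ∀ p < 64, FF 10 p → FF 10 (lin 16 1 4 48 16 p) ∧ FF 10 (lin 16 4 5 16 32 p) := by
  decide +kernel
theorem c_tab : ∀ p < 64, FF 10 p →
    mu (mu (lin 16 1 4 48 16 p) (lin 16 1 4 48 16 (lin 16 1 4 48 16 p))) p = 0 →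
    mu (mu p (lin 16 4 5 16 32 p)) (lin 16 4 5 16 32 (lin 16 4 5 16 32 p)) = 0 → p = 0 := by
  decide +kernel

namespace D

variable {G : Type*} [Group G] {d : D G}

theorem Mv.bit {g : G} {s a p : ℕ} (hs : s ∈ [1, 4, 8, 16, 32]) (hp : p < 64) (ha : a < 128)
    (h : d.Mv g s a) : p &&& s < 128 ∧ (if p &&& s = 0 then 0 else a) < 128 ∧
      d.Mv g (p &&& s) (if p &&& s = 0 then 0 else a) := by
  refine ⟨lt_of_le_of_lt Nat.and_le_left (by omega), by split_ifs <;> omega, ?_⟩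
  split_ifs with e
  · rw [e]; exact Mv.zero g
  · rw [(bit_dec s hs p hp).resolve_left e]; exact h

theorem Mv.lin {g : G} {s a b c e p : ℕ} (hs : s ∈ [8, 16]) (h1 : d.Mv g 1 a) (h4 : d.Mv g 4 b)
    (h8 : d.Mv g s c) (h32 : d.Mv g 32 e) (ha : a < 128) (hb : b < 128) (hc : c < 128) (he : e < 128)
    (hp : FF (26 - s) p) : d.Mv g p (lin s a b c e p) := by
  obtain ⟨a1, a2, a3⟩ := h1.bit (by decide) hp.1 ha
  obtain ⟨b1, b2, b3⟩ := h4.bit (by decide) hp.1 hb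
  obtain ⟨c1, c2, c3⟩ := h8.bit (by clear * - hs; revert s; decide) hp.1 hc
  obtain ⟨e1, e2, e3⟩ := h32.bit (by decide) hp.1 he
  have := (a3.mul b3 a1 b1 a2 b2).mul (c3.mul e3 c1 e1 c2 e2) (mu_lt _ _) (mu_lt _ _) (mu_lt _ _)
    (mu_lt _ _)
  rwa [← lin_dec s hs p hp.1 hp] at this

variable (d)

theorem adj_g [Finite G] {g : G} (hE : d.Mp g 18 18) (hB : d.Mp g 10 10) (h1 : d.Mv g 1 4)
    (h32 : d.Mv g 32 32) : ∃ g, d.Mp g 18 18 ∧ d.Mv g 1 4 ∧ d.Mv g 4 5 ∧ d.Mv g 16 16 ∧ d.Mv g 32 32 := by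
  have g33 : d.Mv g 33 36 := h1.mul' h32 (by decide +kernel)
  have n33 : ¬ IsConj (d.n 4) (d.n 33) := fun a => d.naz (a.trans g33.isConj)
  have s1 : ∃ g, d.Mp g 18 18 ∧ d.Mp g 10 10 ∧ d.Mv g 1 4 ∧ d.Mv g 4 5 ∧ d.Mv g 32 32 := by
    obtain ⟨q, hq, e⟩ := hE 4 (by decide)
    obtain ⟨q', hq', e'⟩ := hB 4 (by decide)
    obtain rfl := e.uniq e' hq.lt hq'.lt
    rcases z_tab q hq.1 hq hq' with rfl | rfl | rfl | rfl | rfl | rfl | rfl | rfl
    · exact absurd (e.ne0 (by norm_num)) (by norm_num)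
    · exact ⟨_, hE.trans (Mp.of_n (r := 2) (by decide) (by norm_num)),
        hB.trans (Mp.of_n (r := 2) (by decide) (by norm_num)), h1.trans (Mv.cj' 2 (by decide +kernel)),
        e.trans (Mv.cj' 2 (by decide +kernel)), h32.trans (Mv.cj' 2 (by decide +kernel))⟩
    · exact ⟨g, hE, hB, h1, e, h32⟩
    · exact (d.naz e.isConj).elim
    · exact absurd (e.inj h1 (by norm_num) (by norm_num)) (by norm_num)
    · exact absurd (e.inj h32 (by norm_num) (by norm_num)) (by norm_num)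
    · exact (n33 e.isConj).elim
    · exact (n33 (e.trans (Mv.cj' 2 (by decide +kernel))).isConj).elim
  obtain ⟨g, hE, hB, h1, h4, h32⟩ := s1
  obtain ⟨q, hq, e⟩ := hB 16 (by decide)
  obtain ⟨q', hq', e'⟩ := hE 8 (by decide)
  have c16 : IsConj (d.n 4) (d.n q) :=
    (((Mv.cj' 64 (p := 4) (q := 32) (by decide +kernel)).trans d.x2a).trans e).isConj
  have x33 : d.Mv d.x2 33 17 := d.x21.mul' d.x2a (by decide +kernel)
  have x17 : d.Mv d.x2 17 49 := d.x21.mul' d.x2b (by decide +kernel)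
  have x36 : d.Mv d.x2 36 20 := d.x24.mul' d.x2a (by decide +kernel)
  have n17 : ¬ IsConj (d.n 4) (d.n 17) := fun a => n33 (a.trans x33.isConj.symm)
  have n20 : ¬ IsConj (d.n 4) (d.n 20) := fun a => d.naz (a.trans x36.isConj.symm)
  rcases b_tab q hq.1 q' hq'.1 hq hq' (fun a => absurd
      ((e'.com e (by norm_num) (by norm_num) hq'.lt hq.lt).2 a) (by decide +kernel)) with
    rfl | rfl | rfl | rfl | rfl | rfl | rfl | rfl
  · exact ⟨g, hE, h1, h4, e, h32⟩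
  · exact ⟨_, hE.trans (Mp.of_n (r := 8) (by decide) (by norm_num)),
      h1.trans (Mv.cj' 8 (by decide +kernel)), h4.trans (Mv.cj' 8 (by decide +kernel)),
      e.trans (Mv.cj' 8 (by decide +kernel)), h32.trans (Mv.cj' 8 (by decide +kernel))⟩
  · exact (n17 c16).elim
  · exact (n17 (c16.trans (Mv.cj' 8 (by decide +kernel)).isConj)).elim
  · exact (n17 (c16.trans (Mv.cj' 2 (by decide +kernel)).isConj)).elim
  · exact (n17 (c16.trans (Mv.cj' 10 (by decide +kernel)).isConj)).elim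
  · exact (n20 c16).elim
  · exact (n20 (c16.trans (Mv.cj' 8 (by decide +kernel)).isConj)).elim

theorem cenB (hC : ∀ g, d.Mv g 4 4 → d.Mv g 32 32 → ∃ p < 64, g = d.n p) {k : G} (h1 : d.Mv k 1 1)
    (h4 : d.Mv k 4 4) (h16 : d.Mv k 16 16) (h32 : d.Mv k 32 32) : ∃ p, FF 10 p ∧ k = d.n p := by
  obtain ⟨p, hp, rfl⟩ := hC k h4 h32
  exact ⟨p, cenB_tab p hp ((Mv.of_cj (by omega) (by norm_num) rfl).uniq h1 (cj_lt _ _) (by norm_num))
    ((Mv.of_cj (by omega) (by norm_num) rfl).uniq h16 (cj_lt _ _) (by norm_num)), rfl⟩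

theorem exists_y [Finite G] (hC : ∀ g, d.Mv g 4 4 → d.Mv g 32 32 → ∃ p < 64, g = d.n p) {g : G}
    (hE : d.Mp g 18 18) (hB : d.Mp g 10 10) (h1 : d.Mv g 1 4) (h32 : d.Mv g 32 32) :
    ∃ y : G, y ^ 3 = 1 ∧ d.Mv y 1 4 ∧ d.Mv y 4 5 ∧ d.Mv y 16 16 ∧ d.Mv y 32 32 ∧
      (d.Mv y 8 8 ∨ d.Mv y 8 9) ∧ y * d.x2 = d.x2 * y := by
  obtain ⟨g, hE, h1, h4, h16, h32⟩ := d.adj_g hE hB h1 h32
  have h5 : d.Mv g 5 1 := h1.mul' h4 (by decide +kernel)
  have a1 := (h1.trans h4).trans h5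
  have a4 := (h4.trans h5).trans h1
  have a16 := (h16.trans h16).trans h16
  have a32 := (h32.trans h32).trans h32
  obtain ⟨p, hp, e⟩ := d.cenB hC a1 a4 a16 a32
  have s1 : ∃ y : G, y ^ 3 = 1 ∧ d.Mp y 18 18 ∧ d.Mv y 1 4 ∧ d.Mv y 4 5 ∧ d.Mv y 16 16 ∧ d.Mv y 32 32 := by
    refine ⟨_, ?_, ((hE.trans hE).trans hE).trans hE, a1.trans h1, a4.trans h4, a16.trans h16,
      a32.trans h32⟩
    have : (g * (g * g)) * (g * (g * g)) = 1 := by
      rw [e, d.mul' hp.lt hp.lt (ff_sq 10 (by decide) p hp.1 hp), d.n0]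
    calc (g * (g * (g * g))) ^ 3 = ((g * (g * g)) * (g * (g * g))) ^ 2 := by
          simp only [pow_succ, pow_zero, one_mul, mul_assoc]
      _ = 1 := by rw [this, one_pow]
  clear * - s1 hC
  obtain ⟨y, y3, hE, h1, h4, h16, h32⟩ := s1
  have h5 : d.Mv y 5 1 := h1.mul' h4 (by decide +kernel)
  have h48 : d.Mv y 48 48 := h16.mul' h32 (by decide +kernel)
  have y3' : y * (y * y) = 1 := by rw [← y3]; simp only [pow_succ, pow_zero, one_mul, mul_assoc]
  refine ⟨y, y3, h1, h4, h16, h32, ?_, ?_⟩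
  · obtain ⟨e, he, h8⟩ := hE 8 (by decide)
    have L : ∀ p, FF 18 p → d.Mv y p (lin 8 4 5 e 32 p) := fun p hp =>
      Mv.lin (by decide) h1 h4 h8 h32 (by norm_num) (by norm_num) he.lt (by norm_num) hp
    have b1 := (h8.trans (L e he)).trans (L _ (e_ff e he.1 he).1)
    rw [y3'] at b1
    have b : ∀ {p q : ℕ}, p < 128 ∧ cj 2 p = q → d.Mv (d.n 2) p q := fun h =>
      Mv.of_cj (by norm_num) h.1 h.2
    obtain ⟨p, hp, ep⟩ := d.cenB hC
      (((h1.trans (b (by decide +kernel))).trans h4).trans (b (by decide +kernel)))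
      (((h4.trans (b (by decide +kernel))).trans h1).trans (b (by decide +kernel)))
      (((h16.trans (b (by decide +kernel))).trans h16).trans (b (by decide +kernel)))
      (((h32.trans (b (by decide +kernel))).trans h32).trans (b (by decide +kernel)))
    have b2 := ((h8.trans (b ⟨he.lt, rfl⟩)).trans (L _ (e_ff e he.1 he).2)).trans (b ⟨lin_lt .., rfl⟩)
    rw [ep] at b2
    rcases e_tab e he.1 p hp.1 he hp
      (fun a => absurd ((h8.com h16 (by norm_num) (by norm_num) he.lt (by norm_num)).2 a)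
        (by decide +kernel))
      (b1.uniq (Mv.one 8) (lin_lt ..) (by norm_num))
      (b2.uniq (Mv.of_cj hp.lt (by norm_num) rfl) (cj_lt _ _) (cj_lt _ _)) with rfl | rfl
    · exact Or.inl h8
    · exact Or.inr h8
  · have x5 : d.Mv d.x2 5 5 := d.x21.mul' d.x24 (by decide +kernel)
    obtain ⟨p, hp, ep⟩ := d.cenB hC
      (((h5.symm.trans x5).trans h5).trans d.x21.symm)
      (((h1.symm.trans d.x21).trans h1).trans d.x24.symm)
      (((h16.symm.trans d.x2b).trans h48).trans d.x2b.symm)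
      (((h32.symm.trans d.x2a).trans h16).trans d.x2a.symm)
    have LX : ∀ p, FF 10 p → d.Mv d.x2 p (lin 16 1 4 48 16 p) := fun p hp =>
      Mv.lin (by decide) d.x21 d.x24 d.x2b d.x2a (by norm_num) (by norm_num) (by norm_num) (by norm_num) hp
    have LY : ∀ p, FF 10 p → d.Mv y p (lin 16 4 5 16 32 p) := fun p hp =>
      Mv.lin (by decide) h1 h4 h16 h32 (by norm_num) (by norm_num) (by norm_num) (by norm_num) hp
    have x3 : d.x2 * (d.x2 * d.x2) = 1 := by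
      rw [← d.x2_3]; simp only [pow_succ, pow_zero, one_mul, mul_assoc]
    have X1 := LX p hp
    have X2 := X1.trans (LX _ (c_ff p hp.1 hp).1)
    have Y1 := LY p hp
    have Y2 := Y1.trans (LY _ (c_ff p hp.1 hp).2)
    have : p = 0 := by
      refine c_tab p hp.1 hp ?_ ?_
      · rw [← d.eq_one_iff (mu_lt _ _), ← d.mul _ (mu_lt _ _) _ hp.lt, ← d.mul _ (lin_lt ..) _ (lin_lt ..),
          ← X2, ← X1, ← ep]
        calc _ = y * (d.x2 * (d.x2 * d.x2)) * y⁻¹ * (y * d.x2⁻¹ * y⁻¹) *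
              (d.x2 * (d.x2 * d.x2))⁻¹ * (y * d.x2 * y⁻¹) := by group
          _ = 1 := by rw [x3]; group
      · rw [← d.eq_one_iff (mu_lt _ _), ← d.mul _ (mu_lt _ _) _ (lin_lt ..), ← d.mul _ hp.lt _ (lin_lt ..),
          ← Y2, ← Y1, ← ep]
        calc _ = d.x2⁻¹ * (y * (y * y)) * d.x2 * (y * (y * y))⁻¹ := by group
          _ = 1 := by rw [y3']; group
    rw [this, d.n0] at ep
    calc y * d.x2 = d.x2 * (d.x2⁻¹ * (y * (d.x2 * y⁻¹))) * y := by group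
      _ = _ := by rw [ep]; group

end D

end Cfsg.Agent.SW
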