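import Mathlib
import Cfsg.Agent.Lib.SW1
import Cfsg.Agent.Lib.InvolCount

/-! Piece PB of S1829: the case `s2 ↦ s1 s2`. -/

set_option autoImplicit false

namespace Cfsg.Agent.SW

open Subgroup

section gen

variable {G : Type*} [Group G]

theorem pb_pair [Finite G] (p : ℕ) [Fact p.Prime] (L A B : Subgroup G) (hA : A ≤ L) (hB : B ≤ L)
    (pA : IsPGroup p A) (pB : IsPGroup p B) :
    ∃ l ∈ L, ∃ R : Subgroup G, R ≤ L ∧ IsPGroup p R ∧ A ≤ R ∧ ∀ b ∈ B, l * b * l⁻¹ ∈ R := by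
  have pA' : IsPGroup p (A.subgroupOf L) := pA.comap_subtype
  have pB' : IsPGroup p (B.subgroupOf L) := pB.comap_subtype
  obtain ⟨P, hP⟩ := pA'.exists_le_sylow
  obtain ⟨Q, hQ⟩ := pB'.exists_le_sylow
  obtain ⟨g, hg⟩ := MulAction.exists_smul_eq L Q P
  refine ⟨g, g.2, (P : Subgroup L).map L.subtype, map_subtype_le _, P.2.map _, ?_, ?_⟩
  · intro a ha
    exact ⟨⟨a, hA ha⟩, hP (by simpa [mem_subgroupOf] using ha), rfl⟩
  · intro b hb
    have h1 : (⟨b, hB hb⟩ : L) ∈ (Q : Subgroup L) := hQ (by simpa [mem_subgroupOf] using hb)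
    refine ⟨g * ⟨b, hB hb⟩ * g⁻¹, ?_, rfl⟩
    rw [← hg, Sylow.coe_subgroup_smul]
    exact Subgroup.smul_mem_pointwise_smul _ (MulAut.conj g) _ h1

theorem pb_center [Finite G] (p : ℕ) [hp : Fact p.Prime] (R : Subgroup G) (pR : IsPGroup p R)
    {a : G} (ha : a ∈ R) (ha1 : a ≠ 1) :
    ∃ c ∈ R, c ≠ 1 ∧ c ^ p = 1 ∧ ∀ r ∈ R, c * r = r * c := by
  haveI : Nontrivial R := ⟨⟨⟨a, ha⟩, 1, fun h => ha1 (congrArg Subtype.val h)⟩⟩
  haveI := pR.center_nontrivial
  have pZ : IsPGroup p (center R) := pR.to_subgroup _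
  obtain ⟨k, hk0, hk⟩ := pZ.nontrivial_iff_card.1 inferInstance
  obtain ⟨c, hc⟩ := exists_prime_orderOf_dvd_card' (G := center R) p
    (by rw [hk]; exact dvd_pow_self _ hk0.ne')
  refine ⟨(c.1 : G), c.1.2, ?_, ?_, ?_⟩
  · intro h
    have : c = 1 := Subtype.ext (Subtype.ext h)
    rw [this, orderOf_one] at hc
    exact hp.out.one_lt.ne hc
  · have := pow_orderOf_eq_one c
    rw [hc] at this
    simpa using congrArg (fun t : center R => (t.1 : G)) this
  · intro r hr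
    have := (mem_center_iff.1 c.2) ⟨r, hr⟩
    exact (congrArg Subtype.val this).symm

theorem pb_two_le [Finite G] {H K : Subgroup G} (h : H ≤ K) {g : G} (hK : g ∈ K) (hH : g ∉ H) :
    2 * Nat.card H ≤ Nat.card K := by
  obtain ⟨k, hk⟩ := card_dvd_of_le h
  have h0 : 0 < Nat.card K := Nat.card_pos
  have h1 : k ≠ 1 := by
    rintro rfl
    have : H = K := eq_of_le_of_card_ge h (by omega)
    exact hH (this ▸ hK)
  have h2 : k ≠ 0 := by rintro rfl; omega
  rw [hk]; nlinarith [show 2 ≤ k by omega]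

theorem pb_zp {x : G} (p : ℕ) (h : x ^ p = 1) : IsPGroup p (zpowers x) := by
  intro g
  obtain ⟨k, hk⟩ := g.2
  refine ⟨1, Subtype.ext ?_⟩
  simp only [pow_one, SubgroupClass.coe_pow, OneMemClass.coe_one]
  rw [← hk]
  show (x ^ k) ^ p = 1
  rw [← zpow_natCast, ← zpow_mul, mul_comm, zpow_mul, zpow_natCast, h, one_zpow]

theorem pb_zp3 [Finite G] {x y : G} (hx : x ^ 3 = 1) (hy1 : y ≠ 1)
    (h : y ∈ zpowers x) : x ∈ zpowers y := by
  have hle : zpowers y ≤ zpowers x := (zpowers_le).2 h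
  have hx1 : x ≠ 1 := by rintro rfl; exact hy1 (by simpa using h)
  have ox : Nat.card (zpowers x) = 3 := by rw [Nat.card_zpowers, orderOf_eq_prime hx hx1]
  have hd := card_dvd_of_le hle
  rw [ox] at hd
  have h1 : Nat.card (zpowers y) ≠ 1 := by
    rw [Nat.card_zpowers]; simpa using hy1
  have h3 : Nat.card (zpowers y) = 3 := by
    rcases (Nat.dvd_prime Nat.prime_three).1 hd with h | h
    · exact absurd h h1
    · exact h
  have : zpowers y = zpowers x := eq_of_le_of_card_ge hle (by omega)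
  rw [this]; exact mem_zpowers x

theorem pb_com_zp {x y s : G} (h : x ∈ zpowers y) (hs : y * s = s * y) : x * s = s * x := by
  obtain ⟨k, rfl⟩ := h
  exact ((Commute.zpow_left (show Commute y s from hs) k))

end gen

theorem pb_t1 : ∀ p < 64, mu p 16 = mu 16 p →
    p % 8 < 8 ∧ (mu (p % 8) 0 = p ∨ (mu (p % 8) 16 = p ∧ mu (p % 8) 48 ≠ p) ∨
      (mu (p % 8) 32 = p ∧ mu (p % 8) 16 ≠ p) ∨ (mu (p % 8) 48 = p ∧ mu (p % 8) 32 ≠ p)) := by
  decide +kernel
theorem pb_t2 : ∀ p < 8, mu p 0 = p := by decide +kernel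
theorem pb_t3 : ∀ p < 8, mu p 16 = mu 16 p ∧ mu p 32 = mu 32 p := by decide +kernel
theorem pb_t4 : ∀ p < 8, ∀ q < 8, mu p q < 8 := by decide +kernel
theorem pb_t5 : ∀ p < 8, iv p < 8 := by decide +kernel
theorem pb_t6 : ∀ p < 8, mu p 1 = mu 1 p → mu p 2 = mu 2 p → p = 0 ∨ p = 4 := by decide +kernel
theorem pb_t7 : ∀ p < 8, mu p p = 0 → p = 0 ∨ p = 1 ∨ p = 2 ∨ p = 4 ∨ p = 5 ∨ p = 6 := by
  decide +kernel
theorem pb_t8 : ∀ p < 8, mu (mu p p) (mu p p) = 0 := by decide +kernel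

namespace D

variable {G : Type*} [Group G] (d : D G)

/-- the centraliser of the second `A4` -/
def LL : Subgroup G where
  carrier := {g | g * d.n 16 = d.n 16 * g ∧ g * d.n 32 = d.n 32 * g ∧ g * d.x2 = d.x2 * g}
  one_mem' := by simp
  mul_mem' := by
    rintro a b ⟨a1, a2, a3⟩ ⟨b1, b2, b3⟩
    exact ⟨(Commute.mul_left a1 b1 : Commute _ _), (Commute.mul_left a2 b2 : Commute _ _),
      (Commute.mul_left a3 b3 : Commute _ _)⟩
  inv_mem' := by
    rintro a ⟨a1, a2, a3⟩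
    exact ⟨(Commute.inv_left a1 : Commute _ _), (Commute.inv_left a2 : Commute _ _),
      (Commute.inv_left a3 : Commute _ _)⟩

theorem mem_LL {g : G} : g ∈ d.LL ↔
    g * d.n 16 = d.n 16 * g ∧ g * d.n 32 = d.n 32 * g ∧ g * d.x2 = d.x2 * g := Iff.rfl

/-- the first `D8` -/
def D1 : Subgroup G where
  carrier := {g | ∃ p < 8, g = d.n p}
  one_mem' := ⟨0, by norm_num, d.n0.symm⟩
  mul_mem' := by
    rintro a b ⟨p, hp, rfl⟩ ⟨q, hq, rfl⟩
    exact ⟨mu p q, pb_t4 p hp q hq, d.mul p (by omega) q (by omega)⟩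
  inv_mem' := by
    rintro a ⟨p, hp, rfl⟩
    exact ⟨iv p, pb_t5 p hp, d.ninv (by omega)⟩

theorem mem_D1 {g : G} : g ∈ d.D1 ↔ ∃ p < 8, g = d.n p := Iff.rfl

theorem x2_fix {p : ℕ} (hp : p < 8) : d.Mv d.x2 p p := by
  have h1 := d.x21
  have h2 := d.x22
  have h4 := d.x24
  have h3 : d.Mv d.x2 3 3 := h1.mul' h2 (by decide +kernel)
  interval_cases p
  · exact Mv.zero _
  · exact h1
  · exact h2
  · exact h3
  · exact h4
  · exact h1.mul' h4 (by decide +kernel)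
  · exact h2.mul' h4 (by decide +kernel)
  · exact h3.mul' h4 (by decide +kernel)

theorem D1_le : d.D1 ≤ d.LL := by
  rintro g ⟨p, hp, rfl⟩
  exact ⟨(d.com_iff (by omega) (by norm_num)).2 (pb_t3 p hp).1,
    (d.com_iff (by omega) (by norm_num)).2 (pb_t3 p hp).2, (d.x2_fix hp).to_com.symm⟩

theorem D1_four {g : G} (h : g ∈ d.D1) : g ^ 4 = 1 := by
  obtain ⟨p, hp, rfl⟩ := h
  have : d.n p ^ 4 = d.n p * d.n p * (d.n p * d.n p) := by simp [pow_succ, mul_assoc]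
  rw [this, d.mul p (by omega) p (by omega), d.mul _ (mu_lt _ _) _ (mu_lt _ _), pb_t8 p hp, d.n0]

theorem D1_p : IsPGroup 2 d.D1 := fun g => ⟨2, Subtype.ext (by simpa using d.D1_four g.2)⟩

theorem cent_a (hC : ∀ g, d.Mv g 4 4 → d.Mv g 32 32 → ∃ p < 64, g = d.n p) {g : G}
    (hg : g ∈ d.LL) (h : g * d.n 4 = d.n 4 * g) : g ∈ d.D1 := by
  obtain ⟨p, hp, rfl⟩ := hC g (Mv.of_com h) (Mv.of_com hg.2.1)
  have hm : d.Mv d.x2 p p := Mv.of_com hg.2.2.symm
  obtain ⟨h8, h0⟩ := pb_t1 p hp ((d.com_iff (by omega) (by norm_num)).1 hg.1)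
  have f := d.x2_fix h8
  have hp' : p < 128 := by omega
  have h8' : p % 8 < 128 := by omega
  rcases h0 with h0 | ⟨h0, h1⟩ | ⟨h0, h1⟩ | ⟨h0, h1⟩
  · rw [pb_t2 _ h8] at h0
    exact ⟨p, by omega, rfl⟩
  · have := f.mul d.x2b h8' (by norm_num) h8' (by norm_num)
    rw [h0] at this
    exact absurd (this.uniq hm (mu_lt _ _) hp') h1
  · have := f.mul d.x2a h8' (by norm_num) h8' (by norm_num)
    rw [h0] at this
    exact absurd (this.uniq hm (mu_lt _ _) hp') h1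
  · have := f.mul d.x2c h8' (by norm_num) h8' (by norm_num)
    rw [h0] at this
    exact absurd (this.uniq hm (mu_lt _ _) hp') h1

theorem syl_D1 [Finite G] (hC : ∀ g, d.Mv g 4 4 → d.Mv g 32 32 → ∃ p < 64, g = d.n p)
    {R : Subgroup G} (hR : R ≤ d.LL) (pR : IsPGroup 2 R) (hD : d.D1 ≤ R) : R ≤ d.D1 := by
  have m : ∀ p < 8, d.n p ∈ R := fun p hp => hD ⟨p, hp, rfl⟩
  obtain ⟨c, hc, hc1, _, hcc⟩ := pb_center 2 R pR (m 4 (by norm_num))
    (by rw [Ne, d.eq_one_iff (by norm_num)]; norm_num)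
  obtain ⟨p, hp, rfl⟩ := d.cent_a hC (hR hc) (hcc _ (m 4 (by norm_num)))
  have := pb_t6 p hp ((d.com_iff (by omega) (by norm_num)).1 (hcc _ (m 1 (by norm_num))))
    ((d.com_iff (by omega) (by norm_num)).1 (hcc _ (m 2 (by norm_num))))
  rcases this with rfl | rfl
  · exact absurd d.n0 hc1
  · intro r hr
    exact d.cent_a hC (hR hr) (hcc r hr).symm

theorem x_LL : d.x ∈ d.LL := ⟨d.x16, d.x32, d.xx⟩

theorem x_ne : d.x ≠ 1 := by
  intro h
  have := d.xa
  rw [h, one_mul, inv_one, mul_one] at this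
  exact absurd (d.inj _ (by norm_num) _ (by norm_num) this) (by norm_num)

theorem inv_LL [Finite G] (hC : ∀ g, d.Mv g 4 4 → d.Mv g 32 32 → ∃ p < 64, g = d.n p)
    {y : G} (yL : y ∈ d.LL) (y1 : d.Mv y 1 4) (y4 : d.Mv y 4 5) {u : G} (hu : u ∈ d.LL)
    (u2 : u * u = 1) (u1 : u ≠ 1) : ∃ k ∈ d.LL, k * u * k⁻¹ = d.n 4 := by
  obtain ⟨l, hl, R, hR, pR, hD, hB⟩ := pb_pair 2 d.LL d.D1 (zpowers u) d.D1_le
    ((zpowers_le).2 hu) d.D1_p (pb_zp 2 (by rw [pow_two, u2]))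
  obtain ⟨p, hp, e⟩ := d.syl_D1 hC hR pR hD (hB u (mem_zpowers u))
  have h2 : mu p p = 0 := by
    apply d.inj _ (mu_lt _ _) _ (by norm_num)
    rw [← d.mul p (by omega) p (by omega), ← e, conj_mul, u2, d.n0]; simp
  have key : ∀ k ∈ d.LL, d.Mv k p 4 → ∃ k ∈ d.LL, k * u * k⁻¹ = d.n 4 := by
    intro k hk hm
    refine ⟨k * l, d.LL.mul_mem hk hl, ?_⟩
    unfold Mv at hm
    rw [← hm, ← e]; group
  rcases pb_t7 p hp h2 with rfl | rfl | rfl | rfl | rfl | rfl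
  · rw [d.n0] at e
    exact absurd (by simpa using e) u1
  · exact key y yL y1
  · exact key _ (d.LL.inv_mem d.x_LL) (Mv.symm d.xa)
  · exact ⟨l, hl, e⟩
  · exact key _ (d.LL.inv_mem yL) y4.symm
  · exact key _ d.x_LL d.xc

theorem s2_norm {l : G} (hl : l ∈ d.LL) : d.n 8 * l * d.n 8 ∈ d.LL := by
  have s2 : d.n 8 * d.n 8 = 1 := by
    rw [d.mul' (r := 0) (by norm_num) (by norm_num) (by decide +kernel), d.n0]
  have si : (d.n 8)⁻¹ = d.n 8 := inv_eq_of_mul_eq_one_right s2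
  have key : ∀ a b : G, d.n 8 * a * (d.n 8)⁻¹ = b → l * a = a * l →
      d.n 8 * l * d.n 8 * b = b * (d.n 8 * l * d.n 8) := by
    intro a b h1 h2
    have : d.n 8 * l * d.n 8 = d.n 8 * l * (d.n 8)⁻¹ := by rw [si]
    rw [this, ← h1, conj_mul, conj_mul, h2]
  obtain ⟨l1, l2, l3⟩ := hl
  refine ⟨key (d.n 48) _ (Mv.of_cj (by norm_num) (by norm_num) (by decide +kernel)) ?_,
    key (d.n 32) _ (Mv.of_cj (by norm_num) (by norm_num) (by decide +kernel)) l2,
    key d.x2⁻¹ _ ?_ (Commute.inv_right l3 : Commute _ _)⟩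
  · rw [← d.mul' (p := 16) (q := 32) (by norm_num) (by norm_num) (by decide +kernel)]
    exact (Commute.mul_right l1 l2 : Commute _ _)
  · rw [← d.x2s, si]
    calc _ = d.n 8 * d.n 8 * d.x2 * (d.n 8 * d.n 8) := by group
      _ = _ := by rw [s2]; simp

theorem no_nine [Finite G] {u v : G} (hu : u ∈ d.LL) (hv : v ∈ d.LL) (u3 : u ^ 3 = 1)
    (v3 : v ^ 3 = 1) (u1 : u ≠ 1) (uv : u * v = v * u) (hvu : v ∉ zpowers u) : False := by
  let s : Set G := {u, v, d.x2}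
  have cs : ∀ a ∈ s, ∀ b ∈ s, a * b = b * a := by
    rintro a (rfl | rfl | rfl) b (rfl | rfl | rfl)
    exacts [rfl, uv, hu.2.2, uv.symm, rfl, hv.2.2, hu.2.2.symm, hv.2.2.symm, rfl]
  have c1 : ∀ a ∈ closure s, ∀ b ∈ closure s, a * b = b * a := by
    have h1 : closure s ≤ centralizer s := (closure_le _).2 fun a ha b hb => cs b hb a ha
    have h2 : closure s ≤ centralizer (closure s : Set G) :=
      (closure_le _).2 fun a ha b hb => (h1 hb a ha).symm
    intro a ha b hb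
    exact h2 hb a ha
  have c2 : ∀ a ∈ closure s, a ^ 3 = 1 := by
    intro a ha
    induction ha using closure_induction with
    | mem a ha => rcases ha with rfl | rfl | rfl; exacts [u3, v3, d.x2_3]
    | one => simp
    | mul a b ha hb h1 h2 => rw [Commute.mul_pow (c1 a ha b hb), h1, h2, one_mul]
    | inv a ha h1 => rw [inv_pow, h1, inv_one]
  have fx : ∀ a ∈ d.LL, ∀ p ∈ [16, 32, 48], ∃ q ∈ [16, 32, 48], d.Mv a p q := by
    intro a ha p hp
    refine ⟨p, hp, ?_⟩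
    simp only [List.mem_cons, List.not_mem_nil, or_false] at hp
    rcases hp with rfl | rfl | rfl
    · exact Mv.of_com ha.1
    · exact Mv.of_com ha.2.1
    · exact (Mv.of_com ha.1).mul' (Mv.of_com ha.2.1) (by decide +kernel)
  have tr : ∀ a b : G, (∀ p ∈ [16, 32, 48], ∃ q ∈ [16, 32, 48], d.Mv a p q) →
      (∀ p ∈ [16, 32, 48], ∃ q ∈ [16, 32, 48], d.Mv b p q) →
      ∀ p ∈ [16, 32, 48], ∃ q ∈ [16, 32, 48], d.Mv (a * b) p q := by
    intro a b h1 h2 p hp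
    obtain ⟨q, hq, e1⟩ := h2 p hp
    obtain ⟨r, hr, e2⟩ := h1 q hq
    exact ⟨r, hr, e1.trans e2⟩
  have c3 : ∀ a ∈ closure s, ∀ p ∈ [16, 32, 48], ∃ q ∈ [16, 32, 48], d.Mv a p q := by
    intro a ha
    induction ha using closure_induction with
    | mem a ha =>
      rcases ha with rfl | rfl | rfl
      · exact fx _ hu
      · exact fx _ hv
      · intro p hp
        simp only [List.mem_cons, List.not_mem_nil, or_false] at hp
        rcases hp with rfl | rfl | rfl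
        · exact ⟨48, by simp, d.x2b⟩
        · exact ⟨16, by simp, d.x2a⟩
        · exact ⟨32, by simp, d.x2c⟩
    | one => exact fx _ d.LL.one_mem
    | mul a b ha hb h1 h2 => exact tr a b h1 h2
    | inv a ha h1 =>
      have : a⁻¹ = a * a := by
        rw [inv_eq_iff_mul_eq_one, ← c2 a ha]; simp [pow_succ, mul_assoc]
      rw [this]; exact tr a a h1 h1
  have q9 := d.qt (closure s) c1 c2 c3
  have k1 : Nat.card (zpowers u) = 3 := by rw [Nat.card_zpowers, orderOf_eq_prime u3 u1]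
  have k2 : 2 * Nat.card (zpowers u) ≤ Nat.card (closure ({u, v} : Set G)) :=
    pb_two_le ((zpowers_le).2 (subset_closure (by simp))) (subset_closure (by simp)) hvu
  have k3 : 2 * Nat.card (closure ({u, v} : Set G)) ≤ Nat.card (closure s) := by
    refine pb_two_le (g := d.x2) (closure_mono ?_) (subset_closure (by simp [s])) ?_
    · intro a ha
      rcases ha with rfl | rfl <;> simp [s]
    · intro h
      have hL : closure ({u, v} : Set G) ≤ d.LL := by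
        rw [closure_le]; rintro a (rfl | rfl); exacts [hu, hv]
      exact absurd ((Mv.of_com (hL h).2.1).uniq d.x2a (by norm_num) (by norm_num)) (by norm_num)
  omega

theorem case_s [Finite G] (hC : ∀ g, d.Mv g 4 4 → d.Mv g 32 32 → ∃ p < 64, g = d.n p)
    (naz : ¬ IsConj (d.n 4) (d.n 36)) (y : G) (y3 : y ^ 3 = 1) (y1 : d.Mv y 1 4)
    (y4 : d.Mv y 4 5) (y16 : d.Mv y 16 16) (y32 : d.Mv y 32 32) (y8 : d.Mv y 8 9)
    (yx : y * d.x2 = d.x2 * y) : False := by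
  have yL : y ∈ d.LL := ⟨y16.to_com, y32.to_com, yx⟩
  have yne : y ≠ 1 := by
    rintro rfl
    unfold Mv at y1
    rw [one_mul, inv_one, mul_one] at y1
    exact absurd (d.inj _ (by norm_num) _ (by norm_num) y1) (by norm_num)
  haveI : Fact (Nat.Prime 3) := ⟨Nat.prime_three⟩
  obtain ⟨l, hl, R, hR, pR, hx, hy⟩ := pb_pair 3 d.LL (zpowers d.x) (zpowers y)
    ((zpowers_le).2 d.x_LL) ((zpowers_le).2 yL) (pb_zp 3 d.x3) (pb_zp 3 y3)
  have xR : d.x ∈ R := hx (mem_zpowers _)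
  have yR : l * y * l⁻¹ ∈ R := hy y (mem_zpowers _)
  have y'3 : (l * y * l⁻¹) ^ 3 = 1 := by rw [conj_pow, y3]; simp
  have y'1 : l * y * l⁻¹ ≠ 1 := by simpa using yne
  by_cases hz : l * y * l⁻¹ ∈ zpowers d.x
  · have y12 : d.Mv y 12 12 := y4.mul' y8 (by decide +kernel)
    have s2 : d.n 8 * d.n 8 = 1 := by
      rw [d.mul' (r := 0) (by norm_num) (by norm_num) (by decide +kernel), d.n0]
    have t2 : d.n 12 * d.n 12 = 1 := by
      rw [d.mul' (r := 0) (by norm_num) (by norm_num) (by decide +kernel), d.n0]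
    have t2' : l * d.n 12 * l⁻¹ * (l * d.n 12 * l⁻¹) = 1 := by rw [conj_mul, t2]; simp
    have xt : d.x * (l * d.n 12 * l⁻¹) = l * d.n 12 * l⁻¹ * d.x :=
      pb_com_zp (pb_zp3 d.x3 y'1 hz) (by rw [conj_mul, conj_mul, y12.to_com])
    have ca : IsConj (d.n 8) (d.n 4) :=
      ((Mv.of_cj (d := d) (p := 64) (q := 8) (r := 1) (by norm_num) (by norm_num)
        (by decide +kernel)).trans y1).isConj
    have cz : IsConj (d.n 12) (d.n 36) :=
      ((Mv.of_cj (d := d) (p := 64) (q := 12) (r := 33) (by norm_num) (by norm_num)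
        (by decide +kernel)).trans (y1.mul' y32 (by decide +kernel))).isConj
    have ev : ¬ Odd (orderOf (d.n 8 * (l * d.n 12 * l⁻¹))) := by
      intro h
      obtain ⟨k, hk⟩ := Cfsg.Agent.Lib.InvolCount.exists_conj_of_odd s2 t2' h
      apply naz
      have e1 : IsConj (d.n 8) (l * d.n 12 * l⁻¹) := isConj_iff.2 ⟨_, hk⟩
      have e2 : IsConj (d.n 12) (l * d.n 12 * l⁻¹) := isConj_iff.2 ⟨_, rfl⟩
      exact (ca.symm.trans e1).trans (e2.symm.trans cz)
    obtain ⟨u, hu, u2, u1⟩ := Cfsg.Agent.Lib.InvolCount.exists_invol ev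
    have pL : d.n 8 * (l * d.n 12 * l⁻¹) ∈ d.LL := by
      have e : d.n 8 * d.n 4 = d.n 12 := d.mul' (by norm_num) (by norm_num) (by decide +kernel)
      have : d.n 8 * (l * d.n 12 * l⁻¹) = d.n 8 * l * d.n 8 * d.n 4 * l⁻¹ := by
        rw [← e]; group
      rw [this]
      exact d.LL.mul_mem (d.LL.mul_mem (d.s2_norm hl) (d.D1_le ⟨4, by norm_num, rfl⟩))
        (d.LL.inv_mem hl)
    have uL : u ∈ d.LL := (zpowers_le).2 pL hu
    have ux : u * d.x = d.x * u :=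
      pb_com_zp hu (Commute.mul_left (show Commute (d.n 8) d.x from d.x8.symm) xt.symm)
    obtain ⟨k, hk, e⟩ := d.inv_LL hC yL y1 y4 uL u2 u1
    have m : k * d.x * k⁻¹ ∈ d.D1 := d.cent_a hC
      (d.LL.mul_mem (d.LL.mul_mem hk d.x_LL) (d.LL.inv_mem hk))
      (by rw [← e, conj_mul, conj_mul, ux])
    have h4 := d.D1_four m
    rw [conj_pow, pow_succ, d.x3, one_mul] at h4
    exact d.x_ne (by simpa using h4)
  · obtain ⟨c, hc, c1, c3, cc⟩ := pb_center 3 R pR xR d.x_ne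
    by_cases hcx : c ∈ zpowers d.x
    · exact d.no_nine d.x_LL (hR yR) d.x3 y'3 d.x_ne
        (pb_com_zp (pb_zp3 d.x3 c1 hcx) (cc _ yR)) hz
    · exact d.no_nine d.x_LL (hR hc) d.x3 c3 d.x_ne (cc _ xR).symm hcx

end D

end Cfsg.Agent.SW
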