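import Cfsg.Agent.Lib.SW1

/-! The group `S4 wr 2` as a maximal 2-local subgroup: the case of two classes. -/

set_option autoImplicit false
set_option maxRecDepth 100000

namespace Cfsg.Agent.SW.D

open Subgroup

variable {G : Type*} [Group G] {d : D G} {g h y : G}

theorem Mv.oneC (p : ℕ) : d.Mv 1 p p := by simp [Mv]

theorem Mv.cmC {p q p' q' : ℕ} (h1 : d.Mv g p q) (h2 : d.Mv g p' q') (hp : p < 128)
    (hp' : p' < 128) (hq : q < 128) (hq' : q' < 128) : d.Mv g (cm p p') (cm q q') := by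
  unfold Mv at *; rw [← d.ncm hp hp', ← d.ncm hq hq', ← h1, ← h2]; group

theorem Mv.sqC {p q : ℕ} (h1 : d.Mv g p q) (hp : p < 128) (hq : q < 128) (h : mu p p = 0 ∧ p ≠ 0) :
    mu q q = 0 ∧ q ≠ 0 :=
  ⟨(h1.mul h1 hp hp hq hq).uniq (by rw [h.1]; exact Mv.zero g) (mu_lt _ _) (by decide),
    fun e => h.2 ((e ▸ h1).inj (Mv.zero g) hp (by decide))⟩

theorem codeC {p : ℕ} (h : g * d.n p * g⁻¹ ∈ (d.S : Subgroup G)) : ∃ q < 128, d.Mv g p q := (d.memS _).1 h

theorem st1C (d : D G) : ∀ p ∈ [1, 5, 4, 2, 6], ∃ g, (d.Mv g p 1 ∨ d.Mv g p 4) ∧ ∀ q ∈ [8, 40, 32, 16, 48], d.Mv g q q := by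
  have k : ∀ q ∈ [8, 40, 32, 16, 48], d.Mv d.x q q := by
    have a := Mv.of_com d.x8
    have b := Mv.of_com d.x16
    have c := Mv.of_com d.x32
    simp only [List.forall_mem_cons]
    exact ⟨a, a.mul' c (by decide +kernel), c, b, b.mul' c (by decide +kernel), by simp⟩
  simp only [List.forall_mem_cons (a := 1), List.forall_mem_cons (a := 5), List.forall_mem_cons (a := 4),
    List.forall_mem_cons (a := 2), List.forall_mem_cons (a := 6)]
  exact ⟨⟨1, .inl (Mv.oneC _), fun _ _ => Mv.oneC _⟩,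
    ⟨d.n 2, .inl (Mv.of_cj (by decide) (by decide) (by decide +kernel)), fun q hq =>
      Mv.of_cj (by decide) (by revert q; decide) (by revert q; decide +kernel)⟩,
    ⟨1, .inr (Mv.oneC _), fun _ _ => Mv.oneC _⟩, ⟨_, .inr (Mv.symm d.xa), fun q hq => (k q hq).symm⟩,
    ⟨_, .inr d.xc, k⟩, by simp⟩

theorem st2C (d : D G) : ∀ p ∈ [8, 40, 32, 16, 48], ∃ g, (d.Mv g p 8 ∨ d.Mv g p 32) ∧ d.Mv g 1 1 ∧ d.Mv g 4 4 := by
  simp only [List.forall_mem_cons]
  exact ⟨⟨1, .inl (Mv.oneC _), Mv.oneC _, Mv.oneC _⟩,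
    ⟨d.n 16, .inl (Mv.of_cj (by decide) (by decide) (by decide +kernel)),
      Mv.of_cj (by decide) (by decide) (by decide +kernel), Mv.of_cj (by decide) (by decide) (by decide +kernel)⟩,
    ⟨1, .inr (Mv.oneC _), Mv.oneC _, Mv.oneC _⟩, ⟨_, .inr d.x2a.symm, d.x21.symm, d.x24.symm⟩,
    ⟨_, .inr d.x2c, d.x21, d.x24⟩, by simp⟩

section
variable (y1 : d.Mv y 1 4) (y8 : d.Mv y 8 8) (y32 : d.Mv y 32 32)
include y1

theorem caC {p : ℕ} (hp : p ∈ [1, 5, 4, 2, 6] ∨ p ∈ [8, 40, 32, 16, 48]) : ∃ g, d.Mv g p 4 := by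
  rcases hp with hp | hp
  · obtain ⟨g, e | e, -⟩ := d.st1C p hp
    exacts [⟨_, e.trans y1⟩, ⟨_, e⟩]
  · obtain ⟨g, e | e, -⟩ := d.st2C p hp
    exacts [⟨_, (e.trans (Mv.of_cj (p := 64) (by decide) (by decide) (by decide +kernel))).trans y1⟩,
      ⟨_, e.trans (Mv.of_cj (p := 64) (by decide) (by decide) (by decide +kernel))⟩]

include y8 y32

theorem czC {p q : ℕ} (hp : p ∈ [1, 5, 4, 2, 6]) (hq : q ∈ [8, 40, 32, 16, 48]) : ∃ g, d.Mv g (mu p q) 36 := by
  have a33 : d.Mv y 33 36 := y1.mul' y32 (by decide +kernel)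
  have a12 := (Mv.of_cj (d := d) (p := 64) (q := 12) (by decide) (by decide) (by decide +kernel)).trans a33
  have a9 := (show d.Mv y 9 12 from y1.mul' y8 (by decide +kernel)).trans a12
  have lp : p < 128 := by revert p; decide
  have lq : q < 128 := by revert q; decide
  obtain ⟨g, e, e1⟩ := d.st1C p hp
  obtain ⟨k, e2, e3, e4⟩ := d.st2C q hq
  rcases e with e | e <;> replace e := e.mul (e1 q hq) lp lq (by decide) lq <;> rcases e2 with e2 | e2
  · exact ⟨_, (e.trans (e3.mul' e2 ⟨by decide, lq, by decide, by decide, rfl, by decide +kernel⟩)).trans a9⟩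
  · exact ⟨_, (e.trans (e3.mul' e2 ⟨by decide, lq, by decide, by decide, rfl, by decide +kernel⟩)).trans a33⟩
  · exact ⟨_, (e.trans (e4.mul' e2 ⟨by decide, lq, by decide, by decide, rfl, by decide +kernel⟩)).trans a12⟩
  · exact ⟨_, e.trans (e4.mul' e2 ⟨by decide, lq, by decide, by decide, rfl, by decide +kernel⟩)⟩

theorem clsC {p : ℕ} (hp : p < 64) (h : mu p p = 0 ∧ p ≠ 0) :
    (p ∈ [1, 5, 4, 2, 6] ∨ p ∈ [8, 40, 32, 16, 48]) ∨ ∃ g, d.Mv g p 36 :=
  ((by decide +kernel : ∀ p < 64, mu p p = 0 ∧ p ≠ 0 → (p ∈ [1, 5, 4, 2, 6] ∨ p ∈ [8, 40, 32, 16, 48]) ∨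
    ∃ a ∈ [1, 5, 4, 2, 6], ∃ b ∈ [8, 40, 32, 16, 48], mu a b = p) p hp h).imp_right
      fun ⟨_, ha, _, hb, e⟩ => e ▸ czC y1 y8 y32 ha hb

theorem u1C (naz : ¬ IsConj (d.n 4) (d.n 36)) {p : ℕ} (hp : p < 64) (h1 : d.Mv g 4 p) (h2 : d.Mv g 36 36) :
    p = 4 ∨ p = 32 := by
  have h3 := (Mv.of_cj (d := d) (p := 64) (q := 4) (by decide) (by decide) (by decide +kernel)).trans
    (h1.mul' (r := 32) h2 ⟨by decide, by decide, by omega, by decide, by decide +kernel, rfl⟩)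
  have l := (by decide +kernel : ∀ p < 64, mu p 36 < 64) p hp
  exact (by decide +kernel : ∀ p < 64, (p ∈ [1, 5, 4, 2, 6] ∨ p ∈ [8, 40, 32, 16, 48]) →
      (mu p 36 ∈ [1, 5, 4, 2, 6] ∨ mu p 36 ∈ [8, 40, 32, 16, 48]) → p = 4 ∨ p = 32) p hp
    ((clsC y1 y8 y32 hp (h1.sqC (by decide) (by omega) (by decide +kernel))).resolve_right
      fun ⟨_, e⟩ => naz (h1.trans e).isConj)
    ((clsC y1 y8 y32 l (h3.sqC (by decide) (mu_lt _ _) (by decide +kernel))).resolve_right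
      fun ⟨_, e⟩ => naz (h3.trans e).isConj)

end

theorem zcC (d : D G) {p : ℕ} (hp : p < 128) : d.n p * d.n 36 = d.n 36 * d.n p :=
  (d.com_iff hp (by decide)).2 ((by decide +kernel : ∀ p < 128, mu p 36 = mu 36 p) p hp)

theorem case_1 [Finite G] (d : D G) (hC : ∀ g, d.Mv g 4 4 → d.Mv g 32 32 → ∃ p < 64, g = d.n p)
    (naz : ¬ IsConj (d.n 4) (d.n 36))
    (four : ∀ g m, m ∈ [9, 18, 10, 17] → (∀ p, FF m p → g * d.n p * g⁻¹ ∈ (d.S : Subgroup G)) →
      ∀ p, FF m p → ∃ q < 64, d.Mv g p q)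
    (emb : ∀ X R : Subgroup G, (∀ p < 64, d.n p ∈ X) → R ≤ X → IsPGroup 2 R →
      ∃ x ∈ X, ∀ a ∈ R, x * a * x⁻¹ ∈ (d.S : Subgroup G))
    (y : G) (y1 : d.Mv y 1 4) (y8 : d.Mv y 8 8) (y32 : d.Mv y 32 32) : False := by
  have QS : ∀ h, h * d.n 36 = d.n 36 * h → ∀ p, d.n p ∈ d.Q → ∃ q < 128, d.Mv h p q ∧ d.n q ∈ d.Q := by
    obtain ⟨x, hx, e⟩ := emb (centralizer {d.n 36}) d.Q
      (fun p hp => mem_centralizer_singleton_iff.2 (d.zcC (by omega)))
      (fun q hq => mem_centralizer_singleton_iff.2 (d.Qz q hq)) d.Qp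
    intro h hh p hp
    have h1 := d.Qn h hh _ hp
    have := e _ (d.Qn _ (mem_centralizer_singleton_iff.1 (inv_mem hx)) _ h1)
    rw [show ∀ a : G, x * (x⁻¹ * a * x⁻¹⁻¹) * x⁻¹ = a from fun a => by group] at this
    obtain ⟨q, hq, e⟩ := codeC this
    exact ⟨q, hq, e, e ▸ h1⟩
  have Qcm : ∀ r < 128, ∀ p < 128, d.n r ∈ d.Q → d.n (cm r p) ∈ d.Q := fun r hr p hp h => by
    rw [← d.ncm hr hp]
    simpa only [mul_assoc] using mul_mem h (d.Qn _ (d.zcC hp) _ (inv_mem h))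
  have Q4 : d.n 4 ∈ d.Q := by
    refine by_contra fun c => c (d.Qc _ (d.zcC (by decide)) fun q hq => ?_)
    obtain ⟨x, hx, e⟩ := emb (centralizer {d.n 36}) d.Q
      (fun p hp => mem_centralizer_singleton_iff.2 (d.zcC (by omega)))
      (fun q hq => mem_centralizer_singleton_iff.2 (d.Qz q hq)) d.Qp
    have := e _ (d.Qn _ (mem_centralizer_singleton_iff.1 (inv_mem hx)) _ hq)
    rw [show ∀ a : G, x * (x⁻¹ * a * x⁻¹⁻¹) * x⁻¹ = a from fun a => by group] at this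
    obtain ⟨r, hr, rfl⟩ := (d.memS _).1 this
    rcases (by decide +kernel : ∀ r < 128, mu 4 r = mu r 4 ∨ cm (cm r 1) 2 = 4) r hr with k | k
    · exact (d.com_iff (by decide) hr).2 k
    · exact absurd (k ▸ Qcm _ (cm_lt _ _) 2 (by decide) (Qcm r hr 1 (by decide) hq)) c
  have l4 : ∀ q < 128, mu q 4 = mu 4 q → q < 64 := by decide +kernel
  have CT : ∀ h, d.Mv h 36 36 → h ∈ (d.S : Subgroup G) := fun h hh => by
    have k : ∀ h, d.Mv h 36 36 → d.Mv h 4 4 → h ∈ (d.S : Subgroup G) := fun h hh e => by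
      obtain ⟨p, hp, rfl⟩ := hC h e (e.mul' hh (by decide +kernel))
      exact d.nS (by omega)
    obtain ⟨p, hp, e, pQ⟩ := QS h hh.to_com 4 Q4
    by_cases l : p < 64
    · rcases u1C y1 y8 y32 naz l e hh with rfl | rfl
      · exact k h hh e
      · exact (mul_mem_cancel_left (d.nS (by decide))).1 (k _ (hh.trans (Mv.of_cj (p := 64) (by decide) (by decide)
          (by decide +kernel))) (e.trans (Mv.of_cj (by decide) (by decide) (by decide +kernel))))
    obtain ⟨c, hc, c1, c2, c3⟩ := (by decide +kernel : ∀ p < 128, ¬ p < 64 → mu p p = 0 → ∃ c < 128,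
      mu (cj c p) p = mu p (cj c p) ∧ cj c p ≠ p ∧ cj c p ≠ mu p 36) p hp l
        (e.sqC (by decide) hp (by decide +kernel)).1
    have m1 : d.Mv (d.n c) p (cj c p) := Mv.of_cj hc hp rfl
    obtain ⟨q, hq, m2, -⟩ := QS _ hh.symm.to_com (cj c p) (m1 ▸ d.Qn _ (d.zcC hc) _ pQ)
    rcases u1C y1 y8 y32 naz (l4 q hq ((m2.com e.symm (cj_lt _ _) hp hq (by decide)).1 c1)) ((e.trans m1).trans m2)
      ((hh.trans (Mv.of_com (d.zcC hc))).trans hh.symm) with rfl | rfl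
    · exact absurd (m2.inj e.symm (cj_lt _ _) hp) c2
    · exact absurd (m2.inj (e.mul' hh ⟨by decide, by decide, hp, by decide, by decide +kernel, rfl⟩).symm
        (cj_lt _ _) (mu_lt _ _)) c3
  obtain ⟨g, hg⟩ := d.thom ((d.S : Subgroup G) ⊓ centralizer {d.n 4}) (relIndex_eq_two_iff.2
    ⟨d.n 64, d.nS (by decide), fun b hb => by
      obtain ⟨p, hp, rfl⟩ := (d.memS _).1 hb
      rw [d.mul p hp _ (by decide), mem_inf, mem_inf, mem_centralizer_singleton_iff, mem_centralizer_singleton_iff,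
        d.com_iff hp (by decide), d.com_iff (mu_lt _ _) (by decide), and_iff_right hb, and_iff_right (d.nS (mu_lt _ _))]
      clear hb
      revert p
      decide +kernel⟩) (d.n 64) (by rw [sq, d.mul' (r := 0) (by decide) (by decide) (by decide +kernel), d.n0])
  obtain ⟨p, hp, e⟩ := codeC hg.1
  have l := l4 p hp ((d.com_iff hp (by decide)).1 (e ▸ mem_centralizer_singleton_iff.1 hg.2))
  have t9 : d.n 9 * d.n 64 = d.n 64 * d.n 9 := (d.com_iff (by decide) (by decide)).2 (by decide +kernel)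
  have t18 : d.n 18 * d.n 64 = d.n 64 * d.n 18 := (d.com_iff (by decide) (by decide)).2 (by decide +kernel)
  have z0 : cm 9 18 = 36 := by decide +kernel
  have tr : ∀ {g a : G} {p q : ℕ}, d.Mv g p q → a * d.n p = d.n p * a →
      g * a * g⁻¹ * d.n q = d.n q * (g * a * g⁻¹) := fun e h => by rw [← e, conj_mul, conj_mul, h]
  rcases clsC y1 y8 y32 l (e.sqC (by decide) hp (by decide +kernel)) with k | ⟨k, e1⟩
  · obtain ⟨k, e1⟩ := caC y1 k
    replace e := e.trans e1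
    generalize k * g = g at e
    obtain ⟨x, hx, e2⟩ := emb (centralizer {d.n 4})
      (((d.S : Subgroup G) ⊓ centralizer {d.n 64}).map (MulAut.conj g).toMonoidHom)
      (fun p hp => mem_centralizer_singleton_iff.2 ((d.com_iff (by omega) (by decide)).2
        ((by decide +kernel : ∀ p < 64, mu p 4 = mu 4 p) p hp)))
      (by rintro _ ⟨a, ha, rfl⟩; exact mem_centralizer_singleton_iff.2 (tr e (mem_centralizer_singleton_iff.1 ha.2)))
      (d.S.isPGroup'.to_inf_left.map _)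
    replace e := e.trans (Mv.of_com (mem_centralizer_singleton_iff.1 hx))
    have k : ∀ p < 128, d.n p * d.n 64 = d.n 64 * d.n p → ∃ q < 64, d.Mv (x * g) p q := fun p hp h => by
      obtain ⟨q, hq, e3⟩ := codeC (g := x * g) (p := p) (by
        have := e2 _ ⟨_, ⟨d.nS hp, mem_centralizer_singleton_iff.2 h⟩, rfl⟩
        simpa [mul_assoc] using this)
      exact ⟨q, l4 q hq ((e3.com e hp (by decide) hq (by decide)).1 ((d.com_iff hp (by decide)).1 h)), e3⟩
    obtain ⟨c, hc, m1⟩ := k 9 (by decide) t9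
    obtain ⟨c', hc', m2⟩ := k 18 (by decide) t18
    have m3 := m1.cmC m2 (by decide) (by decide) (by omega) (by omega)
    rw [z0] at m3
    rcases (by decide +kernel : ∀ c < 64, ∀ c' < 64, cm c c' = 0 ∨ cm c c' = 4 ∨ cm c c' = 32 ∨ cm c c' = 36)
      c hc c' hc' with k | k | k | k <;> rw [k] at m3
    · exact absurd (m3.inj (Mv.zero _) (by decide) (by decide)) (by decide)
    · exact naz m3.symm.isConj
    · exact naz (m3.trans (Mv.of_cj (p := 64) (by decide) (by decide) (by decide +kernel))).symm.isConj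
    · obtain ⟨r, hr, e3⟩ := (d.memS _).1 (CT _ m3)
      rw [e3] at e
      exact (by decide +kernel : ∀ r < 128, cj r 64 ≠ 4) r hr
        ((Mv.of_cj hr (by decide) rfl).uniq e (cj_lt _ _) (by decide))
  replace e := e.trans e1
  generalize k * g = g at e
  obtain ⟨c, hc, m1⟩ := codeC (CT _ (Mv.of_com (tr e t9)))
  obtain ⟨c', hc', m2⟩ := codeC (CT _ (Mv.of_com (tr e t18)))
  have m3 := m1.cmC m2 (by decide) (by decide) hc hc'
  rw [z0] at m3
  obtain ⟨m, hm, h1⟩ := (by decide +kernel : ∀ c < 128, ∀ c' < 128, mu (cm c c') (cm c c') = 0 →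
    ∃ m ∈ [9, 18], FF m (cm c c')) c hc c' hc' (m3.sqC (by decide) (cm_lt _ _) (by decide +kernel)).1
  obtain ⟨q, hq, m4⟩ := four g⁻¹ m (by clear h1; revert m; decide) (fun p hp => CT _ (Mv.of_com (tr m3.symm
    ((d.com_iff (by have := hp.1; omega) (cm_lt _ _)).2 ((by decide +kernel : ∀ m ∈ [9, 18], ∀ p < 64, ∀ q < 64,
      FF m p → FF m q → mu p q = mu q p) m hm p hp.1 _ h1.1 hp h1))))) 36 (by clear h1; revert m; decide)
  have := m4.uniq e.symm (by omega) (by decide)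
  omega

end Cfsg.Agent.SW.D
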