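import Cfsg.Agent.Lib.SW2

/-! Piece PF of S1829: `C(W) = T0`. -/

set_option autoImplicit false

namespace Cfsg.Agent.SW

section gen

variable {G : Type*} [Group G]

theorem pf_pow {u a e : G} (h : u * a * u⁻¹ = a * e) (hc : u * e = e * u) (k : ℕ) :
    u ^ k * a * (u ^ k)⁻¹ = a * e ^ k := by
  induction k with
  | zero => simp
  | succ k ih =>
    have c : u * e ^ k * u⁻¹ = e ^ k := by
      rw [(Commute.pow_right (show Commute u e from hc) k).eq]; simp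
    calc _ = u * (u ^ k * a * (u ^ k)⁻¹) * u⁻¹ := by rw [pow_succ']; simp [mul_assoc]
      _ = u * a * u⁻¹ * (u * e ^ k * u⁻¹) := by rw [ih, conj_mul]
      _ = _ := by rw [h, c, pow_succ', mul_assoc]

theorem pf_one {e : G} {m j : ℕ} (hm : Odd m) (h1 : e ^ m = 1) (h2 : e ^ 2 ^ j = 1) : e = 1 := by
  have a := orderOf_dvd_of_pow_eq_one h1
  have b := orderOf_dvd_of_pow_eq_one h2
  have c : Nat.Coprime m (2 ^ j) := (Nat.Coprime.pow_right j (Nat.coprime_two_right.2 hm))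
  exact orderOf_eq_one_iff.1 (Nat.eq_one_of_dvd_coprimes c a b)

theorem pf_cent {u a e : G} {m j : ℕ} (hm : Odd m) (hu : u ^ m = 1) (h : u * a * u⁻¹ = a * e)
    (hc : u * e = e * u) (h2 : e ^ 2 ^ j = 1) : u * a = a * u := by
  have := pf_pow h hc m
  rw [hu, one_mul, inv_one, mul_one] at this
  have e1 : e = 1 := pf_one hm (by simpa using this.symm) h2
  rw [e1, mul_one] at h
  calc _ = u * a * u⁻¹ * u := by group
    _ = _ := by rw [h]

end gen

def nf (a : ℕ) : ℕ := if a = 0 then 0 else if a % 2 = 1 then 1 else 4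

def clf (β : Bool) (p : ℕ) : Bool :=
  mu p p == 0 && p != 0 && (p % 8 == 0 || p / 8 == 0 || (β && p &&& 27 == 9))

def colF (s : ℕ) (a b c e : Bool) : ℕ :=
  s + (bif a || b || c || e then 64 else 0) + (bif a && b && c && e then 128 else 0) +
    (bif a == b && c == e then 256 else 0) + (bif a == c && b == e then 512 else 0)

def col (β : Bool) (p : ℕ) : ℕ :=
  colF (mu p p) (clf β p) (clf β (mu p 4)) (clf β (mu p 32)) (clf β (mu p 36))

def CL : List ℕ := [0, 1, 2, 3, 8, 9, 10, 11, 16, 17, 18, 19, 24, 25, 26, 27]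

theorem pf_t1 : ∀ β : Bool, ∀ p < 64, col β p = col β (p &&& 27) := by decide +kernel
theorem pf_t2 : ∀ p < 64, p &&& 27 ∈ CL := by decide +kernel
theorem pf_t3 : ∀ p < 64, ∀ q < 64, mu p q &&& 27 = (p &&& 27) ^^^ (q &&& 27) := by decide +kernel
theorem pf_t4 : ∀ β : Bool, ∀ x ∈ CL, ∀ y ∈ CL, x ≠ y → col β x = col β y → ∀ w ∈ CL, y ≠ w → x ≠ w →
    col β y = col β w → col β (x ^^^ y) = col β (y ^^^ w) → ∀ v ∈ CL, v ≠ y → v ≠ w →
    col β w = col β v → col β (y ^^^ w) ≠ col β (w ^^^ v) := by decide +kernel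
theorem pf_t5 : ∀ p < 64, ∀ q < 64, p &&& 27 = q &&& 27 →
    q = p ∨ q = mu p 4 ∨ q = mu p 32 ∨ q = mu p 36 := by decide +kernel
theorem pf_t6 : ∀ p < 64, mu p 4 &&& 27 = p &&& 27 ∧ mu p 32 &&& 27 = p &&& 27 ∧
    mu p 36 &&& 27 = p &&& 27 := by decide +kernel
theorem pf_t7 : ∀ p < 64, mu p p = 0 ∨ mu p p = 4 ∨ mu p p = 32 ∨ mu p p = 36 := by decide +kernel
theorem pf_t8 : ∀ a < 8, ∀ b < 8, mu a (8 * b) = a + 8 * b := by decide +kernel
theorem pf_t9 : ∀ p < 64, mu p p = 0 → mu (p % 8) (p % 8) = 0 ∧ mu (p / 8) (p / 8) = 0 := by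
  decide +kernel
set_option synthInstance.maxSize 2000 in
theorem pf_t10 : ∀ β : Bool, ∀ p < 64, mu p p = 0 → p ≠ 0 →
    (nf (p % 8) + 8 * nf (p / 8) ∈ [4, 1, 32, 8] ∧ clf β p = true) ∨
    (nf (p % 8) + 8 * nf (p / 8) ∈ [36, 33, 12] ∧ clf β p = false) ∨
    (nf (p % 8) + 8 * nf (p / 8) = 9 ∧ clf β p = β) := by decide +kernel
theorem pf_t11 : ∀ β : Bool, ∀ p < 64, mu p p ≠ 0 ∨ p = 0 → clf β p = false := by decide +kernel
theorem pf_t12 : ∀ a < 8, cj 64 a = 8 * a ∧ cj 64 (8 * a) = a ∧ cj 2 (8 * a) = 8 * a ∧ nf a < 8 := by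
  decide +kernel
theorem pf_t13 : ∀ a < 8, mu a a = 0 → a = 0 ∨ a = 1 ∨ a = 2 ∨ a = 4 ∨ a = 5 ∨ a = 6 := by
  decide +kernel
theorem pf_t14 : ∀ r < 128, cj r 36 = 36 ∧ (cj r 4 = 4 → r < 64) ∧ (r < 64 → cj r 4 = 4 ∧ cj r 32 = 32) ∧
    (64 ≤ r → cj r 4 = 32 ∧ cm (cm r 1) 2 = 4) := by decide +kernel

namespace D

variable {G : Type*} [Group G] (d : D G)

theorem mv_one (p : ℕ) : d.Mv 1 p p := by unfold Mv; group

theorem x_fix {e : ℕ} (he : e < 8) : d.Mv d.x (8 * e) (8 * e) := by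
  have h1 : d.Mv d.x 8 8 := Mv.of_com d.x8
  have h2 : d.Mv d.x 16 16 := Mv.of_com d.x16
  have h4 : d.Mv d.x 32 32 := Mv.of_com d.x32
  have h3 : d.Mv d.x 24 24 := h1.mul' h2 (by decide +kernel)
  interval_cases e
  · exact Mv.zero _
  · exact h1
  · exact h2
  · exact h3
  · exact h4
  · exact h1.mul' h4 (by decide +kernel)
  · exact h2.mul' h4 (by decide +kernel)
  · exact h3.mul' h4 (by decide +kernel)

theorem red1 {a : ℕ} (ha : a < 8) (h : mu a a = 0) :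
    ∃ k, (∀ e < 8, d.Mv k (8 * e) (8 * e)) ∧ d.Mv k a (nf a) := by
  rcases pf_t13 a ha h with rfl | rfl | rfl | rfl | rfl | rfl
  · exact ⟨1, fun _ _ => d.mv_one _, d.mv_one _⟩
  · exact ⟨1, fun _ _ => d.mv_one _, d.mv_one _⟩
  · exact ⟨d.x⁻¹, fun e he => (d.x_fix he).symm, Mv.symm d.xa⟩
  · exact ⟨1, fun _ _ => d.mv_one _, d.mv_one _⟩
  · exact ⟨d.n 2, fun e he => Mv.of_cj (by norm_num) (by omega) (pf_t12 e he).2.2.1,
      Mv.of_cj (by norm_num) (by norm_num) (by decide +kernel)⟩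
  · exact ⟨d.x, fun e he => d.x_fix he, d.xc⟩

theorem red2 {a : ℕ} (ha : a < 8) (h : mu a a = 0) :
    ∃ k, (∀ e < 8, d.Mv k e e) ∧ d.Mv k (8 * a) (8 * nf a) := by
  obtain ⟨k, h1, h2⟩ := d.red1 ha h
  have t1 : ∀ e < 8, d.Mv (d.n 64) e (8 * e) := fun e he =>
    Mv.of_cj (by norm_num) (by omega) (pf_t12 e he).1
  have t2 : ∀ e < 8, d.Mv (d.n 64) (8 * e) e := fun e he =>
    Mv.of_cj (by norm_num) (by omega) (pf_t12 e he).2.1
  exact ⟨d.n 64 * (k * d.n 64), fun e he => ((t1 e he).trans (h1 e he)).trans (t2 e he),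
    ((t2 a ha).trans h2).trans (t1 _ (pf_t12 a ha).2.2.2)⟩

theorem red {p : ℕ} (hp : p < 64) (h : mu p p = 0) :
    IsConj (d.n p) (d.n (nf (p % 8) + 8 * nf (p / 8))) := by
  have a8 : p % 8 < 8 := by omega
  have b8 : p / 8 < 8 := by omega
  obtain ⟨k, h1, h2⟩ := d.red1 a8 (pf_t9 p hp h).1
  obtain ⟨l, h3, h4⟩ := d.red2 b8 (pf_t9 p hp h).2
  have n1 := (pf_t12 _ a8).2.2.2
  have n2 := (pf_t12 _ b8).2.2.2
  have e1 := h2.mul (h1 _ b8) (by omega) (by omega) (by omega) (by omega)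
  have e2 := (h3 _ n1).mul h4 (by omega) (by omega) (by omega) (by omega)
  have e := e1.trans e2
  rw [pf_t8 _ a8 _ b8, pf_t8 _ n1 _ n2, Nat.mod_add_div] at e
  exact e.isConj

open Classical in
theorem cls [Finite G] {g : G} (g1 : d.Mv g 1 4) (g32 : d.Mv g 32 32) {p : ℕ} (hp : p < 64) :
    IsConj (d.n 4) (d.n p) ↔ clf (decide (IsConj (d.n 4) (d.n 9))) p = true := by
  by_cases h : mu p p ≠ 0 ∨ p = 0
  · rw [pf_t11 _ p hp h]
    simp only [Bool.false_eq_true, iff_false]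
    intro hc
    obtain ⟨k, hk⟩ := isConj_iff.1 hc
    have hk : d.Mv k 4 p := hk
    rcases h with h | rfl
    · exact h ((hk.sq (by norm_num) (by omega)).1 (by decide +kernel))
    · exact absurd (hk.inj (Mv.zero k) (by norm_num) (by norm_num)) (by norm_num)
  push Not at h
  have r := d.red hp h.1
  have t8 : d.Mv (d.n 64) 8 1 := Mv.of_cj (by norm_num) (by norm_num) (by decide +kernel)
  have t32 : d.Mv (d.n 64) 32 4 := Mv.of_cj (by norm_num) (by norm_num) (by decide +kernel)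
  have t12 : d.Mv (d.n 64) 12 33 := Mv.of_cj (by norm_num) (by norm_num) (by decide +kernel)
  have g33 : d.Mv g 33 36 := g1.mul' g32 (by decide +kernel)
  rcases pf_t10 (decide (IsConj (d.n 4) (d.n 9))) p hp h.1 h.2 with ⟨a, b⟩ | ⟨a, b⟩ | ⟨a, b⟩
  · rw [b]
    simp only [iff_true]
    simp only [List.mem_cons, List.not_mem_nil, or_false] at a
    rcases a with a | a | a | a <;> rw [a] at r
    · exact r.symm
    · exact (r.trans g1.isConj).symm
    · exact (r.trans t32.isConj).symm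
    · exact (r.trans (t8.trans g1).isConj).symm
  · rw [b]
    simp only [Bool.false_eq_true, iff_false]
    intro hc
    apply d.naz
    simp only [List.mem_cons, List.not_mem_nil, or_false] at a
    rcases a with a | a | a <;> rw [a] at r
    · exact hc.trans r
    · exact hc.trans (r.trans g33.isConj)
    · exact hc.trans (r.trans (t12.trans g33).isConj)
  · rw [b, decide_eq_true_iff]
    rw [a] at r
    exact ⟨fun hc => hc.trans r, fun hc => hc.trans r.symm⟩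

open Classical in
theorem col_mv [Finite G] {g : G} (g1 : d.Mv g 1 4) (g32 : d.Mv g 32 32) {u : G} (u4 : d.Mv u 4 4)
    (u32 : d.Mv u 32 32) {p q : ℕ} (hp : p < 64) (hq : q < 64) (h : d.Mv u p q) :
    col (decide (IsConj (d.n 4) (d.n 9))) (p &&& 27) =
      col (decide (IsConj (d.n 4) (d.n 9))) (q &&& 27) := by
  have u36 : d.Mv u 36 36 := u4.mul' u32 (by decide +kernel)
  have k : ∀ p < 64, ∀ q < 64, d.Mv u p q →
      clf (decide (IsConj (d.n 4) (d.n 9))) p = clf (decide (IsConj (d.n 4) (d.n 9))) q := by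
    intro p hp q hq h
    rw [Bool.eq_iff_iff, ← d.cls g1 g32 hp, ← d.cls g1 g32 hq]
    exact ⟨fun a => a.trans h.isConj, fun a => a.trans h.isConj.symm⟩
  have kw : ∀ w < 64, d.Mv u w w → clf (decide (IsConj (d.n 4) (d.n 9))) (mu p w) =
      clf (decide (IsConj (d.n 4) (d.n 9))) (mu q w) := fun w hw hu =>
    k _ (mu64 _ hp _ hw) _ (mu64 _ hq _ hw) (h.mul hu (by omega) (by omega) (by omega) (by omega))
  have sq : mu p p = mu q q := by
    have a := h.mul h (by omega) (by omega) (by omega) (by omega)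
    have b : d.Mv u (mu p p) (mu p p) := by
      rcases pf_t7 p hp with e | e | e | e <;> rw [e]
      exacts [Mv.zero _, u4, u32, u36]
    exact b.uniq a (mu_lt _ _) (mu_lt _ _)
  rw [← pf_t1 _ p hp, ← pf_t1 _ q hq]
  unfold col
  rw [sq, k p hp q hq h, kw 4 (by norm_num) u4, kw 32 (by norm_num) u32, kw 36 (by norm_num) u36]

theorem cos_mv {u : G} (u4 : d.Mv u 4 4) (u32 : d.Mv u 32 32) {p q p' : ℕ} (hp : p < 64) (hq : q < 64)
    (hp' : p' < 64) (h : d.Mv u p q) (e : p &&& 27 = p' &&& 27) :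
    ∃ q' < 64, d.Mv u p' q' ∧ q' &&& 27 = q &&& 27 := by
  have u36 : d.Mv u 36 36 := u4.mul' u32 (by decide +kernel)
  rcases pf_t5 p hp p' hp' e with rfl | rfl | rfl | rfl
  · exact ⟨q, hq, h, rfl⟩
  · exact ⟨_, mu64 _ hq 4 (by norm_num), h.mul u4 (by omega) (by omega) (by omega) (by omega),
      (pf_t6 q hq).1⟩
  · exact ⟨_, mu64 _ hq 32 (by norm_num), h.mul u32 (by omega) (by omega) (by omega) (by omega),
      (pf_t6 q hq).2.1⟩
  · exact ⟨_, mu64 _ hq 36 (by norm_num), h.mul u36 (by omega) (by omega) (by omega) (by omega),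
      (pf_t6 q hq).2.2⟩

theorem cos_eq {u : G} (u4 : d.Mv u 4 4) (u32 : d.Mv u 32 32) {p q p' q' : ℕ} (hp : p < 64)
    (hq : q < 64) (hp' : p' < 64) (hq' : q' < 64) (h : d.Mv u p q) (h' : d.Mv u p' q')
    (e : p &&& 27 = p' &&& 27) : q &&& 27 = q' &&& 27 := by
  obtain ⟨r, hr, a, b⟩ := d.cos_mv u4 u32 hp hq hp' h e
  rw [← b, a.uniq h' (by omega) (by omega)]

theorem cos_pow {u : G} (u4 : d.Mv u 4 4) (u32 : d.Mv u 32 32) {p q : ℕ} (hp : p < 64) (hq : q < 64)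
    (h : d.Mv u p q) (e : q &&& 27 = p &&& 27) (k : ℕ) :
    ∃ r < 64, d.Mv (u ^ k) p r ∧ r &&& 27 = p &&& 27 := by
  induction k with
  | zero => exact ⟨p, hp, by rw [pow_zero]; exact d.mv_one p, rfl⟩
  | succ k ih =>
    obtain ⟨r, hr, a, b⟩ := ih
    obtain ⟨s, hs, a', b'⟩ := d.cos_mv u4 u32 hp hq hr h b.symm
    exact ⟨s, hs, by rw [pow_succ']; exact a.trans a', b'.trans e⟩

theorem Q_le [Finite G] : d.Q ≤ (d.S : Subgroup G) := by
  obtain ⟨x, hx, h⟩ := d.emb (Subgroup.centralizer {d.n 36}) d.Q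
    (fun p hp => d.mem_cen.2 (Mv.of_cj (by omega) (by norm_num) (pf_t14 p (by omega)).1))
    (fun q hq => d.mem_cen.2 (Mv.of_com (d.Qz q hq))) d.Qp
  intro q hq
  have := h _ (d.Qn x⁻¹ (d.mem_cen.1 (inv_mem hx)).to_com q hq)
  simpa [mul_assoc] using this

theorem odd_one [Finite G] {g : G} (g1 : d.Mv g 1 4) (g32 : d.Mv g 32 32) {u : G} (u4 : d.Mv u 4 4)
    (u32 : d.Mv u 32 32) {m : ℕ} (hm : Odd m) (hu : u ^ m = 1) : u = 1 := by
  have u36 : d.Mv u 36 36 := u4.mul' u32 (by decide +kernel)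
  have lt : ∀ r < 128, d.Mv (d.n r) 4 4 → r < 64 := fun r hr h =>
    (pf_t14 r hr).2.1 ((Mv.of_cj hr (by norm_num) rfl).uniq h (cj_lt _ _) (by norm_num))
  have step : ∀ p < 64, d.n p ∈ d.Q → ∃ q < 64, d.n q ∈ d.Q ∧ d.Mv u p q := by
    intro p hp hQ
    have a := d.Qn u u36.to_com _ hQ
    obtain ⟨q, hq, e⟩ := mv_of_mem (d.Q_le a)
    have b : d.Mv (u * d.n p * u⁻¹) 4 4 :=
      d.conj_mv u4 (Mv.of_cj (by omega) (by norm_num) ((pf_t14 p (by omega)).2.2.1 hp).1)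
    rw [show u * d.n p * u⁻¹ = d.n q from e] at a b
    exact ⟨q, lt q hq b, a, e⟩
  have two : ∀ q ∈ d.Q, ∃ j, q ^ 2 ^ j = 1 := fun q hq => by
    obtain ⟨j, hj⟩ := d.Qp ⟨q, hq⟩
    exact ⟨j, by simpa using congrArg Subtype.val hj⟩
  have c0 : ∀ p < 64, d.n p ∈ d.Q → u * d.n p = d.n p * u := by
    intro p0 h0 Q0
    obtain ⟨p1, h1, Q1, m1⟩ := step p0 h0 Q0
    have key : p0 &&& 27 = p1 &&& 27 := by
      by_contra n01
      obtain ⟨p2, h2, Q2, m2⟩ := step p1 h1 Q1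
      obtain ⟨p3, h3, -, m3⟩ := step p2 h2 Q2
      have n12 : p1 &&& 27 ≠ p2 &&& 27 := fun e =>
        n01 (d.cos_eq u4.symm u32.symm h1 h0 h2 h1 m1.symm m2.symm e)
      have n23 : p2 &&& 27 ≠ p3 &&& 27 := fun e =>
        n12 (d.cos_eq u4.symm u32.symm h2 h1 h3 h2 m2.symm m3.symm e)
      have n02 : p0 &&& 27 ≠ p2 &&& 27 := by
        intro e
        obtain ⟨k, hk⟩ := hm
        obtain ⟨r, hr, a, b⟩ := d.cos_pow (u4.trans u4) (u32.trans u32) h0 h2 (m1.trans m2) e.symm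
          (k + 1)
        have : (u * u) ^ (k + 1) = u := by
          rw [← pow_two, ← pow_mul, show 2 * (k + 1) = m + 1 by omega, pow_succ, hu, one_mul]
        rw [this] at a
        exact n01 (by rw [← b, a.uniq m1 (by omega) (by omega)])
      have n13 : p3 &&& 27 ≠ p1 &&& 27 := fun e =>
        n02 (d.cos_eq u4.symm u32.symm h1 h0 h3 h2 m1.symm m3.symm e.symm)
      have s1 := d.col_mv g1 g32 u4 u32 (mu64 _ h0 _ h1) (mu64 _ h1 _ h2)
        (m1.mul m2 (by omega) (by omega) (by omega) (by omega))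
      have s2 := d.col_mv g1 g32 u4 u32 (mu64 _ h1 _ h2) (mu64 _ h2 _ h3)
        (m2.mul m3 (by omega) (by omega) (by omega) (by omega))
      rw [pf_t3 _ h0 _ h1, pf_t3 _ h1 _ h2] at s1
      rw [pf_t3 _ h1 _ h2, pf_t3 _ h2 _ h3] at s2
      exact pf_t4 _ _ (pf_t2 _ h0) _ (pf_t2 _ h1) n01 (d.col_mv g1 g32 u4 u32 h0 h1 m1) _ (pf_t2 _ h2)
        n12 n02 (d.col_mv g1 g32 u4 u32 h1 h2 m2) s1 _ (pf_t2 _ h3) n13 n23.symm
        (d.col_mv g1 g32 u4 u32 h2 h3 m3) s2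
    have fin : ∀ w < 64, d.Mv u w w → mu w w = 0 → p1 = mu p0 w → u * d.n p0 = d.n p0 * u := by
      intro w hw a b c
      refine pf_cent (e := d.n w) (j := 1) hm hu ?_ a.to_com ?_
      · rw [d.mul _ (by omega) _ (by omega), ← c]; exact m1
      · rw [pow_one, pow_two, d.mul _ (by omega) _ (by omega), b, d.n0]
    rcases pf_t5 p0 h0 p1 h1 key with e | e | e | e
    · rw [e] at m1; exact m1.to_com
    · exact fin 4 (by norm_num) u4 (by decide +kernel) e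
    · exact fin 32 (by norm_num) u32 (by decide +kernel) e
    · exact fin 36 (by norm_num) u36 (by decide +kernel) e
  have c1 : ∀ q ∈ d.Q, u * q = q * u := by
    intro q hq
    obtain ⟨r, hr, rfl⟩ := (d.memS _).1 (d.Q_le hq)
    by_cases h : r < 64
    · exact c0 r h hq
    have a : d.Mv (d.n r) 4 32 := Mv.of_cj hr (by norm_num) ((pf_t14 r hr).2.2.2 (by omega)).1
    have eQ : (d.n r)⁻¹ * (u * d.n r * u⁻¹) ∈ d.Q := mul_mem (inv_mem hq) (d.Qn u u36.to_com _ hq)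
    have e4 : d.Mv ((d.n r)⁻¹ * (u * d.n r * u⁻¹)) 4 4 := by
      have := ((u4.symm.trans a).trans u32).trans a.symm
      rwa [← mul_assoc u] at this
    obtain ⟨s, hs, e⟩ := (d.memS _).1 (d.Q_le eQ)
    obtain ⟨j, hj⟩ := two _ eQ
    refine pf_cent hm hu (by group) ?_ hj
    rw [e] at eQ e4 ⊢
    exact c0 s (lt s hs e4) eQ
  obtain ⟨j, hj⟩ := two u (d.Qc u u36.to_com c1)
  exact pf_one hm hu hj

theorem cW [Finite G] (g : G) (g1 : d.Mv g 1 4) (g32 : d.Mv g 32 32) :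
    ∀ k, d.Mv k 4 4 → d.Mv k 32 32 → ∃ p < 64, k = d.n p := by
  let X : Subgroup G := Subgroup.centralizer {d.n 4} ⊓ Subgroup.centralizer {d.n 32}
  have mX : ∀ k, k ∈ X ↔ d.Mv k 4 4 ∧ d.Mv k 32 32 := fun k => by
    rw [Subgroup.mem_inf, d.mem_cen, d.mem_cen]
  have pX : IsPGroup 2 X := by
    intro k
    obtain ⟨j, m, hm, e⟩ := Nat.exists_eq_two_pow_mul_odd (orderOf_pos (k : G)).ne'
    have a := (mX _).1 (pow_mem k.2 (2 ^ j))
    refine ⟨j, Subtype.ext ?_⟩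
    have := d.odd_one g1 g32 a.1 a.2 hm (by rw [← pow_mul, ← e, pow_orderOf_eq_one])
    simpa using this
  obtain ⟨x, hx, h⟩ := d.emb X X (fun p hp => (mX _).2
    ⟨Mv.of_cj (by omega) (by norm_num) ((pf_t14 p (by omega)).2.2.1 hp).1,
      Mv.of_cj (by omega) (by norm_num) ((pf_t14 p (by omega)).2.2.1 hp).2⟩) le_rfl pX
  intro k k4 k32
  have := h _ (mul_mem (mul_mem (inv_mem hx) ((mX k).2 ⟨k4, k32⟩)) hx)
  have hk : k ∈ (d.S : Subgroup G) := by simpa [mul_assoc] using this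
  obtain ⟨r, hr, rfl⟩ := (d.memS _).1 hk
  exact ⟨r, (pf_t14 r hr).2.1 ((Mv.of_cj hr (by norm_num) rfl).uniq k4 (cj_lt _ _) (by norm_num)), rfl⟩

end D

end Cfsg.Agent.SW
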