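import Cfsg.Agent.Lib.SystemNormalizer

/-!
Groups all of whose proper subgroups are nilpotent (Schmidt groups), and a fixed point lemma.
-/

set_option autoImplicit false

namespace Cfsg.Agent.Lib.Schmidt

open Subgroup Cfsg.Agent.Lib.SolvBasic Cfsg.Agent.Lib.SchurZassenhausConj Cfsg.Agent.Lib.Hall
open Cfsg.Agent.Lib.FrattiniFacts Cfsg.Agent.Lib.SystemNormalizer MulAction
open scoped Pointwise

universe u

variable {G : Type*} [Group G]

/-- If every non-identity element of a nontrivial finite group fixes exactly one point of an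
invariant set `X`, then the group fixes a point of `X`. -/
theorem exists_fixed_of_unique_fixed {L Ω : Type*} [Group L] [Finite L] [Nontrivial L]
    [MulAction L Ω] (X : Set Ω) (hX : ∀ (g : L), ∀ ω ∈ X, g • ω ∈ X)
    (h : ∀ x : L, x ≠ 1 → ∃! ω, ω ∈ X ∧ x • ω = ω) : ∃ ω ∈ X, ∀ g : L, g • ω = ω := by
  classical
  have := Fintype.ofFinite L
  let O : Ω → Finset Ω := fun ω => (show (orbit L ω).Finite from Set.finite_range _).toFinset
  let F : Ω → Finset L := fun ω => (Finset.univ.filter fun x : L => x • ω = ω).erase 1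
  have hF : ∀ ω, (F ω).card + 1 = Nat.card (stabilizer L ω) := fun ω => by
    rw [Finset.card_erase_add_one (by simp), Nat.card_eq_fintype_card, Fintype.card_subtype]
    rfl
  have hOc : ∀ ω, (O ω).card * Nat.card (stabilizer L ω) = Nat.card L := fun ω => by
    rw [← Set.ncard_eq_toFinset_card (orbit L ω) (Set.finite_range _), ← index_stabilizer,
      index_mul_card]
  have hOX : ∀ ω ∈ X, ∀ ω' ∈ O ω, ω' ∈ X := fun ω hω ω' h' => by
    obtain ⟨g, rfl⟩ := (Set.Finite.mem_toFinset _).mp h'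
    exact hX g ω hω
  have hmemF : ∀ ω x, x ∈ F ω ↔ x ≠ 1 ∧ x • ω = ω := fun ω x => by simp [F]
  have hA : ∀ ω ∈ X, ((O ω).biUnion F).card + (O ω).card = Nat.card L := fun ω hω => by
    rw [Finset.card_biUnion, ← hOc ω, Finset.card_eq_sum_ones (O ω), ← Finset.sum_add_distrib,
      Finset.sum_mul]
    · refine Finset.sum_congr rfl fun ω' h' => ?_
      have h1 := hOc ω'
      have h2 : O ω' = O ω := by
        simp only [O, Set.Finite.toFinset_inj]
        exact orbit_eq_iff.mpr ((Set.Finite.mem_toFinset _).mp h')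
      rw [h2, ← hOc ω] at h1
      rw [hF, one_mul]
      exact Nat.eq_of_mul_eq_mul_left (Finset.card_pos.mpr ⟨ω', h'⟩) h1
    · intro a ha b hb hab
      rw [Function.onFun, Finset.disjoint_left]
      intro x hxa hxb
      rw [hmemF] at hxa hxb
      exact hab ((h x hxa.1).unique ⟨hOX ω hω a ha, hxa.2⟩ ⟨hOX ω hω b hb, hxb.2⟩)
  have hhalf : ∀ ω (x : L), x ≠ 1 → x • ω = ω → 2 * (O ω).card ≤ Nat.card L := fun ω x hx hω => by
    have : 1 < Nat.card (stabilizer L ω) := (one_lt_card_iff_ne_bot _).mpr fun hb => hx (by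
      rw [← mem_bot, ← hb]; exact hω)
    rw [← hOc ω, mul_comm]
    exact Nat.mul_le_mul_left _ this
  obtain ⟨x₀, hx₀⟩ := exists_ne (1 : L)
  obtain ⟨ω₀, ⟨hω₀, hx₀'⟩, -⟩ := h x₀ hx₀
  refine ⟨ω₀, hω₀, ?_⟩
  by_contra! hc
  obtain ⟨g, hg⟩ := hc
  have h2 : 2 ≤ (O ω₀).card := Finset.one_lt_card.mpr ⟨g • ω₀, by simp [O], ω₀, by simp [O], hg⟩
  have hsub : ∀ ω, (O ω).biUnion F ⊆ Finset.univ.erase 1 := fun ω x hx => by
    obtain ⟨ω', -, h'⟩ := Finset.mem_biUnion.mp hx
    simpa using ((hmemF _ _).mp h').1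
  have hcard : (Finset.univ.erase (1 : L)).card + 1 = Nat.card L := by
    rw [Finset.card_erase_add_one (Finset.mem_univ _), Nat.card_eq_fintype_card, Finset.card_univ]
  have hA₀ := hA ω₀ hω₀
  obtain ⟨y, hy, hy'⟩ := Finset.exists_mem_notMem_of_card_lt_card
    (show ((O ω₀).biUnion F).card < (Finset.univ.erase (1 : L)).card by omega)
  have hy1 : y ≠ 1 := Finset.ne_of_mem_erase hy
  obtain ⟨ω₁, ⟨hω₁, hy₁⟩, -⟩ := h y hy1
  have hA₁ := hA ω₁ hω₁
  have hdisj : Disjoint ((O ω₀).biUnion F) ((O ω₁).biUnion F) := by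
    rw [Finset.disjoint_left]
    intro x hx0 hx1
    obtain ⟨a, ha, hxa⟩ := Finset.mem_biUnion.mp hx0
    obtain ⟨b, hb, hxb⟩ := Finset.mem_biUnion.mp hx1
    rw [hmemF] at hxa hxb
    obtain rfl : a = b := (h x hxa.1).unique ⟨hOX _ hω₀ a ha, hxa.2⟩ ⟨hOX _ hω₁ b hb, hxb.2⟩
    refine hy' (Finset.mem_biUnion.mpr ⟨ω₁, ?_, (hmemF _ _).mpr ⟨hy1, hy₁⟩⟩)
    rw [Set.Finite.mem_toFinset] at ha hb ⊢
    rw [← orbit_eq_iff.mpr ha, orbit_eq_iff.mpr hb]
    exact mem_orbit_self _
  have h3 := Finset.card_le_card (Finset.union_subset (hsub ω₀) (hsub ω₁))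
  rw [Finset.card_union_of_disjoint hdisj] at h3
  have := hhalf ω₀ x₀ hx₀ hx₀'
  have := hhalf ω₁ y hy1 hy₁
  omega

theorem isCoatom_conj {M : Subgroup G} (hM : IsCoatom M) (g : G) : IsCoatom (MulAut.conj g • M) :=
  ((MulAut.conj g).mapSubgroup.isCoatom_iff M).mpr hM

theorem isNilpotent_of_comm {A : Type*} [Group A] [IsMulCommutative A] : Group.IsNilpotent A :=
  open scoped IsMulCommutative in CommGroup.isNilpotent

theorem isSolvable_of_comm' {A : Type*} [Group A] [IsMulCommutative A] : Group.IsSolvable A :=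
  have := isNilpotent_of_comm (A := A)
  inferInstance

/-- A finite group all of whose proper subgroups are nilpotent is solvable. -/
theorem isSolvable_of_forall_proper_nilpotent (G : Type u) [Group G] [Finite G] :
    (∀ H : Subgroup G, H ≠ ⊤ → Group.IsNilpotent H) → Group.IsSolvable G := by
  refine card_induction (P := fun G _ _ => (∀ H : Subgroup G, H ≠ ⊤ → Group.IsNilpotent H) →
    Group.IsSolvable G) (fun G _ _ ih => ?_) G
  intro h
  by_cases hN : ∃ N : Subgroup G, N.Normal ∧ N ≠ ⊥ ∧ N ≠ ⊤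
  · obtain ⟨N, hN, h0, h1⟩ := hN
    have := h N h1
    have hsurj := QuotientGroup.mk'_surjective N
    refine (Group.isSolvable_iff_subgroup_quotient N).mpr ⟨inferInstance,
      ih _ (card_quotient_lt h0) fun K hK => ?_⟩
    rw [← map_comap_eq_self_of_surjective hsurj K]
    refine isNilpotent_map (h _ fun ht => hK (comap_injective hsurj ?_)) _
    rw [ht, comap_top]
  push Not at hN
  by_cases hc : IsCyclic G
  · exact isSolvable_of_comm'
  exfalso
  have := Nontrivial.of_not_isCyclic hc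
  have hnorm : ∀ D : Subgroup G, D ≠ ⊥ → D ≠ ⊤ → normalizer (D : Set G) ≠ ⊤ := fun D h0 h1 ht =>
    h1 (hN D (normalizer_eq_top_iff.mp ht) h0)
  have hTI : ∀ M₁ M₂ : Subgroup G, IsCoatom M₁ → IsCoatom M₂ → M₁ ≠ M₂ → M₁ ⊓ M₂ = ⊥ := by
    by_contra! hcon
    obtain ⟨D, ⟨M₁, M₂, h1, h2, h12, rfl, hD⟩, hmax⟩ :=
      WellFounded.has_min (wellFounded_gt (α := Subgroup G))
        {D | ∃ M₁ M₂ : Subgroup G, IsCoatom M₁ ∧ IsCoatom M₂ ∧ M₁ ≠ M₂ ∧ D = M₁ ⊓ M₂ ∧ D ≠ ⊥}
        (by obtain ⟨M₁, M₂, h1, h2, h3, h4⟩ := hcon; exact ⟨_, M₁, M₂, h1, h2, h3, rfl, h4⟩)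
    obtain ⟨M₃, h3, hM₃⟩ := exists_coatom_ge (hnorm _ hD fun ht => h1.1 (top_le_iff.mp
      (ht.ge.trans inf_le_left)))
    have key : ∀ M : Subgroup G, IsCoatom M → M₁ ⊓ M₂ < M → M = M₃ := by
      intro M hM hlt
      by_contra hne
      have h4 : M₁ ⊓ M₂ < M ⊓ M₃ := by
        refine lt_of_le_of_ne (le_inf hlt.le (le_normalizer.trans hM₃)) fun he => hlt.ne ?_
        have := h M hM.1
        have h5 := Group.normalizerCondition_of_isNilpotent ((M₁ ⊓ M₂).subgroupOf M)
          (lt_top_iff_ne_top.mpr fun ht => not_le_of_gt hlt (subgroupOf_eq_top.mp ht))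
        rw [← subgroupOf_normalizer_eq hlt.le] at h5
        obtain ⟨x, hx1, hx2⟩ := SetLike.exists_of_lt h5
        exact absurd (he.ge ⟨x.2, hM₃ hx1⟩) hx2
      exact hmax _ ⟨M, M₃, hM, h3, hne, rfl, fun hb => not_lt_bot (hb ▸ h4)⟩ h4
    refine h12 ((key M₁ h1 ?_).trans (key M₂ h2 ?_).symm)
    · exact inf_lt_left.mpr fun hle => h12 ((h1.le_iff_eq h2.1).mp hle).symm
    · exact inf_lt_right.mpr fun hle => h12 ((h2.le_iff_eq h1.1).mp hle)
  have hself : ∀ M : Subgroup G, IsCoatom M → normalizer (M : Set G) = M := fun M hM => by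
    refine (hM.le_iff.mp le_normalizer).resolve_left (hnorm M ?_ hM.1)
    rintro rfl
    have := isCyclic_quotient_of_isCoatom hM
    exact hc (isCyclic_of_surjective _ (QuotientGroup.quotientBot (G := G)).surjective)
  let _ : MulAction G (Subgroup G) := MulAction.compHom _ (MulAut.conj : G →* MulAut G)
  obtain ⟨M, hM, hfix⟩ := exists_fixed_of_unique_fixed (L := G) {M : Subgroup G | IsCoatom M}
    (fun g M hM => isCoatom_conj hM g) (fun x hx => by
      obtain ⟨M, hM, hxM⟩ := exists_coatom_ge (H := zpowers x) fun ht =>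
        hc (isCyclic_iff_exists_zpowers_eq_top.mpr ⟨x, ht⟩)
      refine ⟨M, ⟨hM, conj_smul_eq_of_mem (zpowers_le.mp hxM)⟩, fun M' hM' => ?_⟩
      by_contra hne
      have h1 : x ∈ M' := hself M' hM'.1 ▸ conj_smul_eq_iff.mp hM'.2
      exact hx (mem_bot.mp (hTI M' M hM'.1 hM hne ▸ ⟨h1, zpowers_le.mp hxM⟩)))
  exact hM.1 (by rw [← hself M hM, eq_top_iff]; exact fun g _ => conj_smul_eq_iff.mp (hfix g))

/-- A nontrivial finite solvable group has a normal maximal subgroup. -/
theorem exists_normal_coatom [Finite G] [Nontrivial G] [Group.IsSolvable G] :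
    ∃ M : Subgroup G, IsCoatom M ∧ M.Normal := by
  obtain ⟨M, hM, h⟩ := exists_coatom_ge (Group.IsSolvable.commutator_lt_top_of_nontrivial G).ne
  exact ⟨M, hM, Normal.of_commutator_le G h⟩

theorem exists_normal_hall_compl [Finite G] [Nontrivial G]
    (h : ∀ H : Subgroup G, H ≠ ⊤ → Group.IsNilpotent H) :
    ∃ p : ℕ, p.Prime ∧ p ∣ Nat.card G ∧ ∃ L : Subgroup G, L.Normal ∧ L ≠ ⊤ ∧
      IsPiHall {q | q ≠ p} L := by
  have := isSolvable_of_forall_proper_nilpotent G h
  obtain ⟨M, hM, hMn⟩ := exists_normal_coatom (G := G)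
  have hp := index_prime_of_isCoatom_normal hM
  have := h M hM.1
  obtain ⟨L, hL⟩ := exists_hallOf {q | q ≠ M.index} M
  refine ⟨_, hp, index_dvd_card M, L, normalizer_eq_top_iff.mp (top_le_iff.mp ?_),
    fun ht => hM.1 (top_le_iff.mp (ht ▸ hL.1)), hL.2.1, fun q hq hqp hd => ?_⟩
  · exact (le_normalizer_of_normal' _ M).trans
      (normalizer_le_normalizer_hallOf hL (le_normalizer_hallOf_of_isNilpotent hL))
  · rw [← relIndex_mul_index hL.1] at hd
    exact (hq.dvd_mul.mp hd).elim (hL.2.2 q hq hqp)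
      fun h => hqp ((Nat.prime_dvd_prime_iff_eq hq hp).mp h)

/-- subgroups of coprime orders of a finite nilpotent group centralize each other. -/
theorem le_centralizer_of_coprime [Finite G] {K A B : Subgroup G} (hK : Group.IsNilpotent K)
    (hA : A ≤ K) (hB : B ≤ K) (h : (Nat.card A).Coprime (Nat.card B)) :
    A ≤ centralizer (B : Set G) := by
  obtain ⟨H₁, h1, hA1⟩ := exists_hallOf_ge (π := {p | p ∣ Nat.card A}) (fun _ _ hd => hd) hA
  obtain ⟨H₂, h2, hB2⟩ := exists_hallOf_ge (π := {p | ¬ p ∣ Nat.card A})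
    (fun p hp hd hd' => hp.ne_one (Nat.eq_one_of_dvd_coprimes h hd' hd)) hB
  have h3 : H₁ ⊓ H₂ = ⊥ := inf_bot_of_coprime (Nat.coprime_of_dvd fun p hp ha hb =>
    h2.2.1 p hp hb (h1.2.1 p hp ha))
  rw [← commutator_eq_bot_iff_le_centralizer, eq_bot_iff, ← h3]
  refine (commutator_mono hA1 hB2).trans (le_inf ?_ ?_)
  · exact le_normalizer_iff_commutator_le_left.mp (h2.1.trans (le_normalizer_hallOf_of_isNilpotent h1))
  · exact le_normalizer_iff_commutator_le_right.mp
      (h1.1.trans (le_normalizer_hallOf_of_isNilpotent h2))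

/-- a finite nilpotent group with abelian Sylow subgroups is abelian. -/
theorem isMulCommutative_of_sylow [Finite G] [Group.IsNilpotent G]
    (h : ∀ (p : ℕ) [Fact p.Prime] (P : Sylow p G), IsMulCommutative (P : Subgroup G)) :
    IsMulCommutative G := by
  rw [← center_eq_top_iff]
  refine FStar.eq_top_of_forall_sylow_le fun p _ => ?_
  obtain ⟨P⟩ : Nonempty (Sylow p G) := inferInstance
  refine ⟨P, centralizer_eq_top_iff_subset.mp (FStar.eq_top_of_forall_sylow_le fun q _ => ?_)⟩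
  by_cases hpq : q = p
  · subst hpq
    have := h q P
    exact ⟨P, le_centralizer _⟩
  · obtain ⟨Q⟩ : Nonempty (Sylow q G) := inferInstance
    exact ⟨Q, le_centralizer_of_coprime (K := ⊤) inferInstance le_top le_top
      (IsPGroup.coprime_card_of_ne q p hpq _ _ Q.isPGroup' P.isPGroup')⟩

/-- Structure of minimal non-nilpotent groups. -/
theorem structure_min_non_nilpotent [Finite G] (hG : IsMinimalNonNilpotent G) :
    ∃ p q : ℕ, p.Prime ∧ q.Prime ∧ p ≠ q ∧ ∃ (P : Sylow p G) (Q : Sylow q G), IsCyclic P ∧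
      (Q : Subgroup G).Normal ∧ (P : Subgroup G) ⊔ Q = ⊤ ∧
      ¬ (P : Subgroup G) ≤ centralizer ((Q : Subgroup G) : Set G) := by
  have : Nontrivial G := by
    by_contra hc
    rw [not_nontrivial_iff_subsingleton] at hc
    exact hG.1 inferInstance
  obtain ⟨p, hp, -, L, hLn, hLt, hL⟩ := exists_normal_hall_compl hG.2
  have := Fact.mk hp
  have := hG.2 L hLt
  have hQ : ∀ (q : ℕ) [Fact q.Prime], q ≠ p → ∀ Q : Sylow q G, (Q : Subgroup G).Normal := by
    intro q _ hqp Q
    have hQL : (Q : Subgroup G) ≤ L := le_hall_of_le_normalizer hL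
      (piSub_of_isPGroup Q.isPGroup' hqp) (le_normalizer_of_normal' _ _)
    have := (Q.subtype hQL).characteristic_of_normal inferInstance
    rw [← map_subgroupOf_eq_of_le hQL]
    exact inferInstanceAs ((Q.subtype hQL : Subgroup L).map L.subtype).Normal
  obtain ⟨P⟩ : Nonempty (Sylow p G) := inferInstance
  have hP : normalizer ((P : Subgroup G) : Set G) ≠ ⊤ := fun ht => hG.1 <|
    isNilpotent_of_forall_sylow_normal fun q _ Q => by
      by_cases hqp : q = p
      · subst hqp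
        have := P.unique_of_normal (normalizer_eq_top_iff.mp ht)
        rw [Subsingleton.elim Q P]; exact normalizer_eq_top_iff.mp ht
      · exact hQ q hqp Q
  obtain ⟨q, hq, hq'⟩ : ∃ (q : ℕ) (_ : Fact q.Prime), ∀ Q : Sylow q G,
      ¬ (Q : Subgroup G) ≤ normalizer ((P : Subgroup G) : Set G) := by
    by_contra! hc
    exact hP (FStar.eq_top_of_forall_sylow_le fun q hq => hc q hq)
  have hqp : q ≠ p := by rintro rfl; exact hq' P le_normalizer
  obtain ⟨Q⟩ : Nonempty (Sylow q G) := inferInstance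
  have := hQ q hqp Q
  have hPQ : ¬ (P : Subgroup G) ≤ centralizer ((Q : Subgroup G) : Set G) := fun h =>
    hq' Q ((le_centralizer_iff.mp h).trans (centralizer_le_normalizer _))
  obtain ⟨x, hx, hx'⟩ := SetLike.not_le_iff_exists.mp hPQ
  have hxP : zpowers x ≤ P := zpowers_le.mpr hx
  have hc := IsPGroup.coprime_card_of_ne p q hqp.symm _ _ P.isPGroup' Q.isPGroup'
  have h1 : zpowers x ⊔ (Q : Subgroup G) = ⊤ := by
    by_contra hne
    exact hx' (le_centralizer_of_coprime (hG.2 _ hne) le_sup_left le_sup_right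
      (hc.coprime_dvd_left (card_dvd_of_le hxP)) (mem_zpowers x))
  have h2 : zpowers x = P := by
    have := dedekind_normal_right (B := (Q : Subgroup G)) hxP
    rw [h1, top_inf_eq, inf_bot_of_coprime hc.symm, sup_bot_eq] at this
    exact this.symm
  refine ⟨p, q, hp, hq.out, hqp.symm, P, Q, ?_, this, h2 ▸ h1, hPQ⟩
  exact (Subgroup.isCyclic_iff_exists_zpowers_eq_top (P : Subgroup G)).mpr ⟨x, h2⟩

end Cfsg.Agent.Lib.Schmidt
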