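import Cfsg.Agent.Lib.Suz3N

/-! The elementary abelian subgroup of order `3 ^ 5` of the Suzuki group and its normaliser. -/

set_option autoImplicit false
set_option maxRecDepth 100000

namespace Cfsg.Agent.Lib.Suz3

open Subgroup Cfsg.Agent.Lib.PermNet Cfsg.Agent.Lib.Words Cfsg.Agent.Lib.PermGroup Cfsg.Agent.Lib.DCE
  Cfsg.Agent.Lib.PermModel Cfsg.Agent.Lib.BT Cfsg.Agent.Lib.Rk3PH

variable {G : Type*} [Group G]

/-- The model. -/
abbrev MW (F : ℕ → G) :=
  Model F ⊤ ⊥ (nat_lit 1782) (nat_lit 11) (nat_lit 2047) wtt (wch.map Lv.b) 448345497600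

/-- The subgroup of order `3 ^ 5`. -/
abbrev AA (F : ℕ → G) : Subgroup G := gp F (sl LA)

variable {F : ℕ → G} (M : MW F)
include M

theorem ch : M.Ch ⊤ wch := M.ch_top wch (by rw [wc]; decide +kernel)

theorem cardA : Nat.card (AA F) = 3 ^ 5 := (pc M pA).2.2

theorem nwA {a : G} (ha : a ∈ AA F) : ∃ w ∈ NW dA, wval F w = a := exists_nw (pc M pA).1 (pc M pA).2.1 ha

theorem commA {a b : G} (ha : a ∈ AA F) (hb : b ∈ AA F) : a * b = b * a := by
  have h : ∀ u ∈ sl LA, ∀ v ∈ sl LA, wval F u * wval F v = wval F v * wval F u := fun u hu v hv =>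
    M.comm u v (allL_all (allL_all (p := fun u => allL (fun v => fixW (nat_lit 11) (nat_lit 2047) wtt
      (wch.map Lv.b) ((u ++ v) ++ invW (v ++ u))) (sl LA)) (by decide +kernel) u hu) v hv)
  refine mem_centralizer_singleton_iff.1 ((gp_le (K := centralizer {b})).2 (fun u hu => ?_) ha)
  exact mem_centralizer_singleton_iff.2 (mem_centralizer_singleton_iff.1
    ((gp_le (K := centralizer {wval F u})).2 (fun v hv => mem_centralizer_singleton_iff.2 (h v hv u hu)) hb)).symm

theorem cubeA {a : G} (ha : a ∈ AA F) : a ^ 3 = 1 := by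
  obtain ⟨w, hw, rfl⟩ := nwA M ha
  exact M.pow w 3 (allL_all (p := fun w => fixW (nat_lit 11) (nat_lit 2047) wtt (wch.map Lv.b) (rep 3 w))
    (by decide +kernel) w hw)

theorem cenK {c : G} (h : ∀ w ∈ [[24], [28], [30]], c * wval F w = wval F w * c) :
    c ∈ gp F (pcG (eK :: dA)) := by
  obtain ⟨g, hg, u, hu, z, hz, e⟩ := M.solve (ch M) (fun _ _ => M.lmem _) s1 (mem_top c) (mem_top c)
    (.inl rfl) (comm_pairs _ h) (by simp) (by simp)
  rw [List.mem_singleton.1 (memLL_mem hu), mem_bot.1 hz, id, wval_nil, mul_one, mul_one] at e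
  exact e ▸ hg

theorem no_inv {c : G} (h1 : c * wval F [24] * c⁻¹ = wval F [24]) (h2 : c * wval F [28] * c⁻¹ = wval F [28])
    (h3 : c * wval F [30] * c⁻¹ = wval F [31]) : False := by
  obtain ⟨g, hg, u, hu, -⟩ := M.solve (ch M) (fun _ _ => M.lmem _) s2 (mem_top c) (mem_top c)
    (.inl rfl) (.cons (by simp [h1]) (.cons (by simp [h2]) (.cons (by simp [h3]) .nil))) (by simp) (by simp)
  exact List.not_mem_nil (memLL_mem hu)

omit M in
theorem memA {w : List ℕ} (h : allL (okL LA) w = true) : wval F w ∈ AA F :=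
  wval_mem fun l hl => mem_of_okL F (allL_all h l hl)

theorem cenA : centralizer (AA F : Set G) = AA F := by
  refine le_antisymm (fun c hc => ?_) fun a ha b hb => commA M hb ha
  obtain ⟨j, hj, a, ha, rfl⟩ := (pc_cons (pc M pK).1 (pc M pK).2.1).2.2.2.2.2 c (cenK M fun w hw =>
    (hc _ (memA ((by decide +kernel : ∀ w ∈ [[24], [28], [30]], allL (okL LA) w = true) w hw))).symm)
  have hj : j < 2 := hj
  interval_cases j
  · rw [pow_zero, one_mul]; exact ha
  · have h1 : wval F [40] ∈ AA F := memA (by decide +kernel)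
    have := hc _ h1
    rw [pow_one, mul_assoc, commA M ha h1, ← mul_assoc, ← mul_assoc, mul_left_inj,
      ← wval_single F eK.1, ← wval_append, ← wval_append] at this
    exact absurd this (M.ne _ _ (by decide +kernel))

theorem conjS {n : G} (hn : n ∈ normalizer (AA F : Set G)) {i : ℕ} (hi : i ∈ [12, 14, 15]) :
    ∃ s ∈ SS, n * wval F [2 * i] * n⁻¹ = wval F s := by
  obtain ⟨w, hw, e⟩ := nwA M ((mem_normalizer_iff.1 hn _).1 (memA (w := [2 * i])
    ((by decide +kernel : ∀ i ∈ [12, 14, 15], allL (okL LA) [2 * i] = true) i hi)))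
  rcases cls M kA w hw with h | ⟨g, -, r, hr, h⟩
  · exact ⟨w, memLL_mem h, e.symm⟩
  · refine absurd (M.nfix_conj (mem_top (g * n)) (u := [2 * i]) (v := r) (by rw [← h, e]; group)) ?_
    exact Nat.ne_of_beq_eq_false (bnot_true (allL_all (allL_all kF i hi) r hr))

theorem not_fixed {n : G} {L : List ℕ} (h : ∀ i ∈ L, F i * n = n * F i) {t s : List ℕ}
    (h1 : band (allL (okL L) s) (bnot (fixW (nat_lit 11) (nat_lit 2047) wtt (wch.map Lv.b)
      (t ++ invW s))) = true) : n * wval F t * n⁻¹ ≠ wval F s := fun e => by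
  refine M.ne t s (band_eq h1).2 ?_
  rwa [mul_inv_eq_iff_eq_mul, comm_word L h (band_eq h1).1, mul_right_inj] at e

variable [Finite G]

theorem card_le : Nat.card (normalizer (AA F : Set G)) ≤ 22 * Nat.card (normalizer (AA F : Set G) ⊓
    centralizer {wval F [24]} : Subgroup G) ∧ Nat.card (normalizer (AA F : Set G) ⊓
    centralizer {wval F [24]} : Subgroup G) ≤ 87480 := by
  have c := fun (a b : G) => (mem_centralizer_singleton_iff (g := a) (k := b)).1
  have w1 := wval_single F
  refine ⟨step_le _ _ (SS.map (wval F)) fun n hn => ?_, ?_⟩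
  · obtain ⟨s, hs, e⟩ := conjS M hn (i := 12) (by simp)
    exact List.mem_map.2 ⟨s, hs, e.symm⟩
  refine (step_le _ (wval F [28]) ((SS.drop 2).map (wval F)) fun n hn => ?_).trans
    (show 20 * _ ≤ 20 * (9 * 486) from Nat.mul_le_mul_left 20
      ((step_le _ (wval F [30]) (Op.map (wval F)) fun n hn => ?_).trans
        (show 9 * _ ≤ 9 * 486 from Nat.mul_le_mul_left 9 ?_)))
  · obtain ⟨s, hs, e⟩ := conjS M hn.1 (i := 14) (by simp)
    rw [← List.take_append_drop 2 SS, List.mem_append] at hs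
    refine List.mem_map.2 ⟨s, hs.resolve_left fun hs => ?_, e.symm⟩
    exact not_fixed M (L := [12]) (by simpa [w1 12] using (c _ _ hn.2).symm)
      (allL_all (p := fun s => band (allL (okL [12]) s) (bnot (fixW (nat_lit 11) (nat_lit 2047) wtt
        (wch.map Lv.b) ([28] ++ invW s)))) (by decide +kernel) s hs) e
  · obtain ⟨s, hs, e⟩ := conjS M hn.1.1 (i := 15) (by simp)
    rw [← List.take_append_drop 4 SS, List.mem_append] at hs
    rcases hs with hs | hs
    · exact absurd e (not_fixed M (L := [12, 14])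
        (by simpa [w1 12, w1 14] using And.intro (c _ _ hn.1.2).symm (c _ _ hn.2).symm)
        (allL_all (p := fun s => band (allL (okL [12, 14]) s) (bnot (fixW (nat_lit 11) (nat_lit 2047) wtt
          (wch.map Lv.b) ([30] ++ invW s)))) (by decide +kernel) s hs))
    rcases List.mem_append.1 (show s ∈ Op ++ Cm.map Prod.fst from hs) with hs | hs
    · exact List.mem_map.2 ⟨s, hs, e.symm⟩
    obtain ⟨x, hx, rfl⟩ := List.mem_map.1 hs
    obtain ⟨h1, h⟩ := band_eq (allL_all kM x hx)
    obtain ⟨h2, h3⟩ := band_eq h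
    refine (no_inv M (c := wval F x.2 * n) ?_ ?_ ?_).elim
    · rw [← M.cj _ _ _ h1, M.cj _ _ _ h1]
      calc _ = wval F x.2 * (n * wval F [24]) * n⁻¹ * (wval F x.2)⁻¹ := by group
        _ = _ := by rw [c _ _ hn.1.2, ← mul_assoc, mul_inv_cancel_right, M.cj _ _ _ h1]
    · calc _ = wval F x.2 * (n * wval F [28]) * n⁻¹ * (wval F x.2)⁻¹ := by group
        _ = _ := by rw [c _ _ hn.2, ← mul_assoc, mul_inv_cancel_right, M.cj _ _ _ h2]
    · rw [← M.cj _ _ _ h3, ← e]; group
  · refine (card_le_of_le fun n hn => cenK M ?_).trans (pc M pK).2.2.le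
    simpa using ⟨c _ _ hn.1.1.2, c _ _ hn.1.2, c _ _ hn.2⟩

theorem norA : gp F (sl LN) = normalizer (AA F : Set G) ∧
    Nat.card (normalizer (AA F : Set G)) = 3 ^ 5 * 7920 ∧ Nat.card (normalizer (AA F : Set G) ⊓
      centralizer {wval F [24]} : Subgroup G) = 87480 := by
  have h1 : gp F (sl LN) ≤ normalizer (AA F : Set G) := gp_le.2 fun w hw => by
    obtain ⟨i, hi, rfl⟩ := List.mem_map.1 hw
    rw [wval_single]
    refine mem_of_defB (D := defRels 12 wdefs) (M.rels _ (by decide +kernel))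
      [(22, [25, 34, 42]), (23, [30, 36, 32, 38, 35, 33, 37, 31]), (24, [44, 44, 44])]
      (LA ++ cN.map Prod.fst) LN (List.forall_mem_append.2 ⟨fun j hj => le_normalizer ?_, fun j hj => ?_⟩)
      (by decide +kernel) i hi
    · exact wval_single F j ▸ mem_gp (List.mem_map_of_mem hj)
    · obtain ⟨e, he, rfl⟩ := List.mem_map.1 hj
      exact nor M (allL_all kN e he)
  have h2 := (M.le_card LN nch nc).1.trans (M.le_card LN nch nc).2
  rw [show (nch.map fun l => l.T.length).prod = 1924560 by decide +kernel] at h2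
  have h3 := card_le_of_le h1
  obtain ⟨h4, h5⟩ := card_le M
  exact ⟨eq_of_le_of_card_ge h1 (by omega), by omega, by omega⟩

theorem quot : Spor.IsoM11 (normalizer (AA F : Set G) ⧸ (AA F).subgroupOf (normalizer (AA F : Set G))) := by
  obtain ⟨h1, h2, -⟩ := norA M
  have hm : ∀ i ∈ LN, F i ∈ normalizer (AA F : Set G) := fun i hi =>
    h1 ▸ wval_single F i ▸ mem_gp (List.mem_map_of_mem hi)
  let y : ℕ → normalizer (AA F : Set G) := fun i => if h : i ∈ LN then ⟨F i, hm i h⟩ else 1
  have hy : ∀ i ∈ LN, (y i : G) = F i := fun i hi => by simp [y, hi]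
  have hw : ∀ w, allL (okL LN) w = true → (wval y w).1 = wval F w := fun w h =>
    (map_wval (Subgroup.subtype _) y w).trans (congrArg List.prod (List.map_congr_left fun l hl => by
      have := hy (l / 2) (Nat.shiftRight_one l ▸ (memL_mem (allL_all h l hl) : l >>> 1 ∈ LN))
      unfold lval
      split_ifs <;> simp [this]))
  let q := QuotientGroup.mk' ((AA F).subgroupOf (normalizer (AA F : Set G)))
  refine iso_M11 (rel_of (F := fun i => q (y i)) 16 fun w h => ?_) (fun K a b c d => ?_) ?_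
  · rw [← map_wval, show wval y w = 1 from Subtype.ext ((hw w (allL_all (by decide +kernel) w h)).trans
      (M.rels _ (by decide +kernel) w h)), map_one]
  · have : normalizer (AA F : Set G) ≤ (K.comap q).map (Subgroup.subtype _) := h1.ge.trans (gp_le.2 fun w hw => by
      obtain ⟨i, hi, rfl⟩ := List.mem_map.1 hw
      rw [wval_single]
      refine mem_of_defB (D := defRels 12 wdefs) (M.rels _ (by decide +kernel))
        [(22, [25, 34, 42]), (23, [30, 36, 32, 38, 35, 33, 37, 31]), (24, [44, 44, 44])]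
        (LA ++ [16, 17, 18, 19]) LN (List.forall_mem_append.2 ⟨fun j hj => ?_, ?_⟩) (by decide +kernel) i hi
      · have hj' : F j ∈ AA F := wval_single F j ▸ mem_gp (List.mem_map_of_mem hj)
        refine ⟨⟨F j, le_normalizer hj'⟩, ?_, rfl⟩
        rw [SetLike.mem_coe, mem_comap, show q ⟨F j, le_normalizer hj'⟩ = 1 from
          (QuotientGroup.eq_one_iff _).2 hj']
        exact one_mem K
      · simp only [List.forall_mem_cons, List.not_mem_nil, false_imp_iff, implies_true, and_true]
        exact ⟨⟨_, a, hy _ (by decide)⟩, ⟨_, b, hy _ (by decide)⟩, ⟨_, c, hy _ (by decide)⟩,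
          ⟨_, d, hy _ (by decide)⟩⟩)
    refine eq_top_iff.2 fun x _ => ?_
    obtain ⟨n, rfl⟩ := QuotientGroup.mk'_surjective _ x
    obtain ⟨m, hm, e⟩ := this n.2
    exact (Subtype.ext e : m = n) ▸ hm
  · have := ((AA F).subgroupOf (normalizer (AA F : Set G))).index_mul_card
    rw [Nat.card_congr (subgroupOfEquivOfLe le_normalizer).toEquiv, cardA M, h2] at this
    rw [← index_eq_card]
    omega

end Cfsg.Agent.Lib.Suz3
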