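import Cfsg.Agent.Lib.BT6
import Cfsg.Agent.Lib.Rk3PH
import Cfsg.Agent.Lib.StrongEmb2

/-! Checks for conjugacy representatives, polycyclic sequences and normalisers in a table model. -/

set_option autoImplicit false

namespace Cfsg.Agent.Lib.Suz3

open Subgroup Cfsg.Agent.Lib.PermNet Cfsg.Agent.Lib.Words Cfsg.Agent.Lib.PermGroup Cfsg.Agent.Lib.DCE
  Cfsg.Agent.Lib.PermModel Cfsg.Agent.Lib.BT Cfsg.Agent.Lib.Rk3PH

section defs
variable (wb mask : ℕ) (tt : TT) (B : List ℕ)

/-- `g u g⁻¹ = v`. -/
noncomputable def cjB (g u v : List ℕ) : Bool := fixW wb mask tt B ((g ++ u ++ invW g) ++ invW v)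

/-- Each word is skipped or conjugate to a representative. -/
noncomputable def clsB (skip : List ℕ → Bool) (L : List ℕ) (reps W : List (List ℕ)) :
    List (ℕ × List ℕ) → Bool :=
  List.rec (motive := fun _ => List (ℕ × List ℕ) → Bool) (fun _ => true)
    (fun w _ ih C => bif' (skip w) (ih C) (List.rec (motive := fun _ => Bool) false
      (fun e C' _ => band (allL (okL L) e.2) (band (cjB wb mask tt B e.2 w (getW reps e.1)) (ih C'))) C)) W

/-- The relations of a polycyclic sequence, and the normal words are not trivial. -/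
noncomputable def pcB (d : PC) : Bool :=
  band (allL (fun r => fixW wb mask tt B (r.1 ++ invW r.2)) (pcR d)) (band (pcOK d)
    (allL (fun w => bif' (eqL w []) true (bnot (fixW wb mask tt B w))) (NW d)))

/-- The letter `g` conjugates the letters of `L` to words in them. -/
noncomputable def norB (L : List ℕ) (e : ℕ × List (List ℕ)) : Bool :=
  band (Nat.beq e.2.length L.length)
    (allL (fun x => band (allL (okL L) x.2) (cjB wb mask tt B [2 * e.1] [2 * x.1] x.2)) (L.zip e.2))

end defs

section
variable {G : Type*} [Group G]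

theorem step_le [Finite G] (X : Subgroup G) (t : G) (L : List G) (h : ∀ n ∈ X, n * t * n⁻¹ ∈ L) :
    Nat.card X ≤ L.length * Nat.card (X ⊓ centralizer ({t} : Set G) : Subgroup G) := by
  classical
  rw [StrongEmb2.card_eq_ncard_mul X t]
  refine Nat.mul_le_mul_right _ ((Set.ncard_le_ncard (t := (L.toFinset : Set G)) ?_).trans ?_)
  · rintro _ ⟨n, hn, rfl⟩
    exact List.mem_toFinset.2 (h n hn)
  · rw [Set.ncard_coe_finset]; exact List.toFinset_card_le L

theorem mem_nor [Finite G] {A : Subgroup G} {g : G} (h : ∀ a ∈ A, g * a * g⁻¹ ∈ A) :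
    g ∈ normalizer (A : Set G) := mem_normalizer_fintype h

variable {F : ℕ → G} {H : Subgroup G} {N wb mask : ℕ} {tt : TT} {B : List ℕ} {T : ℕ}
  (M : Model F H ⊥ N wb mask tt B T)
include M

theorem cls {skip : List ℕ → Bool} {L : List ℕ} {reps W : List (List ℕ)} {C : List (ℕ × List ℕ)}
    (h : clsB wb mask tt B skip L reps W C = true) : ∀ w ∈ W, skip w = true ∨
      ∃ g ∈ gp F (sl L), ∃ r ∈ [] :: reps, g * wval F w * g⁻¹ = wval F r := by
  induction W generalizing C with
  | nil => simp
  | cons w W ih =>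
    change (bif' (skip w) (clsB wb mask tt B skip L reps W C) (List.rec (motive := fun _ => Bool) false
      (fun e C' _ => band (allL (okL L) e.2) (band (cjB wb mask tt B e.2 w (getW reps e.1))
        (clsB wb mask tt B skip L reps W C'))) C)) = true at h
    cases hs : skip w
    · rw [hs] at h
      cases C with
      | nil => exact Bool.noConfusion h
      | cons e C =>
        obtain ⟨h1, h⟩ := band_eq h
        obtain ⟨h2, h⟩ := band_eq h
        refine List.forall_mem_cons.2 ⟨.inr ⟨_, wval_mem fun l hl => mem_of_okL F (allL_all h1 l hl), _,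
          ?_, M.cj _ _ _ h2⟩, ih h⟩
        rcases getW_mem_or reps e.1 with h | h
        · exact List.mem_cons_of_mem _ h
        · rw [h]; exact List.mem_cons_self
    · rw [hs] at h
      exact List.forall_mem_cons.2 ⟨.inl hs, ih h⟩

theorem pc {d : PC} (h : pcB wb mask tt B d = true) :
    (∀ r ∈ pcR d, wval F r.1 = wval F r.2) ∧ pcOK d = true ∧ Nat.card (gp F (pcG d)) = pcN d := by
  obtain ⟨h1, h⟩ := band_eq h
  obtain ⟨h2, h3⟩ := band_eq h
  have hr : ∀ r ∈ pcR d, wval F r.1 = wval F r.2 := fun r hr => M.eq _ _ (allL_all h1 r hr)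
  refine ⟨hr, h2, le_antisymm (card_pc_le hr h2).2 (le_card_pc hr h2 fun w hw e => ?_)⟩
  have := allL_all h3 w hw
  cases h4 : eqL w []
  · rw [h4] at this
    exact absurd e (M.ne_one w this)
  · exact eqL_eq h4

theorem nor [Finite G] {L : List ℕ} {e : ℕ × List (List ℕ)} (h : norB wb mask tt B L e = true) :
    F e.1 ∈ normalizer (gp F (sl L) : Set G) := by
  obtain ⟨h1, h⟩ := band_eq h
  refine mem_nor fun a ha => (gp_le (K := (gp F (sl L)).comap (MulAut.conj (F e.1)).toMonoidHom)).2
    (fun w hw => ?_) ha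
  obtain ⟨i, hi, rfl⟩ := List.mem_map.1 hw
  obtain ⟨j, hj, rfl⟩ := List.mem_iff_getElem.1 hi
  have hj' : j < e.2.length := beq_eq h1 ▸ hj
  obtain ⟨h2, h3⟩ := band_eq (allL_all h (L[j], e.2[j]) (List.mem_iff_getElem.2 ⟨j, by simp [hj, hj'], by simp⟩))
  have := M.cj _ _ _ h3
  rw [wval_single] at this
  change F e.1 * _ * (F e.1)⁻¹ ∈ gp F (sl L)
  rw [this]
  exact wval_mem fun l hl => mem_of_okL F (allL_all h2 l hl)

theorem le_card_of [Finite G] {K : Subgroup G} (sw : List (List ℕ)) (n : ℕ)
    (hK : ∀ w ∈ sw, wval F w ∈ K)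
    (h : allR (fun p => allR (fun q => bif' (Nat.beq p q) true
      (bnot (fixW wb mask tt B (getW sw p ++ invW (getW sw q))))) 0 n) 0 n = true) :
    n ≤ Nat.card K := by
  have hm : ∀ p, wval F (getW sw p) ∈ K := fun p => by
    rcases getW_mem_or sw p with h | h
    · exact hK _ h
    · rw [h]; exact one_mem _
  simpa using Nat.card_le_card_of_injective (fun p : Fin n => (⟨_, hm p⟩ : K))
    fun p q e => Fin.ext (M.inj sw n h p p.2 q q.2 (congrArg Subtype.val e))

end

end Cfsg.Agent.Lib.Suz3
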