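import Cfsg.Agent.Lib.Suz3T

/-! Certificates. -/

set_option autoImplicit false
set_option maxRecDepth 100000

namespace Cfsg.Agent.Lib.Suz3

open Cfsg.Agent.Lib.PermNet Cfsg.Agent.Lib.Words Cfsg.Agent.Lib.PermGroup Cfsg.Agent.Lib.DCE Cfsg.Agent.Lib.PermModel Cfsg.Agent.Lib.BT Cfsg.Agent.Lib.Rk3PH

theorem wok_id : idB (nat_lit 1782) (nat_lit 11) (nat_lit 2047) wid = true := by decide +kernel

theorem wok_0 : allR (fun i => okT (nat_lit 1782) (nat_lit 11) (nat_lit 2047) (wtt.get (2 * i)) (wtt.get (2 *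
  i + 1))) (nat_lit 0) (nat_lit 38) = true := by
  decide +kernel

def wdL0 : List (List ℕ) := [[25, 18, 14], [27, 16, 18, 15, 17], [29, 26, 24, 27], [31, 26, 28, 27], [33, 17,
  14, 17, 14], [35, 19, 16, 19, 16], [37, 14, 20, 19, 17, 14, 17, 18, 21], [39, 21, 22, 28, 22, 16, 22, 12,
  23, 17, 23, 29, 23, 20], [41, 38, 24, 38], [43, 32, 38, 24, 38, 32], [45, 25, 34, 42], [47, 30, 36, 32, 38,
  35, 33, 37, 31], [49, 44, 44, 44], [51, 12, 3], [53, 15, 8, 19], [55, 16, 36, 39, 11], [57, 4, 6, 11, 14,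
  21, 27], [59, 52, 56], [61, 55, 52, 54], [63, 56, 56, 54, 56, 51, 55, 56, 52], [65, 58, 63, 60, 63]]

theorem wd0 : allL (fixA (nat_lit 11) (nat_lit 2047) wtt (nat_lit 1782)) wdL0 = true := by decide +kernel

def wdL1 : List (List ℕ) := [[67, 59, 59, 62, 50, 58, 61, 59, 51], [69, 59, 63, 61, 62, 62, 61, 59, 62], [71,
  64, 66, 64, 66], [73, 67, 61, 64, 67, 69], [75, 69, 64, 66, 68, 61, 65]]

theorem wd1 : allL (fixA (nat_lit 11) (nat_lit 2047) wtt (nat_lit 1782)) wdL1 = true := by decide +kernel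

end Cfsg.Agent.Lib.Suz3
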