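import Cfsg.Agent.Lib.Suz3T

/-! Certificates. -/

set_option autoImplicit false
set_option maxRecDepth 100000

namespace Cfsg.Agent.Lib.Suz3

open Cfsg.Agent.Lib.PermNet Cfsg.Agent.Lib.Words Cfsg.Agent.Lib.PermGroup Cfsg.Agent.Lib.DCE Cfsg.Agent.Lib.PermModel Cfsg.Agent.Lib.BT Cfsg.Agent.Lib.Rk3PH

theorem pA : pcB (nat_lit 11) (nat_lit 2047) wtt (wch.map Lv.b) dA = true := by decide +kernel

theorem pK : pcB (nat_lit 11) (nat_lit 2047) wtt (wch.map Lv.b) (eK :: dA) = true := by decide +kernel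

theorem pS : pcB (nat_lit 11) (nat_lit 2047) wtt (wch.map Lv.b) dS = true := by decide +kernel

theorem kA : clsB (nat_lit 11) (nat_lit 2047) wtt (wch.map Lv.b) (memLL SS) (13 :: LN) [[24, 28]] (NW dA) cA
  = true := by
  decide +kernel

theorem kS : clsB (nat_lit 11) (nat_lit 2047) wtt (wch.map Lv.b) (fun w => bnot (fixW (nat_lit 11) (nat_lit
  2047) wtt (wch.map Lv.b) (rep 3 w))) LH
    ([24] :: cQ.map Prod.fst) (NW dS) cS = true := by
  decide +kernel

theorem kN : allL (norB (nat_lit 11) (nat_lit 2047) wtt (wch.map Lv.b) LA) cN = true := by decide +kernel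

theorem kM : allL (fun e => band (cjB (nat_lit 11) (nat_lit 2047) wtt (wch.map Lv.b) e.2 [24] [24])
    (band (cjB (nat_lit 11) (nat_lit 2047) wtt (wch.map Lv.b) e.2 [28] [28]) (cjB (nat_lit 11) (nat_lit 2047)
  wtt (wch.map Lv.b) e.2 e.1 [31]))) Cm = true := by
  decide +kernel

theorem kF : allL (fun i => allL (fun r => bnot (Nat.beq (nfix (nat_lit 11) (nat_lit 2047) wtt [2 * i]
  (nat_lit 1782))
    (nfix (nat_lit 11) (nat_lit 2047) wtt r (nat_lit 1782)))) [[], [24, 28]]) [12, 14, 15] = true := by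
  decide +kernel

/-- The commutators with `r`. -/
def cms (r : List ℕ) (qs : List (List ℕ)) : List (List ℕ) := qs.map fun q => q ++ r ++ invW q ++ invW r

theorem kQ : allL (fun e => band (e.2.all (lt2 7)) (allR (fun p => allR (fun q => bif' (Nat.beq p q) true
    (bnot (fixW (nat_lit 11) (nat_lit 2047) wtt (wch.map Lv.b) (getW (cms e.1 e.2) p ++ invW (getW (cms e.1
  e.2) q))))) 0 9) 0 9)) cQ = true := by
  decide +kernel

theorem mok_id : idB (nat_lit 24) (nat_lit 5) (nat_lit 31) mid = true := by decide +kernel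

theorem mok_0 : allR (fun i => okT (nat_lit 24) (nat_lit 5) (nat_lit 31) (mtt.get (2 * i)) (mtt.get (2 * i +
  1))) (nat_lit 0) (nat_lit 10) = true := by
  decide +kernel

def mdL0 : List (List ℕ) := [[9, 6, 4, 3, 5], [11, 4, 0, 6, 3, 1, 5], [13, 8, 0, 8], [15, 8, 10, 9], [17, 0,
  14, 1], [19, 12, 0, 15]]

theorem md0 : allL (fixA (nat_lit 5) (nat_lit 31) mtt (nat_lit 24)) mdL0 = true := by decide +kernel

theorem mc : chB (nat_lit 5) (nat_lit 31) mtt (nat_lit 24) (fun _ => true) mch [] = true := by decide +kernel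

end Cfsg.Agent.Lib.Suz3
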