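import Cfsg.Agent.Lib.SuzMST
import Cfsg.Agent.Lib.SuzBase

/-! Certificates. -/

set_option autoImplicit false
set_option maxRecDepth 100000

namespace Cfsg.Agent.Lib.SuzMS

open Cfsg.Agent.Lib.PermNet Cfsg.Agent.Lib.Words Cfsg.Agent.Lib.PermGroup Cfsg.Agent.Lib.DCE Cfsg.Agent.Lib.PermModel Cfsg.Agent.Lib.BT

theorem uK0 : allL (fixA (nat_lit 11) (nat_lit 2047) utt (nat_lit 1782)) SuzBase.K = true := by decide +kernel

theorem vok_id : idB (nat_lit 1782) (nat_lit 11) (nat_lit 2047) vid = true := by decide +kernel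

end Cfsg.Agent.Lib.SuzMS
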