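import Cfsg.Agent.Lib.SuzMSC0
import Cfsg.Agent.Lib.SuzMSC1
import Cfsg.Agent.Lib.SuzMSC2

/-! The model of the Suzuki group on `1782` points. -/

set_option autoImplicit false
set_option maxRecDepth 100000

namespace Cfsg.Agent.Lib.SuzMS

open Cfsg.Agent.Lib.PermNet Cfsg.Agent.Lib.Words Cfsg.Agent.Lib.PermGroup Cfsg.Agent.Lib.DCE Cfsg.Agent.Lib.PermModel Cfsg.Agent.Lib.BT

theorem uok : TabsOK (nat_lit 1782) (nat_lit 11) (nat_lit 2047) (nat_lit 25) uth uid := ⟨uok_id, (allR_of 0 25 25 (by decide) uok_0)⟩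

theorem ud : ∀ w ∈ defRels 7 udefs, wval (tp (nat_lit 1782) (nat_lit 11) (nat_lit 2047) utt) w = 1 :=
  (all_append (uok.relsA _ ud0) (all_append (uok.relsA _ ud1) (uok.relsA _ ud2)))

theorem uK : ∀ w ∈ SuzBase.K, wval (tp (nat_lit 1782) (nat_lit 11) (nat_lit 2047) utt) w = 1 := uok.relsA _ uK0

theorem vok : TabsOK (nat_lit 1782) (nat_lit 11) (nat_lit 2047) (nat_lit 21) vth vid := ⟨vok_id, (allR_of 0 21 21 (by decide) vok_0)⟩

theorem vTM : TM 12 (nat_lit 1782) (nat_lit 11) (nat_lit 2047) (nat_lit 21) vid 448345497600 vth vdefs vch :=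
  ⟨vok, (vok.relsA _ vd0), vc, by decide +kernel⟩

theorem uv (i : ℕ) (hi : i < 12) : tp (nat_lit 1782) (nat_lit 11) (nat_lit 2047) utt (i + 13) = tp (nat_lit 1782) (nat_lit 11) (nat_lit 2047) vtt i :=
  tp_eq uok vok ((by decide +kernel : ∀ i < 12, Nat.beq (utt.get (2 * (i + 13) + 1)) (vtt.get (2 * i + 1)) = true) i hi)

end Cfsg.Agent.Lib.SuzMS
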