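import Cfsg.Agent.Lib.Suz3C0
import Cfsg.Agent.Lib.Suz3C1
import Cfsg.Agent.Lib.Suz3C2
import Cfsg.Agent.Lib.SuzMS

/-! The models of the Suzuki group on `1782` points and of `M₁₁` on `24` points. -/

set_option autoImplicit false
set_option maxRecDepth 100000

namespace Cfsg.Agent.Lib.Suz3

open Cfsg.Agent.Lib.PermNet Cfsg.Agent.Lib.Words Cfsg.Agent.Lib.PermGroup Cfsg.Agent.Lib.DCE Cfsg.Agent.Lib.PermModel Cfsg.Agent.Lib.BT Cfsg.Agent.Lib.Rk3PH

theorem wok : TabsOK (nat_lit 1782) (nat_lit 11) (nat_lit 2047) (nat_lit 38) wth wid := ⟨wok_id, (allR_of 0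
  38 38 (by decide) wok_0)⟩

theorem wTM : TM 12 (nat_lit 1782) (nat_lit 11) (nat_lit 2047) (nat_lit 38) wid 448345497600 wth wdefs wch :=
  ⟨wok, (all_append (wok.relsA _ wd0) (wok.relsA _ wd1)), wc, by decide +kernel⟩

theorem wv (i : ℕ) (hi : i < 12) : tp (nat_lit 1782) (nat_lit 11) (nat_lit 2047) SuzMS.vtt i = tp (nat_lit
  1782) (nat_lit 11) (nat_lit 2047) wtt i :=
  tp_eq SuzMS.vok wok ((by decide +kernel : ∀ i < 12, Nat.beq (SuzMS.vtt.get (2 * i + 1)) (wtt.get (2 * i +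
  1)) = true) i hi)

theorem mok : TabsOK (nat_lit 24) (nat_lit 5) (nat_lit 31) (nat_lit 10) mth mid := ⟨mok_id, (allR_of 0 10 10
  (by decide) mok_0)⟩

theorem mTM : TM 4 (nat_lit 24) (nat_lit 5) (nat_lit 31) (nat_lit 10) mid 7920 mth mdefs mch :=
  ⟨mok, (mok.relsA _ md0), mc, by decide +kernel⟩

end Cfsg.Agent.Lib.Suz3
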