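import Cfsg.Agent.Lib.Suz3M
import Cfsg.Agent.Lib.GL23TC
import Cfsg.Agent.Lib.M24Ord

/-! Four involutions that satisfy the relators of `M₁₁` give a map onto `M₁₁`. -/

set_option autoImplicit false
set_option maxRecDepth 100000

namespace Cfsg.Agent.Lib.Suz3

open Subgroup Cfsg.Agent.Lib.PermNet Cfsg.Agent.Lib.Words Cfsg.Agent.Lib.PermGroup Cfsg.Agent.Lib.DCE
  Cfsg.Agent.Lib.PermModel Cfsg.Agent.Lib.BT Cfsg.Agent.Lib.Golay Cfsg.Agent.Lib.M24Ord
open D8Amalg (gn ev Rel)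

/-- An involution of the `24` points given by its list of images. -/
def pm (l : List ℕ) (h : ∀ p, Golay.pt (l.getD (idx (Golay.pt (l.getD (idx p) 0))) 0) = p) :
    Equiv.Perm GolayPt := ofList l l h

theorem mem_M11 {g : Equiv.Perm GolayPt} (h1 : ∀ i, xs ((bl i).map (act g)) = 0)
    (h2 : ∀ p, idx (g p) ∈ dl ↔ idx p ∈ dl) (h3 : g (some 0) = some 0) : g ∈ Spor.M11 :=
  ⟨mem_M12_iff.2 ⟨mem_M24_of h1, fun p => by rw [mem_dodecad, mem_dodecad, h2]⟩, h3⟩

/-- The generators. -/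
def pg : ℕ → Equiv.Perm GolayPt
  | 0 => pm [0,1,18,3,9,5,8,7,6,4,23,17,16,13,15,14,12,11,2,19,21,20,22,10] (by decide +kernel)
  | 1 => pm [0,1,4,12,2,14,9,7,18,6,10,17,3,13,5,15,16,11,8,20,19,21,23,22] (by decide +kernel)
  | 2 => pm [0,18,2,12,9,5,6,15,13,4,17,21,3,8,14,7,16,10,1,19,23,11,22,20] (by decide +kernel)
  | 3 => pm [0,13,4,8,2,11,6,15,3,9,10,5,18,1,17,7,16,14,12,20,19,21,22,23] (by decide +kernel)
  | _ => 1

theorem pg_mem : ∀ i, pg i ∈ Spor.M11
  | 0 => mem_M11 (by decide +kernel) (by decide +kernel) (by decide +kernel)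
  | 1 => mem_M11 (by decide +kernel) (by decide +kernel) (by decide +kernel)
  | 2 => mem_M11 (by decide +kernel) (by decide +kernel) (by decide +kernel)
  | 3 => mem_M11 (by decide +kernel) (by decide +kernel) (by decide +kernel)
  | _ + 4 => one_mem _

/-- The generators as elements of `M₁₁`. -/
def mg (i : ℕ) : Spor.M11 := ⟨pg i, pg_mem i⟩

theorem phi_pg (i : ℕ) (hi : i < 4) :
    (phi.comp Spor.M11.subtype) (mg i) = tp (nat_lit 24) (nat_lit 5) (nat_lit 31) mtt i := by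
  have key : ∀ i < 4, ∀ n < 24, Nat.beq (idx (pg i (Golay.pt n)))
      (lk (nat_lit 5) (nat_lit 31) (mtt.get (2 * i + 1)) n) = true := by decide +kernel
  refine Equiv.ext fun n => ?_
  change phi (pg i) n = _
  by_cases hn : n < 24
  · rw [mok.apply i hn, ← beq_eq (key i hi n hn), ← phi_idx, idx_pt n hn]
  · rw [← wval_single (tp _ _ _ _) i, tp_fix _ _ (Nat.le_of_not_lt hn)]
    exact Equiv.Perm.viaEmbedding_apply_of_notMem _ _ _ fun ⟨p, hp⟩ => hn (hp ▸ idx_lt p)

theorem mg_top : gp mg (sing 4) = ⊤ :=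
  eq_top_of_le_card _ (card_M11_le.trans (mTM.le_card _ phi_pg))

theorem card_M11 : Nat.card Spor.M11 = 7920 := le_antisymm card_M11_le (by
  have := mTM.le_card _ phi_pg
  rwa [mg_top, card_top] at this)

/-- The relators in the letters from `k` on. -/
def RM (k : ℕ) : List (List ℕ) := (GL23TC.rl (GL23TC.ex [2, 1])).map fun w => w.map fun i => 2 * (k + i - 1)

theorem rel_of {G : Type*} [Group G] {F : ℕ → G} (k : ℕ) (h : ∀ w ∈ RM k, wval F w = 1) :
    Rel (F k) (F (k + 1)) (F (k + 2)) (F (k + 3)) (GL23TC.rl (GL23TC.ex [2, 1])) := fun r hr => by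
  rw [← h _ (List.mem_map_of_mem hr)]
  have h1 : ∀ i ∈ r, i ∈ [1, 2, 3, 4] :=
    (by decide +kernel : ∀ r ∈ GL23TC.rl (GL23TC.ex [2, 1]), ∀ i ∈ r, i ∈ [1, 2, 3, 4]) r hr
  clear hr
  induction r with
  | nil => rfl
  | cons i r ih =>
    rw [List.map_cons, wval_cons, ← ih fun j hj => h1 j (List.mem_cons_of_mem _ hj), ev, List.map_cons,
      List.prod_cons, lval, if_pos (by omega), Nat.mul_div_cancel_left _ two_pos]
    have := h1 i List.mem_cons_self
    simp only [List.mem_cons, List.not_mem_nil, or_false] at this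
    rcases this with rfl | rfl | rfl | rfl <;> rfl

theorem rel_mg : ∀ w ∈ RM 0, wval mg w = 1 := fun w hw => by
  have hi : Function.Injective (phi.comp Spor.M11.subtype) := phi_injective.comp Subtype.val_injective
  apply hi
  rw [map_one, map_wval, wval_congr phi_pg (by
    simpa using List.all_eq_true.1 (by decide +kernel : (RM 0).all (lt2 4) = true) w hw)]
  exact mok.relsA _ (by decide +kernel) w hw

/-- A group of order at least `7920` that is generated by four elements with the relators is `M₁₁`. -/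
theorem iso_M11 {X : Type*} [Group X] [Finite X] {a b c d : X}
    (h : Rel a b c d (GL23TC.rl (GL23TC.ex [2, 1])))
    (top : ∀ K : Subgroup X, a ∈ K → b ∈ K → c ∈ K → d ∈ K → K = ⊤) (hc : 7920 ≤ Nat.card X) :
    Nonempty (X ≃* Spor.M11) := by
  obtain ⟨hfin, hle⟩ := GL23TC.card_le (h.prod (rel_of 0 rel_mg)) GL23TC.tMC
  rw [show GL23TC.tMR.length = 165 by decide +kernel] at hle
  set Γ := closure {x | x ∈ [(a, mg 0), (b, mg (0 + 1)), (c, mg (0 + 2)), (d, mg (0 + 3))]}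
  let p : Γ →* X := (MonoidHom.fst _ _).comp Γ.subtype
  let q : Γ →* Spor.M11 := (MonoidHom.snd _ _).comp Γ.subtype
  have m0 : (a, mg 0) ∈ Γ := subset_closure (by simp)
  have m1 : (b, mg 1) ∈ Γ := subset_closure (by simp)
  have m2 : (c, mg 2) ∈ Γ := subset_closure (by simp)
  have m3 : (d, mg 3) ∈ Γ := subset_closure (by simp)
  have hp : Function.Surjective p := MonoidHom.range_eq_top.1
    (top _ ⟨⟨_, m0⟩, rfl⟩ ⟨⟨_, m1⟩, rfl⟩ ⟨⟨_, m2⟩, rfl⟩ ⟨⟨_, m3⟩, rfl⟩)
  have hq : Function.Surjective q := MonoidHom.range_eq_top.1 (top_le_iff.1 (mg_top ▸ gp_le.2 fun w hw => by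
    obtain ⟨i, hi, rfl⟩ := List.mem_map.1 hw
    rw [wval_single]
    have := List.mem_range.1 hi
    interval_cases i
    exacts [⟨⟨_, m0⟩, rfl⟩, ⟨⟨_, m1⟩, rfl⟩, ⟨⟨_, m2⟩, rfl⟩, ⟨⟨_, m3⟩, rfl⟩]))
  exact ⟨(MulEquiv.ofBijective p (hp.bijective_of_nat_card_le (by omega))).symm.trans
    (MulEquiv.ofBijective q (hq.bijective_of_nat_card_le (by rw [card_M11]; omega)))⟩

end Cfsg.Agent.Lib.Suz3
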