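import Cfsg.Agent.Lib.Suz3A

/-! Elements of order `3` of the centraliser of the central involution of the Suzuki group. -/

set_option autoImplicit false
set_option maxRecDepth 100000

namespace Cfsg.Agent.Lib.Suz3

open Subgroup Cfsg.Agent.Lib.PermNet Cfsg.Agent.Lib.Words Cfsg.Agent.Lib.PermGroup Cfsg.Agent.Lib.DCE
  Cfsg.Agent.Lib.PermModel Cfsg.Agent.Lib.BT Cfsg.Agent.Lib.Rk3PH
open scoped commutatorElement

variable {G : Type*} [Group G]

/-- The commutators with `c` lie in a subgroup of order `8`. -/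
def P8 (Q : Subgroup G) (c : G) : Prop := ∃ K : Subgroup G, Nat.card K = 8 ∧ ∀ q ∈ Q, ⁅q, c⁆ ∈ K

theorem P8.conj {Q : Subgroup G} {c m : G} (h : P8 Q c) (hm : m ∈ normalizer (Q : Set G)) :
    P8 Q (m * c * m⁻¹) := by
  obtain ⟨K, h1, h2⟩ := h
  refine ⟨K.map (MulAut.conj m).toMonoidHom, (card_map_of_injective (MulAut.conj m).injective).trans h1,
    fun q hq => ⟨_, h2 (m⁻¹ * q * m⁻¹⁻¹) ((mem_normalizer_iff.1 (inv_mem hm) q).1 hq), ?_⟩⟩
  simp only [commutatorElement_def, MulEquiv.coe_toMonoidHom, MulAut.conj_apply]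
  group

variable {F : ℕ → G}

/-- The conjugate model. -/
noncomputable def conjM (M : MW F) (g : G) : MW fun i => g * F i * g⁻¹ where
  π := M.π.comp (MulAut.conj (⟨g, trivial⟩ : (⊤ : Subgroup G))).symm.toMonoidHom
  y i := MulAut.conj (⟨g, trivial⟩ : (⊤ : Subgroup G)) (M.y i)
  hy i := by simp [M.hy]
  good l p hp := by
    have := M.good l p hp
    rw [map_lval] at this ⊢
    simpa only [MonoidHom.comp_apply, MulEquiv.coe_toMonoidHom, MulEquiv.symm_apply_apply] using this
  lt _ := M.lt _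
  faith _ := M.faith _
  hB := M.hB
  ker x := (M.ker _).trans (by simp [mul_eq_one_iff_eq_inv])
  card := by
    rw [MonoidHom.range_comp, MonoidHom.range_eq_top.2 (MulEquiv.surjective _), ← MonoidHom.range_eq_map]
    exact M.card

theorem wval_conj (g : G) (w : List ℕ) : wval (fun i => g * F i * g⁻¹) w = g * wval F w * g⁻¹ :=
  (map_wval (MulAut.conj g).toMonoidHom F w).symm

theorem cls3 [Finite G] (M : MW F) (hH : Nat.card (centralizer ({F 6} : Set G)) = 3317760)
    (hn : centralizer {F 6} ≤ normalizer (gp F (sing 7) : Set G)) {c : G} (hc : c ∈ centralizer {F 6})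
    (h3 : c ^ 3 = 1) (h1 : c ≠ 1) (h8 : P8 (gp F (sing 7)) c) : ∃ g, g * c * g⁻¹ = wval F [24] := by
  have hL : gp F (sl LH) ≤ centralizer {F 6} := gp_le.2 fun w hw => mem_centralizer_singleton_iff.2
    (wval_single F 6 ▸ M.comm w [12] (allL_all (p := fun w => fixW (nat_lit 11) (nat_lit 2047) wtt
      (wch.map Lv.b) ((w ++ [12]) ++ invW ([12] ++ w))) (by decide +kernel) w hw))
  have hS : gp F (pcG dS) ≤ centralizer {F 6} := (gp_mono (by decide)).trans hL
  obtain ⟨m, hm, h⟩ := conj_into (M := centralizer {F 6}) (H := gp F (pcG dS)) (k := 1) Nat.prime_three (by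
    have := ((gp F (pcG dS)).subgroupOf (centralizer {F 6})).index_mul_card
    rw [Nat.card_congr (subgroupOfEquivOfLe hS).toEquiv, (pc M pS).2.2, hH, show pcN dS = 81 from rfl] at this
    rw [relIndex]
    omega) (zpowers_le.2 hc) (by
      rintro _ ⟨n, rfl⟩
      rw [pow_one, ← zpow_natCast, ← zpow_mul, mul_comm, zpow_mul, zpow_natCast, h3, one_zpow])
  obtain ⟨w, hw, e⟩ := exists_nw (pc M pS).1 (pc M pS).2.1 (h c (mem_zpowers c))
  rcases cls M kS w hw with h | ⟨g, hg, r, hr, h⟩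
  · exact absurd (by rw [wval_rep, e, conj_pow, h3]; simp) (M.ne_one _ h)
  rw [e] at h
  rcases List.mem_cons.1 hr with rfl | hr
  · exact absurd (by simpa using h) h1
  rcases List.mem_cons.1 hr with rfl | hr
  · exact ⟨g * m, by rw [← h]; group⟩
  obtain ⟨x, hx, rfl⟩ := List.mem_map.1 hr
  obtain ⟨K, k1, k2⟩ := h ▸ (h8.conj (hn hm)).conj (hn (hL hg))
  obtain ⟨a1, a2⟩ := band_eq (allL_all kQ x hx)
  have := le_card_of M (K := K) _ 9 (fun w hw => by
    obtain ⟨q, hq, rfl⟩ := List.mem_map.1 hw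
    simp only [wval_append, wval_invW]
    refine k2 _ (wval_mem fun l hl => mem_sing F ?_)
    have := of_decide_eq_true (List.all_eq_true.1 (List.all_eq_true.1 a1 q hq) l hl)
    omega) a2
  omega

theorem index_sylow [Finite G] (M : MW F) (hG : Nat.card G = 448345497600) {c g : G}
    (h : g * c * g⁻¹ = wval F [24]) (P : Sylow 3 (normalizer (zpowers c : Set G))) :
    ¬ 3 ∣ ((P : Subgroup (normalizer (zpowers c : Set G))).map (Subgroup.subtype _)).index := by
  have h1 := (norA (conjM M g⁻¹)).2.2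
  rw [wval_conj, ← h, show g⁻¹ * (g * c * g⁻¹) * g⁻¹⁻¹ = c by group] at h1
  have h2 : centralizer {c} ≤ normalizer (zpowers c : Set G) := fun n hn => mem_nor (by
    rintro _ ⟨k, rfl⟩
    exact ⟨k, by
      simp only [← conj_zpow]
      rw [mem_centralizer_singleton_iff.1 hn, mul_inv_cancel_right]⟩)
  have h3 := card_dvd_of_le (inf_le_right.trans h2 : normalizer (AA fun i => g⁻¹ * F i * g⁻¹⁻¹ : Set G) ⊓ _ ≤ _)
  rw [h1] at h3
  obtain ⟨k, hk⟩ := P.pow_dvd_card_of_pow_dvd_card (n := 7) ((by norm_num : 3 ^ 7 ∣ 87480).trans h3)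
  have h4 := ((P : Subgroup (normalizer (zpowers c : Set G))).map (Subgroup.subtype _)).index_mul_card
  rw [card_map_of_injective (subtype_injective _), hk, hG] at h4
  rintro ⟨j, hj⟩
  rw [hj, show 3 * j * (3 ^ 7 * k) = 3 ^ 8 * (j * k) by ring] at h4
  omega

end Cfsg.Agent.Lib.Suz3
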