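import Cfsg.Agent.Lib.SuzAR

set_option autoImplicit false
set_option maxRecDepth 100000

namespace Cfsg.Agent.Lib.SuzA
open Cfsg.Agent.Lib.PermNet

theorem tr_0 : subB (ones 1782) (grow nets allg [6, 1, 0, 2, 5, 3, 1, 2, 4, 1, 5, 0, 3, 6, 1, 2, 3, 1, 6, 0, 5, 4, 2, 1, 0, 2, 1, 5] (pt 0)) = true := by decide +kernel

theorem fix0 : fixB nets hs (pt 0) = true := by decide +kernel

theorem o0_0 : subB (ivl 1 416) (grow nets hs [0, 3, 4, 5, 1, 2, 3, 2, 1, 0, 3, 4, 5, 1, 2, 0, 1] (pt 1)) = true := by decide +kernel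

theorem fix1 : fixB nets hs (ivl 1 416) = true := by decide +kernel

theorem o1_0 : subB (ivl 417 1365) (grow nets hs [1, 0, 2, 5, 3, 1, 2, 4, 1, 5, 0, 3, 1, 2, 3, 1, 0, 5, 1, 2, 4, 5, 1, 3] (pt 417)) = true := by decide +kernel

theorem fix2 : fixB nets hs (ivl 417 1365) = true := by decide +kernel

theorem ch_0 : levelB nets [[0], [2], [4], [6], [8], [10], [12]] [] 0 [6, 1, 0, 2, 5, 3, 1, 2, 4, 1, 5, 0, 3, 6, 1, 2, 3, 1, 6, 0, 5, 4, 2, 1, 0, 2, 1, 5] 0 1782 1782 = true := by decide +kernel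

theorem ch_1 : levelB nets [[0], [2], [4], [6], [8], [10]] [0] 210 [5, 1, 0, 2, 1, 3, 2, 0, 4, 1, 5, 3, 0, 2, 1, 5, 0, 3, 4, 1, 2, 0, 1] 1 416 416 = true := by decide +kernel

theorem ch_2 : levelB nets [[0], [2], [4], [6], [8]] [210, 0] 437 [0, 2, 3, 2, 4, 1, 3, 0, 2, 4, 1, 3, 0, 2, 1, 0, 4, 2, 3, 1, 2, 0, 3] 437 1345 1050 = true := by decide +kernel

theorem ch_3 : levelB nets [[8], [2, 4], [14], [16]] [437, 210, 0] 5 [0, 2, 3, 0, 2, 3, 2, 0, 3, 0, 2, 0] 5 412 192 = true := by decide +kernel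

theorem ch_4 : levelB nets [[2, 4, 14, 2, 4, 14]] [5, 437, 210, 0] 4 [0, 0] 4 261 3 = true := by decide +kernel

theorem rels0_0 : RelsOn nets 1782 11 rels0 0 11 :=
  relsOn_of_B _ _ _ _ _ 11 _ (by decide +kernel) (by decide +kernel)

end Cfsg.Agent.Lib.SuzA
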