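import Cfsg.Agent.Lib.SuzBR

set_option autoImplicit false
set_option maxRecDepth 100000

namespace Cfsg.Agent.Lib.SuzB
open Cfsg.Agent.Lib.PermNet

theorem tr_0 : subB (ones 22880) (grow nets allg [4, 3, 2, 1, 3, 0, 5, 6, 1, 2, 4, 3, 1, 5, 0, 1, 4, 2, 6, 1, 3, 0, 5, 6, 1, 2, 4, 3, 1, 6, 5, 4, 1, 2, 6, 1, 3, 2] (pt 0)) = true := by decide +kernel

theorem fix0 : fixB nets hs (pt 0) = true := by decide +kernel

theorem rels0_0 : RelsOn nets 22880 15 rels0 0 3 :=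
  relsOn_of_B _ _ _ _ _ 3 _ (by decide +kernel) (by decide +kernel)

theorem rels0_3 : RelsOn nets 22880 15 rels0 3 6 :=
  relsOn_of_B _ _ _ _ _ 3 _ (by decide +kernel) (by decide +kernel)

theorem rels0_6 : RelsOn nets 22880 15 rels0 6 9 :=
  relsOn_of_B _ _ _ _ _ 3 _ (by decide +kernel) (by decide +kernel)

theorem rels0_9 : RelsOn nets 22880 15 rels0 9 12 :=
  relsOn_of_B _ _ _ _ _ 3 _ (by decide +kernel) (by decide +kernel)

theorem rels0_12 : RelsOn nets 22880 15 rels0 12 15 :=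
  relsOn_of_B _ _ _ _ _ 3 _ (by decide +kernel) (by decide +kernel)

end Cfsg.Agent.Lib.SuzB
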