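import Cfsg.Agent.Lib.SuzBase
import Cfsg.Agent.Lib.TCSuz2
import Cfsg.Agent.Lib.SuzBC0

/-! The presented Suzuki group acting on 22880 points. -/

set_option autoImplicit false
set_option maxRecDepth 100000

namespace Cfsg.Agent.Lib.SuzB

open Cfsg.Agent.Lib.PermNet Cfsg.Agent.Lib.Words Cfsg.Agent.Lib.PermGroup Cfsg.Agent.Lib.SuzBase

theorem b2 : (gp y [[0], [2], [4], [6], [10], [12]]).relIndex (gp y [[0], [2], [4], [6], [8], [10], [12]]) ≠ 0 ∧
    (gp y [[0], [2], [4], [6], [10], [12]]).relIndex (gp y [[0], [2], [4], [6], [8], [10], [12]]) ≤ 22880 :=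
  tc_wrap I hK [[0], [2], [4], [6], [8], [10], [12]] TCSuz2.bound _ _ (by decide +kernel)

theorem index2 : (gp y hs).index ≠ 0 ∧ (gp y hs).index ≤ 22880 := by
  have := b2
  rwa [gp_top (ws := [[0], [2], [4], [6], [8], [10], [12]]) (by decide), Subgroup.relIndex_top_right] at this

theorem hrels : ∀ w ∈ relW rels, wval nets.perm w = 1 :=
  relW_one (wval_eq_of_relsOn (K := 15) hv (by norm_num) ((((rels0_0.trans rels0_3).trans rels0_6).trans rels0_9).trans rels0_12))

/-- The generators followed by the auxiliary elements. -/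
def Y : ℕ → Spor.Suz := ext y 7 defs

theorem hdefs : ∀ w ∈ defRels 7 defs, wval nets.perm w = 1 :=
  derive I hrels _ (by decide +kernel)

theorem exists_phi : ∃ φ : Spor.Suz →* Equiv.Perm ℕ, ∀ i, φ (Y i) = nets.perm i := by
  obtain ⟨φ, h⟩ := exists_hom nets.perm (derive I hrels K (by decide +kernel))
  exact ⟨φ, map_ext φ y 7 defs nets h hdefs (by decide +kernel)⟩

noncomputable def phi : Spor.Suz →* Equiv.Perm ℕ := exists_phi.choose

theorem hphi : ∀ i, phi (Y i) = nets.perm i := exists_phi.choose_spec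

theorem gpY (ws : List (List ℕ))
    (hw : ws.all (fun w => w.all (fun l => decide (l < 2 * 7))) = true) : gp Y ws = gp y ws :=
  gp_ext y 7 defs ws hw

theorem hKY : ∀ w ∈ K, wval Y w = 1 := (rels_ext 7 defs (by decide +kernel)).2 hK

theorem htr : InOrb phi.range 0 (ones 22880) := (InOrb.step hv (wval_mem_range hphi _) [4, 3, 2, 1, 3, 0, 5, 6, 1, 2, 4, 3, 1, 5, 0, 1, 4, 2, 6, 1, 3, 0, 5, 6, 1, 2, 4, 3, 1, 6, 5, 4, 1, 2, 6, 1, 3, 2] (inOrb_pt _ 0) tr_0)

theorem index_hs : (gp Y hs).index = 22880 ∧ ∀ g, g ∈ gp Y hs ↔ phi g 0 = 0 :=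
  index_gp_eq hv hphi (by rw [gpY hs (by decide)]; exact index2) fix0 htr

theorem index_eq : (gp y hs).index = 22880 := by rw [← gpY hs (by decide)]; exact index_hs.1

end Cfsg.Agent.Lib.SuzB
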