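import Cfsg.Agent.Lib.SuzBN0

set_option autoImplicit false
set_option maxRecDepth 100000

namespace Cfsg.Agent.Lib.SuzB
open Cfsg.Agent.Lib.PermNet

noncomputable def nets : NL := (.cons net0 (.cons net1 (.cons net2 (.cons net3 (.cons net4 (.cons net5 (.cons net6 .nil)))))))

theorem hv : nets.Valid 22880 := ⟨valid0, ⟨valid1, ⟨valid2, ⟨valid3, ⟨valid4, ⟨valid5, ⟨valid6, trivial⟩⟩⟩⟩⟩⟩⟩

def rels0 : List (List Nat × List Nat) := [([0, 0], []),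
  ([2, 2], []),
  ([4, 4], []),
  ([6, 6], []),
  ([8, 8], []),
  ([10, 10], []),
  ([12, 12], []),
  ([0, 2, 0, 2, 0], [2, 0, 2, 0, 2]),
  ([0, 4], [4, 0]),
  ([0, 6], [6, 0]),
  ([0, 8], [8, 0]),
  ([0, 10], [10, 0]),
  ([0, 12], [12, 0]),
  ([2, 4, 2], [4, 2, 4]),
  ([2, 6], [6, 2]),
  ([2, 8], [8, 2]),
  ([2, 10, 2], [10, 2, 10]),
  ([2, 12, 2], [12, 2, 12]),
  ([4, 6, 4, 6, 4, 6, 4, 6], [6, 4, 6, 4, 6, 4, 6, 4]),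
  ([4, 8], [8, 4]),
  ([4, 10], [10, 4]),
  ([4, 12], [12, 4]),
  ([6, 8, 6], [8, 6, 8]),
  ([6, 10], [10, 6]),
  ([6, 12], [12, 6]),
  ([8, 10], [10, 8]),
  ([8, 12], [12, 8]),
  ([10, 12, 10, 12], [12, 10, 12, 10]),
  ([0, 6, 4, 6, 4], [4, 6, 4, 6]),
  ([0, 12, 10], [10, 12]),
  ([0, 2, 4, 10, 0, 2, 4, 10, 0, 2], [10, 4, 2, 0, 10, 4, 2, 0, 10, 4]),
  ([2, 10, 12, 2, 10, 12, 2, 10], [12, 10, 2, 12, 10, 2, 12]),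
  ([2, 4, 6, 4, 6, 2, 4, 6, 4, 6, 2, 4, 6, 4, 6, 2, 4, 6, 4, 6, 2, 4, 6, 4, 6, 8, 2, 4, 6, 4, 6, 2, 4, 6, 4, 6, 2, 4, 6], [8, 6, 4, 6, 4, 2, 6, 4, 6, 4, 2, 6, 4, 6, 4, 2, 6, 4, 6, 4, 2, 6, 4, 6, 4, 2, 8, 6, 4, 6, 4, 2, 6, 4, 6, 4, 2, 6, 4])]
def rels : List (List Nat × List Nat) := rels0

def defs : List (List Nat) := []

def allg : List (List Nat) := [[0], [2], [4], [6], [8], [10], [12]]

def hs : List (List Nat) := [[0], [2], [4], [6], [10], [12]]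

end Cfsg.Agent.Lib.SuzB
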