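import Cfsg.Agent.Lib.SuzHDF0

set_option autoImplicit false
set_option maxRecDepth 100000

namespace Cfsg.Agent.Lib.SuzHD
open Cfsg.Agent.Lib.PermNet Cfsg.Agent.Lib.DCE

noncomputable def FF : FT := (.node (nat_lit 64) (.node (nat_lit 32) f0 f32) (.node (nat_lit 96) f64 (.node (nat_lit 128) f96 f128)))

def TM : List Tm := [⟨true, [], [(true, [])]⟩,
  ⟨false, [], [(false, []), (true, [])]⟩,
  ⟨true, [], [(false, [])]⟩,
  ⟨true, [3], [(false, [3]), (true, [3])]⟩,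
  ⟨false, [16, 18, 1, 17], [(false, [16, 18, 1, 17]), (false, [16, 18, 1, 17]), (true, [16, 18, 1, 17]), (true, [])]⟩,
  ⟨true, [16, 18, 1, 17], [(false, [16, 18, 1, 17]), (false, [16, 18, 1, 17]), (true, [16, 18, 1, 17])]⟩,
  ⟨true, [15, 18, 16, 15, 16, 19, 16, 21, 3], [(false, [3, 1, 2, 20, 17, 18, 17, 14, 17, 19, 14]), (false, [15, 18, 16, 15, 16, 19, 16, 21, 3]), (false, [3, 1, 2, 20, 17, 18, 17, 14, 17, 19, 14]), (false, [15, 18, 16, 15, 16, 19, 16, 21, 3]), (false, [3, 1, 2, 20, 17, 18, 17, 14, 17, 19, 14]), (false, [15, 18, 16, 15, 16, 19, 16, 21, 3]), (false, [3, 1, 2, 20, 17, 18, 17, 14, 17, 19, 14])]⟩,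
  ⟨false, [15, 18, 16, 15, 16, 19, 16, 21, 3], [(false, [3, 1, 2, 20, 17, 18, 17, 14, 17, 19, 14]), (false, [15, 18, 16, 15, 16, 19, 16, 21, 3]), (false, [3, 1, 2, 20, 17, 18, 17, 14, 17, 19, 14]), (false, [15, 18, 16, 15, 16, 19, 16, 21, 3]), (false, [3, 1, 2, 20, 17, 18, 17, 14, 17, 19, 14]), (false, [15, 18, 16, 15, 16, 19, 16, 21, 3]), (false, [3, 1, 2, 20, 17, 18, 17, 14, 17, 19, 14]), (true, [])]⟩]

def XW : List (List (List Nat)) := [[],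
  [[]],
  [[], [14, 17, 15]],
  [[], [20, 16, 2]],
  [[], [14, 17, 15], [20, 16, 2]],
  [[], [20, 16, 2], [20, 16, 2]],
  [[], [14, 17, 15], [20, 16, 2], [20]],
  [[], [14, 17, 15], [20, 16, 2], [20, 2]],
  [[], [14, 17, 15], [20, 16, 2], [20, 16, 2]],
  [[], [14, 17, 15], [20, 16, 2], [15, 17]],
  [[], [20, 16, 2], [20, 16, 2], [20, 15]],
  [[], [20, 16, 2], [20, 16, 2], [14, 17, 2]],
  [[], [14, 17, 15], [20, 16, 2], [20], [14, 17, 15]],
  [[], [14, 17, 15], [20, 16, 2], [20], [20, 15, 16]],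
  [[], [14, 17, 15], [20, 16, 2], [20, 2], [14, 17, 15]],
  [[], [14, 17, 15], [20, 16, 2], [20, 2], [20, 15, 16]],
  [[], [14, 17, 15], [20, 16, 2], [20, 16, 2], [20, 15]]]

def BB : List Nat := [(nat_lit 0), (nat_lit 57), (nat_lit 1)]



end Cfsg.Agent.Lib.SuzHD
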