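import Cfsg.Agent.Lib.SuzHDR
import Cfsg.Agent.Lib.SuzHDT
import Cfsg.Agent.Lib.SuzHDF
import Cfsg.Agent.Lib.SuzHDM

set_option autoImplicit false
set_option maxRecDepth 100000

namespace Cfsg.Agent.Lib.SuzHD
open Cfsg.Agent.Lib.PermNet Cfsg.Agent.Lib.DCE

theorem tab0 : allR (tabB nets (nat_lit 1782) (nat_lit 11) (nat_lit 1728) (nat_lit 11) (nat_lit 11) (nat_lit 2047) tH) (nat_lit 0) (nat_lit 35) = true := by decide +kernel

end Cfsg.Agent.Lib.SuzHD
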