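import Cfsg.Agent.Lib.SuzMHT
import Cfsg.Agent.Lib.SuzMQ

/-! Certificates. -/

set_option autoImplicit false
set_option maxRecDepth 100000

namespace Cfsg.Agent.Lib.SuzMH

open Cfsg.Agent.Lib.PermNet Cfsg.Agent.Lib.Words Cfsg.Agent.Lib.PermGroup Cfsg.Agent.Lib.DCE Cfsg.Agent.Lib.PermModel Cfsg.Agent.Lib.BT

def hkL1 : List (List ℕ) := [[10, 12, 11, 13], [14, 0, 15, 9, 7, 5], [14, 2, 15, 13, 5, 3], [14, 4, 15, 3], [14, 6, 15, 11, 7, 1, 3], [14, 8, 15, 9, 11, 5], [14, 10, 15, 13, 9, 3], [14, 12, 15, 13], [16, 0, 17, 11, 7, 5], [16, 2, 17, 7, 3], [16, 4, 17, 9, 5, 3, 1], [16, 6, 17, 13, 3], [16, 8, 17, 11, 3], [16, 10, 17, 11, 9, 7], [16, 12, 17, 13], [18, 0, 19, 9, 7, 5, 1], [18, 2, 19, 5], [18, 4, 19, 13, 5, 3]]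

theorem hk1 : allL (fixA (nat_lit 11) (nat_lit 2047) htt (nat_lit 1944)) hkL1 = true := by decide +kernel

def hkL2 : List (List ℕ) := [[18, 6, 19, 11, 9, 3, 1], [18, 8, 19, 9, 11, 5], [18, 10, 19, 9, 5, 3], [18, 12, 19, 13], [20, 0, 21, 13, 7], [20, 2, 21, 11, 7, 5, 3], [20, 4, 21, 9, 1, 3], [20, 6, 21, 13, 7, 1], [20, 8, 21, 9, 11, 1], [20, 10, 21, 9, 7], [20, 12, 21, 13], [14, 14, 14], [16, 16, 16], [18, 18, 18], [20, 20, 20], [14, 16, 14, 17, 15, 17], [16, 18, 16, 19, 17, 19], [18, 20, 18, 21, 19, 21], [14, 18, 15, 19], [14, 20, 15, 21]]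

theorem hk2 : allL (fixA (nat_lit 11) (nat_lit 2047) htt (nat_lit 1944)) hkL2 = true := by decide +kernel

def hkL3 : List (List ℕ) := [[16, 20, 17, 0, 2, 8, 10, 21, 11, 9, 3, 1], [14, 4, 18, 21, 16, 18, 14, 16, 21, 14, 4, 18, 21, 16, 18, 14, 16, 21]]

theorem hk3 : allL (fixA (nat_lit 11) (nat_lit 2047) htt (nat_lit 1944)) hkL3 = true := by decide +kernel

theorem hc2 : chB (nat_lit 11) (nat_lit 2047) htt (nat_lit 1944) (fun _ => true) hch2 [] = true := by decide +kernel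

theorem lk0 : allR (fun l => allR (fun p => forceB (ap1i (nat_lit 11) (nat_lit 2047) htt [l] p) fun q => band (Nat.blt q 54)
      (fixW (nat_lit 11) (nat_lit 2047) htt B2 (([l] ++ getW SuzMQ.sw p ++ invW [l]) ++ invW (getW SuzMQ.sw q)))) (nat_lit 0) 54) 0 11 = true := by
  decide +kernel

theorem lk11 : allR (fun l => allR (fun p => forceB (ap1i (nat_lit 11) (nat_lit 2047) htt [l] p) fun q => band (Nat.blt q 54)
      (fixW (nat_lit 11) (nat_lit 2047) htt B2 (([l] ++ getW SuzMQ.sw p ++ invW [l]) ++ invW (getW SuzMQ.sw q)))) (nat_lit 0) 54) 11 11 = true := by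
  decide +kernel

end Cfsg.Agent.Lib.SuzMH
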