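import Cfsg.Agent.Lib.SuzMHT

/-! Certificates. -/

set_option autoImplicit false
set_option maxRecDepth 100000

namespace Cfsg.Agent.Lib.SuzMH

open Cfsg.Agent.Lib.PermNet Cfsg.Agent.Lib.Words Cfsg.Agent.Lib.PermGroup Cfsg.Agent.Lib.DCE Cfsg.Agent.Lib.PermModel Cfsg.Agent.Lib.BT

noncomputable def ts_y : List Tst := [⟨[], [], []⟩,
  ⟨[], [], []⟩,
  ⟨[], [], []⟩,
  ⟨[], [], []⟩,
  ⟨[], [], []⟩,
  ⟨[], [], []⟩]

noncomputable def ct_y : CT := (.node 0 [] [] (nat_lit 0x0) (nd [(2, (nd [(20, (nd [(3, (nd [(1, (nd [(37, (lf [(520, [24, 24, 24, 26, 25, 25, 25])]))]))])),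
  (44, (nd [(1, (nd [(46, (lf [(405, [26])]))]))]))]))])),
  (21, (nd [(3, (nd [(2, (nd [(1, (nd [(48, (lf [(454, [24, 24, 24, 24, 26, 25, 25, 25, 25])]))]))]))])),
  (2, (nd [(44, (nd [(1, (nd [(46, (lf [(638, [24, 24, 26, 25, 25])]))]))]))]))])),
  (20, (nd [(3, (nd [(2, (nd [(1, (nd [(29, (lf [(216, [24, 26, 25])]))]))]))]))]))]) .nil)

theorem s_y : solveB (nat_lit 11) (nat_lit 2047) htt (nat_lit 1944) 500 B2 (fun _ => true) hch 1 []
    ([] : List (List ℕ)) ([] : List (List ℕ)) (prEq 500 ([] : List (List ℕ)) ([] : List (List ℕ)) ++ [[24, 1000, 24, 1000], [1000, 1000, 1000]]) [] [] (memLL [[26], [24, 26, 25], [24, 24, 26, 25, 25], [24, 24, 24, 26, 25, 25, 25], [24, 24, 24, 24, 26, 25, 25, 25, 25]]) id ts_y ct_y = true := by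
  decide +kernel



end Cfsg.Agent.Lib.SuzMH
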