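import Cfsg.Agent.Lib.SuzMHC0
import Cfsg.Agent.Lib.SuzMHC1
import Cfsg.Agent.Lib.SuzMA
import Cfsg.Agent.Lib.SuzMHY
import Cfsg.Agent.Lib.SuzMHS

/-! A faithful model of the centraliser of a central involution. -/

set_option autoImplicit false
set_option maxRecDepth 100000

namespace Cfsg.Agent.Lib.SuzMH

open Cfsg.Agent.Lib.PermNet Cfsg.Agent.Lib.Words Cfsg.Agent.Lib.PermGroup Cfsg.Agent.Lib.DCE Cfsg.Agent.Lib.PermModel Cfsg.Agent.Lib.BT

theorem hok : TabsOK (nat_lit 1944) (nat_lit 11) (nat_lit 2047) (nat_lit 32) hth hid := ⟨hok_id, (allR_of 0 32 32 (by decide) hok_0)⟩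

theorem hTM : TM 11 (nat_lit 1944) (nat_lit 11) (nat_lit 2047) (nat_lit 32) hid 3317760 hth hdefs hch :=
  ⟨hok, (all_append (hok.relsA _ hd0) (hok.relsA _ hd1)), hc, by decide +kernel⟩

theorem hK : ∀ w ∈ SuzHTC.K1, wval (tp (nat_lit 1944) (nat_lit 11) (nat_lit 2047) htt) w = 1 :=
  (all_append (hok.relsA _ hk0) (all_append (hok.relsA _ hk1) (all_append (hok.relsA _ hk2) (hok.relsA _ hk3))))

theorem hlk : AllR (fun l => allR (fun p => forceB (ap1i (nat_lit 11) (nat_lit 2047) htt [l] p) fun q => band (Nat.blt q 54)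
      (fixW (nat_lit 11) (nat_lit 2047) htt B2 (([l] ++ getW SuzMQ.sw p ++ invW [l]) ++ invW (getW SuzMQ.sw q)))) (nat_lit 0) 54 = true)
      0 (2 * 11) := (allR_of 0 11 11 (by decide) lk0).trans (allR_of 11 11 22 (by decide) lk11)

end Cfsg.Agent.Lib.SuzMH
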