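import Cfsg.Agent.Lib.SuzMHT
import Cfsg.Agent.Lib.SuzMQ

/-! Certificates. -/

set_option autoImplicit false
set_option maxRecDepth 100000

namespace Cfsg.Agent.Lib.SuzMH

open Cfsg.Agent.Lib.PermNet Cfsg.Agent.Lib.Words Cfsg.Agent.Lib.PermGroup Cfsg.Agent.Lib.DCE Cfsg.Agent.Lib.PermModel Cfsg.Agent.Lib.BT

theorem hok_id : idB (nat_lit 1944) (nat_lit 11) (nat_lit 2047) hid = true := by decide +kernel

theorem hok_0 : allR (fun i => okT (nat_lit 1944) (nat_lit 11) (nat_lit 2047) (htt.get (2 * i)) (htt.get (2 * i + 1))) (nat_lit 0) (nat_lit 32) = true := by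
  decide +kernel

def hdL0 : List (List ℕ) := [[23, 16, 15, 16, 18, 21, 16, 18, 16, 15, 16], [25, 22, 22], [27, 18, 16, 19, 21, 18, 15, 17, 14, 10], [29, 14, 4, 18, 21, 16, 18, 14, 16, 21], [31, 2, 20, 17, 18, 17, 14, 17, 19, 14], [33, 16, 0, 19, 17], [35, 17, 14, 18, 17, 14, 17, 19, 16, 0], [37, 18, 14], [39, 20, 18, 14, 17], [41, 38, 38, 36, 39, 39], [43, 39, 37, 4, 38, 38], [45, 42, 37], [47, 10, 9], [49, 8, 40, 45], [51, 44, 10, 41], [53, 39, 36, 39, 36]]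

theorem hd0 : allL (fixA (nat_lit 11) (nat_lit 2047) htt (nat_lit 1944)) hdL0 = true := by decide +kernel

def hdL1 : List (List ℕ) := [[55, 39, 37, 38, 38], [57, 38, 36, 38, 38, 37], [59, 0, 52, 57], [61, 52, 56, 54], [63, 58, 4, 58]]

theorem hd1 : allL (fixA (nat_lit 11) (nat_lit 2047) htt (nat_lit 1944)) hdL1 = true := by decide +kernel

theorem hc : chB (nat_lit 11) (nat_lit 2047) htt (nat_lit 1944) (fun _ => true) hch [] = true := by decide +kernel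

def hkL0 : List (List ℕ) := [[8, 8, 13], [10, 10, 13], [0, 0], [2, 2], [4, 4], [6, 6], [12, 12], [0, 2, 1, 3, 13], [4, 6, 5, 7, 13], [8, 10, 9, 11, 13], [0, 4, 1, 5], [2, 4, 3, 5], [0, 6, 1, 7], [2, 6, 3, 7], [0, 8, 1, 9], [2, 8, 3, 9], [0, 10, 1, 11], [2, 10, 3, 11], [4, 8, 5, 9], [6, 8, 7, 9], [4, 10, 5, 11], [6, 10, 7, 11], [0, 12, 1, 13], [2, 12, 3, 13], [4, 12, 5, 13], [6, 12, 7, 13], [8, 12, 9, 13]]

theorem hk0 : allL (fixA (nat_lit 11) (nat_lit 2047) htt (nat_lit 1944)) hkL0 = true := by decide +kernel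

end Cfsg.Agent.Lib.SuzMH
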