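import Cfsg.Agent.Lib.SuzMST
import Cfsg.Agent.Lib.SuzBase

/-! Certificates. -/

set_option autoImplicit false
set_option maxRecDepth 100000

namespace Cfsg.Agent.Lib.SuzMS

open Cfsg.Agent.Lib.PermNet Cfsg.Agent.Lib.Words Cfsg.Agent.Lib.PermGroup Cfsg.Agent.Lib.DCE Cfsg.Agent.Lib.PermModel Cfsg.Agent.Lib.BT

theorem uok_id : idB (nat_lit 1782) (nat_lit 11) (nat_lit 2047) uid = true := by decide +kernel

theorem uok_0 : allR (fun i => okT (nat_lit 1782) (nat_lit 11) (nat_lit 2047) (utt.get (2 * i)) (utt.get (2 * i + 1))) (nat_lit 0) (nat_lit 25) = true := by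
  decide +kernel

def udL0 : List (List ℕ) := [[15, 10, 2, 0, 3, 11, 7], [17, 8, 6, 4, 2, 0, 3, 5, 7, 9], [19, 14, 4, 14, 4, 14, 4, 15, 3, 5, 17, 5, 3], [21, 2, 4, 14, 16, 4, 2, 14, 5, 15, 3, 5, 15, 5, 3], [23, 2, 14, 4, 14, 4, 14, 4, 15, 3, 5, 15, 5, 15, 3], [25, 22, 18, 20, 5], [27, 5], [29, 7, 3, 1, 15, 23, 5], [31, 11], [33, 13], [35, 7, 9, 5, 7, 5, 7, 9, 7, 5], [37, 9, 1, 23, 21, 5, 24], [39, 1]]

theorem ud0 : allL (fixA (nat_lit 11) (nat_lit 2047) utt (nat_lit 1782)) udL0 = true := by decide +kernel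

def udL1 : List (List ℕ) := [[41, 3, 11, 13, 7, 3, 5, 1, 3, 13, 5, 3, 11, 7, 9, 7, 5, 15, 5, 17, 5, 15, 22, 20, 19], [43, 3, 11, 9, 7, 5, 3, 13, 3, 1, 3, 11, 7, 3, 5, 7, 9, 1, 3, 5, 17, 3, 5, 15, 20, 18, 22, 20, 25], [45, 3, 11, 7, 5, 3, 13, 5, 3, 11, 7, 9, 7, 3, 1, 17, 3, 23, 21, 23, 5], [47, 3, 11, 13, 9, 7, 3, 5, 1, 3, 13, 3, 11, 9, 1, 15, 5, 15, 3, 5, 15, 19, 21]]

theorem ud1 : allL (fixA (nat_lit 11) (nat_lit 2047) utt (nat_lit 1782)) udL1 = true := by decide +kernel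

def udL2 : List (List ℕ) := [[49, 3, 11, 5, 3, 13, 3, 1, 3, 11, 7, 3, 1, 17, 15, 5, 3]]

theorem ud2 : allL (fixA (nat_lit 11) (nat_lit 2047) utt (nat_lit 1782)) udL2 = true := by decide +kernel

end Cfsg.Agent.Lib.SuzMS
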