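import Cfsg.Agent.Lib.SuzRR

set_option autoImplicit false
set_option maxRecDepth 100000
set_option Elab.async false

namespace Cfsg.Agent.Lib.SuzR
open Cfsg.Agent.Lib.PermNet Cfsg.Agent.Lib.Words Cfsg.Agent.Lib.PermGroup Cfsg.Agent.Lib.Rk3Aut Cfsg.Agent.Lib.Rk3Emb
  Cfsg.Agent.Lib.Rk3PH Cfsg.Agent.Lib.Rk3Iso

theorem phb0 : (decide (1782 ≤ 2 ^ 11 ∧ ¬ 5 ∣ 416 ∧ 416 < pcN phbR ∧ ¬ 416 ∣ 604800 ∧ 0 < 416) && (pcG phbP).all (lt 33) &&
    (pcG phbR).all (lt 33) && pcOK phbP && pcOK phbR && phbP.all (fun e => Nat.beq e.2.1 5) &&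
    phbR.all (fun e => Nat.beq e.2.1 2) && relsOnB nets 1782 11 (pcR phbP) 0 11 && relsOnB nets 1782 11 (pcR phbR) 0 11) = true := by decide +kernel

theorem phb1_0 : List.all (NW phbR) phbF = true := by decide +kernel

theorem phb2_0 : List.all phbS (spB nets 1782 11 33 604800 (pcG phbP) phbL) = true := by decide +kernel

theorem phc0 : (decide (1782 ≤ 2 ^ 11 ∧ ¬ 2 ∣ 1365 ∧ 1365 < pcN phcR ∧ ¬ 416 ∣ 184320 ∧ 0 < 416) && (pcG phcP).all (lt 33) &&
    (pcG phcR).all (lt 33) && pcOK phcP && pcOK phcR && phcP.all (fun e => Nat.beq e.2.1 2) &&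
    phcR.all (fun e => Nat.beq e.2.1 2) && relsOnB nets 1782 11 (pcR phcP) 0 11 && relsOnB nets 1782 11 (pcR phcR) 0 11) = true := by decide +kernel

theorem phc1_0 : List.all (List.take 549 (NW phcR)) phcF = true := by decide +kernel

theorem phc1_1 : List.all (List.take 575 (List.drop 549 (NW phcR))) phcF = true := by decide +kernel

theorem phc1_2 : List.all (List.take 664 (List.drop 575 (List.drop 549 (NW phcR)))) phcF = true := by decide +kernel

theorem phc1_3 : List.all (List.drop 664 (List.drop 575 (List.drop 549 (NW phcR)))) phcF = true := by decide +kernel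

theorem phc2_0 : List.all phcS (spB nets 1782 11 33 184320 (pcG phcP) phcL) = true := by decide +kernel

theorem mod : (fixB nets hs (pt 0) && fixB nets hs (ivl 1 416) &&
    fixB nets hs (ivl (1 + 416) 1365) && subB (ivl 1 416) (grow nets hs sb (pt 1)) &&
    subB (ivl (1 + 416) 1365) (grow nets hs sc (pt (1 + 416)))) = true := by decide +kernel

theorem fxb : ((ivl 1 416).testBit 210 && fixB nets LJ (pt 210) && unionB nets LJ 1782 ol1 (ivl 1 416) fun q s =>
    !q.testBit 210 || Nat.beq q (pt 210) || !(Nat.ble (s * 0) 604800 && Nat.beq (604800 % s) 0)) = true := by decide +kernel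

theorem fxc : ((ivl 417 1365).testBit 417 && fixB nets L1 (pt 417) && unionB nets L1 1782 ol2 (ivl 417 1365) fun q s =>
    !q.testBit 417 || Nat.beq q (pt 417) || !(Nat.ble (s * 0) 184320 && Nat.beq (184320 % s) 0)) = true := by decide +kernel

theorem rw : rowsB nets 33 1782 416 210 417 LJ ws4 ol3 ol4 rwN (finB nets 34 416 210 417 rwA) = true := by decide +kernel

theorem ex : exec nets 1782 34 (ivl 1 416) (fun l => sepB l 1782) prog [ones 1782] = true := by decide +kernel

theorem rels0_0 : RelsOn nets 1782 11 rels0 0 11 :=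
  relsOn_of_B _ _ _ _ _ 11 _ (by decide +kernel) (by decide +kernel)

end Cfsg.Agent.Lib.SuzR
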