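import Cfsg.Agent.Lib.SuzMQ
import Cfsg.Agent.Lib.SuzG1
import Cfsg.Agent.Lib.FStar

/-! The extraspecial subgroup of a group of Suzuki sporadic type and four elements of order three
that normalise it. -/

set_option autoImplicit false

namespace Cfsg.Agent.Lib.SuzS1

open Subgroup Cfsg.Agent.Lib.PermNet Cfsg.Agent.Lib.Words Cfsg.Agent.Lib.PermGroup Cfsg.Agent.Lib.DCE
  Cfsg.Agent.Lib.BT Cfsg.Agent.Lib.SuzMQ
open scoped commutatorElement

variable {G : Type*} [Group G] [Finite G] {z : G} {Q : Subgroup G} {f : ℕ → G}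

/-- The hypothesis, inside `G`. -/
structure Hyp (z : G) (Q : Subgroup G) : Prop where
  zz : z * z = 1
  ne : z ≠ 1
  mem : z ∈ Q
  le : Q ≤ centralizer {z}
  nor : centralizer {z} ≤ normalizer Q
  cen : ∀ g ∈ centralizer {z}, (∀ q ∈ Q, g * q = q * g) → g = 1 ∨ g = z
  com : ∀ a ∈ Q, ∀ b ∈ Q, a * b = b * a ∨ a * b = z * (b * a)
  cQ : Nat.card Q = 128
  cH : Nat.card (centralizer ({z} : Set G)) = 3317760
  fus : ∃ g, g * z * g⁻¹ ∈ Q ∧ g * z * g⁻¹ ≠ z

theorem hyp (hz : orderOf z = 2) (Q : Subgroup (centralizer ({z} : Set G))) [hN : Q.Normal]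
    (hF : generalizedFittingSubgroup (centralizer ({z} : Set G)) = Q) (hQ : IsExtraspecial 2 Q)
    (hcard : Nat.card Q = 2 ^ 7)
    (e : centralizer ({z} : Set G) ⧸ Q ≃* Omega (ZMod 2) (quadFormMinus 2 (ZMod 2) 1 1))
    (hw : ∃ g : G, (∃ hq : g * z * g⁻¹ ∈ centralizer ({z} : Set G),
      (⟨g * z * g⁻¹, hq⟩ : centralizer ({z} : Set G)) ∈ Q) ∧ g * z * g⁻¹ ≠ z) :
    Hyp z (Q.map (centralizer {z}).subtype) := by
  have hC : centralizer (Q : Set (centralizer ({z} : Set G))) ≤ Q := hF ▸ FStar.centralizer_fstar_le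
  let z' : centralizer ({z} : Set G) := ⟨z, mem_centralizer_singleton_iff.2 rfl⟩
  have hzc : ∀ g, g * z' = z' * g := fun g => Subtype.ext (mem_centralizer_singleton_iff.1 g.2)
  have hzQ : z' ∈ Q := hC fun g _ => hzc g
  have hz1 : z ≠ 1 := by rintro rfl; simp at hz
  have key : ∀ g : Q, g ∈ center Q → (g.1 : G) = 1 ∨ (g.1 : G) = z := by
    intro g hg
    obtain ⟨y, -, hy⟩ := (Nat.card_eq_two_iff' (1 : center Q)).mp hQ.2
    have h1 := hy ⟨⟨z', hzQ⟩, mem_center_iff.mpr fun r => Subtype.ext (hzc r)⟩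
      fun h => hz1 (congrArg (fun x : center Q => (x.1.1 : G)) h)
    by_cases h : (⟨g, hg⟩ : center Q) = 1
    · exact Or.inl (congrArg (fun x : center Q => (x.1.1 : G)) h)
    · exact Or.inr (congrArg (fun x : center Q => (x.1.1 : G)) ((hy _ h).trans h1.symm))
  refine ⟨by rw [← sq, ← hz, pow_orderOf_eq_one], hz1, ⟨z', hzQ, rfl⟩, map_subtype_le Q,
    fun g hg => ?_, fun g hg h => ?_, ?_, ?_, ?_, ?_⟩
  · have := le_normalizer_map (H := Q) (centralizer {z}).subtype
    exact this ⟨⟨g, hg⟩, le_normalizer_of_normal (mem_top _), rfl⟩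
  · have : (⟨g, hg⟩ : centralizer ({z} : Set G)) ∈ centralizer (Q : Set (centralizer ({z} : Set G))) :=
      fun r hr => Subtype.ext (h r ⟨r, hr, rfl⟩).symm
    exact key ⟨_, hC this⟩ (mem_center_iff.mpr fun r => Subtype.ext (this r r.2))
  · rintro _ ⟨q, hq, rfl⟩ _ ⟨r, hr, rfl⟩
    have h1 : ⁅(⟨q, hq⟩ : Q), (⟨r, hr⟩ : Q)⁆ ∈ commutator Q :=
      commutator_mem_commutator (mem_top _) (mem_top _)
    rw [hQ.1.2.2] at h1
    change (q : G) * r = r * q ∨ (q : G) * r = z * (r * q)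
    rcases key _ h1 with h | h <;> change (q : G) * r * (q : G)⁻¹ * (r : G)⁻¹ = _ at h
    · left; rw [← one_mul ((r : G) * q), ← h]; group
    · right; rw [← mul_inv_eq_iff_eq_mul, mul_inv_rev, ← mul_assoc]; exact h
  · rw [card_map_of_injective (subtype_injective _), hcard]; rfl
  · rw [card_eq_card_quotient_mul_card_subgroup Q, Nat.card_congr e.toEquiv, SuzG1.card_omega, hcard]
    rfl
  · obtain ⟨g, ⟨h1, h2⟩, h3⟩ := hw
    exact ⟨g, ⟨_, h2, rfl⟩, h3⟩

omit [Finite G] in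
theorem top_ext {n : ℕ} (defs : List (List ℕ)) : gp (ext f n defs) (sing n) = gp f (sing n) :=
  gp_congr (fun _ hi => ext_of_lt _ _ hi) (by simp [sing])

omit [Finite G] in
theorem rels_ext' {n : ℕ} (defs : List (List ℕ)) {K : List (List ℕ)} (h : ∀ w ∈ K, wval f w = 1)
    (hK : K.all (lt2 n) = true) : ∀ w ∈ K, wval (ext f n defs) w = 1 := fun w hw =>
  (wval_ext f n defs w (List.all_eq_true.1 hK w hw)).trans (h w hw)

/-- The regular model of `Q`. -/
abbrev MQ (f : ℕ → G) (Q : Subgroup G) :=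
  Model (ext f 7 []) Q ⊥ (nat_lit 128) (nat_lit 7) (nat_lit 127) mtt (mch.map Lv.b) 128

theorem Hyp.fix (h : Hyp z Q) {F : ℕ → G} {N wb mask : ℕ} {tt : TT} {B : List ℕ} {T : ℕ}
    (M : Model F Q ⊥ N wb mask tt B T) (e : F 6 = z) : ∀ φ : MulAut Q, ∀ j ∈ [6], φ (M.y j) = M.y j := by
  intro φ j hj
  rw [List.mem_singleton.1 hj]
  have e' : (M.y 6 : G) = z := (M.hy 6).trans e
  rcases h.cen _ (h.le (φ (M.y 6)).2) fun q hq => by
    obtain ⟨r, hr⟩ := φ.surjective ⟨q, hq⟩
    have : M.y 6 * r = r * M.y 6 :=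
      Subtype.ext (by simpa [e'] using (mem_centralizer_singleton_iff.1 (h.le r.2)).symm)
    simpa [hr] using congrArg (fun x => (φ x : G)) this with h1 | h1
  · exact absurd (e' ▸ congrArg Subtype.val ((map_eq_one_iff φ φ.injective).1 (Subtype.ext h1))) h.ne
  · exact Subtype.ext (h1.trans e'.symm)

/-- Generators of `Q` and four elements of order three. -/
structure SA (z : G) (Q : Subgroup G) (f : ℕ → G) : Prop where
  z6 : f 6 = z
  top : gp f (sing 7) = Q
  rel : ∀ w ∈ SuzHTC.KQ, wval f w = 1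
  mem : ∀ i < 11, f i ∈ centralizer {z}
  pow : ∀ j < 4, f (7 + j) ^ 3 = 1
  act : ∀ j < 4, ∀ i < 7, f (7 + j) * f i * (f (7 + j))⁻¹ = wval f ((CW.getD j []).getD i [])

theorem model (h : Hyp z Q) (top : gp f (sing 7) = Q) (rel : ∀ w ∈ SuzHTC.KQ, wval f w = 1) :
    Nonempty (MQ f Q) := mTM.fmodel top rel mK (fun z => SuzHTC.cardQ z) h.cQ.ge

theorem Hyp.exists_SA (h : Hyp z Q) : ∃ f, SA z Q f := by
  have hc : ∀ g ∈ centralizer {z}, g * z = z * g := fun g => mem_centralizer_singleton_iff.1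
  obtain ⟨m, e, e6, hr, top⟩ := SuzG1.exists_gens (z := (⟨z, h.mem⟩ : Q)) ⟨fun e => h.ne (congrArg Subtype.val e),
    fun a => ⟨fun ha => (h.cen a (h.le a.2) fun q hq =>
      congrArg Subtype.val (mem_center_iff.1 ha ⟨q, hq⟩).symm).imp Subtype.ext Subtype.ext, by
        rintro (rfl | rfl)
        exacts [one_mem _, mem_center_iff.2 fun g => Subtype.ext (hc g (h.le g.2))]⟩,
    fun a b => (h.com a a.2 b b.2).imp Subtype.ext Subtype.ext⟩ h.cQ
  set f0 : ℕ → G := fun i => e i with hf0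
  replace top : gp f0 (sing 7) = Q := by
    have := congrArg (map Q.subtype) top
    rwa [map_gp, ← MonoidHom.range_eq_map, range_subtype] at this
  replace hr : ∀ w ∈ SuzG1.RQ m, wval f0 w = 1 := fun w hw =>
    (map_wval Q.subtype e w).symm.trans (congrArg Subtype.val (hr w hw))
  replace e6 : f0 6 = z := congrArg Subtype.val e6
  have e6' : ext f0 7 [] 6 = z := (ext_of_lt _ _ (by decide)).trans e6
  have top' := (top_ext []).trans top
  cases m
  · exfalso
    obtain ⟨M⟩ := pTM.fmodel top hr pK (fun z => SuzHTC.cardP z) h.cQ.ge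
    have hA := M.card_aut (M.ch_top pch (by decide +kernel)) (M.top top') pst [6] (h.fix M e6') paut
      (by decide +kernel)
    rw [pprod] at hA
    obtain ⟨g, hg, g7, ga⟩ := M.lift h.nor h.le h.zz (h.le h.mem) hc h.cen (by rw [h.cH]; omega) top'
      (rels_ext' [] hr (by decide)) (fun y hy => h.cQ ▸ SuzHTC.cardP y hy) W7 3 l7
    have g1 : (⟨g, hg⟩ : centralizer ({z} : Set G)) ≠ 1 := fun e1 => by
      have := ga 0 (by decide)
      rw [show g = 1 from congrArg Subtype.val e1, one_mul, inv_one, mul_one, ← wval_single (y := ext f0 7 [])] at this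
      exact M.ne [0] _ (by decide +kernel) this
    have := Fact.mk (show Nat.Prime 7 by norm_num)
    have := orderOf_dvd_natCard (⟨g, hg⟩ : centralizer ({z} : Set G))
    rw [orderOf_eq_prime (p := 7) (Subtype.ext g7) g1, h.cH] at this
    exact absurd this (by decide)
  obtain ⟨M⟩ := model h top hr
  have hA := M.card_aut (M.ch_top mch (by decide +kernel)) (M.top top') mst [6] (h.fix M e6') maut
    (by decide +kernel)
  rw [mprod] at hA
  choose! g g1 g2 g3 using fun j (hj : j < 4) => M.lift h.nor h.le h.zz (h.le h.mem) hc h.cen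
    (by rw [h.cH]; omega) top' (rels_ext' [] hr (by decide)) (fun y hy => h.cQ ▸ SuzHTC.cardQ y hy) _ 1 (l3 j hj)
  let f : ℕ → G := fun i => if i < 7 then f0 i else g (i - 7)
  have f1 : ∀ i < 7, f i = f0 i := fun i hi => if_pos hi
  have f2 : ∀ j, f (7 + j) = g j := fun j => (if_neg (by omega)).trans (by rw [Nat.add_sub_cancel_left])
  have f3 : ∀ w, lt2 7 w = true → wval f w = wval f0 w := fun w hw => wval_congr f1 (by simpa using hw)
  refine ⟨f, e6, (gp_congr f1 (by decide)).trans top, fun w hw =>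
    (f3 w (List.all_eq_true.1 (by decide : SuzHTC.KQ.all (lt2 7) = true) w hw)).trans (hr w hw),
    fun i hi => ?_, fun j hj => f2 j ▸ g2 j hj, fun j hj i hi => ?_⟩
  · by_cases h7 : i < 7
    · exact f1 i h7 ▸ h.le (e i).2
    · rw [show i = 7 + (i - 7) by omega, f2]; exact g1 _ (by omega)
  · have hl := (by decide : ∀ j < 4, ∀ i < 7, lt2 7 ((CW.getD j []).getD i []) = true) j hj i hi
    rw [f2, f1 i hi, f3 _ hl, ← wval_ext f0 7 [] _ hl, ← g3 j hj i hi, ext_of_lt _ _ hi]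

end Cfsg.Agent.Lib.SuzS1
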