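import Cfsg.Agent.Lib.SuzS1
import Cfsg.Agent.Lib.SuzMA

/-! The centraliser of the involution in a group of Suzuki sporadic type: a presentation. -/

set_option autoImplicit false
set_option maxRecDepth 100000

namespace Cfsg.Agent.Lib.SuzS2

open Subgroup Cfsg.Agent.Lib.PermNet Cfsg.Agent.Lib.Words Cfsg.Agent.Lib.PermGroup Cfsg.Agent.Lib.DCE
  Cfsg.Agent.Lib.BT Cfsg.Agent.Lib.SuzMQ Cfsg.Agent.Lib.SuzMH Cfsg.Agent.Lib.SuzS1

variable {G : Type*} [Group G] {z : G} {Q : Subgroup G} {f : ℕ → G}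

theorem wval_cj (y : ℕ → G) (i j : ℕ) : wval y [2 * i, 2 * j, 2 * i + 1] = y i * y j * (y i)⁻¹ := by
  rw [wval_cons, wval_cons, wval_odd, ← wval_single y i, ← wval_single y j]; simp [wval, mul_assoc]

theorem conj_act {g u x : G} {e : ℤ} (hg : g ∈ normalizer (zpowers x : Set G))
    (h : u * x * u⁻¹ = x ^ e) : g * u * g⁻¹ * x * (g * u * g⁻¹)⁻¹ = x ^ e := by
  obtain ⟨n, hn⟩ : g⁻¹ * x * g⁻¹⁻¹ ∈ zpowers x := (inv_mem hg x).1 (mem_zpowers x)
  have h1 : u * x ^ n * u⁻¹ = (x ^ n) ^ e := by rw [← conj_zpow, h, ← zpow_mul, ← zpow_mul, mul_comm]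
  change x ^ n = _ at hn
  calc _ = g * (u * (g⁻¹ * x * g⁻¹⁻¹) * u⁻¹) * g⁻¹ := by group
    _ = x ^ e := by rw [← hn, h1, hn, conj_zpow]; group

theorem nor_of [Finite G] {g x : G} (h : g * x * g⁻¹ ∈ zpowers x) :
    g ∈ normalizer (zpowers x : Set G) := mem_normalizer_fintype (by
  rintro _ ⟨n, rfl⟩
  have := zpow_mem h n
  rwa [conj_zpow] at this)

/-- All letters. -/
scoped notation:max "FF " f:max => ext f 11 hdefs

/-- The non-central involutions of `Q`. -/
noncomputable abbrev s (f : ℕ → G) (p : ℕ) : G := wval (FF f) (getW sw p)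

theorem toF {w : List ℕ} (h : lt2 7 w = true) : wval (ext f 7 []) w = wval (FF f) w :=
  wval_congr (n := 7) (fun i hi => by rw [ext_of_lt _ _ hi, ext_of_lt _ _ (by omega)]) (by simpa using h)

theorem s_eq (p : ℕ) : wval (ext f 7 []) (getW sw p) = s f p := toF (by
  rcases getW_mem_or sw p with h | h
  · exact List.all_eq_true.1 (by decide : sw.all (lt2 7) = true) _ h
  · rw [h]; rfl)

theorem s0 : s f 0 = FF f 0 := wval_single (FF f) 0

/-- The action on the non-central involutions of `Q`. -/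
abbrev MA (z : G) (f : ℕ → G) := Model (FF f) (centralizer {z}) (zpowers z) (nat_lit 54) (nat_lit 6)
  (nat_lit 63) att (ach.map Lv.b) 1658880

def RC : List (List ℕ) := (List.range 4).flatMap fun j => (List.range 7).map fun i =>
  [2 * (7 + j), 2 * i, 2 * (7 + j) + 1] ++ invW ((CW.getD j []).getD i [])

def RB : List (List ℕ × ℕ × List ℕ × ℕ) := [([14, 16], 0, [], 1), ([16, 18], 1, [], 2), ([18, 20], 2, [], 3),
  ([14], 2, [], 2), ([14], 3, [], 3), ([16], 3, [0, 2, 8, 10], 3)]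

def rb (e : List ℕ × ℕ × List ℕ × ℕ) : List ℕ :=
  e.1 ++ [2 * (7 + e.2.1)] ++ invW e.1 ++ invW (e.2.2.1 ++ [2 * (7 + e.2.2.2)] ++ invW e.2.2.1)

def nw : List ℕ := [14, 4, 18, 21, 16, 18, 14, 16, 21]

theorem K1_eq : SuzHTC.K1 = SuzHTC.KQ ++ RC ++ (List.range 4).map (fun j => rep 3 [2 * (7 + j)]) ++
    RB.map rb ++ [nw ++ nw] := by decide +kernel

variable [Finite G] (h : Hyp z Q) (A : SA z Q f)
include h A

omit [Finite G] h in
theorem F6 : FF f 6 = z := (ext_of_lt _ _ (by decide)).trans A.z6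

theorem s_inv {p : ℕ} (hp : p < 54) : s f p ∈ Q ∧ s f p * s f p = 1 ∧ s f p ≠ 1 ∧ s f p ≠ z := by
  obtain ⟨M⟩ := model h A.top A.rel
  have := allR_all (show allR (fun p => band (fixW (nat_lit 7) (nat_lit 127) mtt (mch.map Lv.b)
    (getW sw p ++ getW sw p)) (band (bnot (fixW (nat_lit 7) (nat_lit 127) mtt (mch.map Lv.b) (getW sw p)))
    (bnot (fixW (nat_lit 7) (nat_lit 127) mtt (mch.map Lv.b) (getW sw p ++ invW [12]))))) 0 54 = true by
      decide +kernel) p (Nat.zero_le _) (by simpa using hp)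
  rw [← s_eq, ← wval_append]
  refine ⟨M.mem _, M.one _ (band_eq this).1, M.ne_one _ (band_eq (band_eq this).2).1, ?_⟩
  have := M.ne _ _ (band_eq (band_eq this).2).2
  rwa [wval_single _ 6, ext_of_lt _ _ (by decide), A.z6] at this

theorem s_inj : ∀ p < 54, ∀ q < 54, s f p = s f q → p = q := by
  obtain ⟨M⟩ := model h A.top A.rel
  simpa only [s_eq] using M.inj sw 54 inj54

theorem s_all {c : G} (hc : c ∈ Q) (h1 : c * c = 1) (h2 : c ≠ 1) (h3 : c ≠ z) : ∃ q < 54, c = s f q := by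
  obtain ⟨M⟩ := model h A.top A.rel
  have e6 : Function.update (ext f 7 []) 7 c 6 = z := by
    rw [Function.update_of_ne (by decide), ext_of_lt _ _ (by decide), A.z6]
  obtain ⟨g, hg, u, hu, t, ht, e⟩ := M.solve (M.ch_top mch (by decide +kernel)) (fun l _ => M.lmem _) inv54
    hc hc (.inl rfl) .nil (by simpa [wval, lval] using h1)
    (by simpa [wval, lval, e6, mul_inv_eq_one, ext_of_lt, A.z6] using And.intro h2 h3)
  obtain ⟨q, hq, rfl⟩ := List.getElem_of_mem (memLL_mem hu)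
  refine ⟨q, hq, ?_⟩
  rw [e, show g = 1 by simpa [sl, gp_nil] using hg, mem_bot.1 ht, one_mul, mul_one, ← s_eq, getW_eq,
    List.getD_eq_getElem _ _ hq, id]

theorem modelA : ∃ M : MA z f, ∀ g : centralizer {z}, ∀ p < 54, g * s f p * (g : G)⁻¹ = s f (M.π g p) := by
  obtain ⟨M⟩ := model h A.top A.rel
  have hc : ∀ g ∈ centralizer {z}, g * z = z * g := fun g => mem_centralizer_singleton_iff.1
  refine aTM.cmodel A.mem (s_inj h A) (fun g hg p hp => ?_) (fun g hg => ⟨fun e => ?_, fun e p hp => ?_⟩)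
    (fun i hi p hp => ?_) ?_
  · obtain ⟨h1, h2, h3, h4⟩ := s_inv h A hp
    refine s_all h A ((h.nor hg _).1 h1) (by rw [conj_mul, h2]; simp) (by simpa using h3) fun e => h4 ?_
    rw [mul_inv_eq_iff_eq_mul, ← hc g hg] at e
    exact mul_left_cancel e
  · refine (mem_zpowers_two h.zz).2 (h.cen g hg fun q hq => ?_)
    have h1 : gp (ext f 7 []) sw ≤ centralizer {g} := gp_le.2 fun w hw => by
      obtain ⟨q, hq, rfl⟩ := List.getElem_of_mem hw
      rw [← List.getD_eq_getElem _ [] hq, ← getW_eq, s_eq, mem_centralizer_singleton_iff]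
      exact (mul_inv_eq_iff_eq_mul.1 (e q hq)).symm
    have h2 : gp (ext f 7 []) (sing 7) ≤ gp (ext f 7 []) sw := gp_le.2 fun w hw => by
      obtain ⟨i, hi, rfl⟩ := List.mem_map.1 hw
      rw [M.eq _ _ (allR_all gen54 i (Nat.zero_le _) (by simpa using hi))]
      exact subst_mem_gp _ _
    exact (mem_centralizer_singleton_iff.1 (h1 (h2 (((top_ext []).trans A.top).symm ▸ hq)))).symm
  · rcases (mem_zpowers_two h.zz).1 e with rfl | rfl
    · simp
    · rw [← hc _ (h.le (s_inv h A hp).1), mul_inv_cancel_right]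
  · have := M.eq _ _ (allR_all (allR_all ahc i (Nat.zero_le _) (by simpa using hi)) p (Nat.zero_le _)
      (by simpa using show p < 54 from hp))
    rw [← s_eq, ← s_eq, ← this]
    refine conj_word (n := 7) (fun j hj => ?_) (by
      rcases getW_mem_or sw p with h | h
      · exact List.all_eq_true.1 (by decide : sw.all (lt2 7) = true) _ h
      · rw [h]; rfl)
    rw [wval_ext _ _ _ _ ((by decide : ∀ i < 11, ∀ j < 7, lt2 7 ((WI.getD i []).getD j []) = true) i hi j hj),
      ext_of_lt _ _ hj]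
    by_cases h7 : i < 7
    · rw [(by decide : ∀ i < 7, ∀ j < 7, (WI.getD i []).getD j [] = [2 * i, 2 * j, 2 * i + 1]) i h7 j hj, wval_cj]
    · obtain ⟨k, rfl⟩ := Nat.exists_eq_add_of_le (Nat.le_of_not_lt h7)
      rw [(by decide : ∀ k < 4, WI.getD (7 + k) [] = CW.getD k []) k (by omega), A.act k (by omega) j hj]
  · rw [h.cH, Nat.card_congr (subgroupOfEquivOfLe (zpowers_le.2 (h.le h.mem))).toEquiv, Nat.card_zpowers,
      orderOf_eq_prime (p := 2) ((sq z).trans h.zz) h.ne]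

/-- The presentation, and an element that interchanges `z` and `e₀`. -/
structure SB (z : G) (f : ℕ → G) (g : G) : Prop where
  z6 : FF f 6 = z
  rel : ∀ w ∈ SuzHTC.K1, wval f w = 1
  top : gp f (sing 11) = centralizer {z}
  card : Nat.card (centralizer ({z} : Set G)) = 3317760
  inj : ∀ p < 54, ∀ q < 54, s f p = s f q → p = q
  gz : g * z * g⁻¹ = FF f 0
  ga : g * FF f 0 * g⁻¹ = z
  gx : g ∈ normalizer (zpowers (FF f 12) : Set G)

theorem exists_SB : ∃ g, SB z f g := by
  obtain ⟨M, hs⟩ := modelA h A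
  have hc : ∀ g ∈ centralizer {z}, g * z = z * g := fun g => mem_centralizer_singleton_iff.1
  have hm : ∀ {g}, g * z = z * g → g ∈ centralizer {z} := mem_centralizer_singleton_iff.2
  have ch : M.Ch _ ach := M.ch_top ach (by decide +kernel)
  have w1 := wval_single (FF f)
  have x5 : wval (FF f) [24] ^ (2 * 2 + 1) = 1 := by
    have := M.rel (rep 5 [22]) (by decide +kernel)
    rw [wval_rep, w1 11] at this
    rw [w1 12, letter_eq f 11 hdefs 12 [22, 22] (by decide +kernel), show wval (FF f) [22, 22] = FF f 11 ^ 2 by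
      simp [wval, lval, sq], ← pow_mul, mul_comm, pow_mul]
    rcases (mem_zpowers_two h.zz).1 this with e | e <;> rw [e]
    exacts [one_pow _, (sq z).trans h.zz]
  have xj : ∀ (j : ℕ) (u : List ℕ), fixW (nat_lit 6) (nat_lit 63) att (ach.map Lv.b)
      (u ++ [24] ++ invW u ++ invW ([] ++ rep j [24] ++ invW [])) = true →
      wval (FF f) u * FF f 12 * (wval (FF f) u)⁻¹ = FF f 12 ^ j := fun j u e => by
    simpa [wval_rep, w1 12] using M.rigid h.zz hc 2 u [24] [] (rep j [24]) x5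
      (by rw [wval_rep, ← pow_mul, mul_comm, pow_mul, x5, one_pow]) e
  have x1 : FF f 12 ≠ 1 := fun e => M.nrel [24] (by decide +kernel) (by rw [w1 12, e]; exact one_mem _)
  rw [w1 12] at x5
  obtain ⟨a1, a2, a3, a4⟩ := s_inv h A (p := 0) (by decide)
  have xa := M.conj_pt hs [24] 0 0 (by decide +kernel)
  rw [w1 12] at xa
  obtain ⟨g, gz, gx⟩ : ∃ g, g * z * g⁻¹ = s f 0 ∧ g ∈ normalizer (zpowers (FF f 12) : Set G) := by
    obtain ⟨g, g1, g2⟩ := h.fus
    obtain ⟨p, hp, e⟩ := s_all h A g1 (by rw [conj_mul, h.zz]; simp) (by simpa using h.ne) g2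
    obtain ⟨k, -, hk⟩ := M.trans_pt hs ch (by decide +kernel) hp
    have e1 : k⁻¹ * g * z * (k⁻¹ * g)⁻¹ = s f 0 := by
      change k * s f 0 * k⁻¹ = _ at hk
      calc _ = k⁻¹ * (g * z * g⁻¹) * k := by group
        _ = _ := by rw [e, ← hk]; group
    generalize k⁻¹ * g = g at e1
    obtain ⟨k, hk, e2⟩ := SuzG1.sylow_conj (H := centralizer {z}) Nat.prime_five (by rw [h.cH]; decide)
      (M.lmem 12) (c := g⁻¹ * FF f 12 * g⁻¹⁻¹) (hm (by
        calc _ = g⁻¹ * (FF f 12 * (g * z * g⁻¹) * (FF f 12)⁻¹) * FF f 12 * g := by group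
          _ = _ := by rw [e1, xa, ← e1]; group)) x5 x1 (by rw [conj_pow, x5]; simp)
      (fun e => x1 (conj_eq_one_iff.1 e))
    refine ⟨g * k⁻¹, ?_, inv_mem_iff.1 (nor_of ?_)⟩
    · rw [mul_assoc g, hc _ (inv_mem hk), ← e1]; group
    · rw [← e2]; convert mem_zpowers _ using 1; group
  obtain ⟨g, gz, ga, gx⟩ : ∃ g, g * z * g⁻¹ = s f 0 ∧ g * s f 0 * g⁻¹ = z ∧
      g ∈ normalizer (zpowers (FF f 12) : Set G) := by
    have d1 : g⁻¹ * z * g⁻¹⁻¹ ∈ centralizer {z} := hm (by
      calc _ = g⁻¹ * (z * (g * z * g⁻¹)) * g := by group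
        _ = _ := by rw [gz, ← hc _ (h.le a1), ← gz]; group)
    have d2 : g⁻¹ * z * g⁻¹⁻¹ * (g⁻¹ * z * g⁻¹⁻¹) = 1 := by rw [conj_mul, h.zz]; simp
    have d3 := conj_act (inv_mem gx) (u := z) (e := 1) (by rw [← hc _ (M.lmem 12)]; simp)
    obtain ⟨u, hu, t, ht, e⟩ := M.find ch s_d (by decide) d1 (by simp) (.cons (by rw [w1 12, d3]; simp) .nil)
      (by simpa [wval, lval] using (mem_zpowers_two h.zz).2 (.inl d2)) (by simp)
    suffices ∃ c ∈ centralizer {z}, c ∈ normalizer (zpowers (FF f 12) : Set G) ∧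
        c * (g⁻¹ * z * g⁻¹⁻¹) * c⁻¹ = s f 0 by
      obtain ⟨c, c1, c2, c3⟩ := this
      refine ⟨g * c⁻¹, ?_, ?_, mul_mem gx (inv_mem c2)⟩
      · rw [mul_assoc g, hc _ (inv_mem c1), ← gz]; group
      · rw [← c3]; group
    have key : ∀ (p j : ℕ) (w : List ℕ), g⁻¹ * z * g⁻¹⁻¹ = s f p → (band (band (Nat.blt p (nat_lit 54))
        (Nat.beq (ap1i (nat_lit 6) (nat_lit 63) att w p) 0)) (fixW (nat_lit 6) (nat_lit 63) att (ach.map Lv.b)
        (w ++ [24] ++ invW w ++ invW ([] ++ rep j [24] ++ invW [])))) = true →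
        ∃ c ∈ centralizer {z}, c ∈ normalizer (zpowers (FF f 12) : Set G) ∧
          c * (g⁻¹ * z * g⁻¹⁻¹) * c⁻¹ = s f 0 := fun p j w e1 e2 =>
      ⟨_, M.mem w, nor_of (xj j w (band_eq e2).2 ▸ pow_mem (mem_zpowers _) j),
        e1 ▸ M.conj_pt hs w p 0 (band_eq e2).1⟩
    have hz : ∀ w, wval (FF f) w * z = wval (FF f) (w ++ [12]) := fun w => by rw [wval_append, w1 6, F6 A]
    have := memLL_mem hu
    simp only [List.mem_cons, List.not_mem_nil, or_false] at this
    rcases (mem_zpowers_two h.zz).1 ht with rfl | rfl <;> rcases this with rfl | rfl | rfl | rfl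
    · exact absurd (conj_eq_one_iff.1 (e.trans (mul_one _))) h.ne
    · exact key 0 1 [] (e.trans (mul_one _)) (by decide +kernel)
    · exact key 1 2 [30] (e.trans (mul_one _)) (by decide +kernel)
    · rw [e, mul_one, id, ← wval_append] at d2
      obtain ⟨M'⟩ := model h A.top A.rel
      exact absurd ((toF (by decide)).trans d2) (M'.ne_one _ (by decide +kernel))
    · refine absurd ?_ a4
      rw [← gz]
      nth_rw 1 [← show g⁻¹ * t * g⁻¹⁻¹ = t by simpa using e]
      group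
    · exact key 6 1 [2] (e.trans (hz _)) (by decide +kernel)
    · exact key 9 2 [30, 0] (e.trans (hz _)) (by decide +kernel)
    · rw [e, hz, ← wval_append] at d2
      obtain ⟨M'⟩ := model h A.top A.rel
      exact absurd ((toF (by decide)).trans d2) (M'.ne_one _ (by decide +kernel))
  have nn : FF f 14 * FF f 14 = 1 := by
    refine ((mem_zpowers_two h.zz).1 (by simpa [wval, lval] using M.rel [28, 28] (by decide +kernel))).resolve_right
      fun e => ?_
    have na := M.conj_pt hs [28] 0 0 (by decide +kernel)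
    have nx := xj 4 [28] (by decide +kernel)
    rw [w1 14] at na nx
    have m1 : g * FF f 14 * g⁻¹ ∈ centralizer {z} := hm (by
      rw [← ga, conj_mul, conj_mul, mul_inv_eq_iff_eq_mul.1 na])
    obtain ⟨u, hu, -⟩ := M.find ch s_m (by decide) m1 (List.forall_mem_singleton.2 (M.fix_pt
      (fun g p hp => ⟨M.lt g p hp, hs g p hp⟩) (s_inj h A) m1 (b := 0) (by decide) (by
        rw [← gz, conj_mul, conj_mul, hc _ (M.lmem 14)])))
      (.cons (by
        rw [w1 12, conj_act gx (e := 4) (nx.trans (zpow_ofNat _ 4).symm), show wval (FF f) [25] = (FF f 12)⁻¹ by simp [wval, lval], inv_inv,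
          show FF f 12 ^ (4 : ℤ) = FF f 12 ^ 4 from zpow_ofNat _ 4, ← pow_succ, x5]
        exact one_mem _) .nil)
      (List.forall_mem_singleton.2 (by
        rw [wval_cons, wval_cons, lval_upd (nv := 500), wval_upd _ (by decide), ← mul_assoc, conj_mul, e, gz, s0,
          show wval (FF f) [1] = (FF f 0)⁻¹ by simp [wval, lval], mul_inv_cancel]
        exact one_mem _)) (by simp)
    cases hu
  refine ⟨g, F6 A, fun w hw => ?_, le_antisymm (gp_le.2 fun w hw => ?_) (M.gen ch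
    (ext_mem f 11 (by decide +kernel)) (zpowers_le.2 (A.z6 ▸ mem_sing f (by decide)))), h.cH, s_inj h A,
    s0 (f := f) ▸ gz, s0 (f := f) ▸ ga, gx⟩
  · have hl := List.all_eq_true.1 (by decide +kernel : SuzHTC.K1.all (lt2 11) = true) w hw
    have p3 : ∀ j < 4, wval (FF f) [2 * (7 + j)] ^ (2 * 1 + 1) = 1 := fun j hj => by
      rw [w1, ext_of_lt _ _ (by omega), A.pow j hj]
    simp only [K1_eq, List.mem_append, RC, List.mem_flatMap, List.mem_map, List.mem_range,
      List.mem_singleton] at hw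
    rcases hw with (((hw | ⟨j, hj, i, hi, rfl⟩) | ⟨j, hj, rfl⟩) | ⟨e, he, rfl⟩) | rfl
    · exact A.rel w hw
    · rw [wval_append, wval_cj, wval_invW, A.act j hj i hi, mul_inv_cancel]
    · rw [wval_rep, wval_single, A.pow j hj]
    · obtain ⟨e1, e2, e3⟩ := (by decide +kernel : ∀ e ∈ RB, e.2.1 < 4 ∧ e.2.2.2 < 4 ∧
        fixW (nat_lit 6) (nat_lit 63) att (ach.map Lv.b) (rb e) = true) e he
      rw [← wval_ext f 11 hdefs _ hl, rb, wval_append, wval_invW, mul_inv_eq_one]
      simpa only [wval_append, wval_invW] using M.rigid h.zz hc 1 _ _ _ _ (p3 _ e1) (p3 _ e2) e3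
    · rw [← wval_ext f 11 hdefs _ hl, wval_append, ← letter_eq f 11 hdefs 14 nw (by decide +kernel), nn]
  · obtain ⟨i, hi, rfl⟩ := List.mem_map.1 hw
    rw [wval_single]; exact A.mem i (List.mem_range.1 hi)

end Cfsg.Agent.Lib.SuzS2
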