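import Cfsg.Agent.Lib.SuzSR

set_option autoImplicit false
set_option maxRecDepth 100000
set_option Elab.async false

namespace Cfsg.Agent.Lib.SuzS
open Cfsg.Agent.Lib.PermNet Cfsg.Agent.Lib.Words Cfsg.Agent.Lib.PermGroup Cfsg.Agent.Lib.Rk3Aut Cfsg.Agent.Lib.Rk3Emb
  Cfsg.Agent.Lib.Rk3PH Cfsg.Agent.Lib.Rk3Iso

theorem mod : (fixB nets hs (pt 0) && fixB nets hs (ivl 1 416) &&
    fixB nets hs (ivl (1 + 416) 1365) && subB (ivl 1 416) (grow nets hs sb (pt 1)) &&
    subB (ivl (1 + 416) 1365) (grow nets hs sc (pt (1 + 416)))) = true := by decide +kernel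

theorem fxb : ((ivl 1 416).testBit 210 && fixB nets LJ (pt 210) && unionB nets LJ 1782 ol1 (ivl 1 416) fun q s =>
    !q.testBit 210 || Nat.beq q (pt 210) || !(Nat.ble (s * 0) 604800 && Nat.beq (604800 % s) 0)) = true := by decide +kernel

theorem fxc : ((ivl 417 1365).testBit 417 && fixB nets L2 (pt 417) && unionB nets L2 1782 ol2 (ivl 417 1365) fun q s =>
    !q.testBit 417 || Nat.beq q (pt 417) || !(Nat.ble (s * 0) 184320 && Nat.beq (184320 % s) 0)) = true := by decide +kernel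

theorem rw : rowsB nets 6 1782 416 210 417 LJ ws3 ol3 ol4 rwN (finB nets 0 416 210 417 rwA) = true := by decide +kernel

theorem rels0_0 : RelsOn nets 1782 11 rels0 0 11 :=
  relsOn_of_B _ _ _ _ _ 11 _ (by decide +kernel) (by decide +kernel)

end Cfsg.Agent.Lib.SuzS
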