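import Cfsg.Agent.Lib.SuzBase
import Cfsg.Agent.Lib.TCSuz1
import Cfsg.Agent.Lib.TCSuz3
import Cfsg.Agent.Lib.TCSuz4
import Cfsg.Agent.Lib.TCSuz5
import Cfsg.Agent.Lib.TCSuz6

/-! Upper bounds for indices and orders in the presented Suzuki group. -/

set_option autoImplicit false
set_option maxRecDepth 100000

namespace Cfsg.Agent.Lib.SuzTC

open Cfsg.Agent.Lib.PermNet Cfsg.Agent.Lib.Words Cfsg.Agent.Lib.PermGroup Cfsg.Agent.Lib.SuzBase

theorem b1 : (gp y [[0], [2], [4], [6], [8], [10]]).relIndex (gp y [[0], [2], [4], [6], [8], [10], [12]]) ≠ 0 ∧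
    (gp y [[0], [2], [4], [6], [8], [10]]).relIndex (gp y [[0], [2], [4], [6], [8], [10], [12]]) ≤ 1782 :=
  tc_wrap I hK [[0], [2], [4], [6], [8], [10], [12]] TCSuz1.bound _ _ (by decide +kernel)

theorem b3 : (gp y [[0], [2], [4], [6], [8]]).relIndex (gp y [[0], [2], [4], [6], [8], [10]]) ≠ 0 ∧
    (gp y [[0], [2], [4], [6], [8]]).relIndex (gp y [[0], [2], [4], [6], [8], [10]]) ≤ 416 :=
  tc_wrap I hK [[0], [2], [4], [6], [8], [10]] TCSuz3.bound _ _ (by decide +kernel)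

theorem b4 : (gp y [[0], [2], [4], [6]]).relIndex (gp y [[0], [2], [4], [6], [8]]) ≠ 0 ∧
    (gp y [[0], [2], [4], [6]]).relIndex (gp y [[0], [2], [4], [6], [8]]) ≤ 280 :=
  tc_wrap I hK [[0], [2], [4], [6], [8]] TCSuz4.bound _ _ (by decide +kernel)

theorem b5 : (gp y [[0], [4], [6]]).relIndex (gp y [[0], [2], [4], [6]]) ≠ 0 ∧
    (gp y [[0], [4], [6]]).relIndex (gp y [[0], [2], [4], [6]]) ≤ 135 :=
  tc_wrap I hK [[0], [2], [4], [6]] TCSuz5.bound _ _ (by decide +kernel)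

theorem b6 : (gp y []).relIndex (gp y [[0], [4], [6]]) ≠ 0 ∧
    (gp y []).relIndex (gp y [[0], [4], [6]]) ≤ 16 :=
  tc_wrap I hK [[0], [4], [6]] TCSuz6.bound _ _ (by decide +kernel)

theorem top : gp y [[0], [2], [4], [6], [8], [10], [12]] = ⊤ := gp_top (by decide)

theorem index1 : (gp y [[0], [2], [4], [6], [8], [10]]).index ≠ 0 ∧
    (gp y [[0], [2], [4], [6], [8], [10]]).index ≤ 1782 := by
  have := b1
  rwa [top, Subgroup.relIndex_top_right] at this

theorem card_abcde : Nat.card (gp y [[0], [2], [4], [6], [8]]) ≠ 0 ∧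
    Nat.card (gp y [[0], [2], [4], [6], [8]]) ≤ 604800 :=
  card_le_of_relIndex (gp_mono (by decide)) b4 (card_le_of_relIndex (gp_mono (by decide)) b5
    (card_le_of_relIndex (gp_mono (by decide)) b6 (card_gp_nil y)))

theorem card_abcdef : Nat.card (gp y [[0], [2], [4], [6], [8], [10]]) ≠ 0 ∧
    Nat.card (gp y [[0], [2], [4], [6], [8], [10]]) ≤ 251596800 :=
  card_le_of_relIndex (gp_mono (by decide)) b3 card_abcde

theorem card_top : Nat.card (gp y [[0], [2], [4], [6], [8], [10], [12]]) ≠ 0 ∧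
    Nat.card (gp y [[0], [2], [4], [6], [8], [10], [12]]) ≤ 448345497600 :=
  card_le_of_relIndex (gp_mono (by decide)) b1 card_abcdef

end Cfsg.Agent.Lib.SuzTC
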