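import Cfsg.Agent.Lib.TCCo1eP

set_option autoImplicit false
set_option maxRecDepth 100000

namespace Cfsg.Agent.Lib.TCCo1e
open Cfsg.Agent.Lib.TCCore

theorem k0 : P.RowsS 0 21 := P.rowsS_of_chk _ _ [nat_lit 0x804000101010101010101010300008040c0c0c040c0410100408000101010101010101010000c0408080808080808080800010102020202020202020200004040808080808080808080404000301010103040103030101000040404040404040c0c0404000101010101010103030101000040404040404040c0c04000201010103010301030301010000404040808040408080404000101010101010101010000c040408080808140808080001010102020202020202020101010140100401004010040100, nat_lit 0x8080004010101010101010102020000404040404040404040808000101010101010101010000c0c040808080808080808080400030101010101010101] (by decide +kernel)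
theorem s0 : P.RowsS 0 21 := k0

end Cfsg.Agent.Lib.TCCo1e
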