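import Cfsg.Agent.Lib.TCCo3H3P

set_option autoImplicit false
set_option maxRecDepth 100000

namespace Cfsg.Agent.Lib.TCCo3H3
open Cfsg.Agent.Lib.TCCore

theorem k0 : P.RowsS 0 120 := P.rowsS_of_chk _ _ [nat_lit 0x400010103010101010100004000101010101010401000140400010101020101010000804040404000107010101010100004040404000101000100404040400010101010101010000804040404000101010101010100008040404040001010101010101, nat_lit 0x40404040408000301010101030101000040404080002010200004040404041408000501030200004080404040404080000004040404140404040c0400020000404040404040800010101010000804040404040004030200004040804000101010605, nat_lit 0x1010107010000404040408000101020000404041804180001020000c0404040001010108010301010502000140c1404080001000040404100414040004030100004080c0404100404080001050000804040800030102010000404040414080001010101, nat_lit 0x2000140404100404080001010102000040404040404000501020000404040804080001010100004040418040400010103010104070001418040414000502020000404040400010503010101010105020000c04080001010601010100008040400010701, nat_lit 0x3020000804040c080001080100010041004141804040c08000100004040c04040408000406010402000100404040001080101010807020000c04040c08000301060301000041408000401000040804180408040404080000004040404140404141c0800, nat_lit 0x200004040c0404000101030401010501000081004041800010200008140404040c1004000101010200004041404040c040003020001004041008000207070200004040c04040c04040002040102060000408000101010100004080418201808040c0400,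 nat_lit 0x4030404000040c0800020101010101000100c1404040808000601010101000080003010101010000c040c10040408000403050106030200004040800010303010100010040400030101010201060302000141818040400000101c040404080003080304, nat_lit 0x403040400008100c10100002010304040000404080002010104030404000080004070106010101020000404100c04100002] (by decide +kernel)
theorem s0 : P.RowsS 0 120 := k0

end Cfsg.Agent.Lib.TCCo3H3
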