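import Cfsg.Agent.Lib.TCCo3H4P

set_option autoImplicit false
set_option maxRecDepth 100000

namespace Cfsg.Agent.Lib.TCCo3H4
open Cfsg.Agent.Lib.TCCore

theorem k0 : P.RowsS 0 60 := P.rowsS_of_chk _ _ [nat_lit 0x80404040001000040404040407d803d8000007f60000004040404040404000301030101000040c0808040404000101010100004040404040800010000c0404180400010101010101010000c04040404000101010101010100008040404040001010101010101, nat_lit 0x404040404041000030303030101020000404040810040001010000c040404040804080001000040420040404040408000000c0c181004080408040001030000c04040404040808000101010300004040404040800010100010040804000101010404, nat_lit 0x1010604010000410000101010602010702000141404040400030001004040408080404000202010102000040c00010101010000c0404081004040c0005050000c2004101804041408000204010000c0c0408040804080001040000c04200c0001010101, nat_lit 0x20205020000808081408000104040000c040408081c04000202020102000041010000301010300004041804040c0400050706010101010000c00040101010501020402000041408140800] (by decide +kernel)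
theorem k1 : P.RowsT 60 61 := P.rowsT_of_chk _ _ [nat_lit 0x401001] (by decide +kernel)
theorem s0 : P.RowsS 0 60 := k0
theorem t0 : P.RowsT 60 61 := k1

end Cfsg.Agent.Lib.TCCo3H4
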