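import Cfsg.Agent.Lib.TCFi22SP

set_option autoImplicit false
set_option maxRecDepth 100000

namespace Cfsg.Agent.Lib.TCFi22S
open Cfsg.Agent.Lib.TCCore

theorem k0 : P.RowsS 0 28 := P.rowsS_of_chk _ _ [nat_lit 0x2b8000400060404060701010000c080c04041404000302030103030100014080408080804000100018141416a800140400060404010404010000c0804080c140400030103020303010001c0007040407a60001a200d600d6000100358035803680368000400da00da00da00010600005f801e801d8001800010505050440005004010040100, nat_lit 0x2050202020100010101800030203010304010000c080c080c0c04000502050102020100004080c10180400000140808081c0728001328000400020103030201010000ae802e800040003ba00ba0004040101000080c00020104b600b20001] (by decide +kernel)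
theorem k1 : P.RowsT 28 54 := P.rowsT_of_chk _ _ [nat_lit 0x1000008040005040010001010180400404000020100059c16c000040016604e0000100002804001240270000100048c06800000011220680000100048416c0000400d8404e000010000140400003010000100001007, nat_lit 0x4040707000080e00c1040000c1404000294403400001000100040400cf404e000d200060100018018080818040000800014080402c0400001be0001000131803080000c0c0c040002009] (by decide +kernel)
theorem s0 : P.RowsS 0 28 := k0
theorem t0 : P.RowsT 28 54 := k1

end Cfsg.Agent.Lib.TCFi22S
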