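import Cfsg.Agent.Lib.TCFi24CP

set_option autoImplicit false
set_option maxRecDepth 100000

namespace Cfsg.Agent.Lib.TCFi24C
open Cfsg.Agent.Lib.TCCore

theorem k0 : P.RowsS 0 120 := P.rowsS_of_chk _ _ [nat_lit 0x801010401000140c0804140410040005030207080305050103010001c200c141418042000040407030301000100410041c0c0c04000404010407030301000101018000607040401070106000181c10101c04240c040808080804000601020202020201000181c040c1414180c0400010803050506030100000010909090909090101000181c10101c1c04040500401004010040100, nat_lit 0x708030101010301000080c1004000102020106000181c04101c1c040804101800070202030901000040404101814041c00010601040605010700018041c101814080c04040005010203020301010001408040c080c04040005020201020101010001408080c040c0404000502020303020102010201000180c08080808042000060805010401000140408201404100400050301, nat_lit 0x302010202020100018241c000606030401050708010505010301000241c0006060104060106000041c10101c1c04240400060603040605050101000200418141c041814000801060507010601000200c18141c241c00010601040605040401010301000101010101c0c04040004040404010301080001010080c100400010102030302020201020100018080c10180007020103, nat_lit 0x805010401000140c08201404041c000503020805080401000140c08141814000103010507030202010202010001814181400070301010707080301010601010001418140001030105010600018041010041c041404140007030105070801080101000040c080414201004000103020105080107000040c08241c000606010406050404010303010001010241c00060601010605,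 nat_lit 0x4040703030500004101c200c14140404040004040703030100004041800060704040107010401070303050000810080410200001010103010304080000408040c040c102000050102030506050000c0c18041c1c200c0404180c0400050605000040c1804041800060104040701010501050000c0c18041c10041c040420000104010407030108000041004101c040c20000104, nat_lit 0x6000041c10101c04040c04040808081400020801010407000040404041404101c000103010105010407000140408080c10200001020201050605000040c181404180006010404070701050105000200c18140408041004000202020103010202010108000040408080808042000010102020201020800004040808040808200001020301080001408080c0c0808080808040006, nat_lit 0x6000181c10101c04040c0408080808200006090100018181c040414241c000606070406010102020202020a00014041c00060607040105050605000200c18141c080c1004000502020308050304010000c0c081c1004141404042000010101050506030800004040c1414040c2000010103050106030800004040c0414180c200007080105050603010000c0804080808040001, nat_lit 0x1000181c10101c1c04241c000606070406050401070303080001010141814000803060507020304010001408080c20141810040005030204040103030100010100c080808080804000a] (by decide +kernel)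
theorem k1 : P.RowsT 120 152 := P.rowsT_of_chk _ _ [nat_lit 0x8000c9f41c000000010133880460000001c9e141180000001267c0700000001499f0150000002584046000000080542380a8000100400050151820540000301000f6041180000420000100004f60418800004100001318003800001010100004c9f418800018007a0208c0000100005e41f8000000109090909090908002, nat_lit 0x200018004000102619802a000010001800010361980460000201000196e54150000140400010800004005a940620000200005825c0700000c000401629004600002010013e3c0e00000c000401478a0620000201000040420000101000053e3c15000010004087054000] (by decide +kernel)
theorem s0 : P.RowsS 0 120 := k0
theorem t0 : P.RowsT 120 152 := k1

end Cfsg.Agent.Lib.TCFi24C
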