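import Cfsg.Agent.Lib.TCFiA4P

set_option autoImplicit false
set_option maxRecDepth 100000

namespace Cfsg.Agent.Lib.TCFiA4
open Cfsg.Agent.Lib.TCCore

theorem k0 : P.RowsS 0 120 := P.rowsS_of_chk _ _ [nat_lit 0x4000101000040404040003010101000040400010101010001004040400010100004000102010101000040c040400000040404041004000100004040404040001010101, nat_lit 0x10000408040003010100004040400010201000040400010201010000408080400010101000040804000400004040c0001020100008040c0400010200004040c00020101, nat_lit 0x20100004040c00010201000040404000101040100008040004030101000040410000104010000c040400010101000000102010400004080001010300008040400010101, nat_lit 0x400004040400010103010400000010201010000c0804040004010300004040400010100004080400030101000040404000102010000c040400010102010000404040001, nat_lit 0x2010000410000102030101000100003010000408040002010100004080400020101000040404080400010103000040404000100008040c0400010200008080404000301, nat_lit 0x103000100400010200008040c0400010202010001000010103010100010040001020201000100c04040001010400004040400020100004100001020201000100c040400, nat_lit 0x8080404000301040000404040001010301040000804000103010400000010201010000c08040400040103000040404000100008040c0400010202010001000010103, nat_lit 0x8080c040c000400008040c04100400000080804040c000100008040c04100400] (by decide +kernel)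
theorem s0 : P.RowsS 0 120 := k0

end Cfsg.Agent.Lib.TCFiA4
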