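import Cfsg.Agent.Lib.TCFiA4D0

set_option autoImplicit false
set_option maxRecDepth 100000

namespace Cfsg.Agent.Lib.TCFiA4
open Cfsg.Agent.Lib.TCCore

noncomputable def tb : T := l0
noncomputable def w0 : WT := (.node (nat_lit 1) (.leaf (nat_lit 0) [nat_lit 26]) (.node (nat_lit 2) (.leaf (nat_lit 5120) [nat_lit 52, nat_lit 26, nat_lit 52]) (.node (nat_lit 3) (.leaf (nat_lit 6144) [nat_lit 65, nat_lit 26, nat_lit 65]) (.leaf (nat_lit 4096) [nat_lit 39, nat_lit 26, nat_lit 39, nat_lit 26, nat_lit 39]))))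
noncomputable def w1 : WT := (.node (nat_lit 1) (.leaf (nat_lit 1024) [nat_lit 39]) (.node (nat_lit 2) (.leaf (nat_lit 8192) [nat_lit 65, nat_lit 39, nat_lit 65]) (.node (nat_lit 3) (.leaf (nat_lit 7168) [nat_lit 52, nat_lit 39, nat_lit 52, nat_lit 39, nat_lit 52]) (.leaf (nat_lit 4098) [nat_lit 26, nat_lit 39, nat_lit 26, nat_lit 39, nat_lit 26]))))
noncomputable def w2 : WT := (.node (nat_lit 1) (.leaf (nat_lit 2048) [nat_lit 52]) (.node (nat_lit 2) (.leaf (nat_lit 9216) [nat_lit 65, nat_lit 52, nat_lit 65, nat_lit 52, nat_lit 65]) (.node (nat_lit 3) (.leaf (nat_lit 7170) [nat_lit 39, nat_lit 52, nat_lit 39, nat_lit 52, nat_lit 39]) (.leaf (nat_lit 5122) [nat_lit 26, nat_lit 52, nat_lit 26]))))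
noncomputable def w3 : WT := (.node (nat_lit 1) (.leaf (nat_lit 3072) [nat_lit 65]) (.node (nat_lit 2) (.leaf (nat_lit 8194) [nat_lit 39, nat_lit 65, nat_lit 39]) (.node (nat_lit 3) (.leaf (nat_lit 6146) [nat_lit 26, nat_lit 65, nat_lit 26]) (.leaf (nat_lit 9218) [nat_lit 52, nat_lit 65, nat_lit 52, nat_lit 65, nat_lit 52]))))
noncomputable def wP : WT := (.leaf (nat_lit 0) [nat_lit 26, nat_lit 26])
noncomputable def P : Par := ⟨tb, nat_lit 78, nat_lit 0x3fffffffffffffffffff, nat_lit 120, nat_lit 8191, nat_lit 127, nat_lit 13, nat_lit 7, nat_lit 120,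
  [nat_lit 26, nat_lit 39, nat_lit 52, nat_lit 65], [], wP,
  (.cons (nat_lit 26) w0 (.cons (nat_lit 39) w1 (.cons (nat_lit 52) w2 (.cons (nat_lit 65) w3 .nil)))),
  .nil⟩

end Cfsg.Agent.Lib.TCFiA4
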