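import Cfsg.Agent.Lib.TCFiD5P

set_option autoImplicit false
set_option maxRecDepth 100000

namespace Cfsg.Agent.Lib.TCFiD5
open Cfsg.Agent.Lib.TCCore

theorem k0 : P.RowsS 0 16 := P.rowsS_of_chk _ _ [nat_lit 0xc0c14080005020300004081400010201050000c0800040104030000408100c040804000401010300010100004010504000101404080400010202010000c040c0c040800050201000040004020103014010040100] (by decide +kernel)
theorem s0 : P.RowsS 0 16 := k0

end Cfsg.Agent.Lib.TCFiD5
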