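import Cfsg.Agent.Lib.TCDefs

set_option autoImplicit false
set_option maxRecDepth 100000

namespace Cfsg.Agent.Lib.TCFiD5
open Cfsg.Agent.Lib.TCCore

noncomputable def l0 : T := .leaf (nat_lit 0) (nat_lit 0x1b01d01901b014ffff01818f1af16f12e170fff02414d18e10c14f18efff03016e14d0ea12d16dfff0300ea14b12e12c16cfff0480c916c10b10b12bfff04810c10910d0c814afff0240eb12a0e90a6109fff0240e80a60e80ea107fff03c0c70850c70c7128fff03c0c60c80840c90c5fff0300a50a70630a50e6fff0300a40a40a60a4063fff018083083085042084fff024021062062063062fff048042021021021021fff000)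

end Cfsg.Agent.Lib.TCFiD5
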