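import Cfsg.Agent.Lib.TCFiD5D0

set_option autoImplicit false
set_option maxRecDepth 100000

namespace Cfsg.Agent.Lib.TCFiD5
open Cfsg.Agent.Lib.TCCore

noncomputable def tb : T := l0
noncomputable def w0 : WT := (.node (nat_lit 2) (.node (nat_lit 1) (.leaf (nat_lit 0) [nat_lit 24]) (.leaf (nat_lit 6144) [nat_lit 48, nat_lit 24, nat_lit 48])) (.node (nat_lit 3) (.leaf (nat_lit 8192) [nat_lit 72, nat_lit 24, nat_lit 72]) (.node (nat_lit 4) (.leaf (nat_lit 5120) [nat_lit 36, nat_lit 24, nat_lit 36, nat_lit 24, nat_lit 36]) (.leaf (nat_lit 7168) [nat_lit 60, nat_lit 24, nat_lit 60]))))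
noncomputable def w1 : WT := (.node (nat_lit 2) (.node (nat_lit 1) (.leaf (nat_lit 1024) [nat_lit 36]) (.leaf (nat_lit 5122) [nat_lit 24, nat_lit 36, nat_lit 24, nat_lit 36, nat_lit 24])) (.node (nat_lit 3) (.leaf (nat_lit 9216) [nat_lit 48, nat_lit 36, nat_lit 48, nat_lit 36, nat_lit 48]) (.node (nat_lit 4) (.leaf (nat_lit 11264) [nat_lit 72, nat_lit 36, nat_lit 72, nat_lit 36, nat_lit 72]) (.leaf (nat_lit 10240) [nat_lit 60, nat_lit 36, nat_lit 60]))))
noncomputable def w2 : WT := (.node (nat_lit 2) (.node (nat_lit 1) (.leaf (nat_lit 2048) [nat_lit 48]) (.leaf (nat_lit 13312) [nat_lit 72, nat_lit 48, nat_lit 72])) (.node (nat_lit 3) (.leaf (nat_lit 9218) [nat_lit 36, nat_lit 48, nat_lit 36, nat_lit 48, nat_lit 36]) (.node (nat_lit 4) (.leaf (nat_lit 12288) [nat_lit 60, nat_lit 48, nat_lit 60, nat_lit 48, nat_lit 60]) (.leaf (nat_lit 6146) [nat_lit 24, nat_lit 48, nat_lit 24]))))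
noncomputable def w3 : WT := (.node (nat_lit 2) (.node (nat_lit 1) (.leaf (nat_lit 3072) [nat_lit 60]) (.leaf (nat_lit 10242) [nat_lit 36, nat_lit 60, nat_lit 36])) (.node (nat_lit 3) (.leaf (nat_lit 7170) [nat_lit 24, nat_lit 60, nat_lit 24]) (.node (nat_lit 4) (.leaf (nat_lit 14336) [nat_lit 72, nat_lit 60, nat_lit 72]) (.leaf (nat_lit 12290) [nat_lit 48, nat_lit 60, nat_lit 48, nat_lit 60, nat_lit 48]))))
noncomputable def w4 : WT := (.node (nat_lit 2) (.node (nat_lit 1) (.leaf (nat_lit 4096) [nat_lit 72]) (.leaf (nat_lit 13314) [nat_lit 48, nat_lit 72, nat_lit 48])) (.node (nat_lit 3) (.leaf (nat_lit 8194) [nat_lit 24, nat_lit 72, nat_lit 24]) (.node (nat_lit 4) (.leaf (nat_lit 14338) [nat_lit 60, nat_lit 72, nat_lit 60]) (.leaf (nat_lit 11266) [nat_lit 36, nat_lit 72, nat_lit 36, nat_lit 72, nat_lit 36]))))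
noncomputable def wP : WT := (.leaf (nat_lit 0) [nat_lit 24, nat_lit 24])
noncomputable def P : Par := ⟨tb, nat_lit 84, nat_lit 0xfffffffffffffffffffff, nat_lit 16, nat_lit 4095, nat_lit 31, nat_lit 12, nat_lit 5, nat_lit 16,
  [nat_lit 24, nat_lit 36, nat_lit 48, nat_lit 60, nat_lit 72], [nat_lit 24, nat_lit 36, nat_lit 48, nat_lit 60], wP,
  (.cons (nat_lit 24) w0 (.cons (nat_lit 36) w1 (.cons (nat_lit 48) w2 (.cons (nat_lit 60) w3 (.cons (nat_lit 72) w4 .nil))))),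
  .nil⟩

end Cfsg.Agent.Lib.TCFiD5
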