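import Cfsg.Agent.Lib.TCFiE6P

set_option autoImplicit false
set_option maxRecDepth 100000

namespace Cfsg.Agent.Lib.TCFiE6
open Cfsg.Agent.Lib.TCCore

theorem k0 : P.RowsS 0 27 := P.rowsS_of_chk _ _ [nat_lit 0x201030205000101800010201040600010040c0c0c040c0001030102030000414080400010205010500004081800060103040100018180c10000104010405000140414101404040004020301020100018080c0c08040006020403020100100401004010001, nat_lit 0x180006060304040100010080c1408040006020303020100018040c080c0006000141014041400050405040101020500004080408140006010204030105000081004081400] (by decide +kernel)
theorem s0 : P.RowsS 0 27 := k0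

end Cfsg.Agent.Lib.TCFiE6
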