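import Cfsg.Agent.Lib.TCHP1P

set_option autoImplicit false
set_option maxRecDepth 100000

namespace Cfsg.Agent.Lib.TCHP1
open Cfsg.Agent.Lib.TCCore

theorem k0 : P.RowsS 0 21 := P.rowsS_of_chk _ _ [nat_lit 0x8040001030000804040800010000c040800010102000040408040400030101000040404000101010000404040c00010000404040400010000c04040001010101010101, nat_lit 0x8080004020200004080800010000c100408040003] (by decide +kernel)
theorem s0 : P.RowsS 0 21 := k0

end Cfsg.Agent.Lib.TCHP1
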