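import Cfsg.Agent.Lib.TCDefs

set_option autoImplicit false
set_option maxRecDepth 100000

namespace Cfsg.Agent.Lib.TCHP1
open Cfsg.Agent.Lib.TCCore

noncomputable def l0 : T := .leaf (nat_lit 0) (nat_lit 0x25024a15434dfff024204305133175fff0241cb209112154fff0240f12c612e133fff03c2861120d018cfff02424a2750af0f1fff02420808e0c40d0fff0300af1c8063152fff0240cc1073751a3fff03c0a70ed1b110bfff03c0e91f312c162fff03c2752700e9121fff02423310b0c810afff0241ee22f0a70e9fff02412d0cc0850c8fff0242f22b10c1085fff0183340640a60a7fff0300852340420effff0240420811cd08efff03c02106318b064fff03c0a304214a0e6fff000)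

end Cfsg.Agent.Lib.TCHP1
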