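import Cfsg.Agent.Lib.TCHP1D0

set_option autoImplicit false
set_option maxRecDepth 100000

namespace Cfsg.Agent.Lib.TCHP1
open Cfsg.Agent.Lib.TCCore

noncomputable def tb : T := l0
noncomputable def w0 : WT := (.node (nat_lit 1) (.leaf (nat_lit 0) [nat_lit 36]) (.node (nat_lit 2) (.leaf (nat_lit 4098) [nat_lit 60, nat_lit 36, nat_lit 36, nat_lit 48]) (.node (nat_lit 3) (.leaf (nat_lit 2048) [nat_lit 24, nat_lit 24, nat_lit 24, nat_lit 24, nat_lit 24, nat_lit 24]) (.leaf (nat_lit 4099) [nat_lit 48, nat_lit 36, nat_lit 60, nat_lit 24]))))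
noncomputable def w1 : WT := (.node (nat_lit 1) (.leaf (nat_lit 2) [nat_lit 24]) (.node (nat_lit 2) (.leaf (nat_lit 4102) [nat_lit 36, nat_lit 48, nat_lit 24, nat_lit 60]) (.node (nat_lit 3) (.leaf (nat_lit 4104) [nat_lit 48, nat_lit 24, nat_lit 60, nat_lit 36]) (.leaf (nat_lit 4103) [nat_lit 60, nat_lit 24, nat_lit 24, nat_lit 48]))))
noncomputable def w2 : WT := (.node (nat_lit 1) (.leaf (nat_lit 1024) [nat_lit 60]) (.node (nat_lit 2) (.leaf (nat_lit 4101) [nat_lit 36, nat_lit 60, nat_lit 24, nat_lit 24]) (.leaf (nat_lit 3072) [nat_lit 48, nat_lit 48])))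
noncomputable def w3 : WT := (.node (nat_lit 1) (.leaf (nat_lit 1026) [nat_lit 48]) (.node (nat_lit 2) (.leaf (nat_lit 4100) [nat_lit 36, nat_lit 36, nat_lit 48, nat_lit 24]) (.leaf (nat_lit 3073) [nat_lit 60, nat_lit 60])))
noncomputable def wP : WT := (.leaf (nat_lit 0) [nat_lit 24, nat_lit 36])
noncomputable def P : Par := ⟨tb, nat_lit 72, nat_lit 0xffffffffffffffffff, nat_lit 21, nat_lit 4095, nat_lit 31, nat_lit 12, nat_lit 5, nat_lit 21,
  [nat_lit 24, nat_lit 36, nat_lit 48, nat_lit 60], [], wP,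
  (.cons (nat_lit 24) w0 (.cons (nat_lit 36) w1 (.cons (nat_lit 48) w2 (.cons (nat_lit 60) w3 .nil)))),
  .nil⟩

end Cfsg.Agent.Lib.TCHP1
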