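import Cfsg.Agent.Lib.TCHd00bP

set_option autoImplicit false
set_option maxRecDepth 100000

namespace Cfsg.Agent.Lib.TCHd00b
open Cfsg.Agent.Lib.TCCore

theorem k0 : P.RowsS 0 64 := P.rowsS_of_chk _ _ [nat_lit 0x2000020201050504010000c041018281804000106010201010702000041c0c1404040004070601010100004040002020101050100008080404140400010206010101030000c04040c1004000101040801040300004040804080400010101030104010b030000804040400020140100401000140100, nat_lit 0x60c000d060008010000404000909010101010a0301010000408040400010902030101000080408040404000201010b0101000040408040404000201020101010000804040404040001010607030000414080c101010040c000301040101030000c101010040c0004030000c04102008140418000201, nat_lit 0x800004080414040400010201010101030000c04040c0408040001080201020300004040404100400010302010203000280404040804000104010401000040c100c080404040002070301060107030001404140c0400010401000040c100c0804040400020703010601070300000010701010401, nat_lit 0x200428101c180414081800020705090505010001010040003030103050501050200010181c040005010102010801000081804280c000501010606010001818041c24080404000409010901000040404000108010101010101000082408000c0101040101000201c0804040404000202010105] (by decide +kernel)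
theorem k1 : P.RowsT 64 65 := P.rowsT_of_chk _ _ [nat_lit 0xb001] (by decide +kernel)
theorem s0 : P.RowsS 0 64 := k0
theorem t0 : P.RowsT 64 65 := k1

end Cfsg.Agent.Lib.TCHd00b
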