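import Cfsg.Agent.Lib.TCHd11bP

set_option autoImplicit false
set_option maxRecDepth 100000

namespace Cfsg.Agent.Lib.TCHd11b
open Cfsg.Agent.Lib.TCCore

theorem k0 : P.RowsS 0 64 := P.rowsS_of_chk _ _ [nat_lit 0x141c1c04040007010000420042804143804040400010401060201090000400030501010106010102010200028040408040009010000c0c0404040400010501010101040000c0404080804000101040601020200004040c081004000101010401060103020000c04040400030140100401000140100, nat_lit 0x808202000020802020814000082008084010080800020200008080830081808200002020202000580808080ca8000404000101030101010000c040e3400031a000000c0404040404000102030101040000c1c0c4c04180003010101010400004041c080800010b0300040140404301424140800010603, nat_lit 0x11201010000c0404280404000101030804030000c100a2c0000458000c1008121400030a0001020000a1c00004380008100400890000c48000414140c04100c0003040201000300c100810040424040800020900004081004123c00031e0001020000c04101c00030102010000404100400830002c180014100400030502010205, nat_lit 0x80000c141c2020082c000306040600044041c14140404040001060401010101010400004041804041000030293000012600020102040801010101000083400030201010401010108010000a440000488000404040c04040400010101070701010000404080800010102010c0102010200004080800010103] (by decide +kernel)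
theorem k1 : P.RowsT 64 74 := P.rowsT_of_chk _ _ [nat_lit 0x3d5c30700000600000c0800002040000040c180808000040000c041c04c4601c0000000c042114101c000010301010200164201c000050100018056c5054000000181c04c46054000] (by decide +kernel)
theorem s0 : P.RowsS 0 64 := k0
theorem t0 : P.RowsT 64 74 := k1

end Cfsg.Agent.Lib.TCHd11b
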