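import Cfsg.Agent.Lib.TCHe4D0

set_option autoImplicit false
set_option maxRecDepth 100000

namespace Cfsg.Agent.Lib.TCHe4
open Cfsg.Agent.Lib.TCCore

noncomputable def tb : T := l0
noncomputable def w0 : WT := (.node (nat_lit 1) (.leaf (nat_lit 0) [nat_lit 28]) (.node (nat_lit 2) (.leaf (nat_lit 6144) [nat_lit 70, nat_lit 28, nat_lit 70, nat_lit 28, nat_lit 70]) (.node (nat_lit 3) (.leaf (nat_lit 5120) [nat_lit 56, nat_lit 28, nat_lit 56, nat_lit 28, nat_lit 56]) (.leaf (nat_lit 4096) [nat_lit 42, nat_lit 28, nat_lit 42, nat_lit 28, nat_lit 42]))))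
noncomputable def w1 : WT := (.node (nat_lit 1) (.leaf (nat_lit 1024) [nat_lit 42]) (.node (nat_lit 2) (.leaf (nat_lit 8192) [nat_lit 70, nat_lit 42, nat_lit 70]) (.node (nat_lit 3) (.leaf (nat_lit 7168) [nat_lit 56, nat_lit 42, nat_lit 56]) (.node (nat_lit 4) (.leaf (nat_lit 4098) [nat_lit 28, nat_lit 42, nat_lit 28, nat_lit 42, nat_lit 28]) (.leaf (nat_lit 10249) [nat_lit 56, nat_lit 70, nat_lit 56, nat_lit 70])))))
noncomputable def r0 : WT := (.node (nat_lit 5) (.leaf (nat_lit 10241) [nat_lit 70, nat_lit 56, nat_lit 70, nat_lit 42]) (.leaf (nat_lit 10248) [nat_lit 42, nat_lit 70, nat_lit 56, nat_lit 70]))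
noncomputable def w2 : WT := (.node (nat_lit 1) (.leaf (nat_lit 2048) [nat_lit 56]) (.node (nat_lit 2) (.leaf (nat_lit 10244) [nat_lit 70, nat_lit 56, nat_lit 42, nat_lit 70]) (.node (nat_lit 3) (.leaf (nat_lit 7170) [nat_lit 42, nat_lit 56, nat_lit 42]) (.node (nat_lit 4) (.leaf (nat_lit 5122) [nat_lit 28, nat_lit 56, nat_lit 28, nat_lit 56, nat_lit 28]) r0))))
noncomputable def w3 : WT := (.node (nat_lit 1) (.leaf (nat_lit 3072) [nat_lit 70]) (.node (nat_lit 2) (.leaf (nat_lit 10246) [nat_lit 56, nat_lit 42, nat_lit 70, nat_lit 56]) (.node (nat_lit 3) (.leaf (nat_lit 6146) [nat_lit 28, nat_lit 70, nat_lit 28, nat_lit 70, nat_lit 28]) (.leaf (nat_lit 8194) [nat_lit 42, nat_lit 70, nat_lit 42]))))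
noncomputable def wP : WT := (.leaf (nat_lit 0) [nat_lit 28, nat_lit 28])
noncomputable def P : Par := ⟨tb, nat_lit 84, nat_lit 0xfffffffffffffffffffff, nat_lit 168, nat_lit 16383, nat_lit 255, nat_lit 14, nat_lit 8, nat_lit 168,
  [nat_lit 28, nat_lit 42, nat_lit 56, nat_lit 70], [], wP,
  (.cons (nat_lit 28) w0 (.cons (nat_lit 42) w1 (.cons (nat_lit 56) w2 (.cons (nat_lit 70) w3 .nil)))),
  .nil⟩

end Cfsg.Agent.Lib.TCHe4
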