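import Cfsg.Agent.Lib.TCHe6D0

set_option autoImplicit false
set_option maxRecDepth 100000

namespace Cfsg.Agent.Lib.TCHe6
open Cfsg.Agent.Lib.TCCore

noncomputable def tb : T := l0
noncomputable def w0 : WT := (.node (nat_lit 1) (.leaf (nat_lit 0) [nat_lit 24]) (.node (nat_lit 2) (.leaf (nat_lit 5120) [nat_lit 48, nat_lit 24, nat_lit 48]) (.node (nat_lit 3) (.leaf (nat_lit 6144) [nat_lit 60, nat_lit 24, nat_lit 60]) (.leaf (nat_lit 4096) [nat_lit 36, nat_lit 24, nat_lit 36, nat_lit 24, nat_lit 36, nat_lit 24, nat_lit 36]))))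
noncomputable def w1 : WT := (.node (nat_lit 1) (.leaf (nat_lit 1024) [nat_lit 36]) (.node (nat_lit 2) (.leaf (nat_lit 7168) [nat_lit 48, nat_lit 36, nat_lit 48, nat_lit 36, nat_lit 48]) (.node (nat_lit 3) (.leaf (nat_lit 8192) [nat_lit 60, nat_lit 36, nat_lit 60]) (.node (nat_lit 4) (.leaf (nat_lit 4098) [nat_lit 24, nat_lit 36, nat_lit 24, nat_lit 36, nat_lit 24, nat_lit 36, nat_lit 24]) (.leaf (nat_lit 10243) [nat_lit 48, nat_lit 24, nat_lit 36, nat_lit 48, nat_lit 24, nat_lit 36, nat_lit 48, nat_lit 60, nat_lit 24])))))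
noncomputable def w2 : WT := (.node (nat_lit 1) (.leaf (nat_lit 2048) [nat_lit 48]) (.node (nat_lit 2) (.leaf (nat_lit 5122) [nat_lit 24, nat_lit 48, nat_lit 24]) (.node (nat_lit 3) (.leaf (nat_lit 9216) [nat_lit 60, nat_lit 48, nat_lit 60]) (.node (nat_lit 4) (.leaf (nat_lit 7170) [nat_lit 36, nat_lit 48, nat_lit 36, nat_lit 48, nat_lit 36]) (.leaf (nat_lit 10254) [nat_lit 36, nat_lit 24, nat_lit 60, nat_lit 48, nat_lit 36, nat_lit 24, nat_lit 48, nat_lit 36, nat_lit 24])))))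
noncomputable def w3 : WT := (.node (nat_lit 1) (.leaf (nat_lit 3072) [nat_lit 60]) (.node (nat_lit 2) (.leaf (nat_lit 9218) [nat_lit 48, nat_lit 60, nat_lit 48]) (.node (nat_lit 3) (.leaf (nat_lit 6146) [nat_lit 24, nat_lit 60, nat_lit 24]) (.node (nat_lit 4) (.leaf (nat_lit 8194) [nat_lit 36, nat_lit 60, nat_lit 36]) (.leaf (nat_lit 10240) [nat_lit 48, nat_lit 36, nat_lit 24, nat_lit 48, nat_lit 36, nat_lit 24, nat_lit 48, nat_lit 36, nat_lit 24])))))
noncomputable def wP : WT := (.leaf (nat_lit 0) [nat_lit 24, nat_lit 24])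
noncomputable def P : Par := ⟨tb, nat_lit 72, nat_lit 0xffffffffffffffffff, nat_lit 48, nat_lit 4095, nat_lit 63, nat_lit 12, nat_lit 6, nat_lit 48,
  [nat_lit 24, nat_lit 36, nat_lit 48, nat_lit 60], [], wP,
  (.cons (nat_lit 24) w0 (.cons (nat_lit 36) w1 (.cons (nat_lit 48) w2 (.cons (nat_lit 60) w3 .nil)))),
  .nil⟩

end Cfsg.Agent.Lib.TCHe6
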