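import Cfsg.Agent.Lib.TCJ41P

set_option autoImplicit false
set_option maxRecDepth 100000

namespace Cfsg.Agent.Lib.TCJ41
open Cfsg.Agent.Lib.TCCore

theorem k0 : P.RowsS 0 64 := P.rowsS_of_chk _ _ [nat_lit 0x20080808081808480808081000080202000100808080004020202020316008b00008081000021002020a000082810011a00010101010100004040404040400830041800040428040404000101000040404240404040404041000020100004042c040404040001010301000040404080404040500014000500, nat_lit 0x20001c78023c000814021602020204000300800020c020a02020202020400488024400004880018041014064c00060000c980004040404040800010c9700008012e00010000654000202020602030a008500428000002010102000080404041804040005010100008100404040c000101010a0100014040404042004000101010206, nat_lit 0x43004040c04000101010101010102000080c1c1c040400020303070107000080c0c1008040400020101070200008040c0404040c200400020101010b00014041c0428000201010000424041c040400030806010b030100004040404180404040c000301010a01010a0000804000104010401, nat_lit 0x201040000818100818100002060908000081c041004141c00020101010901010505000080c0414040408000100004240410040400010a0805010303010101020001004040c0001010000404041c2004040c1c0404040002010100008040410140400010301060d0101000040400020601010105] (by decide +kernel)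
theorem k1 : P.RowsT 64 75 := P.rowsT_of_chk _ _ [nat_lit 0x4000209002000040cccb038000000080400c00040101372418800000020010104002193046000020000454602a0000b03002599046000000182c9440540000000410149c301c00000008049c302a000] (by decide +kernel)
theorem s0 : P.RowsS 0 64 := k0
theorem t0 : P.RowsT 64 75 := k1

end Cfsg.Agent.Lib.TCJ41
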