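import Cfsg.Agent.Lib.TCJ43P

set_option autoImplicit false
set_option maxRecDepth 100000

namespace Cfsg.Agent.Lib.TCJ43
open Cfsg.Agent.Lib.TCCore

theorem k0 : P.RowsS 0 64 := P.rowsS_of_chk _ _ [nat_lit 0x4040804000a01010000c34040408040001010109020101010000408283004040404080000004082c0404040404043c040400000040c08041404040404040400010000404040404060c0002020306000100000010808010101010000c0424040404040400030106000040404040404040500014000500, nat_lit 0x101060201000040c080001010101040105000080404040404000103010101010508010001400010101010102010101010100000070101010101040909000080c0c0408000905010801010c03010100004000106070602010107010001c0404140804000106010000404040408040800010b0101, nat_lit 0x101010a0102000040c100404040001010000414040c08040404040400030200030040404201408040001010101010101000100404340001030102010105080100004182c04000b0701010201000041c040414040400040103010002820040c08000101010105000040404040410040400010101, nat_lit 0x203040306020002410280810000102030403060200004040804000405060106040001414280c101c0408000b0407020100004140003060106010104010101000041c0414000201010300004381c0c0404180400030109020201010102000202004041000010601010400010041c040400020303] (by decide +kernel)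
theorem k1 : P.RowsT 64 66 := P.rowsT_of_chk _ _ [nat_lit 0xc0040400002] (by decide +kernel)
theorem s0 : P.RowsS 0 64 := k0
theorem t0 : P.RowsT 64 66 := k1

end Cfsg.Agent.Lib.TCJ43
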