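import Cfsg.Agent.Lib.TCJ45P

set_option autoImplicit false
set_option maxRecDepth 100000

namespace Cfsg.Agent.Lib.TCJ45
open Cfsg.Agent.Lib.TCCore

theorem k0 : P.RowsS 0 32 := P.rowsS_of_chk _ _ [nat_lit 0x82838082818000402080a100e020200008284000020c060c021002000080808200810083010000e0204040602040002008081800080c0210020208020023800040c040408040408004500228010c008600010000404040410180404040001010102010000c040414040c100404040002010902010201010000001010101010101014000500014000500, nat_lit 0x101010183000080810080b1800058c0000328000405e40002040000bc8000411840012020000808281008180002be005f002b80008040c000105010000404059c00ce006700338000c0409dc00020204000081820100b7800000103017500000a60053000080830300b9800040400020103010000404180400014f0002a78013c000202089600024b000080808000000a48000405240002020000a68000534009a000101] (by decide +kernel)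
theorem k1 : P.RowsT 32 67 := P.rowsT_of_chk _ _ [nat_lit 0x300002c8f8150000083808080075802a0000080094981c00001800949823000000d8e823000000bce02a0000280800d8e81c0000080004595031000018080051382a0002d800040800012ca8070000040404080048480a80000c10040404000148480700000c04040404000278780e00001c000801051088188000040002010020000404422038000, nat_lit 0x40002010010000c061be0380000102010100009ea001c0000201010100104106200000010140ce2f0380000102001411038000000041141104600001030000042400012ce40a800004000272580e00000c040034cc150000000266d00700000408000401647c0e000000690002348000404dae054000000040c10fb106200002010000c05c15038000, nat_lit 0x5037b000a8000040800000041203d046000] (by decide +kernel)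
theorem s0 : P.RowsS 0 32 := k0
theorem t0 : P.RowsT 32 67 := k1

end Cfsg.Agent.Lib.TCJ45
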