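import Cfsg.Agent.Lib.TCGroup
import Cfsg.Agent.Lib.TCJ46C0

set_option autoImplicit false
set_option maxRecDepth 100000

namespace Cfsg.Agent.Lib.TCJ46
open Cfsg.Agent.Lib.TCCore

theorem rowsS : P.RowsS 0 P.N := s0

theorem rowsT : P.RowsT P.N P.M := t0

def base : List (List Nat) := [
  [0, 1],
  [2, 3],
  [4, 5],
  [6, 6],
  [7, 7],
  [4, 4, 4],
  [0, 0, 0, 0],
  [2, 2, 2, 2],
  [0, 2, 1, 5, 2],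
  [0, 2, 1, 4, 4, 2],
  [2, 2, 6, 2, 2, 6],
  [2, 2, 6, 3, 3, 6],
  [4, 6, 4, 6, 4, 6],
  [0, 6, 1, 3, 6, 0, 6, 1, 6, 2],
  [0, 2, 5, 0, 2, 5, 3, 4, 0, 5],
  [0, 0, 0, 2, 0, 4, 1, 2, 0, 4],
  [0, 3, 5, 6, 4, 1, 6, 3, 4, 6],
  [0, 2, 4, 0, 5, 0, 5, 2, 2, 4],
  [0, 3, 3, 4, 0, 5, 0, 4, 4, 3],
  [0, 2, 0, 3, 5, 2, 5, 0, 4, 4],
  [0, 0, 0, 2, 0, 6, 1, 3, 0, 6],
  [0, 6, 1, 7, 0, 6, 1, 7],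
  [3, 6, 2, 7, 3, 6, 2, 7],
  [0, 5, 0, 2, 7, 3, 1, 4, 1, 7],
  [3, 4, 2, 4, 7, 5, 3, 5, 2, 7],
  [2, 5, 0, 7, 2, 5, 0, 7, 2, 5, 0, 7],
  [4, 2, 6, 0, 2, 0, 4, 7, 2, 7, 3, 4, 2, 6, 0, 2, 0, 4, 7, 2, 7, 3]]

theorem static_ok : TCGroup.static P base [1, 0, 3, 2, 5, 4, 6, 7] 8 8 [0, 2, 4, 6] = true := by decide +kernel

theorem bound {G : Type*} [Group G] (y : Nat → G) (H : Subgroup G)
    (hrel : ∀ r ∈ base, (r.map y).prod = 1) (hinv : ∀ i < 8, y (List.getD [1, 0, 3, 2, 5, 4, 6, 7] i i) = (y i)⁻¹)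
    (hsub : ∀ i ∈ ([0, 2, 4, 6] : List Nat), y i ∈ H) :
    H.relIndex (Subgroup.closure (y '' {i | i < 8})) ≠ 0 ∧
      H.relIndex (Subgroup.closure (y '' {i | i < 8})) ≤ 1024 :=
  TCGroup.relIndex_le y 8 8 base [1, 0, 3, 2, 5, 4, 6, 7] [0, 2, 4, 6] P H hrel hinv hsub static_ok rowsS rowsT

end Cfsg.Agent.Lib.TCJ46
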