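import Cfsg.Agent.Lib.TCL32P

set_option autoImplicit false
set_option maxRecDepth 100000

namespace Cfsg.Agent.Lib.TCL32
open Cfsg.Agent.Lib.TCCore

theorem k0 : P.RowsS 0 168 := P.rowsS_of_chk _ _ [nat_lit 0x102010100004040400010100004040404000101010000c04040400020000404040804080001010000804000101000040804040001010000404040404000201010101, nat_lit 0x4040404000101010000c04040400020300004040001010102010200004040002010000c0404040002010000404000102010300004040001010102010200004040002, nat_lit 0x20102000040400020000408040400010101000040404000301000040804000201010100004040001010101010000808040800010100008000102010100004040c000101, nat_lit 0x101000080001020100004040c04000102030000404000102010100004040404000202010200004040002010000c04040400020100004040400030100004080404040002, nat_lit 0x1000040400010201000040404000101030100004080c0001010000404040400010200008040404000101010000404000101010101000080400030101010000808040800, nat_lit 0x10000c040404000200004040c080408000000410100001010100004040c040001020103000080400030101000141404000101010000c040001020100008040404000102, nat_lit 0x4040c0001040402010200004040002010000c040001020100004040c04000102010000c040c0001010000408040001020101000040404040002010000c0404100002, nat_lit 0x804040400010201000040400010103030000408000102010101000080c00010100004040400020201010000404040400020101000080001010300008040404000102, nat_lit 0x10400008040003010101000080001010300008040404000102010000c0400010201010000c040c00010100004080400010101010000c040002020101000040400010103,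 nat_lit 0x804040814080003000040400010403020102000000201010205020000c00010100004100c00010404000040404080408000201000080c00030101030000804000301, nat_lit 0x8100c0001040300004100c0001040300004100c0001040301010000800020101] (by decide +kernel)
theorem s0 : P.RowsS 0 168 := k0

end Cfsg.Agent.Lib.TCL32
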