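import Cfsg.Agent.Lib.TCM241P

set_option autoImplicit false
set_option maxRecDepth 100000

namespace Cfsg.Agent.Lib.TCM241
open Cfsg.Agent.Lib.TCCore

theorem k0 : P.RowsS 0 24 := P.rowsS_of_chk _ _ [nat_lit 0x40400001c40002020c000080002020200228000001010500000010101010000001010101000000201010400004000101030000500014000500014000500014000500010101, nat_lit 0x420009d0000002020e0000002020202004980000010201000040001] (by decide +kernel)
theorem k1 : P.RowsT 24 104 := P.rowsT_of_chk _ _ [nat_lit 0x80000008080055280d00000002512013800008004d180d000000032048138000180031080d000000023500138000080038f80d0003f80000011d3c09c00004001d3c0d0000007b00008e3c03400002000cd004e000003b8000479c01a0000100081b0340000000489a01a000, nat_lit 0x24003a340d00000001010000001010000001010000001010000001010000001010000001010000001, nat_lit 0x400002000044c801a000010005470270000000454601a000010004c50340000000444401a000010003c30270000000514201a000010010c1034000010000504001a0000101000fbf0270000000804f3e01a00001000ebd03400000004e3c01a0000100081b0270000000493a01a000, nat_lit 0x100000010100000010100000010100000010100000c0002011b40068000100000100004bce01a00001000c4d03400000004c4c01a00001000bcb02700000004a4a01a000, nat_lit 0x28001a7409c0000001010000001010000001010000001010000001010000001010000001010000001]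 (by decide +kernel)
theorem s0 : P.RowsS 0 24 := k0
theorem t0 : P.RowsT 24 104 := k1

end Cfsg.Agent.Lib.TCM241
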