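import Cfsg.Agent.Lib.TCGroup
import Cfsg.Agent.Lib.TCM242C0

set_option autoImplicit false
set_option maxRecDepth 100000

namespace Cfsg.Agent.Lib.TCM242
open Cfsg.Agent.Lib.TCCore

theorem rowsS : P.RowsS 0 P.N := s0

theorem rowsT : P.RowsT P.N P.M := t0

def base : List (List Nat) := [
  [0, 1],
  [2, 3],
  [4, 5],
  [6, 7],
  [8, 9],
  [10, 11],
  [12, 13],
  [0, 0, 0],
  [2, 2, 2],
  [12, 12, 12],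
  [4, 4, 4],
  [10, 10, 10],
  [6, 6, 6],
  [4, 7, 11, 6],
  [0, 9, 9, 5, 7],
  [0, 9, 9, 7, 11],
  [0, 6, 10, 4, 13],
  [2, 5, 13, 5, 13],
  [0, 2, 1, 11, 0, 3],
  [0, 2, 8, 7, 9, 3],
  [2, 5, 11, 13, 10, 4],
  [2, 12, 11, 13, 10, 13],
  [2, 9, 9, 9, 7, 9, 4],
  [0, 2, 1, 6, 8, 8, 3],
  [0, 8, 7, 9, 9, 9, 7],
  [0, 4, 10, 12, 9, 6, 2],
  [4, 12, 4, 12, 11, 13, 10],
  [4, 8, 8, 8, 7, 9, 9, 9],
  [0, 2, 11, 13, 4, 6, 9, 9],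
  [0, 2, 12, 10, 0, 2, 12, 10],
  [0, 2, 10, 3, 0, 2, 10, 3],
  [4, 6, 5, 12, 4, 6, 5, 12],
  [2, 11, 12, 10, 2, 11, 12, 10],
  [0, 3, 0, 3, 0, 3, 0, 3, 0, 3],
  [0, 2, 8, 8, 7, 9, 9, 1, 8, 8],
  [0, 2, 1, 8, 8, 8, 7, 4, 6, 9],
  [10, 13, 10, 13, 10, 13, 10, 13, 10, 13],
  [0, 2, 5, 12, 10, 13, 4, 8, 8, 7],
  [4, 6, 8, 8, 7, 11, 13, 5, 12, 10],
  [8, 8, 8, 8, 8, 8, 8, 8, 8, 8, 8, 8, 8, 8, 8, 8, 8, 8, 8, 8, 8, 8, 8],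
  [14, 15],
  [15, 3, 0, 11]]

theorem static_ok : TCGroup.static P base [1, 0, 3, 2, 5, 4, 7, 6, 9, 8, 11, 10, 13, 12, 15, 14] 16 14 [0, 14] = true := by decide +kernel

theorem bound {G : Type*} [Group G] (y : Nat → G) (H : Subgroup G)
    (hrel : ∀ r ∈ base, (r.map y).prod = 1) (hinv : ∀ i < 16, y (List.getD [1, 0, 3, 2, 5, 4, 7, 6, 9, 8, 11, 10, 13, 12, 15, 14] i i) = (y i)⁻¹)
    (hsub : ∀ i ∈ ([0, 14] : List Nat), y i ∈ H) :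
    H.relIndex (Subgroup.closure (y '' {i | i < 14})) ≠ 0 ∧
      H.relIndex (Subgroup.closure (y '' {i | i < 14})) ≤ 10626 :=
  TCGroup.relIndex_le y 16 14 base [1, 0, 3, 2, 5, 4, 7, 6, 9, 8, 11, 10, 13, 12, 15, 14] [0, 14] P H hrel hinv hsub static_ok rowsS rowsT

end Cfsg.Agent.Lib.TCM242
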