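import Cfsg.Agent.Lib.TCGroup
import Cfsg.Agent.Lib.TCM243C0

set_option autoImplicit false
set_option maxRecDepth 100000

namespace Cfsg.Agent.Lib.TCM243
open Cfsg.Agent.Lib.TCCore

theorem rowsS : P.RowsS 0 P.N := s0

theorem rowsT : P.RowsT P.N P.M := t0

def base : List (List Nat) := [
  [0, 1],
  [2, 3],
  [4, 5],
  [6, 7],
  [8, 9],
  [10, 11],
  [12, 13],
  [14, 15],
  [16, 17],
  [18, 19],
  [20, 21],
  [22, 23],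
  [24, 25],
  [10, 10],
  [8, 8, 8],
  [2, 2, 2],
  [0, 0, 0],
  [4, 7, 16, 18],
  [4, 7, 21, 23],
  [0, 2, 0, 2],
  [2, 8, 2, 8],
  [0, 8, 0, 8],
  [12, 18, 12, 18],
  [0, 5, 24, 7],
  [0, 4, 7, 21],
  [6, 14, 8, 20],
  [0, 4, 0, 4, 7],
  [0, 12, 16, 4, 7],
  [4, 7, 13, 8, 10],
  [16, 16, 16, 16, 16],
  [2, 12, 17, 17, 6, 13],
  [8, 10, 22, 10, 24, 14],
  [6, 25, 11, 23, 11, 20],
  [0, 2, 12, 18, 4, 7],
  [10, 19, 13, 10, 19, 13],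
  [4, 7, 16, 16, 21, 15, 25],
  [0, 4, 7, 0, 23, 11, 15, 7],
  [2, 12, 18, 4, 7, 17, 6, 13],
  [4, 7, 13, 23, 11, 20, 17, 17, 6, 18],
  [10, 22, 10, 22, 10, 22, 10, 22, 10, 22],
  [0, 4, 7, 0, 4, 7, 0, 4, 7, 0, 4, 7, 0, 4, 7]]

theorem static_ok : TCGroup.static P base [1, 0, 3, 2, 5, 4, 7, 6, 9, 8, 11, 10, 13, 12, 15, 14, 17, 16, 19, 18, 21, 20, 23, 22, 25, 24] 26 26 [] = true := by decide +kernel

theorem bound {G : Type*} [Group G] (y : Nat → G) (H : Subgroup G)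
    (hrel : ∀ r ∈ base, (r.map y).prod = 1) (hinv : ∀ i < 26, y (List.getD [1, 0, 3, 2, 5, 4, 7, 6, 9, 8, 11, 10, 13, 12, 15, 14, 17, 16, 19, 18, 21, 20, 23, 22, 25, 24] i i) = (y i)⁻¹)
    (hsub : ∀ i ∈ ([] : List Nat), y i ∈ H) :
    H.relIndex (Subgroup.closure (y '' {i | i < 26})) ≠ 0 ∧
      H.relIndex (Subgroup.closure (y '' {i | i < 26})) ≤ 960 :=
  TCGroup.relIndex_le y 26 26 base [1, 0, 3, 2, 5, 4, 7, 6, 9, 8, 11, 10, 13, 12, 15, 14, 17, 16, 19, 18, 21, 20, 23, 22, 25, 24] [] P H hrel hinv hsub static_ok rowsS rowsT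

end Cfsg.Agent.Lib.TCM243
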