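import Cfsg.Agent.Lib.TCDefs

set_option autoImplicit false
set_option maxRecDepth 100000

namespace Cfsg.Agent.Lib.TCON4
open Cfsg.Agent.Lib.TCCore

noncomputable def l0 : T := .leaf (nat_lit 0) (nat_lit 0xf71b1155fff0301180d4116fff0240f50b0137fff0241160cc178fff0240f30f70affff01811417208dfff01817119312bfff0181921d810afff0180860d60cefff03008d0ce0d4fff0300650ef0f0fff0300af0630b3fff0240a70f50e9fff03010a144152fff03012b0e9131fff0240c810a10cfff0300e90e10a7fff0180cc0860c8fff0240b00a7065fff01808e042086fff0240a116b063fff01804208d084fff030063065021fff0180c4108042fff000)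

end Cfsg.Agent.Lib.TCON4
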