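import Cfsg.Agent.Lib.TCDefs

set_option autoImplicit false
set_option maxRecDepth 100000

namespace Cfsg.Agent.Lib.TCOP5
open Cfsg.Agent.Lib.TCCore

noncomputable def l0 : T := .leaf (nat_lit 0) (nat_lit 0x500d01200e01200e01200efff06c01200a009005009005009005fff000)

end Cfsg.Agent.Lib.TCOP5
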