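import Cfsg.Agent.Lib.TCOP6P

set_option autoImplicit false
set_option maxRecDepth 100000

namespace Cfsg.Agent.Lib.TCOP6
open Cfsg.Agent.Lib.TCCore

theorem k0 : P.RowsS 0 2 := P.rowsS_of_chk _ _ [nat_lit 0x804040404040404040500014000500] (by decide +kernel)
theorem s0 : P.RowsS 0 2 := k0

end Cfsg.Agent.Lib.TCOP6
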