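import Cfsg.Agent.Lib.TCOP8D0

set_option autoImplicit false
set_option maxRecDepth 100000

namespace Cfsg.Agent.Lib.TCOP8
open Cfsg.Agent.Lib.TCCore

noncomputable def tb : T := l0
noncomputable def w0 : WT := (.leaf (nat_lit 15362) [nat_lit 108, nat_lit 24, nat_lit 96])
noncomputable def w1 : WT := (.leaf (nat_lit 2) [nat_lit 24])
noncomputable def w2 : WT := (.leaf (nat_lit 16386) [nat_lit 108, nat_lit 60, nat_lit 96])
noncomputable def w3 : WT := (.leaf (nat_lit 1026) [nat_lit 48])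
noncomputable def w4 : WT := (.leaf (nat_lit 17410) [nat_lit 108, nat_lit 84, nat_lit 96])
noncomputable def w5 : WT := (.leaf (nat_lit 2050) [nat_lit 72])
noncomputable def w6 : WT := (.node (nat_lit 1) (.leaf (nat_lit 3072) [nat_lit 108]) (.leaf (nat_lit 18432) [nat_lit 96]))
noncomputable def w7 : WT := (.leaf (nat_lit 3074) [nat_lit 96])
noncomputable def wP : WT := (.leaf (nat_lit 0) [nat_lit 24, nat_lit 36])
noncomputable def P : Par := ⟨tb, nat_lit 120, nat_lit 0xffffffffffffffffffffffffffffff, nat_lit 2, nat_lit 4095, nat_lit 3, nat_lit 12, nat_lit 2, nat_lit 2,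
  [nat_lit 24, nat_lit 36, nat_lit 48, nat_lit 60, nat_lit 72, nat_lit 84, nat_lit 96, nat_lit 108], [nat_lit 24, nat_lit 48, nat_lit 72], wP,
  (.cons (nat_lit 24) w0 (.cons (nat_lit 36) w1 (.cons (nat_lit 48) w2 (.cons (nat_lit 60) w3 (.cons (nat_lit 72) w4 (.cons (nat_lit 84) w5 (.cons (nat_lit 96) w6 (.cons (nat_lit 108) w7 .nil)))))))),
  .nil⟩

end Cfsg.Agent.Lib.TCOP8
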