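import Cfsg.Agent.Lib.TCS44bP

set_option autoImplicit false
set_option maxRecDepth 100000

namespace Cfsg.Agent.Lib.TCS44b
open Cfsg.Agent.Lib.TCCore

theorem k0 : P.RowsS 0 32 := P.rowsS_of_chk _ _ [nat_lit 0x4000040c1000010104030000c04040c000102010301000040c10040003010401000040410040410000201010000404040400010104000040c101000030104020101000080c040001010000c04100c05004010005, nat_lit 0xc08100c0408000201020404000080804040002030200004040c04000101030200014040408000201030200008040408000201020401000080003010103010100018040001020103010405000080804040002] (by decide +kernel)
theorem s0 : P.RowsS 0 32 := k0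

end Cfsg.Agent.Lib.TCS44b
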