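import Cfsg.Agent.Lib.TCS44cP

set_option autoImplicit false
set_option maxRecDepth 100000

namespace Cfsg.Agent.Lib.TCS44c
open Cfsg.Agent.Lib.TCCore

theorem k0 : P.RowsS 0 120 := P.rowsS_of_chk _ _ [nat_lit 0x1020000804000101010100004000103000040400010000408000101010100004000100004080001010100004040400010101, nat_lit 0x1000040400010201000040400000040800020100004040404000100004040001020100004040002010000404000100004040001, nat_lit 0x8040001020300004100400010000404000101000040400010201000040400000040800020100004040404000100004040001, nat_lit 0x10000c00020100004040404000300004040001010000404000102010000404000000408000102010000c0002010000404040400, nat_lit 0x2010000404000201000040400000080400010203000041004000100004040001030000404000102010000404000000408000102, nat_lit 0x1000040400010000408040003020100004040002010000404000000804000102030000410040001000040400010100004040001, nat_lit 0x3000040400010000408040c000300004040001020100004040000008040001020000408040c0003000041004000100004040001, nat_lit 0x203000000201010001004000100004080400030201000040400] (by decide +kernel)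
theorem s0 : P.RowsS 0 120 := k0

end Cfsg.Agent.Lib.TCS44c
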