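import Cfsg.Agent.Lib.TCSuz5D0

set_option autoImplicit false
set_option maxRecDepth 100000

namespace Cfsg.Agent.Lib.TCSuz5
open Cfsg.Agent.Lib.TCCore

noncomputable def tb : T := (.node (nat_lit 376) (.node (nat_lit 188) l0 l1) (.node (nat_lit 564) l2 l3))
noncomputable def w0 : WT := (.node (nat_lit 1) (.leaf (nat_lit 0) [nat_lit 34]) (.node (nat_lit 2) (.leaf (nat_lit 5120) [nat_lit 68, nat_lit 34, nat_lit 68]) (.node (nat_lit 3) (.leaf (nat_lit 6144) [nat_lit 85, nat_lit 34, nat_lit 85]) (.node (nat_lit 4) (.leaf (nat_lit 4096) [nat_lit 51, nat_lit 34, nat_lit 51, nat_lit 34, nat_lit 51, nat_lit 34, nat_lit 51, nat_lit 34, nat_lit 51]) (.leaf (nat_lit 10257) [nat_lit 68, nat_lit 85, nat_lit 68, nat_lit 85, nat_lit 68, nat_lit 85, nat_lit 68, nat_lit 85])))))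
noncomputable def w1 : WT := (.node (nat_lit 1) (.leaf (nat_lit 1024) [nat_lit 51]) (.node (nat_lit 2) (.leaf (nat_lit 7168) [nat_lit 68, nat_lit 51, nat_lit 68, nat_lit 51, nat_lit 68]) (.node (nat_lit 3) (.leaf (nat_lit 8192) [nat_lit 85, nat_lit 51, nat_lit 85]) (.leaf (nat_lit 4098) [nat_lit 34, nat_lit 51, nat_lit 34, nat_lit 51, nat_lit 34, nat_lit 51, nat_lit 34, nat_lit 51, nat_lit 34]))))
noncomputable def w2 : WT := (.node (nat_lit 1) (.leaf (nat_lit 2048) [nat_lit 68]) (.node (nat_lit 2) (.leaf (nat_lit 5122) [nat_lit 34, nat_lit 68, nat_lit 34]) (.node (nat_lit 3) (.leaf (nat_lit 7170) [nat_lit 51, nat_lit 68, nat_lit 51, nat_lit 68, nat_lit 51]) (.node (nat_lit 4) (.leaf (nat_lit 10244) [nat_lit 85, nat_lit 68, nat_lit 85, nat_lit 68, nat_lit 85, nat_lit 68, nat_lit 34, nat_lit 85]) (.leaf (nat_lit 10241) [nat_lit 85, nat_lit 68, nat_lit 85, nat_lit 68, nat_lit 85, nat_lit 68, nat_lit 85, nat_lit 34])))))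
noncomputable def w3 : WT := (.node (nat_lit 1) (.leaf (nat_lit 3072) [nat_lit 85]) (.node (nat_lit 2) (.leaf (nat_lit 8194) [nat_lit 51, nat_lit 85, nat_lit 51]) (.node (nat_lit 3) (.leaf (nat_lit 6146) [nat_lit 34, nat_lit 85, nat_lit 34]) (.leaf (nat_lit 10246) [nat_lit 68, nat_lit 85, nat_lit 68, nat_lit 85, nat_lit 68, nat_lit 34, nat_lit 85, nat_lit 68]))))
noncomputable def wP : WT := (.leaf (nat_lit 4098) [nat_lit 51, nat_lit 34, nat_lit 51, nat_lit 34, nat_lit 51, nat_lit 34, nat_lit 51, nat_lit 34, nat_lit 51, nat_lit 34])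
noncomputable def P : Par := ⟨tb, nat_lit 102, nat_lit 0x3fffffffffffffffffffffffff, nat_lit 584, nat_lit 131071, nat_lit 1023, nat_lit 17, nat_lit 10, nat_lit 135,
  [nat_lit 34, nat_lit 51, nat_lit 68, nat_lit 85], [nat_lit 34, nat_lit 68, nat_lit 85], wP,
  (.cons (nat_lit 34) w0 (.cons (nat_lit 51) w1 (.cons (nat_lit 68) w2 (.cons (nat_lit 85) w3 .nil)))),
  .nil⟩

end Cfsg.Agent.Lib.TCSuz5
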