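import Cfsg.Agent.Lib.TCDefs

set_option autoImplicit false
set_option maxRecDepth 100000

namespace Cfsg.Agent.Lib.TCSuz6
open Cfsg.Agent.Lib.TCCore

noncomputable def l0 : T := .leaf (nat_lit 0) (nat_lit 0xef1661a7fff0301100ce1a8fff0240ad0ef1a9fff0300ce08c1aafff0240630ad1abfff0301240ea18cfff0240c910b18dfff0300ea0a818efff0240870c918ffff0300a8065190fff0240a1190065fff018042087086fff03014b0a1063fff01808c042084fff024065063021fff0180c60c4042fff000)

end Cfsg.Agent.Lib.TCSuz6
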