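import Cfsg.Agent.Lib.TCSuz6D0

set_option autoImplicit false
set_option maxRecDepth 100000

namespace Cfsg.Agent.Lib.TCSuz6
open Cfsg.Agent.Lib.TCCore

noncomputable def tb : T := l0
noncomputable def w0 : WT := (.node (nat_lit 1) (.leaf (nat_lit 0) [nat_lit 24]) (.node (nat_lit 2) (.leaf (nat_lit 6144) [nat_lit 48, nat_lit 36, nat_lit 48, nat_lit 36, nat_lit 48, nat_lit 36, nat_lit 48, nat_lit 36]) (.node (nat_lit 3) (.leaf (nat_lit 6161) [nat_lit 36, nat_lit 48, nat_lit 36, nat_lit 48, nat_lit 36, nat_lit 48, nat_lit 36, nat_lit 48]) (.leaf (nat_lit 3072) [nat_lit 36, nat_lit 24, nat_lit 36]))))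
noncomputable def r0 : WT := (.leaf (nat_lit 5120) [nat_lit 48, nat_lit 36, nat_lit 48, nat_lit 36, nat_lit 48, nat_lit 36, nat_lit 48, nat_lit 36, nat_lit 48, nat_lit 36, nat_lit 48, nat_lit 36, nat_lit 48, nat_lit 36, nat_lit 48])
noncomputable def w1 : WT := (.node (nat_lit 1) (.leaf (nat_lit 1024) [nat_lit 36]) (.node (nat_lit 2) (.leaf (nat_lit 3074) [nat_lit 24, nat_lit 36, nat_lit 24]) r0))
noncomputable def w2 : WT := (.node (nat_lit 1) (.leaf (nat_lit 2048) [nat_lit 48]) (.node (nat_lit 2) (.leaf (nat_lit 4098) [nat_lit 24, nat_lit 48, nat_lit 24]) (.leaf (nat_lit 6158) [nat_lit 36, nat_lit 24, nat_lit 48, nat_lit 36, nat_lit 48, nat_lit 36, nat_lit 48, nat_lit 36])))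
noncomputable def wP : WT := (.leaf (nat_lit 0) [nat_lit 24, nat_lit 24])
noncomputable def P : Par := ⟨tb, nat_lit 60, nat_lit 0xfffffffffffffff, nat_lit 16, nat_lit 4095, nat_lit 31, nat_lit 12, nat_lit 5, nat_lit 16,
  [nat_lit 24, nat_lit 36, nat_lit 48], [], wP,
  (.cons (nat_lit 24) w0 (.cons (nat_lit 36) w1 (.cons (nat_lit 48) w2 .nil))),
  .nil⟩

end Cfsg.Agent.Lib.TCSuz6
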