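import Cfsg.Agent.Lib.TCGroup
import Cfsg.Agent.Lib.TCSuzH1C0

set_option autoImplicit false
set_option maxRecDepth 100000

namespace Cfsg.Agent.Lib.TCSuzH1
open Cfsg.Agent.Lib.TCCore

theorem rowsS : P.RowsS 0 P.N := s0

theorem rowsT : P.RowsT P.N P.M := t0

def base : List (List Nat) := [
  [0, 0],
  [1, 1],
  [2, 2],
  [3, 3],
  [4, 5],
  [6, 7],
  [8, 8],
  [9, 10],
  [11, 12],
  [13, 14],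
  [15, 16],
  [4, 4, 8],
  [6, 6, 8],
  [0, 1, 0, 1, 8],
  [2, 3, 2, 3, 8],
  [4, 6, 5, 7, 8],
  [0, 2, 0, 2],
  [1, 2, 1, 2],
  [0, 3, 0, 3],
  [1, 3, 1, 3],
  [0, 4, 0, 5],
  [1, 4, 1, 5],
  [0, 6, 0, 7],
  [1, 6, 1, 7],
  [2, 4, 2, 5],
  [3, 4, 3, 5],
  [2, 6, 2, 7],
  [3, 6, 3, 7],
  [0, 8, 0, 8],
  [1, 8, 1, 8],
  [2, 8, 2, 8],
  [3, 8, 3, 8],
  [4, 8, 5, 8],
  [6, 8, 7, 8],
  [9, 0, 10, 5, 3, 2],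
  [9, 1, 10, 8, 2, 1],
  [9, 2, 10, 1],
  [9, 3, 10, 7, 3, 0, 1],
  [9, 4, 10, 5, 7, 2],
  [9, 6, 10, 8, 5, 1],
  [9, 8, 10, 8],
  [11, 0, 12, 7, 3, 2],
  [11, 1, 12, 3, 1],
  [11, 2, 12, 5, 2, 1, 0],
  [11, 3, 12, 8, 1],
  [11, 4, 12, 7, 1],
  [11, 6, 12, 7, 5, 3],
  [11, 8, 12, 8],
  [13, 0, 14, 5, 3, 2, 0],
  [13, 1, 14, 2],
  [13, 2, 14, 8, 2, 1],
  [13, 3, 14, 7, 5, 1, 0],
  [13, 4, 14, 5, 7, 2],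
  [13, 6, 14, 5, 2, 1],
  [13, 8, 14, 8],
  [15, 0, 16, 8, 3],
  [15, 1, 16, 7, 3, 2, 1],
  [15, 2, 16, 5, 0, 1],
  [15, 3, 16, 8, 3, 0],
  [15, 4, 16, 5, 7, 0],
  [15, 6, 16, 5, 3],
  [15, 8, 16, 8],
  [9, 9, 9],
  [11, 11, 11],
  [13, 13, 13],
  [15, 15, 15],
  [9, 11, 9, 12, 10, 12],
  [11, 13, 11, 14, 12, 14],
  [13, 15, 13, 16, 14, 16],
  [9, 13, 10, 14],
  [9, 15, 10, 16],
  [11, 15, 12, 0, 1, 4, 6, 16, 7, 5, 1, 0],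
  [9, 2, 13, 16, 11, 13, 9, 11, 16, 9, 2, 13, 16, 11, 13, 9, 11, 16]]

theorem static_ok : TCGroup.static P base [0, 1, 2, 3, 5, 4, 7, 6, 8, 10, 9, 12, 11, 14, 13, 16, 15] 17 17 [0, 1, 2, 3, 4, 6, 8, 9, 11, 13] = true := by decide +kernel

theorem bound {G : Type*} [Group G] (y : Nat → G) (H : Subgroup G)
    (hrel : ∀ r ∈ base, (r.map y).prod = 1) (hinv : ∀ i < 17, y (List.getD [0, 1, 2, 3, 5, 4, 7, 6, 8, 10, 9, 12, 11, 14, 13, 16, 15] i i) = (y i)⁻¹)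
    (hsub : ∀ i ∈ ([0, 1, 2, 3, 4, 6, 8, 9, 11, 13] : List Nat), y i ∈ H) :
    H.relIndex (Subgroup.closure (y '' {i | i < 17})) ≠ 0 ∧
      H.relIndex (Subgroup.closure (y '' {i | i < 17})) ≤ 40 :=
  TCGroup.relIndex_le y 17 17 base [0, 1, 2, 3, 5, 4, 7, 6, 8, 10, 9, 12, 11, 14, 13, 16, 15] [0, 1, 2, 3, 4, 6, 8, 9, 11, 13] P H hrel hinv hsub static_ok rowsS rowsT

end Cfsg.Agent.Lib.TCSuzH1
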