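import Cfsg.Agent.Lib.TCSuzH3P

set_option autoImplicit false
set_option maxRecDepth 100000

namespace Cfsg.Agent.Lib.TCSuzH3
open Cfsg.Agent.Lib.TCCore

theorem k0 : P.RowsS 0 8 := P.rowsS_of_chk _ _ [nat_lit 0x2010301010201020101010101030000810040c040c180c080804000301060201040102020404010102000140c040c040c100c0c080400010202010103050202020000804040c100408041004140400010101010102010201010101010101401000140005004010040100] (by decide +kernel)
theorem s0 : P.RowsS 0 8 := k0

end Cfsg.Agent.Lib.TCSuzH3
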