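import Cfsg.Agent.Lib.TCDefs

set_option autoImplicit false
set_option maxRecDepth 100000

namespace Cfsg.Agent.Lib.TCSuzH3
open Cfsg.Agent.Lib.TCCore

noncomputable def l0 : T := .leaf (nat_lit 0) (nat_lit 0x35056078068058088078088078058088078078fff0a80a70970460830670b70a70b70a70b70870a70a7fff0900680350630570560860960960a60860960760a6fff09c046048044022045065075055065065055045075fff084044054022055064064074064054084094044054fff090022041097076053043053043053063053063053fff0a8011033035034032042032042032032032032032fff0a8053022021011011021011021011011011011011fff000)

end Cfsg.Agent.Lib.TCSuzH3
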