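import Cfsg.Agent.Lib.TCSuzH4P

set_option autoImplicit false
set_option maxRecDepth 100000

namespace Cfsg.Agent.Lib.TCSuzH4
open Cfsg.Agent.Lib.TCCore

theorem k0 : P.RowsS 0 3 := P.rowsS_of_chk _ _ [nat_lit 0x2010201020101020201000040804080408040404040405000140005004010040100] (by decide +kernel)
theorem s0 : P.RowsS 0 3 := k0

end Cfsg.Agent.Lib.TCSuzH4
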