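import Cfsg.Agent.Lib.TCDefs

set_option autoImplicit false
set_option maxRecDepth 100000

namespace Cfsg.Agent.Lib.TCSuzH4
open Cfsg.Agent.Lib.TCCore

noncomputable def l0 : T := .leaf (nat_lit 0) (nat_lit 0x1202102b03b04302302b02b03303302bfff09000901b01a02201a02201a01a01a01a01afff09002b012009011009011009009009009009fff000)

end Cfsg.Agent.Lib.TCSuzH4
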