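import Cfsg.Agent.Lib.TCSuzH4D0

set_option autoImplicit false
set_option maxRecDepth 100000

namespace Cfsg.Agent.Lib.TCSuzH4
open Cfsg.Agent.Lib.TCCore

noncomputable def tb : T := l0
noncomputable def w0 : WT := (.leaf (nat_lit 31746) [nat_lit 144, nat_lit 84, nat_lit 60, nat_lit 48, nat_lit 132])
noncomputable def w1 : WT := (.node (nat_lit 1) (.leaf (nat_lit 32770) [nat_lit 144, nat_lit 120, nat_lit 48, nat_lit 36, nat_lit 132]) (.leaf (nat_lit 36874) [nat_lit 132, nat_lit 96, nat_lit 144, nat_lit 120, nat_lit 84]))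
noncomputable def w2 : WT := (.node (nat_lit 1) (.leaf (nat_lit 33794) [nat_lit 144, nat_lit 36, nat_lit 132]) (.leaf (nat_lit 31754) [nat_lit 132, nat_lit 24, nat_lit 144, nat_lit 84, nat_lit 60]))
noncomputable def w3 : WT := (.leaf (nat_lit 34818) [nat_lit 144, nat_lit 108, nat_lit 60, nat_lit 24, nat_lit 36, nat_lit 132])
noncomputable def w4 : WT := (.node (nat_lit 1) (.leaf (nat_lit 4096) [nat_lit 84]) (.leaf (nat_lit 35842) [nat_lit 144, nat_lit 84, nat_lit 108, nat_lit 48, nat_lit 132]))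
noncomputable def w5 : WT := (.node (nat_lit 1) (.leaf (nat_lit 4098) [nat_lit 72]) (.leaf (nat_lit 35849) [nat_lit 144, nat_lit 48, nat_lit 96, nat_lit 72, nat_lit 132]))
noncomputable def w6 : WT := (.node (nat_lit 1) (.leaf (nat_lit 5120) [nat_lit 108]) (.leaf (nat_lit 36866) [nat_lit 144, nat_lit 120, nat_lit 84, nat_lit 36, nat_lit 132]))
noncomputable def w7 : WT := (.node (nat_lit 1) (.leaf (nat_lit 5122) [nat_lit 96]) (.leaf (nat_lit 35848) [nat_lit 48, nat_lit 132, nat_lit 72, nat_lit 144, nat_lit 84]))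
noncomputable def w8 : WT := (.node (nat_lit 1) (.leaf (nat_lit 8193) [nat_lit 84, nat_lit 84]) (.leaf (nat_lit 37890) [nat_lit 144, nat_lit 120, nat_lit 132]))
noncomputable def w9 : WT := (.node (nat_lit 1) (.leaf (nat_lit 7168) [nat_lit 144]) (.leaf (nat_lit 38912) [nat_lit 132, nat_lit 132]))
noncomputable def w10 : WT := (.leaf (nat_lit 7170) [nat_lit 132])
noncomputable def wP : WT := (.leaf (nat_lit 0) [nat_lit 24, nat_lit 24])
noncomputable def P : Par := ⟨tb, nat_lit 156, nat_lit 0xfffffffffffffffffffffffffffffffffffffff, nat_lit 3, nat_lit 4095, nat_lit 7, nat_lit 12, nat_lit 3, nat_lit 3,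
  [nat_lit 24, nat_lit 36, nat_lit 48, nat_lit 60, nat_lit 72, nat_lit 84, nat_lit 96, nat_lit 108, nat_lit 120, nat_lit 132, nat_lit 144], [nat_lit 24, nat_lit 36, nat_lit 48, nat_lit 60, nat_lit 72, nat_lit 96, nat_lit 120], wP,
  (.cons (nat_lit 24) w0 (.cons (nat_lit 36) w1 (.cons (nat_lit 48) w2 (.cons (nat_lit 60) w3 (.cons (nat_lit 72) w4 (.cons (nat_lit 84) w5 (.cons (nat_lit 96) w6 (.cons (nat_lit 108) w7 (.cons (nat_lit 120) w8 (.cons (nat_lit 132) w9 (.cons (nat_lit 144) w10 .nil))))))))))),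
  .nil⟩

end Cfsg.Agent.Lib.TCSuzH4
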