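import Cfsg.Agent.Lib.TCSuzH5P

set_option autoImplicit false
set_option maxRecDepth 100000

namespace Cfsg.Agent.Lib.TCSuzH5
open Cfsg.Agent.Lib.TCCore

theorem k0 : P.RowsS 0 128 := P.rowsS_of_chk _ _ [nat_lit 0x4000601010103060101000200404040404180404040008010507010101010001c0404042004040404040001040101020102010601010000404040810000101010101010101010001404040404040404040001010101020101070100004040404040400010101010101010101010000400030201010101010401010000404040404040404000101010101010201010101010101, nat_lit 0x20100010040c0404040404141404000101010203000100404040404040001060101010101010101010100024040404040404040404000400024040804040404040004010a0901010101000040404040804040400010101010102010100004040404141408040001010101010101020100014040410040404040007010101030101010101000101c040404040404000601040101, nat_lit 0x301010300004040c040001010201010102010101010100004040c04000202020202020101010000c1814100c040400010102020202010101010105040002404040c28040c00010601010202000100404200404040410000301040101050000c0404100c04041400030101040301010000408040404080404041c040404140001010404040000c1c040404101004000107010101, nat_lit 0x1010101010601090000c04040c0001060301000040408042808080404040404180400050100008080808080408040400030605040106010000404080808040804040404141000010401000080808080404080404101000030101070100008080404080408040420140404000104010000808040404040804040c000101010108010000404040408040804040404040400090401, nat_lit 0x107070101010000414080c00040103010103020300010040c040c0c040c00040103070103010300004040c04040c00010102010201010201010102010000404240002020202010101020104040000c04040420080c00010101010103030101030000404041c180404040404140004000040404040408040804040404040404000401010101010500004141c0404140418040400,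 nat_lit 0x80808080404040804000306050101010600004040808040404080404041c200404000401010105040002404240002020202010201020104040000c04100420000202020202020102020100004040c20040c040001010104030106030101010000418041c040404000101040108010105010108050001018181804040404000400008080404040c0408041818040404040004, nat_lit 0x301010300024180c0404041c040414000505020300010040c20200c00020202010102020201050802070107090000002020202010202010104040000c04101c0400020201010a020201010508010101070a000042014040400010401000080804040428080404000301010101060608010101010000410240c04040c00010603070000404080404080808040404041804000105, nat_lit 0x8080808080808080002010202020202020101060708080500010000202020202020202000080408080808080804041c201814000505050000c1814100c18180c04040c00090103070000808080408040808040003010504010606000040404080804080804040420042c00050501010109070601090000002020202020202010104040000c1c101c04080c00010103080803] (by decide +kernel)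
theorem s0 : P.RowsS 0 128 := k0

end Cfsg.Agent.Lib.TCSuzH5
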