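import Cfsg.Agent.Lib.TCSuzH6P

set_option autoImplicit false
set_option maxRecDepth 100000

namespace Cfsg.Agent.Lib.TCSuzH6
open Cfsg.Agent.Lib.TCCore

theorem k0 : P.RowsS 0 128 := P.rowsS_of_chk _ _ [nat_lit 0x4040001060101010001404040804040804040404000100004040404040404000101050101010601010100004040001010101010103000040c040404040c04040001010100004040404040404000701010101010100004040404040804000101010100004040404040404040001010101010101, nat_lit 0xc040404240404080404040400020101010104000040002010101010101010000c0c04040404040400040000c04040404040001050101010100004041004040400010101070101000040404041804080404040404000000404040404040400010201010101000040414040404040006010101, nat_lit 0x20101030204000000101040806010601010100004040001010401090101010107000041c0404041404000900004141004041404040400030101070101010208000000201010701050100004041404080404000106010601010100004040c0404040410000101040000404140408080404042000, nat_lit 0xc04041c1804041404041000010a08000181804040418040009010104000080404040400010509010101010400004181404040404041000070100004041404040404000106010101000040804080404040414040001010400018040404181c041c0001010000c1c2404040404000101050101, nat_lit 0x1010001804041804000203010102010106010104000201000010105010501010000404041000010105010106010502000040410000102010201090101000040c04040002010502010101000041814040808040c0810000104000040404180c0404040400040000404041c041404080404081000, nat_lit 0x301040101000201000020101010102010601010100000010504070601010000808040808040410040400090104000040404180c140404040008060701080000404000301040101010107080700004040408040c0428000100008080408040804040c0810000000404101c181404000102010102,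 nat_lit 0x106030000c0c04041404041000040106010000c040c0c1410140400010000c1410040414041000060605060000c04101c18140408040c081000010707080001c1c100002020102020101030000c0c04040410041000040101030000c040c0c04101404000405010300004040c10000201010202, nat_lit 0x506030000c0c0c181c1c04000707050603000040c0c0c141014100004020206030204000100002020502020506030000c04040c14100410000104000080414040814040c0003030303010401040001014040c000301030201060102010000c0410141000010400008081404081c04180c080400] (by decide +kernel)
theorem s0 : P.RowsS 0 128 := k0

end Cfsg.Agent.Lib.TCSuzH6
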