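import Cfsg.Agent.Lib.TCDefs

set_option autoImplicit false
set_option maxRecDepth 100000

namespace Cfsg.Agent.Lib.TCU62b
open Cfsg.Agent.Lib.TCCore

noncomputable def l0 : T := .leaf (nat_lit 0) (nat_lit 0xe00e00e00e00e00e00e005fff01800500500500500500500500afff000)

end Cfsg.Agent.Lib.TCU62b
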