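import Cfsg.Agent.Lib.BT5
import Cfsg.Prelude.Def_Transfer

/-! Interfaces for the recognition of the Thompson group: coordinates for the extraspecial group
of order `2 ^ 9` and the action of its normaliser. -/

set_option autoImplicit false

namespace Cfsg.Agent.Lib.ThDefs

open Subgroup Cfsg.Agent.Lib.PermNet

/-- The parity of the bits `0, 2, 4, 6`. -/
noncomputable def par (m : ℕ) : ℕ := force m fun m => Nat.land (Nat.xor (Nat.xor m (Nat.shiftRight m (nat_lit 2)))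
  (Nat.xor (Nat.shiftRight m (nat_lit 4)) (Nat.shiftRight m (nat_lit 6)))) (nat_lit 1)

/-- The product of two codes; bit `i < 8` is the exponent of the `i`-th generator, bit `8` that of
the central involution. -/
noncomputable def qm (a b : ℕ) : ℕ := force a fun a => force b fun b => Nat.xor (Nat.xor a b)
  (Nat.shiftLeft (par (Nat.land (Nat.shiftRight a (nat_lit 1)) b)) (nat_lit 8))

/-- The image of a code under the automorphism with the given images of the generators. -/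
noncomputable def lin (L : List ℕ) : ℕ → ℕ :=
  List.rec (motive := fun _ => ℕ → ℕ) (fun m => Nat.mul (nat_lit 256) (Nat.mod m (nat_lit 2)))
    (fun a _ ih m => force (ih (Nat.div m (nat_lit 2))) fun r =>
      @Bool.rec (fun _ => ℕ) r (qm a r) (Nat.beq (Nat.mod m (nat_lit 2)) (nat_lit 1))) L

/-- The generators. -/
def L0 : List ℕ := [1, 2, 4, 8, 16, 32, 64, 128]

variable {G : Type*} [Group G]

/-- The hypothesis, inside `G`. -/
structure Hyp (z : G) (Q : Subgroup G) (φ : centralizer ({z} : Set G) →* Equiv.Perm (Fin 9)) :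
    Prop where
  zz : z * z = 1
  ne : z ≠ 1
  mem : z ∈ Q
  le : Q ≤ centralizer {z}
  nor : ∀ g ∈ centralizer ({z} : Set G), ∀ q ∈ Q, g * q * g⁻¹ ∈ Q
  cen : ∀ g ∈ centralizer ({z} : Set G), (∀ q ∈ Q, g * q = q * g) → g = 1 ∨ g = z
  com : ∀ a ∈ Q, ∀ b ∈ Q, a * b = b * a ∨ a * b = z * (b * a)
  cQ : Nat.card Q = 512
  cH : Nat.card (centralizer ({z} : Set G)) = 92897280
  ker : ∀ g, φ g = 1 ↔ (g : G) ∈ Q
  rng : φ.range = alternatingGroup (Fin 9)

/-- Coordinates for `Q`. -/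
structure Enc (z : G) (Q : Subgroup G) (n : ℕ → G) : Prop where
  mul : ∀ a < 512, ∀ b < 512, n a * n b = n (qm a b)
  mem : ∀ a < 512, n a ∈ Q
  surj : ∀ q ∈ Q, ∃ a < 512, n a = q
  inj : ∀ a < 512, ∀ b < 512, n a = n b → a = b
  zero : n 0 = 1
  z256 : n 256 = z

/-- `g` conjugates the generators to the elements with the codes `L`. -/
def Act (n : ℕ → G) (g : G) (L : List ℕ) : Prop :=
  L.length = 8 ∧ (∀ a ∈ L, a < 512) ∧ ∀ i < 8, g * n (2 ^ i) * g⁻¹ = n (L.getD i 0)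

/-- `g` centralises `z` and its image in the alternating group is given by the list `l`. -/
def Ph {z : G} (φ : centralizer ({z} : Set G) →* Equiv.Perm (Fin 9)) (g : G) (l : List ℕ) : Prop :=
  ∃ h : g ∈ centralizer ({z} : Set G), ∀ p : Fin 9, (φ ⟨g, h⟩ p : ℕ) = l.getD p 0

/-- The letters `f`, their action on `Q` and their images in the alternating group. -/
structure St {z : G} (φ : centralizer ({z} : Set G) →* Equiv.Perm (Fin 9)) (n f : ℕ → G)
    (L : List (ℕ × List ℕ × List ℕ)) : Prop where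
  f0 : f 0 = z
  f2 : f 2 = n 1
  act : ∀ e ∈ L, Act n (f e.1) e.2.1 ∧ Ph φ (f e.1) e.2.2
  s7 : f 5 ^ 7 = 1
  t3 : f 6 ^ 3 = 1

/-- The spin module: the letters `d, e, s, t, u`. -/
def LS : List (ℕ × List ℕ × List ℕ) :=
  [(3, [2, 1, 8, 4, 64, 128, 16, 32], [1, 0, 3, 2, 5, 4, 6, 8, 7]),
   (4, [1, 15, 261, 9, 16, 416, 336, 128], [2, 4, 0, 5, 1, 3, 7, 6, 8]),
   (5, [1, 2, 16, 40, 128, 64, 8, 20], [1, 3, 0, 4, 6, 2, 5, 7, 8]),
   (6, [1, 2, 4, 8, 144, 64, 96, 16], [3, 2, 5, 4, 0, 1, 6, 7, 8]),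
   (7, [1, 266, 5, 264, 128, 64, 32, 16], [0, 5, 2, 4, 3, 1, 6, 7, 8])]

/-- The natural module: the letters `s, t, x`. -/
def LN : List (ℕ × List ℕ × List ℕ) :=
  [(5, [1, 2, 16, 40, 128, 64, 8, 20], [1, 3, 0, 4, 6, 2, 5, 7, 8]),
   (6, [1, 2, 4, 8, 144, 64, 96, 16], [3, 2, 5, 4, 0, 1, 6, 7, 8]),
   (7, [2, 15, 10, 6, 16, 32, 64, 128], [0, 1, 2, 3, 4, 5, 7, 8, 6])]

theorem xor_lt {a b : ℕ} (ha : a < 512) (hb : b < 512) : Nat.xor a b < 512 :=
  Nat.xor_lt_two_pow (n := 9) ha hb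

theorem qm_lt {a b : ℕ} (ha : a < 512) (hb : b < 512) : qm a b < 512 := by
  refine xor_lt (xor_lt ha hb) ?_
  have : par (Nat.land (Nat.shiftRight a 1) b) ≤ 1 := Nat.and_le_right
  change par (Nat.land (Nat.shiftRight a 1) b) <<< 8 < 512
  rw [Nat.shiftLeft_eq]; omega

theorem lin_cons (a : ℕ) (L : List ℕ) (m : ℕ) :
    lin (a :: L) m = if m % 2 = 1 then qm a (lin L (m / 2)) else lin L (m / 2) := by
  change @Bool.rec (fun _ => ℕ) (lin L (m / 2)) (qm a (lin L (m / 2))) (Nat.beq (m % 2) 1) = _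
  rcases Nat.mod_two_eq_zero_or_one m with h | h <;> rw [h] <;> rfl

theorem lin_lt {L : List ℕ} (h : ∀ a ∈ L, a < 512) (m : ℕ) : lin L m < 512 := by
  induction L generalizing m with
  | nil => change 256 * (m % 2) < 512; omega
  | cons a L ih =>
    have := ih (fun b hb => h b (List.mem_cons_of_mem _ hb)) (m / 2)
    rw [lin_cons]
    split_ifs
    exacts [qm_lt (h a List.mem_cons_self) this, this]

theorem lin_L0 : ∀ m < 512, lin L0 m = m := by decide +kernel

variable {z : G} {Q : Subgroup G} {n : ℕ → G} {g k : G} {L L' : List ℕ}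

theorem Enc.conj (E : Enc z Q n) (hg : g * z * g⁻¹ = z) (h : List.Forall₂
    (fun a b => a < 512 ∧ b < 512 ∧ g * n a * g⁻¹ = n b) L L') (m : ℕ) :
    lin L m < 512 ∧ lin L' m < 512 ∧ g * n (lin L m) * g⁻¹ = n (lin L' m) := by
  induction h generalizing m with
  | nil =>
    refine ⟨lin_lt (by simp) m, lin_lt (by simp) m, ?_⟩
    change g * n (256 * (m % 2)) * g⁻¹ = n (256 * (m % 2))
    rcases Nat.mod_two_eq_zero_or_one m with h | h <;> rw [h]
    · simp [E.zero]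
    · rw [E.z256, hg]
  | cons h _ ih =>
    obtain ⟨i1, i2, i3⟩ := ih (m / 2)
    rw [lin_cons, lin_cons]
    split_ifs
    · exact ⟨qm_lt h.1 i1, qm_lt h.2.1 i2, by
        rw [← E.mul _ h.1 _ i1, ← E.mul _ h.2.1 _ i2, ← h.2.2, ← i3, conj_mul]⟩
    · exact ⟨i1, i2, i3⟩

theorem Act.lt (h : Act n g L) (m : ℕ) : lin L m < 512 := lin_lt h.2.1 m

/-- The action on all codes. -/
theorem Act.all (h : Act n g L) (E : Enc z Q n) (hg : g ∈ centralizer ({z} : Set G)) {m : ℕ}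
    (hm : m < 512) : g * n m * g⁻¹ = n (lin L m) := by
  have := (E.conj (g := g) (by rw [mem_centralizer_singleton_iff.1 hg]; simp) (L := L0) (L' := L)
    (List.forall₂_iff_get.2 ⟨h.1.symm, fun i h1 h2 => by
      have h3 := (by decide : ∀ i (h : i < L0.length), L0.get ⟨i, h⟩ = 2 ^ i ∧ 2 ^ i < 512) i h1
      refine ⟨h3.1 ▸ h3.2, h.2.1 _ (List.get_mem _ _), ?_⟩
      rw [h3.1, h.2.2 i h1, List.getD_eq_getElem _ _ h2]; rfl⟩) m).2.2
  rwa [lin_L0 m hm] at this

theorem Act.mul (h : Act n g L) (h' : Act n k L') (E : Enc z Q n)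
    (hg : g ∈ centralizer ({z} : Set G)) : Act n (g * k) (L'.map (lin L)) := by
  refine ⟨by simpa using h'.1, fun a ha => ?_, fun i hi => ?_⟩
  · obtain ⟨b, -, rfl⟩ := List.mem_map.1 ha
    exact h.lt b
  · have h1 : i < L'.length := h'.1 ▸ hi
    rw [List.getD_eq_getElem _ _ (by simpa using h1), List.getElem_map,
      ← h.all E hg (h'.2.1 _ (List.getElem_mem h1)), ← List.getD_eq_getElem _ 0 h1, ← h'.2.2 i hi]
    group

theorem Ph.mul {φ : centralizer ({z} : Set G) →* Equiv.Perm (Fin 9)} {l l' : List ℕ}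
    (h : Ph φ g l) (h' : Ph φ k l') (hl : l'.length = 9) :
    Ph φ (g * k) (l'.map fun p => l.getD p 0) := by
  obtain ⟨a, ha⟩ := h
  obtain ⟨b, hb⟩ := h'
  refine ⟨mul_mem a b, fun p => ?_⟩
  rw [List.getD_eq_getElem _ _ (by simp [hl]), List.getElem_map, ← List.getD_eq_getElem _ 0 (by simp [hl]),
    ← hb, ← ha, ← Equiv.Perm.mul_apply, ← map_mul]
  rfl

end Cfsg.Agent.Lib.ThDefs
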