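import Cfsg.Agent.Lib.ThE8C0
import Cfsg.Agent.Lib.ThE8C1
import Cfsg.Agent.Lib.ThE8C2
import Cfsg.Agent.Lib.ThE8C3
import Cfsg.Agent.Lib.RepT8
import Cfsg.Agent.Lib.ThA

/-! The Thompson group embeds into `E₈(3)`. -/

set_option autoImplicit false
set_option maxRecDepth 100000

namespace Cfsg.Agent.Lib.ThE8

open Cfsg.Agent.Lib.PermNet Cfsg.Agent.Lib.Words Cfsg.Agent.Lib.MatRep Cfsg.Agent.Lib.ThE8R Cfsg.Lie
  Cfsg.Agent.Lib.DCE Matrix

def e : chevE8.Idx ≃ Fin 248 := finSumFinEquiv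

theorem e_val (a : chevE8.Idx) : (e a).1 = ChevEval.code chevE8 a := by cases a <;> rfl

section

variable {m n R : Type*} [Fintype m] [Fintype n] [DecidableEq m] [DecidableEq n] [CommRing R] (e : m ≃ n)

/-- Inverse transpose. -/
def θ : (Matrix n n R)ˣ →* GL m R :=
  MonoidHom.mk' (fun u => ⟨(u⁻¹).1ᵀ.submatrix e e, u.1ᵀ.submatrix e e,
    by rw [submatrix_mul_equiv, ← transpose_mul, Units.mul_inv, transpose_one, submatrix_one_equiv],
    by rw [submatrix_mul_equiv, ← transpose_mul, Units.inv_mul, transpose_one, submatrix_one_equiv]⟩)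
    fun u v => Units.ext (show ((u * v)⁻¹).1ᵀ.submatrix e e =
        (u⁻¹).1ᵀ.submatrix e e * (v⁻¹).1ᵀ.submatrix e e by
      rw [ submatrix_mul_equiv, ← transpose_mul, _root_.mul_inv_rev, Units.val_mul])

theorem θ_mem {u : (Matrix n n R)ˣ} {K : Subgroup (GL m R)} (g : K)
    (h : ∀ a b, (g⁻¹).1.1 a b = u.1 (e b) (e a)) : θ e u ∈ K :=
  have : θ e u = g.1 := inv_injective (Units.ext (Matrix.ext fun a b => (h a b).symm))
  this ▸ g.2

theorem θ_one {u : (Matrix n n R)ˣ} (h : θ e u = 1) : u = 1 :=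
  Units.ext (Matrix.ext fun i j => by
    have h' : u.1ᵀ.submatrix e e = 1 := congrArg Units.inv h
    have := congrFun (congrFun h' (e.symm j)) (e.symm i)
    simpa [one_apply, eq_comm] using this)

end

theorem ent {c : Cfg} {A : Matrix (Fin c.n) (Fin c.n) (ZMod c.p)} {rows : List ℕ} (h : A = toM c rows)
    (a b : Fin c.n) : A a b = (dg c.w (rows.getD a 0) b : ZMod c.p) := h ▸ rfl

theorem f_apply {i : ℕ} (hi : i < 8) (a b : Fin 248) :
    (RepT8.f i).1 a b = (dg 12 ((getW RepT8.ms (2 * i)).getD a 0) b : ZMod 3) := by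
  have := val_wval RepT8.hinv (w := [2 * i]) (by simp; omega)
  rw [wval_single, mval, List.map_singleton, List.prod_singleton] at this
  have e : RepT8.f = gen RepT8.c RepT8.ms := rfl
  exact ent (c := RepT8.c) (A := (RepT8.f i).1) ((congrArg (fun F => (F i).1) e).trans this) a b

theorem mem {i : ℕ} (hi : i < 8) {W : List (ℕ × ℕ)} (h : chk sh (getW RepT8.ms (2 * i)) W = true) :
    θ e (RepT8.f i) ∈ chevE8.group (ZMod 3) := by
  obtain ⟨g, hg⟩ := chk_sound hs h
  refine θ_mem e g fun row cl => ?_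
  rw [f_apply hi, e_val, e_val]
  exact hg row cl

theorem emb {G H : Type*} [Group G] [Group H] [IsSimpleGroup G] {φ : G →* H} {K : Subgroup H} {y : ℕ → G}
    {n : ℕ} (top : gp y (sing n) = ⊤) (h : ∀ i < n, φ (y i) ∈ K) (ne : φ (y 0) ≠ 1) :
    ∃ f : G →* K, Function.Injective f := by
  have h : ∀ g, φ g ∈ K := fun g => (gp_le (K := K.comap φ)).2 (fun w hw => by
    obtain ⟨i, hi, rfl⟩ := List.mem_map.1 hw
    rw [wval_single]
    exact h i (List.mem_range.1 hi)) (top ▸ Subgroup.mem_top g)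
  exact ⟨φ.codRestrict _ h, (MonoidHom.ker_eq_bot_iff _).1
    ((MonoidHom.normal_ker _).eq_bot_or_eq_top.resolve_right fun h0 =>
      ne (congrArg Subtype.val (show φ.codRestrict _ h (y 0) = 1 from
        MonoidHom.mem_ker.1 (h0 ▸ Subgroup.mem_top (y 0)))))⟩

theorem exists_emb : ∃ f : Spor.Th →* chevE8.group (ZMod 3), Function.Injective f := by
  obtain ⟨φ, hφ⟩ := ThBase.exists_hom RepT8.f (derive [] RepT8.rels ThBase.K (by decide +kernel))
  have := ThA.simple
  refine emb (φ := (θ e).comp φ) ThA.htop (fun i hi => ?_) fun h1 => ?_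
  · rw [MonoidHom.comp_apply, hφ i hi]
    interval_cases i
    exacts [mem hi h0, mem hi h1, mem hi h2, mem hi h3, mem hi h4, mem hi h5, mem hi h6, mem hi h7]
  · rw [MonoidHom.comp_apply, hφ 0 (by decide)] at h1
    exact RepT8.ne ((wval_single _ 0).trans (θ_one e h1))

end Cfsg.Agent.Lib.ThE8
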