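import Cfsg.Agent.Lib.MatRep
import Cfsg.Agent.Lib.DCEDefs
import Cfsg.Agent.Lib.ChevFil
import Cfsg.Agent.Lib.ChevTE8

/-! Multiplication of packed matrices over `ZMod 3` by root elements of `E₈`. -/

set_option autoImplicit false
set_option maxRecDepth 100000

namespace Cfsg.Agent.Lib.ThE8R

open Cfsg.Agent.Lib.PermNet Cfsg.Agent.Lib.MatRep Cfsg.Lie Finset
open Cfsg.Agent.Lib.DCE (TT)
open Cfsg.Agent.Lib.ChevEval (Col code ev cm col)

noncomputable def mapK (sh : TT) (f : ℕ → (ℕ → Bool) → Bool) : (TT → Bool) → Bool :=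
  TT.rec (motive := fun _ => (TT → Bool) → Bool) (fun i k => f i fun v => k (.leaf v))
    (fun c _ _ il ir k => il fun l => ir fun r => k (.node c l r)) sh

theorem mapK_sound {f : ℕ → (ℕ → Bool) → Bool} {P : ℕ → ℕ → Prop}
    (hf : ∀ i k, f i k = true → ∃ v, P i v ∧ k v = true) (sh : TT) (k : TT → Bool)
    (h : mapK sh f k = true) : ∃ t, k t = true ∧ ∀ j, P (sh.get j) (t.get j) := by
  induction sh generalizing k with
  | leaf i =>
    obtain ⟨v, h1, h2⟩ := hf i _ h
    exact ⟨_, h2, fun _ => h1⟩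
  | node c l r il ir =>
    obtain ⟨l', h1, h2⟩ := il _ h
    obtain ⟨r', h3, h4⟩ := ir _ h1
    refine ⟨_, h3, fun j => ?_⟩
    have e : ∀ a b : TT, (TT.node c a b).get j =
      @Bool.rec (fun _ => ℕ) (a.get j) (b.get j) (Nat.ble c j) := fun _ _ => rfl
    rw [e, e]
    cases Nat.ble c j
    exacts [h2 j, h4 j]

def coef (t : ℕ) (x : ℕ × ℤ × ℕ) : ℕ :=
  Int.toNat (Int.emod (Int.mul x.2.1 (Int.ofNat (Nat.pow t x.2.2))) 3)

theorem coef_le (t : ℕ) (x : ℕ × ℤ × ℕ) : coef t x ≤ 2 := by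
  change ((x.2.1 * ((t ^ x.2.2 : ℕ) : ℤ)) % 3).toNat ≤ 2
  omega

theorem coef_eq (t : ℕ) (x : ℕ × ℤ × ℕ) :
    (coef t x : ZMod 3) = (x.2.1 : ZMod 3) * (t : ZMod 3) ^ x.2.2 := by
  change ((((x.2.1 * ((t ^ x.2.2 : ℕ) : ℤ)) % 3).toNat : ℕ) : ZMod 3) = _
  rw [← Int.cast_natCast, Int.toNat_of_nonneg (by omega)]
  exact (ZMod.intCast_mod _ 3).trans (by push_cast; rfl)

noncomputable def comb (o : TT) (t : ℕ) (l : Col) : ℕ :=
  List.rec (motive := fun _ => ℕ) (nat_lit 0)
    (fun x _ ih => Nat.add (Nat.mul (coef t x) (o.get x.1)) ih) l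

theorem comb_eq {o : TT} (ho : ∀ j, Small 12 2 248 (o.get j)) (t : ℕ) (l : Col) :
    comb o t l = pk 12 248 (fun j => (l.map fun x => coef t x * dg 12 (o.get x.1) j).sum) ∧
      ∀ j < 248, (l.map fun x => coef t x * dg 12 (o.get x.1) j).sum ≤ 6 * l.length := by
  induction l with
  | nil => exact ⟨by simp [pk, comb], by simp⟩
  | cons x l ih =>
    refine ⟨?_, fun j hj => ?_⟩
    · change coef t x * o.get x.1 + comb o t l = _
      rw [ih.1, (ho x.1).1]
      simp only [pk, List.map_cons, List.sum_cons, add_mul, sum_add_distrib, mul_sum, mul_assoc]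
    · have := Nat.mul_le_mul (coef_le t x) (Nat.le_of_lt_succ ((ho x.1).2 j hj))
      have := ih.2 j hj
      simp only [List.map_cons, List.sum_cons, List.length_cons]
      omega

/-- The identity; the extra arguments only keep the terms apart. -/
def sel (_ : List (ℕ × ℕ)) (_ : ℕ) (x : ℕ) : ℕ := x

noncomputable def red (mS mQ : ℕ) (W : List (ℕ × ℕ)) (b x : ℕ) (k : ℕ → Bool) : Bool :=
  forceB x fun x => forceB (Nat.mul (nat_lit 3) (Nat.land (Nat.shiftRight (Nat.mul (sel W b x) (nat_lit 43))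
    (nat_lit 7)) mQ)) fun q => forceB (Nat.sub (sel W b x) q) fun r =>
      band (Nat.ble q (sel W b x)) (band (Nat.beq (Nat.land (sel W b r) mS) r) (k (sel W b r)))

theorem red_sound {W : List (ℕ × ℕ)} {b x : ℕ} {k : ℕ → Bool}
    (h : red (msk 2 12 248) (msk 4 12 248) W b x k = true) :
    ∃ r, (Small 12 2 248 r ∧ ∀ j < 248, (dg 12 r j : ZMod 3) = dg 12 x j) ∧ k r = true := by
  simp only [red, forceB_eq, sel] at h
  have hq := small_land (w := 12) (s := 4) (by decide) (by decide) 248 (Nat.shiftRight (Nat.mul x 43) 7)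
  set q := Nat.land (Nat.shiftRight (Nat.mul x 43) 7) (msk 4 12 248)
  obtain ⟨h₁, h⟩ := band_eq h
  obtain ⟨h₂, h₃⟩ := band_eq h
  have h₁ : 3 * q ≤ x := Nat.le_of_ble_eq_true h₁
  have h₂ : Nat.land (x - 3 * q) (msk 2 12 248) = x - 3 * q := Nat.eq_of_beq_eq_true h₂
  have hr : Small 12 2 248 (x - 3 * q) := h₂ ▸ small_land (by decide) (by decide) _ _
  refine ⟨x - 3 * q, ⟨hr, fun j hj => ?_⟩, h₃⟩
  set r := x - 3 * q
  have e : x = pk 12 248 fun t => 3 * dg 12 q t + dg 12 r t := by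
    simp only [pk, add_mul, sum_add_distrib, mul_assoc, ← mul_sum]
    rw [← pk, ← pk, ← hq.1, ← hr.1]
    omega
  conv_rhs => rw [e]
  rw [dg_pk (fun t ht => by have := hq.2 t ht; have := hr.2 t ht; omega) hj, Nat.cast_add, Nat.cast_mul,
    ZMod.natCast_self, zero_mul, zero_add]

noncomputable def stepC (mS mQ : ℕ) (W : List (ℕ × ℕ)) (b : ℕ) (o : TT) (t : ℕ) (l : Col) (k : ℕ → Bool) : Bool :=
  band (allB (fun x => Nat.blt x.1 (nat_lit 248)) l) (band (Nat.ble l.length (nat_lit 20))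
    (red mS mQ W b (comb o t l) k))

noncomputable def runW (mS mQ : ℕ) (sh : TT) (k : TT → Bool) (W : List (ℕ × ℕ)) : TT → Bool :=
  List.rec (motive := fun _ => TT → Bool) k (fun x W ih o => band (Nat.blt x.1 (nat_lit 240))
    (mapK sh (fun b => stepC mS mQ W b o x.2 (ChevTE8.X.colF x.1 b)) ih)) W

/-- The matrix whose columns are stored in the tree. -/
noncomputable def M (t : TT) : Matrix chevE8.Idx chevE8.Idx (ZMod 3) :=
  Matrix.of fun row cl => (dg 12 (t.get (code chevE8 cl)) (code chevE8 row) : ZMod 3)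

theorem sum_ev {t : ℕ} (g : ℕ → ZMod 3) (l : Col) (h : ∀ x ∈ l, x.1 < 248) :
    (l.map fun x => (coef t x : ZMod 3) * g x.1).sum =
      ∑ u, g (code chevE8 u) * ev chevE8 (fun k => (t : ZMod 3) ^ k) l u := by
  induction l with
  | nil => simp [ChevEval.ev_nil]
  | cons x l ih =>
    obtain ⟨c, hc⟩ := ChevEval.exists_code (D := chevE8) (h x List.mem_cons_self)
    simp only [List.map_cons, List.sum_cons, ChevEval.ev_cons, mul_add, sum_add_distrib,
      ← ih fun y hy => h y (List.mem_cons_of_mem _ hy), ← hc, ChevEval.code_eq_iff, mul_ite, mul_zero,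
      sum_ite_eq, mem_univ, if_true, coef_eq]
    rw [mul_comm]

theorem M_mul {t o : TT} {c : ℕ → Col} {a : ZMod 3} (h : ∀ row cl : chevE8.Idx,
    (dg 12 (t.get (code chevE8 cl)) (code chevE8 row) : ZMod 3) =
      ∑ u, (dg 12 (o.get (code chevE8 u)) (code chevE8 row) : ZMod 3) *
        ev chevE8 (fun k => a ^ k) (c (code chevE8 cl)) u) : M t = M o * cm chevE8 c a :=
  Matrix.ext fun row cl => (h row cl).trans (Matrix.mul_apply (M := M o) (N := cm chevE8 c a)).symm

theorem runW_sound {sh : TT} (hs : ∀ j < 248, sh.get j = j) {k : TT → Bool} (W : List (ℕ × ℕ)) {o : TT}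
    (ho : ∀ j, Small 12 2 248 (o.get j)) (h : runW (msk 2 12 248) (msk 4 12 248) sh k W o = true) :
    (∀ x ∈ W, x.1 < 240) ∧ ∃ t, k t = true ∧
      M t = M o * (W.map fun x => cm chevE8 (col chevE8 x.1) (x.2 : ZMod 3)).prod := by
  induction W generalizing o with
  | nil => exact ⟨by simp, o, h, by simp⟩
  | cons x W ih =>
    obtain ⟨h1, h2⟩ := band_eq h
    have h1 : x.1 < 240 := by simpa using h1
    obtain ⟨t, h3, h4⟩ := mapK_sound (P := fun b v => Small 12 2 248 v ∧ ∀ j < 248, (dg 12 v j : ZMod 3) =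
      ∑ u, (dg 12 (o.get (code chevE8 u)) j : ZMod 3) *
        ev chevE8 (fun k => (x.2 : ZMod 3) ^ k) (col chevE8 x.1 b) u) (fun b k hb => by
          rw [ChevTE8.agree.col_eq h1] at hb
          obtain ⟨a1, hb⟩ := band_eq hb
          obtain ⟨a2, hb⟩ := band_eq hb
          have a2 : (col chevE8 x.1 b).length ≤ 20 := Nat.le_of_ble_eq_true a2
          obtain ⟨r, ⟨a3, a4⟩, a5⟩ := red_sound hb
          obtain ⟨a6, a7⟩ := comb_eq ho x.2 (col chevE8 x.1 b)
          refine ⟨r, ⟨a3, fun j hj => ?_⟩, a5⟩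
          rw [a4 j hj, a6, dg_pk (fun t ht => by have := a7 t ht; omega) hj,
            ← sum_ev (fun u => (dg 12 (o.get u) j : ZMod 3)) _ fun y hy => by simpa using allB_iff a1 y hy]
          simp [Function.comp_def]) sh _ h2
    obtain ⟨h5, t', h6, h7⟩ := ih (fun j => (h4 j).1) h3
    refine ⟨List.forall_mem_cons.2 ⟨h1, h5⟩, t', h6, ?_⟩
    have hM : M t = M o * cm chevE8 (col chevE8 x.1) (x.2 : ZMod 3) := M_mul fun row cl => by
      have := (h4 (code chevE8 cl)).2 _ (ChevEval.code_lt row)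
      rwa [hs _ (ChevEval.code_lt cl)] at this
    rw [h7, hM, List.map_cons, List.prod_cons, mul_assoc]

/-- The matrix with the given columns times the word is the identity. -/
noncomputable def chk (sh : TT) (rows : List ℕ) (W : List (ℕ × ℕ)) : Bool :=
  forceB (msk 2 12 248) fun mS => forceB (msk 4 12 248) fun mQ =>
    mapK sh (fun b => red mS mQ [] b (rows.getD b 0)) (runW mS mQ sh (fun t => ChevEval.allN
      (fun b => Nat.beq (t.get b) (Nat.shiftLeft (nat_lit 1) (Nat.mul (nat_lit 12) b))) 248) W)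

theorem chk_sound {sh : TT} (hs : ∀ j < 248, sh.get j = j) {rows : List ℕ} {W : List (ℕ × ℕ)}
    (h : chk sh rows W = true) : ∃ g : chevE8.group (ZMod 3), ∀ row cl,
      (g⁻¹).1.1 row cl = (dg 12 (rows.getD (code chevE8 cl) 0) (code chevE8 row) : ZMod 3) := by
  rw [chk, forceB_eq, forceB_eq] at h
  obtain ⟨o, h1, h2⟩ := mapK_sound (fun b k hb => red_sound hb) sh _ h
  obtain ⟨h3, t, h4, h5⟩ := runW_sound hs W (fun j => (h2 j).1) h1
  let C : ChevFil.Cx chevE8 (ZMod 3) := ⟨_, _, _, _, ChevTE8.sys, ChevTE8.rels (ZMod 3)⟩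
  have e1 : M t = 1 := by
    ext row cl
    have := Nat.eq_of_beq_eq_true (ChevEval.allN_spec h4 _ (ChevEval.code_lt cl))
    change _ = 1 <<< (12 * _) at this
    have hc := ChevEval.code_lt cl
    rw [M, Matrix.of_apply, this, Nat.one_shiftLeft, show 2 ^ (12 * code chevE8 cl) =
      pk 12 248 fun j => if j = code chevE8 cl then 1 else 0 by
        simp only [pk, ite_mul, one_mul, zero_mul, sum_ite_eq', mem_range]; exact (if_pos hc).symm,
      dg_pk (N := 248) (fun _ _ => by split_ifs <;> decide) (ChevEval.code_lt row), Matrix.one_apply]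
    simp [ChevEval.code_eq_iff]
  have e2 : ChevFil.Cx.mat (W.map fun x => C.x x.1 (x.2 : ZMod 3)).prod =
      (W.map fun x => cm chevE8 (col chevE8 x.1) (x.2 : ZMod 3)).prod := by
    rw [map_list_prod, List.map_map]
    exact congrArg _ (List.map_congr_left fun x hx => C.mat_x (h3 x hx) _)
  refine ⟨(W.map fun x => C.x x.1 (x.2 : ZMod 3)).prod, fun row cl => ?_⟩
  have e3 : ChevFil.Cx.mat ((W.map fun x => C.x x.1 (x.2 : ZMod 3)).prod)⁻¹ = M o := by
    rw [← one_mul (ChevFil.Cx.mat _), ← e1, h5, ← e2, mul_assoc, ← map_mul, mul_inv_cancel, map_one, mul_one]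
  have := (h2 (code chevE8 cl)).2 _ (ChevEval.code_lt row)
  rw [hs _ (ChevEval.code_lt cl)] at this
  exact (congrFun (congrFun e3 row) cl).trans this

end Cfsg.Agent.Lib.ThE8R
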