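import Cfsg.Agent.Lib.ThFq
import Cfsg.Agent.Lib.ZStar

/-! Fusion of the central involution of `2^(1+8).A₉`: the part common to both modules. -/

set_option autoImplicit false

namespace Cfsg.Agent.Lib.ThF1

open Subgroup Cfsg.Agent.Lib.ThDefs Cfsg.Agent.Lib.ThF9

variable {G : Type*} [Group G] {z : G} {Q : Subgroup G}
  {φ : centralizer ({z} : Set G) →* Equiv.Perm (Fin 9)} {n : ℕ → G} {y : G} {L : List ℕ}

/-- The involution is not isolated. -/
theorem zs [Finite G] [IsSimpleGroup G] (h : Hyp z Q φ) :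
    ∃ g, g * z * g⁻¹ ∈ centralizer {z} ∧ g * z * g⁻¹ ≠ z := by
  have h1 : ¬ Cfsg.IsIsolated z := fun hi => by
    have h2 := ZStar.zstar G _ (by rw [sq, h.zz]) hi
    rcases IsSimpleGroup.eq_bot_or_eq_top_of_normal (Cfsg.pPrimeCore 2 G) inferInstance with k | k
    · rcases IsSimpleGroup.eq_bot_or_eq_top_of_normal (center G) inferInstance with k2 | k2
      · exact h.ne (mem_bot.1 (k2 ▸ mem_center_iff.2 fun g =>
          mul_inv_eq_iff_eq_mul.1 (mul_inv_eq_one.1 (mem_bot.1 (k ▸ h2 g)))))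
      · have : Q ≤ zpowers z := fun q hq => (BT.mem_zpowers_two h.zz).2
          (h.cen q (h.le hq) fun r _ => mem_center_iff.1 (k2.ge (mem_top _)) _)
        have := card_le_of_le this
        rw [h.cQ, Nat.card_zpowers, orderOf_eq_prime (p := 2) (by rw [sq, h.zz]) h.ne] at this
        omega
    · have h4 := PCoreResidual.coprime_card_pPrimeCore 2 G
      have h5 := orderOf_dvd_natCard z
      rw [orderOf_eq_prime (p := 2) (by rw [sq, h.zz]) h.ne] at h5
      rw [k, card_top] at h4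
      exact absurd (Nat.eq_one_of_dvd_coprimes h4 h5 dvd_rfl) (by decide)
  simp only [Cfsg.IsIsolated, not_forall] at h1
  obtain ⟨g, h1, h2⟩ := h1
  exact ⟨g, mem_centralizer_singleton_iff.2 h1.symm, h2⟩

/-- An element that acts trivially on the generators. -/
theorem triv (h : Hyp z Q φ) (E : Enc z Q n) (hy : y ∈ centralizer ({z} : Set G))
    (A : Act n y L0) : y = 1 ∨ y = z := h.cen y hy fun q hq => by
  obtain ⟨a, ha, rfl⟩ := E.surj q hq
  have := A.all E hy ha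
  rw [lin_L0 a ha] at this
  exact mul_inv_eq_iff_eq_mul.1 this

/-- All involutions of the coset are conjugate under `Q`, up to the factors `ε`. -/
def Cos (L ε : List ℕ) : Prop := L.map (lin L) = L0 ∧ (∀ e ∈ ε, e < 512) ∧
  ∀ p < 512, qm p (lin L p) = 0 ∨ qm p (lin L p) = 256 → ∃ r < 512, ∃ e ∈ ε, qm r p = qm e (lin L r)

noncomputable instance (L ε : List ℕ) : Decidable (Cos L ε) := by unfold Cos; infer_instance

theorem cos (h : Hyp z Q φ) (E : Enc z Q n) (hy : y ∈ centralizer ({z} : Set G)) (A : Act n y L)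
    {ε : List ℕ} (hc : Cos L ε) {p : ℕ} (hp : p < 512) (h2 : n p * y * (n p * y) = 1) :
    ∃ r ∈ Q, ∃ e ∈ ε, r * (n p * y) * r⁻¹ = n e * y := by
  have e1 : n (qm p (lin L p)) * (y * y) = 1 := by
    rw [← E.mul _ hp _ (A.lt p), ← A.all E hy hp, ← h2]; group
  have lt := qm_lt hp (A.lt p)
  obtain ⟨r, hr, e, he, e2⟩ := hc.2.2 p hp (by
    rcases triv h E (mul_mem hy hy) (hc.1 ▸ A.mul A E hy) with k | k <;> rw [k] at e1
    · exact .inl (E.inj _ lt _ (by decide) (by rw [E.zero, ← e1, mul_one]))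
    · exact .inr (E.inj _ lt _ (by decide) (by
        rw [E.z256, eq_inv_of_mul_eq_one_left e1, inv_eq_of_mul_eq_one_right h.zz])))
  refine ⟨_, E.mem r hr, e, he, ?_⟩
  rw [← mul_assoc, E.mul _ hr _ hp, e2, ← E.mul _ (hc.2.1 e he) _ (A.lt r), ← A.all E hy hr]
  group

theorem sq_one {v : G} (hv : v ∈ centralizer ({z} : Set G)) (vv : v * v = 1) :
    φ ⟨v, hv⟩ * φ ⟨v, hv⟩ = 1 := by
  rw [← map_mul, ← map_one φ]; exact congrArg φ (Subtype.ext vv)

theorem sq_of (h : Hyp z Q φ) (E : Enc z Q n) (hy : y ∈ centralizer ({z} : Set G)) (A : Act n y L)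
    (hc : L.map (lin L) = L0) : φ ⟨y, hy⟩ * φ ⟨y, hy⟩ = 1 := by
  rw [← map_mul, h.ker]
  rcases triv h E (mul_mem hy hy) (hc ▸ A.mul A E hy) with k | k
  exacts [(congrArg (· ∈ Q) k).mpr (one_mem Q), (congrArg (· ∈ Q) k).mpr h.mem]

/-- An involution over the class of `y` is conjugate to `n e * y`. -/
theorem conj_to (h : Hyp z Q φ) (E : Enc z Q n) (hy : y ∈ centralizer ({z} : Set G)) (A : Act n y L)
    {ε : List ℕ} (hc : Cos L ε) {v : G} (hv : v ∈ centralizer ({z} : Set G)) (vv : v * v = 1)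
    (e : (φ ⟨v, hv⟩).support.card = (φ ⟨y, hy⟩).support.card) :
    ∃ k ∈ centralizer ({z} : Set G), ∃ e ∈ ε, k * v * k⁻¹ = n e * y := by
  obtain ⟨k, hk, p, hp, e1⟩ := lift h E hv hy vv (sq_of h E hy A hc.1) e
  obtain ⟨r, hr, e, he, e2⟩ := cos h E hy A hc hp (by rw [← e1, conj_mul, vv]; simp)
  exact ⟨_, mul_mem (h.le hr) hk, e, he, by rw [← e2, ← e1]; group⟩

theorem mem_of_comm {g a : G} (h : a * (g * z * g⁻¹) = g * z * g⁻¹ * a) :
    g⁻¹ * a * g ∈ centralizer ({z} : Set G) := mem_centralizer_singleton_iff.2 (by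
  rw [← mul_left_cancel_iff (a := g), ← mul_right_cancel_iff (a := g⁻¹)]
  simpa only [mul_assoc, mul_inv_cancel_left, mul_inv_cancel, mul_one] using h)

/-- No other conjugate of `z` lies in the group that belongs to `g * z * g⁻¹`. -/
theorem ne_one (h : Hyp z Q φ) (NQ : ∀ g, g * z * g⁻¹ ∈ Q → g * z * g⁻¹ = z) {g a : G}
    (ha : g⁻¹ * a * g ∈ centralizer ({z} : Set G)) (a1 : a ≠ 1)
    (hc : IsConj z (a * (g * z * g⁻¹))) : φ ⟨_, ha⟩ ≠ 1 := fun e => by
  obtain ⟨k, hk⟩ := isConj_iff.1 hc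
  have e1 : g⁻¹ * k * z * (g⁻¹ * k)⁻¹ = g⁻¹ * a * g * z := by
    rw [mul_assoc g⁻¹ k, mul_inv_rev, ← mul_assoc, mul_assoc g⁻¹, hk]; group
  have := NQ (g⁻¹ * k) (e1 ▸ mul_mem ((h.ker _).1 e) h.mem)
  rw [e1, mul_eq_right, ← inv_inv g, inv_inv g⁻¹, conj_eq_one_iff] at this
  exact a1 this

/-- The seven codes. -/
noncomputable def sev (a b c : ℕ) : List ℕ := [a, b, c, qm a b, qm a c, qm b c, qm (qm a b) c]

/-- A conjugate of `z` does not lie over a product of four transpositions. -/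
theorem stepA (h : Hyp z Q φ) (E : Enc z Q n) (hy : y ∈ centralizer ({z} : Set G)) (A : Act n y L)
    (hs : (φ ⟨y, hy⟩).support.card = 8) (hc : Cos L [0]) (a b c : ℕ)
    (h7 : (∀ x ∈ sev a b c, x < 512 ∧ lin L x = x ∧ qm x x = 0 ∧ x ≠ 0 ∧ x ≠ 256) ∧
      qm a b = qm b a ∧ qm a c = qm c a ∧ qm b c = qm c b)
    (NQ : ∀ g, g * z * g⁻¹ ∈ Q → g * z * g⁻¹ = z) {g : G}
    (hg : g * z * g⁻¹ ∈ centralizer ({z} : Set G)) : (φ ⟨_, hg⟩).support.card ≠ 8 := fun e => by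
  have cy : ∀ v (hv : v ∈ centralizer ({z} : Set G)), v * v = 1 → (φ ⟨v, hv⟩).support.card = 8 →
      ∃ k, k * v * k⁻¹ = y := fun v hv vv e => by
    obtain ⟨k, -, x, hx, e1⟩ := conj_to h E hy A hc hv vv (e.trans hs.symm)
    exact ⟨k, by rwa [List.mem_singleton.1 hx, E.zero, one_mul] at e1⟩
  obtain ⟨k, hk⟩ := cy _ hg (by rw [conj_mul, h.zz]; simp) e
  have e1 : k * g * z * (k * g)⁻¹ = y := by rw [← hk]; group
  generalize k * g = g at e1
  have zy : IsConj z y := isConj_iff.2 ⟨g, e1⟩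
  have yy : y * y = 1 := by rw [← e1, conj_mul, h.zz]; simp
  have key : ∀ x ∈ sev a b c, ∃ hx : g⁻¹ * n x * g ∈ centralizer ({z} : Set G),
      φ ⟨_, hx⟩ * φ ⟨_, hx⟩ = 1 ∧ (φ ⟨_, hx⟩).support.card = 4 := fun x hx => by
    obtain ⟨x1, x2, x3, x4, x5⟩ := h7.1 x hx
    have c1 : y * n x = n x * y := mul_inv_eq_iff_eq_mul.1 ((A.all E hy x1).trans (by rw [x2]))
    have c2 : n x * n x = 1 := by rw [E.mul _ x1 _ x1, x3, E.zero]
    have hx := mem_of_comm (e1 ▸ c1.symm)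
    have c3 : g⁻¹ * n x * g * (g⁻¹ * n x * g) = 1 := by
      rw [mul_assoc, mul_assoc g⁻¹, ← mul_assoc g, mul_inv_cancel_left, ← mul_assoc (n x), c2]; simp
    refine ⟨hx, sq_one hx c3, ?_⟩
    rcases F1c (sq_one hx c3) (h.rng.le ⟨_, rfl⟩) with k | k | k
    · have hm := mul_mem (h.le (E.mem x x1)) hy
      obtain ⟨k1, e2⟩ := cy _ hm (by rw [mul_assoc, ← mul_assoc y, c1, mul_assoc, yy, mul_one, c2])
        (by
          rw [show (⟨_, hm⟩ : centralizer ({z} : Set G)) = ⟨_, h.le (E.mem x x1)⟩ * ⟨y, hy⟩ from rfl,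
            map_mul, (h.ker _).2 (E.mem x x1), one_mul, hs])
      exact absurd k (ne_one h NQ hx (fun e => x4 (E.inj _ x1 _ (by decide) (e.trans E.zero.symm)))
        (e1 ▸ zy.trans (isConj_iff.2 ⟨k1, e2⟩).symm))
    · exact k
    · obtain ⟨k1, e2⟩ := cy _ hx c3 k
      obtain ⟨k2, e3⟩ := isConj_iff.1 (zy.trans (isConj_iff.2 ⟨k1 * g⁻¹, show _ * n x * _ = y by
        rw [← e2]; group⟩).symm)
      exact absurd (E.inj _ x1 _ (by decide) (e3.symm.trans ((NQ k2 (e3 ▸ E.mem x x1)).trans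
        E.z256.symm))) x5
  have hm : ∀ x w (hx : x ∈ sev a b c) (hw : w ∈ sev a b c) (hxw : qm x w ∈ sev a b c),
      φ ⟨_, (key x hx).1⟩ * φ ⟨_, (key w hw).1⟩ = φ ⟨_, (key _ hxw).1⟩ := fun x w hx hw _ => by
    rw [← map_mul]
    exact congrArg φ (Subtype.ext (by
      change g⁻¹ * n x * g * (g⁻¹ * n w * g) = g⁻¹ * n (qm x w) * g
      rw [← E.mul _ (h7.1 x hx).1 _ (h7.1 w hw).1]; group))
  have ma : a ∈ sev a b c := by simp [sev]
  have mb : b ∈ sev a b c := by simp [sev]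
  have mc : c ∈ sev a b c := by simp [sev]
  have mab : qm a b ∈ sev a b c := by simp [sev]
  have mac : qm a c ∈ sev a b c := by simp [sev]
  have mbc : qm b c ∈ sev a b c := by simp [sev]
  refine F2 (key a ma).2.1 (key b mb).2.1 (key c mc).2.1
    (by rw [hm a b ma mb mab, hm b a mb ma (h7.2.1 ▸ mab)]; simp only [h7.2.1])
    (by rw [hm a c ma mc mac, hm c a mc ma (h7.2.2.1 ▸ mac)]; simp only [h7.2.2.1])
    (by rw [hm b c mb mc mbc, hm c b mc mb (h7.2.2.2 ▸ mbc)]; simp only [h7.2.2.2]) ?_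
  rw [hm a c ma mc mac, hm b c mb mc mbc, hm a b ma mb mab, hm _ c mab mc (by simp [sev])]
  simp only [List.forall_mem_cons]
  exact ⟨(key _ ma).2.2, (key _ mb).2.2, (key _ mc).2.2, (key _ mab).2.2, (key _ mac).2.2,
    (key _ mbc).2.2, (key _ (by simp [sev])).2.2, by simp⟩

end Cfsg.Agent.Lib.ThF1
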