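import Cfsg.Agent.Lib.ThF1

/-! Fusion of the central involution of `2^(1+8).A₉`: the spin module. -/

set_option autoImplicit false
set_option maxRecDepth 100000

namespace Cfsg.Agent.Lib.ThF2

open Subgroup Cfsg.Agent.Lib.ThDefs Cfsg.Agent.Lib.ThF9 Cfsg.Agent.Lib.ThF1

/-- The table of a letter. -/
def tb (T : List (ℕ × List ℕ × List ℕ)) (l : ℕ) : List ℕ := ((T.lookup l).map Prod.fst).getD L0

/-- The action of a positive word. -/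
noncomputable def actW (T : List (ℕ × List ℕ × List ℕ)) (w : List ℕ) : List ℕ :=
  w.foldr (fun l M => M.map (lin (tb T l))) L0

/-- The image of a code. -/
noncomputable def imW (T : List (ℕ × List ℕ × List ℕ)) (w : List ℕ) (m : ℕ) : ℕ :=
  w.foldr (fun l x => lin (tb T l) x) m

def W : List (List ℕ) := [[], [], [3], [], [4, 3, 7, 3], [7, 4, 3, 7, 3], [7, 4, 3], [], [4, 3, 7, 4, 3], [3, 7, 4, 3], [7, 7, 7, 3], [], [], [], [], [4, 3], [5, 4, 3, 7, 3], [5, 7, 4, 3, 7, 3], [5, 7, 4, 3], [], [6, 4, 3, 5, 7, 3], [7, 4, 3, 5, 7, 3], [5, 5, 5, 7, 4, 3], [], [7, 4, 5, 4, 3, 5, 7, 4, 3], [7, 5, 4, 3, 5, 7, 4, 3], [4, 3, 7, 5, 3, 7, 4, 3], [], [], [], [], [5, 7, 5, 4, 3], [7, 3, 5, 4, 3, 7, 3], [7, 3, 5, 7, 4, 3], [5, 7, 5, 6, 5, 7, 3], [], [5, 3, 7, 3, 7, 3, 5, 4, 3], [3, 7, 7, 7, 5, 7, 4, 3], [7, 3, 5, 7, 5, 4, 3], [], [5, 4, 3,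 7, 4, 3], [5, 3, 7, 4, 3], [7, 7, 5, 7, 3], [], [], [], [], [7, 5, 4, 5, 7, 3], [], [], [], [3, 7, 5, 4, 3], [], [], [], [3, 5, 7, 5, 5, 4, 3], [], [], [], [5, 4, 3], [7, 3, 7, 3, 5, 4, 3], [5, 7, 3, 5, 4, 5, 7, 3], [7, 7, 7, 3, 5, 4, 3], [], [3, 5, 4, 3, 7, 3], [3, 5, 7, 4, 3], [7, 7, 7, 5, 7, 3], [], [5, 3, 4, 5, 7, 3, 7, 4, 3], [4, 3, 7, 4, 5, 3, 7, 4, 3], [7, 7, 5, 4, 5, 7, 3], [], [6, 5, 4, 3, 7, 4, 3], [6, 5, 3, 7, 4, 3], [7, 5, 6, 5, 7, 3], [], [], [], [], [3, 5, 7, 5, 4, 3], [4, 3, 5, 7, 3, 7, 3], [4, 3, 7, 7, 5, 7, 4, 3], [5, 7, 3, 5, 7, 5, 4, 3], [], [3, 7, 4, 5, 3, 7, 4, 3], [5, 5, 7, 3, 4, 5, 7, 3], [3, 7, 3, 4, 5, 7, 3], [], [7, 4, 5, 3, 7, 4, 3], [7, 3, 4, 5, 7, 3], [7, 5, 4, 5, 4, 5, 7, 3], [], [], [], [], [7, 4, 5, 7, 3], [6, 3, 5, 4, 3, 7, 3], [6, 3, 5, 7, 4, 3], [5, 7, 5, 5, 5, 7, 3], [], [5, 7, 3, 7, 4,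 5, 4, 3], [7, 5, 7, 3, 7, 4, 5, 4, 3], [7, 6, 3, 5, 7, 5, 4, 3], [], [5, 5, 4, 3, 7, 4, 3], [5, 5, 3, 7, 4, 3], [7, 5, 5, 5, 7, 3], [], [], [], [], [6, 3, 5, 7, 5, 4, 3], [], [], [], [7, 5, 5, 4, 3], [], [], [], [6, 3, 5, 4, 3], [], [], [], [6, 5, 7, 5, 5, 4, 3], [7, 4, 3, 7, 4, 5, 4, 3], [3, 7, 7, 7, 4, 5, 4, 3], [7, 3, 7, 3, 7, 5, 5, 4, 3], [], [5, 5, 4, 3, 7, 3], [5, 5, 7, 4, 3, 7, 3], [5, 5, 7, 4, 3], [], [4, 3, 5, 7, 3], [3, 7, 7, 5, 7, 3], [7, 5, 7, 5, 4, 3], [], [5, 4, 3, 5, 7, 3, 7, 3], [7, 3, 5, 4, 5, 7, 3], [7, 7, 7, 5, 7, 4, 3], [], [], [], [], [4, 5, 5, 7, 4, 3], [6, 5, 4, 3, 7, 3], [6, 5, 7, 4, 3, 7, 3], [6, 5, 7, 4, 3], [], [4, 3, 5, 5, 7, 3], [6, 7, 4, 3, 5, 7, 3], [5, 6, 5, 7, 4, 3], [], [3, 5, 7, 3, 7, 4, 5, 4, 3], [7, 6, 3, 5, 4, 5, 7, 3], [7, 7, 7, 6, 5, 7, 4, 3], [], [], [], [], [6, 5, 7, 5, 4, 3], [5,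 7, 4, 5, 3, 7, 4, 3], [5, 7, 3, 4, 5, 7, 3], [3, 5, 7, 3, 4, 5, 7, 3], [], [3, 4, 5, 7, 3, 7, 4, 3], [3, 7, 4, 3, 5, 7, 5, 4, 3], [7, 7, 4, 5, 7, 3], [], [4, 5, 7, 3, 7, 4, 3], [4, 5, 3, 7, 3, 7, 3], [7, 4, 3, 5, 7, 5, 4, 3], [], [], [], [], [7, 6, 4, 5, 7, 3], [], [], [], [7, 6, 5, 4, 3], [], [], [], [4, 5, 4, 3], [], [], [], [5, 5, 7, 5, 4, 3], [7, 4, 3, 7, 3, 5, 4, 3], [3, 7, 7, 7, 6, 3, 5, 4, 3], [7, 7, 4, 3, 7, 5, 4, 3], [], [], [], [], [7, 7, 7, 5, 4, 3], [], [], [], [7, 7, 3, 5, 4, 3], [], [], [], [7, 3, 7, 5, 4, 3], [5, 7, 3, 5, 7, 3, 5, 4, 3], [3, 7, 3, 5, 4, 3], [5, 4, 5, 5, 7, 3], [], [], [], [], [7, 7, 3, 7, 5, 5, 4, 3], [], [], [], [7, 4, 3, 7, 5, 4, 3], [], [], [], [7, 7, 6, 5, 4, 3], [3, 5, 4, 5, 3, 7, 4, 3], [4, 3, 7, 3, 5, 4, 3], [7, 4, 5, 4, 3], [], [], [], [], [5, 7, 3, 7, 6, 5, 4, 3], [], [], [], [3, 7,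 3, 7, 5, 5, 4, 3], [], [], [], [7, 7, 5, 5, 4, 3], [4, 5, 4, 5, 3, 7, 4, 3], [4, 3, 7, 4, 5, 4, 3], [7, 6, 3, 5, 4, 3], [], [5, 5, 4, 5, 3, 7, 4, 3], [5, 3, 7, 4, 5, 4, 3], [7, 5, 7, 3, 5, 4, 3], [], [7, 3, 5, 7, 3, 5, 4, 3], [3, 5, 7, 3, 5, 4, 3], [4, 5, 5, 7, 3], [], [4, 5, 5, 3, 7, 4, 3], [3, 4, 5, 5, 7, 3], [5, 7, 3, 5, 4, 3], [], [], [], [], [5, 7, 3, 7, 5, 5, 4, 3], [], [3, 7, 7, 3], [7, 7, 3], [], [7, 3, 7, 3], [3, 7, 3], [7, 7, 7, 4, 3], [], [3, 7, 3, 7, 3], [7, 3, 7, 4, 3], [7, 3], [], [], [], [], [7, 7, 4, 3], [5, 7, 3, 7, 3], [5, 3, 7, 3], [7, 7, 5, 7, 4, 3], [], [7, 3, 5, 7, 3], [6, 3, 5, 7, 3], [3, 7, 5, 3, 7, 4, 3], [], [4, 3, 5, 4, 5, 7, 3], [3, 5, 4, 5, 7, 3], [7, 5, 5, 7, 4, 3], [], [], [], [], [7, 7, 5, 7, 5, 4, 3], [7, 3, 5, 7, 3, 7, 3], [5, 7, 5, 3, 7, 4, 3], [5, 6, 5, 7, 3], [], [7, 3, 7, 5, 5, 7, 4,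 3], [3, 7, 5, 7, 4, 3], [6, 6, 5, 4, 5, 7, 3], [], [5, 3, 7, 3, 7, 3], [5, 7, 3, 7, 4, 3], [5, 7, 3], [], [], [], [], [3, 7, 5, 5, 5, 7, 4, 3], [], [], [], [7, 7, 3, 7, 5, 4, 3], [], [], [], [3, 7, 3, 7, 5, 4, 3], [], [], [], [7, 7, 5, 4, 3], [7, 3, 7, 7, 7, 3, 5, 4, 3], [3, 5, 4, 5, 5, 7, 3], [7, 3, 5, 4, 3], [], [3, 5, 7, 3, 7, 3], [3, 7, 7, 5, 7, 4, 3], [7, 5, 7, 3], [], [7, 3, 7, 5, 7, 4, 3], [3, 7, 5, 5, 7, 4, 3], [5, 4, 5, 7, 3], [], [3, 7, 3, 5, 7, 3], [7, 5, 3, 7, 4, 3], [6, 5, 7, 3], [], [], [], [], [7, 7, 3, 5, 7, 5, 4, 3], [4, 3, 5, 4, 3, 7, 3], [4, 3, 5, 7, 4, 3], [4, 3, 5, 7, 5, 4, 3], [], [6, 3, 4, 5, 3, 7, 4, 3], [3, 4, 5, 4, 5, 7, 3], [6, 4, 5, 7, 3], [], [6, 4, 5, 3, 7, 4, 3], [6, 3, 4, 5, 7, 3], [4, 5, 4, 5, 7, 3], [], [], [], [], [7, 7, 7, 4, 5, 7, 3], [6, 3, 5, 7, 3, 7, 3], [5, 7, 5, 5, 3, 7, 4, 3], [5,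 5, 5, 7, 3], [], [4, 3, 5, 7, 3, 5, 4, 3], [3, 7, 6, 5, 7, 4, 3], [6, 5, 4, 5, 7, 3], [], [5, 5, 3, 7, 3, 7, 3], [7, 5, 5, 3, 7, 4, 3], [5, 5, 7, 3], [], [], [], [], [3, 7, 5, 6, 5, 7, 4, 3], [], [], [], [7, 7, 7, 5, 5, 4, 3], [], [], [], [7, 7, 6, 3, 5, 4, 3], [], [], [], [7, 3, 7, 6, 5, 4, 3], [5, 4, 5, 3, 7, 4, 3], [3, 7, 4, 5, 4, 3], [4, 3, 7, 6, 5, 4, 3], [], [5, 5, 7, 3, 7, 3], [5, 5, 3, 7, 3], [7, 7, 5, 5, 7, 4, 3], [], [7, 6, 3, 5, 7, 3], [3, 5, 7, 3], [3, 5, 7, 3, 7, 4, 3], [], [4, 5, 4, 3, 5, 7, 4, 3], [5, 4, 3, 5, 7, 4, 3], [7, 5, 7, 4, 3], [], [], [], [], [7, 5, 5, 5, 7, 4, 3], [6, 5, 7, 3, 7, 3], [6, 5, 3, 7, 3], [7, 7, 6, 5, 7, 4, 3], [], [6, 7, 3, 5, 7, 3], [3, 5, 5, 7, 3], [3, 7, 5, 5, 3, 7, 4, 3], [], [6, 4, 3, 5, 4, 5, 7, 3], [6, 3, 5, 4, 5, 7, 3], [7, 6, 5, 7, 4, 3], [], [], [], [], [7, 5, 6, 5, 7, 4, 3],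 [5, 6, 4, 5, 3, 7, 4, 3], [7, 4, 3, 5, 7, 4, 3], [5, 4, 5, 4, 5, 7, 3], [], [3, 4, 5, 3, 7, 4, 3], [5, 4, 3, 7, 3, 5, 4, 3], [4, 5, 7, 3], [], [4, 5, 3, 7, 4, 3], [3, 4, 5, 7, 3], [6, 5, 7, 3, 5, 4, 3], [], [], [], [], [5, 7, 5, 6, 5, 7, 4, 3], [], [], [], [7, 7, 7, 6, 5, 4, 3], [], [], [], [7, 7, 4, 5, 4, 3], [], [], [], [7, 3, 7, 5, 5, 4, 3], [6, 5, 4, 5, 3, 7, 4, 3], [3, 7, 6, 3, 5, 4, 3], [4, 3, 7, 5, 4, 3], [], [], [], [], [7, 5, 4, 3], [], [], [], [3, 5, 4, 3], [], [], [], [5, 7, 5, 5, 4, 3], [3, 7, 3, 7, 3, 5, 4, 3], [3, 7, 7, 7, 3, 5, 4, 3], [7, 3, 7, 3, 7, 5, 4, 3], [], [], [], [], [3, 7, 5, 5, 4, 3], [], [], [], [5, 7, 6, 5, 4, 3], [], [], [], [6, 5, 4, 3], [7, 3, 7, 6, 3, 5, 4, 3], [4, 3, 7, 7, 7, 3, 5, 4, 3], [7, 7, 7, 4, 5, 4, 3], [], [], [], [], [3, 7, 6, 5, 4, 3], [], [], [], [6, 5, 7, 6, 5, 4, 3], [], [],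 [], [5, 5, 4, 3], [7, 3, 7, 4, 5, 4, 3], [7, 5, 4, 5, 3, 7, 4, 3], [7, 7, 7, 6, 3, 5, 4, 3], [], [6, 4, 3, 5, 7, 3, 7, 3], [5, 3, 7, 7, 7, 4, 5, 4, 3], [7, 7, 7, 5, 7, 3, 5, 4, 3], [], [3, 5, 7, 3, 7, 3, 5, 4, 3], [5, 6, 7, 3, 4, 5, 7, 3], [7, 6, 7, 4, 5, 7, 3], [], [5, 7, 3, 7, 3, 5, 4, 3], [6, 7, 3, 4, 5, 7, 3], [7, 7, 5, 7, 3, 5, 4, 3], [], [], [], [], [6, 7, 4, 5, 7, 3]]

theorem hW : ∀ c < 512, qm c c = 0 → c = 0 ∨ c = 256 ∨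
    (∀ l ∈ W.getD c [], l ∈ LS.map Prod.fst) ∧ imW LS (W.getD c []) 1 = c := by decide +kernel

variable {G : Type*} [Group G] {z : G} {Q : Subgroup G}
  {φ : centralizer ({z} : Set G) →* Equiv.Perm (Fin 9)} {n f : ℕ → G}

theorem letter (S : St φ n f LS) : ∀ l ∈ LS.map Prod.fst,
    f l ∈ centralizer ({z} : Set G) ∧ Act n (f l) (tb LS l) := fun l hl => by
  obtain ⟨e, he, rfl⟩ := List.mem_map.1 hl
  exact ⟨(S.act e he).2.1, (by decide : ∀ e ∈ LS, e.2.1 = tb LS e.1) e he ▸ (S.act e he).1⟩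

theorem act_code (E : Enc z Q n) (p : ℕ) (L : List ℕ) (hc : p < 512 ∧ L.length = 8 ∧
    (∀ a ∈ L, a < 512) ∧ ∀ i < 8, qm p (2 ^ i) = qm (L.getD i 0) p) : Act n (n p) L :=
  ⟨hc.2.1, hc.2.2.1, fun i hi => by
    rw [mul_inv_eq_iff_eq_mul, E.mul _ hc.1 _ ((by decide : ∀ i < 8, 2 ^ i < 512) i hi),
      hc.2.2.2 i hi, E.mul _ (hc.2.2.1 _ (by
        rw [List.getD_eq_getElem _ _ (hc.2.1 ▸ hi)]; exact List.getElem_mem _)) _ hc.1]⟩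

theorem word (E : Enc z Q n) (S : St φ n f LS) (w : List ℕ) (hw : ∀ l ∈ w, l ∈ LS.map Prod.fst) :
    ∃ k ∈ centralizer ({z} : Set G), Act n k (actW LS w) ∧
      ∀ m < 512, imW LS w m < 512 ∧ k * n m * k⁻¹ = n (imW LS w m) := by
  induction w with
  | nil => exact ⟨1, one_mem _, E.zero ▸ act_code E 0 L0 (by decide +kernel), fun m hm => ⟨hm, by
      simp [imW]⟩⟩
  | cons l w ih =>
    obtain ⟨k, hk, a1, a2⟩ := ih fun l hl => hw l (List.mem_cons_of_mem _ hl)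
    obtain ⟨b1, b2⟩ := letter S l (hw l List.mem_cons_self)
    refine ⟨_, mul_mem b1 hk, b2.mul a1 E b1, fun m hm => ⟨b2.lt _, ?_⟩⟩
    change _ = n (lin (tb LS l) (imW LS w m))
    rw [← b2.all E b1 (a2 m hm).1, ← (a2 m hm).2]; group

/-- The centraliser is transitive on the non-central involutions of `Q`. -/
theorem trans270 (E : Enc z Q n) (S : St φ n f LS) {v : G} (hv : v ∈ Q) (vv : v * v = 1) :
    v = 1 ∨ v = z ∨ ∃ k ∈ centralizer ({z} : Set G), k * n 1 * k⁻¹ = v := by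
  obtain ⟨c, hc, rfl⟩ := E.surj v hv
  rcases hW c hc (E.inj _ (qm_lt hc hc) _ (by decide) (by rw [← E.mul _ hc _ hc, vv, E.zero])) with
    rfl | rfl | ⟨h1, h2⟩
  · exact .inl E.zero
  · exact .inr (.inl E.z256)
  · obtain ⟨k, hk, -, e⟩ := word E S _ h1
    exact .inr (.inr ⟨k, hk, by rw [(e 1 (by decide)).2, h2]⟩)

theorem supp {g : G} {l : List ℕ} (h : Ph φ g l) (hg : g ∈ centralizer ({z} : Set G)) :
    (φ ⟨g, hg⟩).support.card = (Finset.univ.filter fun p : Fin 9 => l.getD p 0 ≠ p).card := by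
  obtain ⟨_, h⟩ := h
  congr 1
  ext p
  simp only [Equiv.Perm.mem_support, Finset.mem_filter, Finset.mem_univ, true_and, ← h p, ne_eq,
    Fin.val_inj]

/-- Two elements with the same action differ by a central element. -/
theorem same (h : Hyp z Q φ) (E : Enc z Q n) {a b : G} {L : List ℕ}
    (ha : a ∈ centralizer ({z} : Set G)) (hb : b ∈ centralizer ({z} : Set G)) (A : Act n a L)
    (B : Act n b L) : a = b ∨ a = b * z := by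
  refine (h.cen _ (mul_mem (inv_mem hb) ha) fun q hq => ?_).imp (fun e => (inv_mul_eq_one.1 e).symm)
    inv_mul_eq_iff_eq_mul.1
  obtain ⟨c, hc, rfl⟩ := E.surj q hq
  have := (A.all E ha hc).trans (B.all E hb hc).symm
  calc _ = b⁻¹ * (a * n c * a⁻¹) * a := by group
    _ = _ := by rw [this]; group

def LY : List ℕ := [1, 10, 5, 8, 128, 64, 32, 16]

def LF : List ℕ := [409, 491, 494, 152, 293, 341, 420, 324]

theorem stepB (h : Hyp z Q φ) (E : Enc z Q n) (S : St φ n f LS)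
    (NQ : ∀ g, g * z * g⁻¹ ∈ Q → g * z * g⁻¹ = z) {g : G}
    (hg : g * z * g⁻¹ ∈ centralizer ({z} : Set G)) : (φ ⟨_, hg⟩).support.card ≠ 4 := fun e => by
  have hQ : ∀ a, a < 512 → n a ∈ centralizer ({z} : Set G) := fun a ha => h.le (E.mem a ha)
  obtain ⟨u1, u2⟩ := letter S 7 (by decide)
  have hy := mul_mem (hQ 4 (by decide)) u1
  have A : Act n (n 4 * f 7) LY := (by decide +kernel : (tb LS 7).map (lin
    [1, 2, 4, 264, 16, 32, 64, 128]) = LY) ▸ (act_code E 4 [1, 2, 4, 264, 16, 32, 64, 128]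
      (by decide +kernel)).mul u2 E (hQ 4 (by decide))
  obtain ⟨k, hk, x, hx, e1⟩ := conj_to h E hy A (ε := [0, 256]) (by decide +kernel) hg
    (by rw [conj_mul, h.zz]; simp) (by
      rw [e, show (⟨_, hy⟩ : centralizer ({z} : Set G)) = ⟨_, hQ 4 (by decide)⟩ * ⟨_, u1⟩ from rfl,
        map_mul, (h.ker _).2 (E.mem 4 (by decide)), one_mul,
        supp (S.act (7, [1, 266, 5, 264, 128, 64, 32, 16], [0, 5, 2, 4, 3, 1, 6, 7, 8]) (by decide)).2]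
      decide)
  have hj := mul_mem (mul_mem hk hg) (inv_mem hk)
  have J : Act n (k * (g * z * g⁻¹) * k⁻¹) LY := by
    have x1 := (by decide : ∀ x ∈ [0, 256], x < 512) x hx
    exact e1 ▸ (by decide +kernel : LY.map (lin L0) = LY) ▸
      (act_code E x L0 ((by decide +kernel : ∀ x ∈ [0, 256], x < 512 ∧ L0.length = 8 ∧
        (∀ a ∈ L0, a < 512) ∧ ∀ i < 8, qm x (2 ^ i) = qm (L0.getD i 0) x) x hx)).mul A E (hQ x x1)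
  rw [show k * (g * z * g⁻¹) * k⁻¹ = k * g * z * (k * g)⁻¹ by group] at J hj
  generalize k * g = g at J hj
  obtain ⟨t, ht, T, -⟩ := word E S [5, 5, 4, 3, 5, 5, 7, 4, 3] (by decide)
  rw [(by decide +kernel : actW LS [5, 5, 4, 3, 5, 5, 7, 4, 3] = LF)] at T
  have tz := mem_centralizer_singleton_iff.1 ht
  have t5 : t ^ 5 = 1 ∨ t ^ 5 = z := triv h E (pow_mem ht 5) (by
    have := T.mul (T.mul (T.mul (T.mul T E ht) E ht) E ht) E ht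
    rwa [(by decide +kernel : (((LF.map (lin LF)).map (lin LF)).map (lin LF)).map (lin LF) = L0),
      show t * (t * (t * (t * t))) = t ^ 5 by simp only [pow_succ', pow_zero, mul_one]] at this)
  obtain ⟨t, ht, T, t5⟩ : ∃ t ∈ centralizer ({z} : Set G), Act n t LF ∧ t ^ 5 = 1 := by
    rcases t5 with t5 | t5
    · exact ⟨t, ht, T, t5⟩
    · refine ⟨_, mul_mem ht (hQ 256 (by decide)), (by decide +kernel : L0.map (lin LF) = LF) ▸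
        T.mul (act_code E 256 L0 (by decide +kernel)) E ht, ?_⟩
      rw [E.z256, Commute.mul_pow tz, t5, pow_succ, pow_mul z 2 2, sq z, h.zz, one_pow, one_mul, h.zz]
  have tz := mem_centralizer_singleton_iff.1 ht
  set j := g * z * g⁻¹ with hjd
  have tj : t * j = j * t := by
    rcases same h E (mul_mem ht hj) (mul_mem hj ht) (T.mul J E ht)
      ((by decide +kernel : LF.map (lin LY) = LY.map (lin LF)) ▸ J.mul T E hj) with e | e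
    · exact e
    · have e2 : j⁻¹ * t * j = t * z := by rw [mul_assoc, e]; group
      have := congrArg (· ^ 5) e2
      simp only [Commute.mul_pow tz] at this
      rw [← inv_inv j, inv_inv j⁻¹, conj_pow, t5, pow_succ z, pow_mul z 2 2, sq z, h.zz] at this
      exact absurd (by simpa using this.symm) h.ne
  have bj : n 144 * j = j * n 144 := (mul_inv_eq_iff_eq_mul.1 ((J.all E hj (by decide)).trans
    (by rw [(by decide +kernel : lin LY 144 = 144)]))).symm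
  have ht' := mem_of_comm tj
  have hb' := mem_of_comm bj
  have c : ∀ (i a : ℕ), t ^ i * n 144 * (t ^ i)⁻¹ = n a → ∃ ha : g⁻¹ * n a * g ∈ centralizer {z},
      φ ⟨_, ht'⟩ ^ i * φ ⟨_, hb'⟩ * (φ ⟨_, ht'⟩ ^ i)⁻¹ = φ ⟨_, ha⟩ := fun i a e => by
    have e2 : (g⁻¹ * t * g) ^ i * (g⁻¹ * n 144 * g) * ((g⁻¹ * t * g) ^ i)⁻¹ = g⁻¹ * n a * g := by
      rw [← e, ← inv_inv g, inv_inv g⁻¹, conj_pow]; group
    refine ⟨e2 ▸ mul_mem (mul_mem (pow_mem ht' i) hb') (inv_mem (pow_mem ht' i)), ?_⟩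
    rw [← map_pow, ← map_inv, ← map_mul, ← map_mul]
    exact congrArg φ (Subtype.ext e2)
  have st : ∀ i a b, a < 512 ∧ lin LF a = b → t ^ i * n 144 * (t ^ i)⁻¹ = n a →
      t ^ (i + 1) * n 144 * (t ^ (i + 1))⁻¹ = n b := fun i a b hab e => by
    rw [← hab.2, ← T.all E ht hab.1, ← e, pow_succ']; group
  have p1 := st 0 144 97 (by decide +kernel) (by simp)
  have p2 := st 1 97 104 (by decide +kernel) p1
  have p3 := st 2 104 361 (by decide +kernel) p2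
  have p4 := st 3 361 240 (by decide +kernel) p3
  obtain ⟨h1, q1⟩ := c _ _ p1
  obtain ⟨h2, q2⟩ := c _ _ p2
  obtain ⟨h3, q3⟩ := c _ _ p3
  obtain ⟨h4, q4⟩ := c _ _ p4
  rw [zero_add, pow_one] at q1
  have hm : ∀ a b (ha : g⁻¹ * n a * g ∈ centralizer {z}) (hb : g⁻¹ * n b * g ∈ centralizer {z}),
      a < 512 ∧ b < 512 → ∃ hc : g⁻¹ * n (qm a b) * g ∈ centralizer {z},
      φ ⟨_, ha⟩ * φ ⟨_, hb⟩ = φ ⟨_, hc⟩ := fun a b ha hb hab => by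
    have e2 : g⁻¹ * n a * g * (g⁻¹ * n b * g) = g⁻¹ * n (qm a b) * g := by
      rw [← E.mul _ hab.1 _ hab.2]; group
    exact ⟨e2 ▸ mul_mem ha hb, by rw [← map_mul]; exact congrArg φ (Subtype.ext e2)⟩
  have cm : ∀ a (ha : g⁻¹ * n a * g ∈ centralizer {z}), a < 512 ∧ qm 144 a = qm a 144 →
      Commute (φ ⟨_, hb'⟩) (φ ⟨_, ha⟩) := fun a ha e => by
    rw [Commute, SemiconjBy, (hm _ _ hb' ha ⟨by decide, e.1⟩).2, (hm _ _ ha hb' ⟨e.1, by decide⟩).2]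
    simp only [e.2]
  have o1 : ∀ a (ha : g⁻¹ * n a * g ∈ centralizer {z}), a = 0 → φ ⟨_, ha⟩ = 1 := fun a ha e => by
    rw [← map_one φ]; exact congrArg φ (Subtype.ext (by simp [e, E.zero]))
  refine F3 (f := φ ⟨_, ht'⟩) (b := φ ⟨_, hb'⟩) ?_ ?_ (ne_one h NQ hb' (fun e => absurd
    (E.inj _ (by decide) _ (by decide) (e.trans E.zero.symm)) (by decide))
    ((isConj_iff.2 ⟨g, rfl⟩).trans (isConj_iff.2 ⟨n 16, ?_⟩)))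
    (q1 ▸ cm _ h1 (by decide +kernel)) (q2 ▸ cm _ h2 (by decide +kernel)) ?_
  · rw [← map_pow, ← map_one φ]
    exact congrArg φ (Subtype.ext (by
      change (g⁻¹ * t * g) ^ 5 = 1
      rw [← inv_inv g, inv_inv g⁻¹, conj_pow, t5]; simp))
  · rw [(hm _ _ hb' hb' (by decide)).2]; exact o1 _ _ (by decide +kernel)
  · rw [← hjd, mul_inv_eq_iff_eq_mul, mul_assoc (n 144),
      mul_inv_eq_iff_eq_mul.1 (J.all E hj (m := 16) (by decide)),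
      ← mul_assoc (n 144), E.mul 144 (by decide) (lin LY 16) (by decide +kernel),
      (by decide +kernel : qm 144 (lin LY 16) = 16)]
  · rw [q1, q2, q3, q4, (hm _ _ hb' h1 (by decide)).2, (hm _ _ _ h2 (by decide +kernel)).2,
      (hm _ _ _ h3 (by decide +kernel)).2, (hm _ _ _ h4 (by decide +kernel)).2]
    exact o1 _ _ (by decide +kernel)

theorem spin [Finite G] [IsSimpleGroup G] (h : Hyp z Q φ) (E : Enc z Q n) (S : St φ n f LS) :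
    ∃ g, g * z * g⁻¹ = n 257 ∧ g * n 1 * g⁻¹ = n 1 := by
  have c2 : ∀ g : G, g * z * g⁻¹ * (g * z * g⁻¹) = 1 := fun g => by rw [conj_mul, h.zz]; simp
  obtain ⟨g, h1, h2⟩ : ∃ g, g * z * g⁻¹ ∈ Q ∧ g * z * g⁻¹ ≠ z := by
    by_contra! NQ
    obtain ⟨g, h1, h2⟩ := zs h
    obtain ⟨d1, d2⟩ := letter S 3 (by decide)
    rcases F1c (sq_one h1 (c2 g)) (h.rng.le ⟨_, rfl⟩) with k | k | k
    · exact h2 (NQ g ((h.ker _).1 k))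
    · exact stepB h E S NQ h1 k
    · exact stepA h E d1 d2 (by
        rw [supp (S.act (3, [2, 1, 8, 4, 64, 128, 16, 32], [1, 0, 3, 2, 5, 4, 6, 8, 7]) (by decide)).2]
        decide) (by decide +kernel) 15 80 160 (by decide +kernel) NQ h1 k
  have n1 : n 257 = n 1 * z := by
    rw [← E.z256, E.mul _ (by decide) _ (by decide), (by decide +kernel : qm 1 256 = 257)]
  have key : ∀ g, g * z * g⁻¹ ∈ Q → g * z * g⁻¹ ≠ z →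
      ∃ k ∈ centralizer ({z} : Set G), k * n 1 * k⁻¹ = g * z * g⁻¹ * z := fun g h1 h2 => by
    rcases trans270 E S (mul_mem h1 h.mem) (by
      rw [mul_assoc _ z, ← mul_assoc z, ← mem_centralizer_singleton_iff.1 (h.le h1), mul_assoc _ z z,
        h.zz, mul_one, c2]) with k | k | k
    · exact absurd ((eq_inv_of_mul_eq_one_left k).trans (inv_eq_of_mul_eq_one_right h.zz)) h2
    · exact absurd (conj_eq_one_iff.1 (mul_eq_right.1 k)) h.ne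
    · exact k
  obtain ⟨k, hk, e⟩ := key g h1 h2
  have e1 : k⁻¹ * g * z * (k⁻¹ * g)⁻¹ = n 257 := by
    rw [n1, show n 1 = k⁻¹ * (g * z * g⁻¹ * z) * k by rw [← e]; group, mul_assoc _ k,
      mem_centralizer_singleton_iff.1 hk, show k⁻¹ * (g * z * g⁻¹ * z) * (z * k) =
        k⁻¹ * g * z * g⁻¹ * (z * z) * k by simp only [mul_assoc], h.zz]
    group
  generalize k⁻¹ * g = g at e1
  obtain ⟨k, hk, e⟩ := key g⁻¹ (by rw [inv_inv]; exact Q1 h (e1 ▸ E.mem 257 (by decide))) (fun e =>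
    absurd (E.inj 257 (by decide) 256 (by decide) (by rw [← e1, E.z256]; nth_rw 1 [← e]; group))
      (by decide))
  refine ⟨g * k, by rw [mul_assoc g, mem_centralizer_singleton_iff.1 hk, ← e1]; group, ?_⟩
  calc _ = g * (k * n 1 * k⁻¹) * g⁻¹ := by group
    _ = z * (g * z * g⁻¹) := by rw [e]; group
    _ = _ := by rw [e1, ← E.z256, E.mul _ (by decide) _ (by decide),
      (by decide +kernel : qm 256 257 = 1)]

end Cfsg.Agent.Lib.ThF2
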