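import Cfsg.Agent.Lib.ThFc

/-! Involutions of degree nine commuting with some of their conjugates. -/

set_option autoImplicit false
set_option maxRecDepth 100000

namespace Cfsg.Agent.Lib.ThFn

open Equiv Cfsg.Agent.Lib.ThF9 Cfsg.Agent.Lib.ThFc

theorem F5 {β : Perm (Fin 9)} (h : β * β = 1) :
    (cm [1, 3, 0, 4, 6, 2, 5, 7, 8] [2, 0, 5, 1, 3, 6, 4, 7, 8] β →
      cm [4, 8, 3, 6, 5, 1, 2, 7, 0] [8, 5, 6, 2, 0, 4, 3, 7, 1] β →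
      cm [6, 1, 0, 5, 3, 4, 2, 7, 8] [2, 1, 6, 4, 5, 3, 0, 7, 8] β →
      ∃ l ∈ [[0, 1, 2, 3, 4, 5, 6, 7, 8], [0, 1, 4, 3, 2, 5, 6, 7, 8], [3, 1, 2, 0, 4, 5, 6, 7, 8],
        [3, 5, 8, 0, 6, 1, 4, 7, 2], [4, 2, 1, 8, 0, 6, 5, 7, 3], [5, 1, 2, 3, 4, 0, 6, 7, 8]],
        ∀ p, β p = pl l p) ∧
    (cm [3, 2, 5, 4, 7, 1, 6, 8, 0] [8, 5, 1, 0, 3, 2, 6, 4, 7] β →
      cm [4, 5, 1, 7, 8, 2, 6, 0, 3] [7, 2, 5, 8, 0, 1, 6, 3, 4] β →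
      cm [0, 1, 2, 7, 8, 5, 6, 3, 4] [0, 1, 2, 7, 8, 5, 6, 3, 4] β →
      ∃ l ∈ [[0, 1, 2, 3, 4, 5, 6, 7, 8], [0, 2, 1, 3, 4, 6, 5, 7, 8], [0, 5, 6, 3, 4, 1, 2, 7, 8],
        [0, 6, 5, 3, 4, 2, 1, 7, 8], [1, 0, 2, 3, 4, 5, 6, 7, 8], [2, 1, 0, 3, 4, 5, 6, 7, 8],
        [5, 1, 2, 3, 4, 0, 6, 7, 8]], ∀ p, β p = pl l p) :=
  go_sound (P := fun β => (cm _ _ β → cm _ _ β → cm _ _ β → ∃ l ∈ _, ∀ p, β p = pl l p) ∧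
    (cm _ _ β → cm _ _ β → cm _ _ β → ∃ l ∈ _, ∀ p, β p = pl l p)) (by decide +kernel) h

end Cfsg.Agent.Lib.ThFn
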