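import Cfsg.Agent.Lib.ThDefs

/-! Facts on involutions of the symmetric group of degree nine and on the extraspecial group of
order `2 ^ 9`. -/

set_option autoImplicit false
set_option maxRecDepth 100000

namespace Cfsg.Agent.Lib.ThF9

open Subgroup Equiv Equiv.Perm Cfsg.Agent.Lib.ThDefs

section Perm

variable {s r : Perm (Fin 9)}

theorem cyc (hs : s * s = 1) :
    s.cycleType = Multiset.replicate s.cycleType.card 2 ∧ s.support.card = 2 * s.cycleType.card := by
  have h := cycleType_of_pow_prime_eq_one (p := 2) (σ := s) (by rw [sq, hs])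
  refine ⟨h, ?_⟩
  rw [← sum_cycleType]
  conv_lhs => rw [h]
  simp [mul_comm]

theorem F1 (hs : s * s = 1) (hr : r * r = 1) (h : s.support.card = r.support.card) :
    ∃ t ∈ alternatingGroup (Fin 9), t * s * t⁻¹ = r := by
  obtain ⟨t, ht⟩ := isConj_iff.1 (isConj_iff_cycleType_eq.2 (show s.cycleType = r.cycleType by
    rw [(cyc hs).1, (cyc hr).1, show s.cycleType.card = r.cycleType.card by
      have := (cyc hs).2; have := (cyc hr).2; omega]))
  rcases Int.units_eq_one_or (sign t) with h1 | h1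
  · exact ⟨t, mem_alternatingGroup.2 h1, ht⟩
  obtain ⟨p, q, hpq, e⟩ : ∃ p q, p ≠ q ∧ swap p q * s * (swap p q)⁻¹ = s := by
    by_cases h0 : s = 1
    · exact ⟨0, 1, by decide, by simp [h0]⟩
    · obtain ⟨p, hp⟩ := not_forall.1 fun h => h0 (Equiv.ext h)
      refine ⟨p, s p, fun e => hp e.symm, ?_⟩
      have e : s (s p) = p := by rw [← Perm.mul_apply, hs]; rfl
      rw [mul_inv_eq_iff_eq_mul, mul_swap_eq_swap_mul, e, swap_comm]
  refine ⟨t * swap p q, mem_alternatingGroup.2 (by rw [map_mul, h1, sign_swap hpq]; rfl), ?_⟩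
  rw [← ht]
  conv_rhs => rw [← e]
  group

theorem F1c (hs : s * s = 1) (ha : s ∈ alternatingGroup (Fin 9)) :
    s = 1 ∨ s.support.card = 4 ∨ s.support.card = 8 := by
  have h1 := mem_alternatingGroup.1 ha
  rw [sign_of_cycleType, sum_cycleType, (cyc hs).2, neg_one_pow_eq_one_iff_even (by decide), Nat.even_iff] at h1
  have h2 := (cyc hs).2
  have h3 : s.support.card ≤ 9 := by simpa using Finset.card_le_univ s.support
  by_cases h0 : s.support.card = 0
  · exact Or.inl (card_support_eq_zero.1 h0)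
  · right; omega

theorem F2 {a b c : Perm (Fin 9)} (ha : a * a = 1) (hb : b * b = 1) (hc : c * c = 1) (ab : a * b = b * a)
    (ac : a * c = c * a) (bc : b * c = c * b)
    (h : ∀ x ∈ [a, b, c, a * b, a * c, b * c, a * b * c], x.support.card = 4) : False := by
  have hp : ∀ a : Perm (Fin 9), a * a = 1 → ∀ x y : ZMod 2, a ^ (x + y).val = a ^ x.val * a ^ y.val :=
    fun a ha x y => by rw [ZMod.val_add, ← pow_add, ← pow_eq_pow_mod _ (by rw [sq, ha])]
  let ρ : Multiplicative (ZMod 2 × ZMod 2 × ZMod 2) →* Perm (Fin 9) := MonoidHom.mk'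
    (fun x => a ^ x.toAdd.1.val * b ^ x.toAdd.2.1.val * c ^ x.toAdd.2.2.val) fun x y => by
      simp only [toAdd_mul, Prod.fst_add, Prod.snd_add, hp a ha, hp b hb, hp c hc, mul_assoc]
      congr 1
      rw [(Commute.pow_pow (show Commute c a from ac.symm) _ _).left_comm,
        (Commute.pow_pow (show Commute b a from ab.symm) _ _).left_comm,
        (Commute.pow_pow (show Commute c b from bc.symm) _ _).left_comm]
  letI := MulAction.compHom (Fin 9) ρ
  classical
  have := MulAction.sum_card_fixedBy_eq_card_orbits_mul_card_group (Multiplicative (ZMod 2 × ZMod 2 × ZMod 2)) (Fin 9)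
  have e : ∀ g, Fintype.card (MulAction.fixedBy (Fin 9) g) = 9 - (ρ g).support.card := fun g => by
    rw [← sum_cycleType]
    exact (Fintype.card_congr (Equiv.refl _)).trans (card_fixedPoints (ρ g))
  simp only [e] at this
  rw [← Equiv.sum_comp Multiplicative.ofAdd] at this
  simp only [Fintype.sum_prod_type, show ∀ f : ZMod 2 → ℕ, ∑ x, f x = f 0 + f 1 from
    fun f => Fin.sum_univ_two f] at this
  simp only [List.forall_mem_cons] at h
  have v1 : (1 : ZMod 2).val = 1 := rfl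
  simp [ρ, h, v1] at this
  omega

/-- The permutation with the given list of images. -/
def pl (l : List (Fin 9)) (p : Fin 9) : Fin 9 := l.getD p 0

def ok (l : List (Fin 9)) (v : Fin 9) : Bool :=
  (List.range l.length).all fun j => (((l.getD j 0).1 == l.length) == (j == v.1)) && l.getD j 0 != v

/-- Enumeration of all involutions. -/
noncomputable def go (P : List (Fin 9) → Bool) (k : ℕ) : List (Fin 9) → Bool :=
  Nat.rec (motive := fun _ => List (Fin 9) → Bool) P
    (fun _ ih l => (List.finRange 9).all fun v => !ok l v || ih (l ++ [v])) k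

theorem go_sound {P : (Fin 9 → Fin 9) → Prop} [DecidablePred P]
    (h : go (fun l => decide (P (pl l))) 9 [] = true) (hs : s * s = 1) : P s := by
  let b : ℕ → Fin 9 := fun i => s (Fin.ofNat 9 i)
  have key : ∀ k i, i + k = 9 → go (fun l => decide (P (pl l))) k ((List.range i).map b) = true →
      P (pl ((List.range 9).map b)) := by
    intro k
    induction k with
    | zero => rintro i rfl h; exact of_decide_eq_true h
    | succ k ih =>
      intro i hi h
      have := List.all_eq_true.1 h (b i) (List.mem_finRange _)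
      refine ih (i + 1) (by omega) ?_
      rw [List.range_succ, List.map_append]
      refine (Bool.or_eq_true _ _ ▸ this).resolve_left ?_
      rw [Bool.not_eq_true', Bool.not_eq_false, ok, List.all_eq_true]
      intro j hj
      have hj : j < i := by simpa using hj
      have e : ((List.range i).map b).getD j 0 = b j := by simp [hj]
      have e1 : Fin.ofNat 9 j = ⟨j, by omega⟩ := Fin.ext (Nat.mod_eq_of_lt (by omega))
      have e2 : Fin.ofNat 9 i = ⟨i, by omega⟩ := Fin.ext (Nat.mod_eq_of_lt (by omega))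
      have e3 : ∀ p q, s p = q → s q = p := fun p q h => by rw [← h, ← Perm.mul_apply, hs]; rfl
      simp only [e, List.length_map, List.length_range, b, e1, e2, Bool.and_eq_true, beq_iff_eq, bne_iff_ne, ne_eq,
        EmbeddingLike.apply_eq_iff_eq, Fin.mk.injEq]
      refine ⟨?_, hj.ne⟩
      rw [Bool.eq_iff_iff, beq_iff_eq, beq_iff_eq]
      exact ⟨fun h => (congrArg Fin.val (e3 _ ⟨i, by omega⟩ (Fin.ext h))).symm,
        fun h => congrArg Fin.val (e3 _ ⟨j, by omega⟩ (Fin.ext h.symm))⟩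
  have := key 9 0 rfl h
  rwa [show pl ((List.range 9).map b) = s from funext fun p => by simp [pl, b]] at this

def c5 : Perm (Fin 9) := ⟨pl [1, 2, 3, 4, 0, 5, 6, 7, 8], pl [4, 0, 1, 2, 3, 5, 6, 7, 8], by decide, by decide⟩

theorem F3 {f b : Perm (Fin 9)} (hf : f ^ 5 = 1) (hb : b * b = 1) (ne : b ≠ 1) (c1 : Commute b (f * b * f⁻¹))
    (c2 : Commute b (f ^ 2 * b * (f ^ 2)⁻¹))
    (hp : b * (f * b * f⁻¹) * (f ^ 2 * b * (f ^ 2)⁻¹) * (f ^ 3 * b * (f ^ 3)⁻¹) * (f ^ 4 * b * (f ^ 4)⁻¹) = 1) :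
    False := by
  by_cases h0 : f = 1
  · simp [h0, hb] at hp
    exact ne hp
  haveI : Fact (Nat.Prime 5) := ⟨by norm_num⟩
  have ct : ∀ g : Perm (Fin 9), g ^ 5 = 1 → g ≠ 1 → g.cycleType = {5} := fun g h1 h2 => by
    have h3 := cycleType_of_pow_prime_eq_one h1
    have h4 := sum_cycleType_le g
    have h5 : g.cycleType.card ≠ 0 := fun e => h2 (card_cycleType_eq_zero.1 e)
    rw [h3] at h4
    simp at h4
    rw [h3, show g.cycleType.card = 1 by omega]; rfl
  obtain ⟨t, ht⟩ := isConj_iff.1 (isConj_iff_cycleType_eq.2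
    ((ct c5 (by decide) (by decide)).trans (ct f hf h0).symm))
  obtain ⟨β, rfl⟩ : ∃ β, b = t * β * t⁻¹ := ⟨t⁻¹ * b * t, by group⟩
  subst ht
  have hi := (MulAut.conj t).injective
  have := go_sound (s := β) (P := fun b => (∀ p, b (c5 (b (c5⁻¹ p))) = c5 (b (c5⁻¹ (b p)))) →
    (∀ p, b (c5 (c5 (b (c5⁻¹ (c5⁻¹ p))))) = c5 (c5 (b (c5⁻¹ (c5⁻¹ (b p)))))) →
    (∀ p, b (c5 (b (c5 (b (c5 (b (c5 (b (c5 p))))))))) = p) → ∀ p, b p = p) (by decide +kernel)
    (hi (by simpa [mul_assoc] using hb))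
    (fun p => congrArg (fun x : Perm (Fin 9) => x p) (hi (a₁ := β * (c5 * β * c5⁻¹)) (a₂ := c5 * β * c5⁻¹ * β)
      (by simpa [mul_assoc] using c1.eq)))
    (fun p => congrArg (fun x : Perm (Fin 9) => x p) (hi (a₁ := β * (c5 * c5 * β * c5⁻¹ * c5⁻¹))
      (a₂ := c5 * c5 * β * c5⁻¹ * c5⁻¹ * β) (by simpa [mul_assoc, sq] using c2.eq)))
    (fun p => congrArg (fun x : Perm (Fin 9) => x p) (hi (a₁ := β * c5 * β * c5 * β * c5 * β * c5 * β * c5) (a₂ := 1)
      (by
        rw [map_one, ← hp, ← mul_one (MulAut.conj t _), ← map_one (MulAut.conj t), ← inv_one,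
          ← show c5 ^ 5 = 1 by decide]
        simp only [MulAut.conj_apply, conj_pow]
        group)))
  exact ne (by rw [show β = 1 from Equiv.ext this]; group)

def s2 : Perm (Fin 9) := ⟨pl [1, 0, 3, 2, 4, 5, 6, 7, 8], pl [1, 0, 3, 2, 4, 5, 6, 7, 8], by decide, by decide⟩

def tt (x y p : Fin 9) : Fin 9 := pl [x, s2 x, y, s2 y] p

def RR (x y u v : Fin 9) : Prop := tt x y u = s2 (tt u v x) ∧ tt x y v = s2 (tt u v y)

instance (x y u v : Fin 9) : Decidable (RR x y u v) := instDecidableAnd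

theorem F4 {ζ a b c d : Perm (Fin 9)} (hζ : ζ * ζ = 1) (h4 : ζ.support.card = 4)
    (hc : ∀ x ∈ [a, b, c, d], x * ζ = ζ * x) (ab : a * b = ζ * (b * a)) (ac : a * c = ζ * (c * a))
    (ad : a * d = ζ * (d * a)) (bc : b * c = ζ * (c * b)) (bd : b * d = ζ * (d * b))
    (cd : c * d = ζ * (d * c)) : False := by
  obtain ⟨t, -, ht⟩ := F1 hζ (r := s2) (by decide) (h4.trans (by decide))
  have k1 : ∀ x : Perm (Fin 9), x * s2 = s2 * x → (x 0 < 4 ∧ x 2 < 4) ∧ ∀ p < 4, x p = tt (x 0) (x 2) p := fun x hx => by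
    have e : ∀ p, x (s2 p) = s2 (x p) := fun p => congrArg (fun y : Perm (Fin 9) => y p) hx
    have e' : ∀ q : Fin 9, s2 q ≠ q → q < 4 := by decide
    refine ⟨⟨e' _ fun h => ?_, e' _ fun h => ?_⟩, fun p hp => ?_⟩
    · exact absurd (x.injective ((e 0).trans h)) (by decide)
    · exact absurd (x.injective ((e 2).trans h)) (by decide)
    · rcases (by decide : ∀ p : Fin 9, p < 4 → p = 0 ∨ p = 1 ∨ p = 2 ∨ p = 3) p hp with rfl | rfl | rfl | rfl
      exacts [rfl, e 0, rfl, e 2]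
  have k2 : ∀ x, x * ζ = ζ * x → t * x * t⁻¹ * s2 = s2 * (t * x * t⁻¹) := fun x hx => by
    rw [← ht, conj_mul, conj_mul, hx]
  have k3 : ∀ x ∈ [a, b, c, d], ∀ y ∈ [a, b, c, d], x * y = ζ * (y * x) →
      RR ((t * x * t⁻¹) 0) ((t * x * t⁻¹) 2) ((t * y * t⁻¹) 0) ((t * y * t⁻¹) 2) := fun x hx y hy h => by
    have h1 := k1 _ (k2 x (hc x hx))
    have h2 := k1 _ (k2 y (hc y hy))
    have e : t * x * t⁻¹ * (t * y * t⁻¹) = s2 * (t * y * t⁻¹ * (t * x * t⁻¹)) := by
      rw [← ht, conj_mul, conj_mul, conj_mul, h]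
    rw [RR, ← h1.2 _ h2.1.1, ← h1.2 _ h2.1.2, ← h2.2 _ h1.1.1, ← h2.2 _ h1.1.2]
    exact ⟨congrArg (fun y : Perm (Fin 9) => y 0) e, congrArg (fun y : Perm (Fin 9) => y 2) e⟩
  have k4 := fun x hx => (k1 _ (k2 x (hc x hx))).1
  exact (by decide +kernel : ∀ x1 : Fin 9, x1 < 4 → ∀ y1 : Fin 9, y1 < 4 → ∀ x2 : Fin 9, x2 < 4 → ∀ y2 : Fin 9, y2 < 4 →
    RR x1 y1 x2 y2 → ∀ x3 : Fin 9, x3 < 4 → ∀ y3 : Fin 9, y3 < 4 → RR x1 y1 x3 y3 → RR x2 y2 x3 y3 →
    ∀ x4 : Fin 9, x4 < 4 → ∀ y4 : Fin 9, y4 < 4 → RR x1 y1 x4 y4 → RR x2 y2 x4 y4 → RR x3 y3 x4 y4 → False)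
    _ (k4 a (by simp)).1 _ (k4 a (by simp)).2 _ (k4 b (by simp)).1 _ (k4 b (by simp)).2
    (k3 a (by simp) b (by simp) ab) _ (k4 c (by simp)).1 _ (k4 c (by simp)).2
    (k3 a (by simp) c (by simp) ac) (k3 b (by simp) c (by simp) bc) _ (k4 d (by simp)).1 _ (k4 d (by simp)).2
    (k3 a (by simp) d (by simp) ad) (k3 b (by simp) d (by simp) bd) (k3 c (by simp) d (by simp) cd)

end Perm

end Cfsg.Agent.Lib.ThF9
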