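import Cfsg.Agent.Lib.ThFq

/-! Involutions of the centraliser; the natural module: no conjugate of `z` lies in `Q - {z}`, and no
conjugate of `z` lies over a product of two transpositions. -/

set_option autoImplicit false
set_option maxRecDepth 100000

namespace Cfsg.Agent.Lib.ThFc

open Subgroup Equiv Cfsg.Agent.Lib.ThDefs Cfsg.Agent.Lib.ThF9

variable {G : Type*} [Group G] {z : G} {Q : Subgroup G} {φ : centralizer ({z} : Set G) →* Perm (Fin 9)}
  {n f : ℕ → G} {g : G}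

/-- The action on codes and the permutation of a word in the letters of the table. -/
noncomputable def wd (T : List (ℕ × List ℕ × List ℕ)) (w : List ℕ) : List ℕ × List ℕ :=
  w.foldr (fun i r => (r.1.map (lin (T.getD i (0, [], [])).2.1),
    r.2.map fun p => (T.getD i (0, [], [])).2.2.getD p 0)) (L0, List.range 9)

theorem word {T : List (ℕ × List ℕ × List ℕ)} (S : St φ n f T) (E : Enc z Q n) (w : List ℕ)
    (hw : ∀ i ∈ w, i < T.length) : ∃ g, Act n g (wd T w).1 ∧ Ph φ g (wd T w).2 ∧ (wd T w).2.length = 9 := by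
  induction w with
  | nil =>
    refine ⟨1, ⟨rfl, (by decide : ∀ a ∈ L0, a < 512), fun i hi => ?_⟩, ⟨one_mem _, fun p => ?_⟩, rfl⟩
    · rw [one_mul, inv_one, mul_one]
      exact congrArg n ((by decide : ∀ i < 8, 2 ^ i = L0.getD i 0) i hi)
    · rw [show (⟨1, one_mem _⟩ : centralizer ({z} : Set G)) = 1 from rfl, map_one]
      exact (by decide : ∀ p : Fin 9, (p : ℕ) = (List.range 9).getD p 0) p
  | cons i w ih =>
    obtain ⟨g, h1, h2, h3⟩ := ih fun j hj => hw j (List.mem_cons_of_mem _ hj)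
    have hi := hw i List.mem_cons_self
    have := S.act (T.getD i (0, [], [])) (by rw [List.getD_eq_getElem _ _ hi]; exact List.getElem_mem hi)
    exact ⟨_, this.1.mul h1 E this.2.1, this.2.mul h2 h3, by simpa [wd] using h3⟩

theorem ph_eq {l : List ℕ} (h : Ph φ g l) (s : Perm (Fin 9)) (e : ∀ p, (s p : ℕ) = l.getD p 0) :
    φ ⟨g, h.1⟩ = s := Equiv.ext fun p => Fin.ext ((h.2 p).trans (e p).symm)

/-- An involution given by the list of its images. -/
def iv (l : List (Fin 9)) (h : ∀ p, pl l (pl l p) = p) : Perm (Fin 9) := ⟨pl l, pl l, h, h⟩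

theorem iv_sq (l : List (Fin 9)) (h : ∀ p, pl l (pl l p) = p) : iv l h * iv l h = 1 := Equiv.ext h

theorem sq1 {v : G} (hv : v ∈ centralizer ({z} : Set G)) (vv : v * v = 1) : φ ⟨v, hv⟩ * φ ⟨v, hv⟩ = 1 := by
  rw [← map_mul, ← map_one φ]; exact congrArg φ (Subtype.ext vv)

theorem cases (h : Hyp z Q φ) {v : G} (hv : v ∈ centralizer ({z} : Set G)) (vv : v * v = 1) :
    v ∈ Q ∨ (φ ⟨v, hv⟩).support.card = 4 ∨ (φ ⟨v, hv⟩).support.card = 8 :=
  (F1c (sq1 hv vv) (h.rng ▸ ⟨_, rfl⟩)).imp_left fun e => (h.ker _).1 e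

theorem cls (h : Hyp z Q φ) (S : St φ n f LS) {v : G} (hv : v ∈ centralizer ({z} : Set G)) (vv : v * v = 1) :
    v ∈ Q ∨ ∃ k ∈ centralizer ({z} : Set G), k * v * k⁻¹ * (f 3)⁻¹ ∈ Q ∨ k * v * k⁻¹ * (f 7)⁻¹ ∈ Q := by
  have key : ∀ (y : G) (hy : y ∈ centralizer ({z} : Set G)), φ ⟨y, hy⟩ * φ ⟨y, hy⟩ = 1 →
      (φ ⟨v, hv⟩).support.card = (φ ⟨y, hy⟩).support.card →
      ∃ k ∈ centralizer ({z} : Set G), k * v * k⁻¹ * y⁻¹ ∈ Q := fun y hy yy e => by
    obtain ⟨t, ht, e⟩ := F1 (sq1 hv vv) yy e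
    obtain ⟨k, rfl⟩ := h.rng.symm ▸ ht
    exact ⟨k, k.2, (h.ker (k * ⟨v, hv⟩ * k⁻¹ * (⟨y, hy⟩ : centralizer ({z} : Set G))⁻¹)).1 (by
      rw [map_mul, map_mul, map_mul, map_inv, map_inv, e, mul_inv_cancel])⟩
  have h3 := (S.act _ List.mem_cons_self).2
  have h7 := (S.act (LS.getD 4 (0, [], [])) (by decide)).2
  have e3 := ph_eq h3 (iv [1, 0, 3, 2, 5, 4, 6, 8, 7] (by decide)) (by decide)
  have e7 := ph_eq h7 (iv [0, 5, 2, 4, 3, 1, 6, 7, 8] (by decide)) (by decide)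
  refine (cases h hv vv).imp_right fun h1 => ?_
  rcases h1 with h1 | h1
  · obtain ⟨k, hk, e⟩ := key _ h7.1 (by rw [e7, iv_sq]) (by rw [e7, h1]; decide)
    exact ⟨k, hk, Or.inr e⟩
  · obtain ⟨k, hk, e⟩ := key _ h3.1 (by rw [e3, iv_sq]) (by rw [e3, h1]; decide)
    exact ⟨k, hk, Or.inl e⟩

def cm (k ki : List (Fin 9)) (b : Fin 9 → Fin 9) : Prop :=
  ∀ p, b (pl k (b (pl ki p))) = pl k (b (pl ki (b p)))

instance (k ki : List (Fin 9)) : DecidablePred (cm k ki) := fun _ => Nat.decidableForallFin _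

theorem cm_of {β : Perm (Fin 9)} {l : List ℕ} (h : Ph φ g l) (c : Commute β (φ ⟨g, h.1⟩ * β * (φ ⟨g, h.1⟩)⁻¹))
    {k ki : List (Fin 9)} (e : ∀ p : Fin 9, (pl k p : ℕ) = l.getD p 0 ∧ pl k (pl ki p) = p) : cm k ki β := by
  have e1 : ∀ p, φ ⟨g, h.1⟩ p = pl k p := fun p => Fin.ext ((h.2 p).trans (e p).1.symm)
  have e2 : ∀ p, (φ ⟨g, h.1⟩)⁻¹ p = pl ki p := fun p => by rw [Perm.inv_eq_iff_eq, e1, (e p).2]
  intro p
  rw [← e2, ← e2, ← e1, ← e1]
  exact congrArg (fun x : Perm (Fin 9) => x p) c.eq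

theorem core [Finite G] (h : Hyp z Q φ) (hj : g * z * g⁻¹ ∈ Q) (h0 : g * z * g⁻¹ ≠ z) {SL : List (List (Fin 9))}
    (hl : SL.length ≤ 7) (hS : ∀ β : Perm (Fin 9), β * β = 1 → (∀ (k : G) (hk : k ∈ centralizer ({z} : Set G)),
      k * (g * z * g⁻¹) * k⁻¹ = g * z * g⁻¹ → Commute β (φ ⟨k, hk⟩ * β * (φ ⟨k, hk⟩)⁻¹)) →
        ∃ l ∈ SL, ∀ p, β p = pl l p) : False := by
  classical
  have hj' : g⁻¹ * z * g⁻¹⁻¹ ∈ Q := by rw [inv_inv]; exact Q1 h hj
  have c := cardC h hj' (by rw [conj_mul, h.zz]; group) (fun e => h.ne (conj_eq_one_iff.1 e)) fun e => h0 (by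
    conv_lhs => rw [← e]
    group)
  set R := Q ⊓ centralizer {g⁻¹ * z * g⁻¹⁻¹}
  let θ := ψ φ g⁻¹ (inf_le_right : R ≤ _)
  have hk := ψ_ker h (inf_le_right : R ≤ _)
  have hzR : z ∈ R := ⟨h.mem, mem_centralizer_singleton_iff.2 (zc h hj').symm⟩
  have hz : θ ⟨z, hzR⟩ = 1 := (hk _).2 ((inv_inv g).symm ▸ hj : g⁻¹⁻¹ * z * g⁻¹ ∈ Q)
  have com : ∀ x y : R, Commute (θ x) (θ y) := fun x y => by
    rcases h.com _ x.2.1 _ y.2.1 with e | e
    · rw [Commute, SemiconjBy, ← map_mul, ← map_mul, show x * y = y * x from Subtype.ext e]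
    · rw [Commute, SemiconjBy, ← map_mul, ← map_mul, show x * y = ⟨z, hzR⟩ * (y * x) from Subtype.ext e,
        map_mul, hz, one_mul]
  have h1 := AB h (A := θ.ker.map R.subtype) ((map_subtype_le _).trans inf_le_left) (by
    rintro _ ⟨x, hx, rfl⟩ _ ⟨y, hy, rfl⟩
    refine (h.com _ x.2.1 _ y.2.1).resolve_right fun e => ?_
    have e' : g⁻¹⁻¹ * x * g⁻¹ * (g⁻¹⁻¹ * y * g⁻¹) =
        g * z * g⁻¹ * (g⁻¹⁻¹ * y * g⁻¹ * (g⁻¹⁻¹ * x * g⁻¹)) := by
      calc _ = g * (x * y) * g⁻¹ := by group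
        _ = _ := by rw [e]; group
    rcases h.com _ ((hk x).1 hx) _ ((hk y).1 hy) with e2 | e2 <;> rw [e2] at e'
    · exact h.ne (by simpa using e')
    · exact h0 (mul_right_cancel e').symm)
  rw [card_map_of_injective R.subtype_injective] at h1
  have h2 : Nat.card θ.range ≤ 7 := by
    refine (Nat.card_le_card_of_injective (β := {x // x ∈ (SL.map pl).toFinset}) (fun β => ⟨β.1, ?_⟩)
      fun a b e => Subtype.ext (DFunLike.coe_injective (congrArg Subtype.val e))).trans ?_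
    · obtain ⟨_, x, rfl⟩ := β
      obtain ⟨l, h1, h2⟩ := hS (θ x) (by
        rw [← map_mul]
        rcases h.cen (x * x) (h.le (mul_mem x.2.1 x.2.1)) fun q hq => by
          rcases h.com _ x.2.1 q hq with e | e
          · rw [mul_assoc, e, ← mul_assoc, e, mul_assoc]
          · rw [mul_assoc, e, ← mul_assoc, zc h x.2.1, mul_assoc, ← mul_assoc x.1, e, ← mul_assoc, ← mul_assoc,
              ← mul_assoc, h.zz]; group with e | e
        · rw [show x * x = 1 from Subtype.ext e, map_one]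
        · rw [show x * x = ⟨z, hzR⟩ from Subtype.ext e, hz]) fun k hk e => by
          have m : g⁻¹ * k * g ∈ centralizer ({z} : Set G) := mem_centralizer_singleton_iff.2 (by
            calc _ = g⁻¹ * (k * (g * z * g⁻¹) * k⁻¹) * k * g := by group
              _ = _ := by rw [e]; group)
          have m' : g⁻¹ * k * g ∈ centralizer {g⁻¹ * z * g⁻¹⁻¹} := mem_centralizer_singleton_iff.2 (by
            calc _ = g⁻¹ * (k * z) * g := by group
              _ = _ := by rw [mem_centralizer_singleton_iff.1 hk]; group)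
          have := com x ⟨g⁻¹ * k * g * x * (g⁻¹ * k * g)⁻¹, h.nor _ m _ x.2.1,
            mul_mem (mul_mem m' x.2.2) (Subgroup.inv_mem _ m')⟩
          convert this using 1
          rw [← map_inv]
          exact ((map_mul φ _ _).trans (congrArg (· * _) (map_mul φ _ _))).symm.trans
            (congrArg φ (Subtype.ext (by
              change k * (g⁻¹⁻¹ * x * g⁻¹⁻¹⁻¹) * k⁻¹ = g⁻¹⁻¹ * (g⁻¹ * k * g * x * (g⁻¹ * k * g)⁻¹) * g⁻¹⁻¹⁻¹
              group)))
      exact List.mem_toFinset.2 (List.mem_map.2 ⟨l, h1, (funext h2).symm⟩)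
    · rw [Nat.card_eq_fintype_card, Fintype.card_coe]
      exact (List.toFinset_card_le _).trans (by simpa using hl)
  have h4 := card_eq_card_quotient_mul_card_subgroup θ.ker
  rw [Nat.card_congr (QuotientGroup.quotientKerEquivRange θ).toEquiv, c] at h4
  exact absurd (h4.trans_le (Nat.mul_le_mul h2 h1)) (by decide)

end Cfsg.Agent.Lib.ThFc
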