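import Cfsg.Agent.Lib.ThF5
import Cfsg.Agent.Lib.ZStar

/-! The natural module: no conjugate of `z` lies in `Q - {z}`, and not every conjugate of `z` in its
centraliser lies over a product of two transpositions. -/

set_option autoImplicit false
set_option maxRecDepth 100000

namespace Cfsg.Agent.Lib.ThFn

open Subgroup Equiv Cfsg.Agent.Lib.PermNet Cfsg.Agent.Lib.ThDefs Cfsg.Agent.Lib.ThF9 Cfsg.Agent.Lib.ThFc

variable {G : Type*} [Group G] {z : G} {Q : Subgroup G} {φ : centralizer ({z} : Set G) →* Perm (Fin 9)}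
  {n f : ℕ → G} {g : G}

def tab : ℕ := 0x3fc1c2d4c03fbf3fc13f7f7fc23fbfbfc43f3f3f7fd5d4d43fd4c0d43fe9c0e8c03f7f7f7fc1d4d4bfc2c2c8bfc2c2c8d47f7f3f7fd6c1c03fd4c1c1bfe8caeb3fc1c1d4e03f3f3fc83f7f7fc03f3fbfd43f3f3f7fd5d4c43fd4c0d43fe9c0e8c13f7f7f7fe1d4c4bfc2e2c0bfe2e1c0d47f7f3f7fd6e1c03fd4c9c1bfe8ebef

/-- One step towards the class representative. -/
noncomputable def nx (m : ℕ) : ℕ := force m fun m =>
  if tab >>> (2 * m) % 4 < 3 then lin (LN.getD (tab >>> (2 * m) % 4) (0, [], [])).2.1 m else m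

theorem nx_conj (S : St φ n f LN) (E : Enc z Q n) (i : ℕ) {m : ℕ} (hm : m < 512) :
    ∃ k ∈ centralizer ({z} : Set G), k * n m * k⁻¹ = n (nx^[i] m) := by
  induction i generalizing m with
  | zero => exact ⟨1, one_mem _, by simp⟩
  | succ i ih =>
    obtain ⟨h1, k, hk, e⟩ : nx m < 512 ∧ ∃ k ∈ centralizer ({z} : Set G), k * n m * k⁻¹ = n (nx m) := by
      rw [nx, force_eq]
      split_ifs with h
      · have := S.act (LN.getD (tab >>> (2 * m) % 4) (0, [], []))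
          (by rw [List.getD_eq_getElem _ _ h]; exact List.getElem_mem h)
        exact ⟨this.1.lt m, _, this.2.1, this.1.all E this.2.1 hm⟩
      · exact ⟨hm, 1, one_mem _, by simp⟩
    obtain ⟨k', hk', e'⟩ := ih h1
    exact ⟨k' * k, mul_mem hk' hk, by rw [Function.iterate_succ_apply, ← e', ← e]; group⟩

theorem nq [Finite G] (h : Hyp z Q φ) (E : Enc z Q n) (S : St φ n f LN) (hj : g * z * g⁻¹ ∈ Q) :
    g * z * g⁻¹ = z := by
  by_contra h0
  obtain ⟨m, hm, e⟩ := E.surj _ hj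
  obtain ⟨k, hk, e'⟩ := nx_conj S E 11 hm
  have key : ∀ {c : ℕ}, c < 512 → ∀ {β : Perm (Fin 9)}, (∀ (k : G) (hk : k ∈ centralizer ({z} : Set G)),
      k * n c * k⁻¹ = n c → Commute β (φ ⟨k, hk⟩ * β * (φ ⟨k, hk⟩)⁻¹)) → ∀ (w : List ℕ) (k ki : List (Fin 9)),
      ((∀ i ∈ w, i < 3) ∧ lin (wd LN w).1 c = c ∧
        ∀ p : Fin 9, (pl k p : ℕ) = (wd LN w).2.getD p 0 ∧ pl k (pl ki p) = p) → cm k ki β :=
    fun hc β hβ w k ki hw => by
      obtain ⟨y, h1, h2, -⟩ := word S E w hw.1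
      exact cm_of h2 (hβ y h2.1 (by rw [h1.all E h2.1 hc, hw.2.1])) hw.2.2
  have e2 : k * g * z * (k * g)⁻¹ = n (nx^[11] m) := by rw [← e', e]; group
  have ne : ∀ c < 512, c ≠ 256 → n c ≠ z := fun c hc h1 h2 => h1 (E.inj c hc 256 (by decide) (h2.trans E.z256.symm))
  rcases (by decide +kernel : ∀ m < 512, qm m m = 0 → m = 0 ∨ m = 256 ∨ nx^[11] m = 1 ∨ nx^[11] m = 4) m hm
    (E.inj _ (qm_lt hm hm) 0 (by decide) (by rw [← E.mul m hm m hm, e, conj_mul, h.zz, E.zero]; group))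
    with rfl | rfl | h1 | h1
  · exact h.ne (conj_eq_one_iff.1 (e.symm.trans E.zero))
  · exact h0 (e.symm.trans E.z256)
  · rw [h1] at e2
    exact core h (e2 ▸ E.mem 1 (by decide)) (e2 ▸ ne 1 (by decide) (by decide)) (hS := fun β hβ hc =>
      (F5 hβ).1 (key (c := 1) (by decide) (e2 ▸ hc) [0] _ _ (by decide +kernel))
      (key (c := 1) (by decide) (e2 ▸ hc) [2, 2, 0, 2, 0, 2, 2, 0, 2] _ _ (by decide +kernel))
      (key (c := 1) (by decide) (e2 ▸ hc) [0, 0, 1] _ _ (by decide +kernel))) (by decide)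
  · rw [h1] at e2
    exact core h (e2 ▸ E.mem 4 (by decide)) (e2 ▸ ne 4 (by decide) (by decide)) (hS := fun β hβ hc =>
      (F5 hβ).2 (key (c := 4) (by decide) (e2 ▸ hc) [0, 0, 0, 1, 2, 0] _ _ (by decide +kernel))
      (key (c := 4) (by decide) (e2 ▸ hc) [0, 1, 1, 0, 2, 0, 2, 0] _ _ (by decide +kernel))
      (key (c := 4) (by decide) (e2 ▸ hc) [0, 0, 0, 0, 0, 2, 0, 2, 0] _ _ (by decide +kernel))) (by decide)

/-- Conjugation of codes. -/
noncomputable def cj (p m : ℕ) : ℕ := qm (qm p m) (qm p (qm p p))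

theorem inv_eq (E : Enc z Q n) {p : ℕ} (hp : p < 512) : (n p)⁻¹ = n (qm p (qm p p)) := by
  rw [inv_eq_iff_mul_eq_one, E.mul _ hp _ (qm_lt hp (qm_lt hp hp)),
    (by decide +kernel : ∀ p < 512, qm p (qm p (qm p p)) = 0) p hp, E.zero]

theorem cj_eq (E : Enc z Q n) {p m : ℕ} (hp : p < 512) (hm : m < 512) : n p * n m * (n p)⁻¹ = n (cj p m) := by
  rw [cj, ← E.mul _ (qm_lt hp hm) _ (qm_lt hp (qm_lt hp hp)), ← E.mul _ hp _ hm, inv_eq E hp]

def Ly : List ℕ := [183, 15, 265, 179, 166, 150, 502, 128]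

def qs : List (ℕ × ℕ × ℕ × ℕ) := [(59, 214, 193, 113), (161, 28, 86, 109), (33, 107, 42, 134), (128, 221, 91, 250),
  (124, 93, 128, 119), (33, 80, 145, 139), (42, 61, 107, 44), (176, 202, 33, 71), (124, 230, 122, 54),
  (208, 252, 141, 65), (44, 102, 80, 134), (76, 86, 252, 141), (241, 199, 151, 6), (76, 59, 74, 91),
  (176, 76, 39, 119), (71, 65, 237, 102)]

theorem stepB (h : Hyp z Q φ) (E : Enc z Q n) (S : St φ n f LN)
    (h4 : ∀ (g : G) (hg : g * z * g⁻¹ ∈ centralizer ({z} : Set G)), g * z * g⁻¹ ≠ z →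
      (φ ⟨_, hg⟩).support.card = 4) (hg : g * z * g⁻¹ ∈ centralizer ({z} : Set G)) : g * z * g⁻¹ = z := by
  by_contra h0
  obtain ⟨y, h1, h2, -⟩ := word S E [0, 1, 0, 1, 2, 0, 1, 2] (by decide)
  rw [show (wd LN [0, 1, 0, 1, 2, 0, 1, 2]).1 = Ly by decide +kernel] at h1
  have e := ph_eq h2 (iv [0, 1, 2, 7, 4, 5, 8, 3, 6] (by decide)) (by decide +kernel)
  obtain ⟨k, hk, p, hp, e1⟩ := lift h E hg h2.1 (by rw [conj_mul, h.zz]; group) (by rw [e, iv_sq])
    (by rw [e, h4 g hg h0]; decide)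
  have e2 : k * g * z * (k * g)⁻¹ = n p * y := by rw [← e1]; group
  have h0' : k * g * z * (k * g)⁻¹ ≠ z := fun e => h0 (by
    calc _ = k⁻¹ * (k * g * z * (k * g)⁻¹) * k := by group
      _ = _ := by rw [e, mul_assoc, ← mem_centralizer_singleton_iff.1 hk]; group)
  generalize k * g = g at e2 h0'
  have hg : g * z * g⁻¹ ∈ centralizer ({z} : Set G) := e2 ▸ mul_mem (h.le (E.mem p hp)) h2.1
  have act : ∀ m < 512, g * z * g⁻¹ * n m * (g * z * g⁻¹)⁻¹ = n (cj p (lin Ly m)) := fun m hm => by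
    rw [e2, ← cj_eq E hp (h1.lt m), ← h1.all E h2.1 hm]; group
  have lt : ∀ m, cj p (lin Ly m) < 512 := fun m => qm_lt (qm_lt hp (h1.lt m)) (qm_lt hp (qm_lt hp hp))
  obtain ⟨⟨a, b, c, d⟩, hq, fx⟩ := (by decide +kernel : ∀ p < 512,
    (∀ m ∈ L0, cj p (lin Ly (cj p (lin Ly m))) = m) →
      ∃ q ∈ qs, ∀ m ∈ [q.1, q.2.1, q.2.2.1, q.2.2.2], cj p (lin Ly m) = m) p hp fun m hm => by
    have hm := (by decide : ∀ a ∈ L0, a < 512) m hm
    refine E.inj _ (lt _) _ hm ?_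
    rw [← act _ (lt _), ← act _ hm]
    calc _ = g * (z * z) * g⁻¹ * n m * (g * (z * z) * g⁻¹)⁻¹ := by group
      _ = _ := by rw [h.zz]; group
  obtain ⟨l, an⟩ := (by decide +kernel : ∀ q ∈ qs, (∀ m ∈ [q.1, q.2.1, q.2.2.1, q.2.2.2], m < 512) ∧
    [q.1, q.2.1, q.2.2.1, q.2.2.2].Pairwise fun a b => qm a b = qm 256 (qm b a)) _ hq
  let θ := ψ φ g (le_rfl : centralizer {g * z * g⁻¹} ≤ _)
  have hz : z ∈ centralizer {g * z * g⁻¹} :=
    mem_centralizer_singleton_iff.2 (mem_centralizer_singleton_iff.1 hg).symm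
  have mem : ∀ m ∈ [a, b, c, d], n m ∈ centralizer {g * z * g⁻¹} := fun m hm =>
    mem_centralizer_singleton_iff.2 (by
      have := act m (l m hm)
      rw [fx m hm, mul_inv_eq_iff_eq_mul] at this
      exact this.symm)
  have rel : ∀ (a b : ℕ) (ha : a ∈ _) (hb : b ∈ _), qm a b = qm 256 (qm b a) →
      θ ⟨n a, mem a ha⟩ * θ ⟨n b, mem b hb⟩ = θ ⟨z, hz⟩ * (θ ⟨n b, mem b hb⟩ * θ ⟨n a, mem a ha⟩) :=
    fun a b ha hb e => by
      rw [← map_mul, ← map_mul, ← map_mul]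
      refine congrArg θ (Subtype.ext ?_)
      change n a * n b = z * (n b * n a)
      rw [E.mul _ (l a ha) _ (l b hb), E.mul _ (l b hb) _ (l a ha), e, ← E.z256,
        E.mul _ (by decide) _ (qm_lt (l b hb) (l a ha))]
  simp only [List.pairwise_cons, List.forall_mem_cons] at an
  refine F4 (ζ := θ ⟨z, hz⟩) (by rw [← map_mul, ← map_one θ]; exact congrArg θ (Subtype.ext h.zz))
    (h4 g⁻¹ _ fun e => h0' (by
      conv_lhs => rw [← e]
      group)) (fun x hx => ?_)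
    (rel a b (by simp) (by simp) an.1.1) (rel a c (by simp) (by simp) an.1.2.1) (rel a d (by simp) (by simp) an.1.2.2.1)
    (rel b c (by simp) (by simp) an.2.1.1) (rel b d (by simp) (by simp) an.2.1.2.1)
    (rel c d (by simp) (by simp) an.2.2.1.1)
  obtain ⟨m, hm, rfl⟩ : ∃ m, ∃ hm : m ∈ [a, b, c, d], x = θ ⟨n m, mem m hm⟩ := by
    simp only [List.mem_cons, List.not_mem_nil, or_false] at hx
    rcases hx with rfl | rfl | rfl | rfl <;> exact ⟨_, by simp, rfl⟩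
  rw [← map_mul, ← map_mul]
  exact congrArg θ (Subtype.ext (zc h (E.mem m (l m hm))))

theorem zs [Finite G] [IsSimpleGroup G] (h : Hyp z Q φ) (E : Enc z Q n) :
    ∃ g : G, g * z * g⁻¹ ∈ centralizer ({z} : Set G) ∧ g * z * g⁻¹ ≠ z := by
  have h1 : ¬ Cfsg.IsIsolated z := fun hi => by
    have h2 := ZStar.zstar G _ (by rw [sq, h.zz]) hi
    rcases IsSimpleGroup.eq_bot_or_eq_top_of_normal (Cfsg.pPrimeCore 2 G) inferInstance with k | k
    · rcases IsSimpleGroup.eq_bot_or_eq_top_of_normal (center G) inferInstance with k2 | k2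
      · exact h.ne (mem_bot.1 (k2 ▸ mem_center_iff.2 fun g =>
          mul_inv_eq_iff_eq_mul.1 (mul_inv_eq_one.1 (mem_bot.1 (k ▸ h2 g)))))
      · have := mem_center_iff.1 (k2.ge (mem_top (n 2))) (n 1)
        rw [E.mul _ (by decide) _ (by decide), E.mul _ (by decide) _ (by decide)] at this
        exact absurd (E.inj _ (by decide +kernel) _ (by decide +kernel) this) (by decide +kernel)
    · have h4 := PCoreResidual.coprime_card_pPrimeCore 2 G
      have h5 := orderOf_dvd_natCard z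
      rw [orderOf_eq_prime (p := 2) (by rw [sq, h.zz]) h.ne] at h5
      rw [k, card_top] at h4
      exact absurd (Nat.eq_one_of_dvd_coprimes h4 h5 dvd_rfl) (by decide)
  simp only [Cfsg.IsIsolated, not_forall] at h1
  obtain ⟨g, h1, h2⟩ := h1
  exact ⟨g, mem_centralizer_singleton_iff.2 h1.symm, h2⟩

theorem stepA (h : Hyp z Q φ) (E : Enc z Q n) {y : G} {L : List ℕ} (hy : y ∈ centralizer ({z} : Set G))
    (A : Act n y L) (yy : φ ⟨y, hy⟩ * φ ⟨y, hy⟩ = 1) (y8 : (φ ⟨y, hy⟩).support.card = 8) {a b c : ℕ}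
    (c1 : L.map (lin L) = L0 ∧ (∀ p < 512, qm p (lin L p) = 0 ∨ qm p (lin L p) = 256 →
      ∃ r < 512, qm (qm r p) (lin L (qm r (qm r r))) = 0) ∧
      (∀ m ∈ [a, b, c, qm a b, qm a c, qm b c, qm (qm a b) c],
        m < 512 ∧ lin L m = m ∧ qm m m = 0 ∧ m ≠ 0 ∧ m ≠ 256) ∧
      qm a b = qm b a ∧ qm a c = qm c a ∧ qm b c = qm c b)
    (nq : ∀ g : G, g * z * g⁻¹ ∈ Q → g * z * g⁻¹ = z) (hg : g * z * g⁻¹ ∈ centralizer ({z} : Set G)) :
    (φ ⟨_, hg⟩).support.card ≠ 8 := fun h8 => by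
  obtain ⟨c1, c2, c3, ab, ac, bc⟩ := c1
  have A0 : ∀ (v : G) (hv : v ∈ centralizer ({z} : Set G)), v * v = 1 → (φ ⟨v, hv⟩).support.card = 8 →
      ∃ k, k * v * k⁻¹ = y := fun v hv vv e => by
    obtain ⟨k, -, p, hp, e1⟩ := lift h E hv hy vv yy (e.trans y8.symm)
    have e2 : n (qm p (lin L p)) * (y * y) = 1 := by
      rw [← E.mul _ hp _ (A.lt p), ← A.all E hy hp]
      calc _ = n p * y * (n p * y) := by group
        _ = _ := by rw [← e1, conj_mul, vv]; group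
    have l := qm_lt hp (A.lt p)
    obtain ⟨r, hr, e3⟩ := c2 p hp (by
      rcases h.cen (y * y) (mul_mem hy hy) fun q hq => by
        obtain ⟨m, hm, rfl⟩ := E.surj q hq
        have := (A.mul A E hy).all E (mul_mem hy hy) hm
        rwa [c1, lin_L0 m hm, mul_inv_eq_iff_eq_mul] at this with e | e <;> rw [e] at e2
      · exact Or.inl (E.inj _ l 0 (by decide) (by rw [E.zero, ← e2, mul_one]))
      · exact Or.inr (E.inj _ l 256 (by decide) (by rw [E.z256]; exact mul_right_cancel (e2.trans h.zz.symm))))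
    refine ⟨n r * k, ?_⟩
    calc _ = n r * (k * v * k⁻¹) * (n r)⁻¹ := by group
      _ = n r * n p * (y * (n r)⁻¹ * y⁻¹) * y := by rw [e1]; group
      _ = _ := by
        rw [inv_eq E hr, A.all E hy (qm_lt hr (qm_lt hr hr)), E.mul _ hr _ hp, E.mul _ (qm_lt hr hp) _ (A.lt _), e3,
          E.zero, one_mul]
  obtain ⟨k, e⟩ := A0 _ hg (by rw [conj_mul, h.zz]; group) h8
  have e : k * g * z * (k * g)⁻¹ = y := by rw [← e]; group
  generalize k * g = g at e
  subst e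
  let θ := ψ φ g (le_rfl : centralizer {g * z * g⁻¹} ≤ _)
  have cm : ∀ m (hm : m ∈ _), n m * (g * z * g⁻¹) = g * z * g⁻¹ * n m := fun m hm => by
    have := A.all E hy (c3 m hm).1
    rw [(c3 m hm).2.1, mul_inv_eq_iff_eq_mul] at this
    exact this.symm
  have mem := fun m hm => mem_centralizer_singleton_iff.2 (cm m hm)
  have sq : ∀ m (hm : m ∈ _), n m * n m = 1 := fun m hm => by
    rw [E.mul _ (c3 m hm).1 _ (c3 m hm).1, (c3 m hm).2.2.1, E.zero]
  have mul : ∀ a b (ha : a ∈ _) (hb : b ∈ _) (hc : qm a b ∈ _), θ ⟨n a, mem a ha⟩ * θ ⟨n b, mem b hb⟩ =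
      θ ⟨n (qm a b), mem _ hc⟩ := fun a b ha hb hc => by
    rw [← map_mul]
    exact congrArg θ (Subtype.ext (E.mul _ (c3 a ha).1 _ (c3 b hb).1))
  have sq' : ∀ m (hm : m ∈ _), θ ⟨n m, mem m hm⟩ * θ ⟨n m, mem m hm⟩ = 1 := fun m hm => by
    rw [← map_mul, ← map_one θ]
    exact congrArg θ (Subtype.ext (sq m hm))
  have h4 : ∀ m (hm : m ∈ _), (θ ⟨n m, mem m hm⟩).support.card = 4 := fun m hm => by
    have hq := E.mem m (c3 m hm).1
    rcases cases h (v := g⁻¹ * n m * g⁻¹⁻¹) _ (by rw [conj_mul, sq m hm]; group) with h1 | h1 | h1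
    · obtain ⟨k, e⟩ := A0 (n m * (g * z * g⁻¹)) (mul_mem (h.le hq) hy) (by
        calc _ = n m * (g * z * g⁻¹ * n m) * (g * z * g⁻¹) := by group
          _ = n m * n m * (g * (z * z) * g⁻¹) := by rw [← cm m hm]; group
          _ = _ := by rw [sq m hm, h.zz]; group) (by
        rw [← y8, show (⟨_, mul_mem (h.le hq) hy⟩ : centralizer ({z} : Set G)) = ⟨_, h.le hq⟩ * ⟨_, hy⟩ from rfl,
          map_mul, (h.ker _).2 hq, one_mul])
      have e' : g⁻¹ * k⁻¹ * g * z * (g⁻¹ * k⁻¹ * g)⁻¹ = g⁻¹ * n m * g⁻¹⁻¹ * z := by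
        calc _ = g⁻¹ * k⁻¹ * (g * z * g⁻¹) * k * g := by group
          _ = _ := by
            conv_lhs => rw [← e]
            group
      have := nq _ (e' ▸ mul_mem h1 h.mem)
      rw [e', mul_eq_right, conj_eq_one_iff] at this
      exact absurd (E.inj _ (c3 m hm).1 0 (by decide) (this.trans E.zero.symm)) (c3 m hm).2.2.2.1
    · exact h1
    · obtain ⟨k, e⟩ := A0 _ _ (by rw [conj_mul, sq m hm]; group) h1
      have e' : g * k⁻¹ * g * z * (g * k⁻¹ * g)⁻¹ = n m := by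
        calc _ = g * k⁻¹ * (g * z * g⁻¹) * k * g⁻¹ := by group
          _ = _ := by rw [← e]; group
      exact absurd (E.inj _ (c3 m hm).1 256 (by decide) (by rw [E.z256, ← e']; exact nq _ (e' ▸ hq)))
        (c3 m hm).2.2.2.2
  have com : ∀ a b (ha : a ∈ _) (hb : b ∈ _), qm a b = qm b a → θ ⟨n a, mem a ha⟩ * θ ⟨n b, mem b hb⟩ =
      θ ⟨n b, mem b hb⟩ * θ ⟨n a, mem a ha⟩ := fun a b ha hb e => by
    rw [← map_mul, ← map_mul]
    refine congrArg θ (Subtype.ext ?_)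
    change n a * n b = n b * n a
    rw [E.mul _ (c3 a ha).1 _ (c3 b hb).1, E.mul _ (c3 b hb).1 _ (c3 a ha).1, e]
  refine F2 (sq' a (by simp)) (sq' b (by simp)) (sq' c (by simp)) (com a b (by simp) (by simp) ab)
    (com a c (by simp) (by simp) ac) (com b c (by simp) (by simp) bc) ?_
  rw [mul a b (by simp) (by simp) (by simp), mul a c (by simp) (by simp) (by simp),
    mul b c (by simp) (by simp) (by simp), mul (qm a b) c (by simp) (by simp) (by simp)]
  simp only [List.forall_mem_cons]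
  exact ⟨h4 _ (by simp), h4 _ (by simp), h4 _ (by simp), h4 _ (by simp), h4 _ (by simp), h4 _ (by simp),
    h4 _ (by simp), by simp⟩

theorem nat [Finite G] [IsSimpleGroup G] (h : Hyp z Q φ) (E : Enc z Q n) (S : St φ n f LN) : False := by
  obtain ⟨g, hg, h0⟩ := zs h E
  obtain ⟨y, h1, h2, -⟩ := word S E [0, 1, 2, 0, 2, 0, 1, 2, 0, 2] (by decide)
  have hq := E.mem 9 (by decide)
  have A : Act n (n 9) (L0.map (cj 9)) := ⟨rfl, by decide +kernel, fun i hi => by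
    rw [cj_eq E (by decide) ((by decide : ∀ i < 8, 2 ^ i < 512) i hi)]
    exact congrArg n ((by decide +kernel : ∀ i < 8, cj 9 (2 ^ i) = (L0.map (cj 9)).getD i 0) i hi)⟩
  have A' := A.mul h1 E (h.le hq)
  rw [show List.map (lin (L0.map (cj 9))) (wd LN [0, 1, 2, 0, 2, 0, 1, 2, 0, 2]).1 =
    [235, 219, 115, 500, 190, 189, 55, 335] by decide +kernel] at A'
  have e : φ ⟨n 9 * y, mul_mem (h.le hq) h2.1⟩ = iv [0, 8, 7, 6, 5, 4, 3, 2, 1] (by decide) := by
    rw [← ph_eq h2 (iv [0, 8, 7, 6, 5, 4, 3, 2, 1] (by decide)) (by decide +kernel), show (⟨_, mul_mem (h.le hq) h2.1⟩ : centralizer ({z} : Set G)) =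
      ⟨_, h.le hq⟩ * ⟨_, h2.1⟩ from rfl, map_mul, (h.ker _).2 hq, one_mul]
  refine h0 (stepB h E S (fun g hg h0 => ?_) hg)
  rcases cases h hg (by rw [conj_mul, h.zz]; group) with h3 | h3 | h3
  · exact absurd (nq h E S h3) h0
  · exact h3
  · exact absurd h3 (stepA h E _ A' (by rw [e, iv_sq]) (by rw [e]; decide) (a := 22) (b := 37) (c := 68)
      (by decide +kernel) (fun g => nq h E S) hg)

end Cfsg.Agent.Lib.ThFn
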