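import Cfsg.Agent.Lib.ThF9

/-! Counting in the extraspecial group of order `2 ^ 9`. -/

set_option autoImplicit false

namespace Cfsg.Agent.Lib.ThF9

open Subgroup Equiv Cfsg.Agent.Lib.ThDefs

variable {G : Type*} [Group G] {z : G} {Q : Subgroup G} {φ : centralizer ({z} : Set G) →* Perm (Fin 9)}
  {n : ℕ → G} {g : G}

theorem zc (h : Hyp z Q φ) {a : G} (ha : a ∈ Q) : a * z = z * a := mem_centralizer_singleton_iff.1 (h.le ha)

open Classical in
noncomputable def χ (a b : G) : ℤ := if a * b = b * a then 1 else -1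

theorem χ_mul (h : Hyp z Q φ) {a b c : G} (ha : a ∈ Q) (hb : b ∈ Q) (hc : c ∈ Q) :
    χ a (b * c) = χ a b * χ a c := by
  have ne : ∀ x y : G, x = z * y → x ≠ y := fun x y e e' => h.ne (by simpa [e'] using e.symm)
  unfold χ
  rcases h.com a ha b hb with h1 | h1 <;> rcases h.com a ha c hc with h2 | h2
  · rw [if_pos h1, if_pos h2, if_pos (by rw [← mul_assoc, h1, mul_assoc, h2, mul_assoc])]; rfl
  · rw [if_pos h1, if_neg (ne _ _ h2), if_neg (ne _ _ (by
      rw [← mul_assoc, h1, mul_assoc, h2, ← mul_assoc, zc h hb]; group))]; rfl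
  · rw [if_neg (ne _ _ h1), if_pos h2, if_neg (ne _ _ (by
      rw [← mul_assoc, h1, mul_assoc, mul_assoc, h2]; group))]; rfl
  · rw [if_neg (ne _ _ h1), if_neg (ne _ _ h2), if_pos (by
      rw [← mul_assoc, h1, mul_assoc, mul_assoc, h2, ← mul_assoc b, zc h hb, ← mul_assoc, ← mul_assoc,
        ← mul_assoc, h.zz]; group)]; rfl

theorem dbl [Finite G] (h : Hyp z Q φ) {A B : Subgroup G} [Fintype A] [Fintype B] (hA : A ≤ Q) (hB : B ≤ Q) :
    ∑ a : A, ∑ b : B, χ (a : G) b = Nat.card ↥(A ⊓ centralizer (B : Set G)) * Nat.card B := by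
  classical
  have e : ∀ a : A, ∑ b : B, χ (a : G) b = if (a : G) ∈ centralizer (B : Set G) then (Nat.card B : ℤ) else 0 :=
    fun a => by
      let f : B →* ℤ := ⟨⟨fun b => χ (a : G) b, by simp [χ]⟩, fun b c => χ_mul h (hA a.2) (hB b.2) (hB c.2)⟩
      split_ifs with h1
      · rw [Finset.sum_congr rfl fun (b : B) _ => show χ (a : G) b = 1 from if_pos (h1 b b.2).symm]
        simp
      · refine sum_hom_units_eq_zero f fun h2 => h1 fun b hb => ?_
        by_contra h3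
        exact absurd ((if_neg fun e => h3 e.symm).symm.trans (DFunLike.congr_fun h2 ⟨b, hb⟩)) (by simp)
  rw [Finset.sum_congr rfl fun a _ => e a, ← Finset.sum_filter, Finset.sum_const, nsmul_eq_mul,
    ← Fintype.card_subtype, ← Nat.card_eq_fintype_card]
  congr 2
  exact Nat.card_congr ⟨fun x => ⟨x.1.1, x.1.2, x.2⟩, fun x => ⟨⟨x.1, x.2.1⟩, x.2.2⟩, fun _ => rfl, fun _ => rfl⟩

theorem CS [Finite G] (h : Hyp z Q φ) {A : Subgroup G} (hA : A ≤ Q) :
    Nat.card A * Nat.card ↥(Q ⊓ centralizer (A : Set G)) = Nat.card ↥(A ⊓ zpowers z) * 512 := by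
  classical
  letI := Fintype.ofFinite A
  letI := Fintype.ofFinite Q
  have h1 := dbl h hA le_rfl
  have h2 := dbl h le_rfl hA
  rw [Finset.sum_comm, Finset.sum_congr rfl fun (a : A) _ => Finset.sum_congr rfl fun (b : Q) _ =>
    show χ (b : G) a = χ (a : G) b from if_congr eq_comm rfl rfl, h1, h.cQ] at h2
  rw [show A ⊓ zpowers z = A ⊓ centralizer (Q : Set G) from le_antisymm
    (inf_le_inf_left _ (zpowers_le.2 fun a ha => zc h ha)) fun a ha => ⟨ha.1, by
      rcases h.cen a (h.le (hA ha.1)) fun q hq => (ha.2 q hq).symm with e | e <;> rw [e]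
      exacts [one_mem _, mem_zpowers z]⟩, mul_comm]
  exact_mod_cast h2.symm

theorem cardZ [Finite G] (h : Hyp z Q φ) : Nat.card (zpowers z) = 2 := by
  rw [Nat.card_zpowers, orderOf_eq_prime (by rw [sq, h.zz]) h.ne]

theorem AB [Finite G] (h : Hyp z Q φ) {A : Subgroup G} (hA : A ≤ Q) (hc : ∀ a ∈ A, ∀ b ∈ A, a * b = b * a) :
    Nat.card A ≤ 32 := by
  have h1 := CS h hA
  have h2 := card_le_of_le (show A ≤ Q ⊓ centralizer (A : Set G) from fun a ha => ⟨hA ha, fun b hb => hc b hb a ha⟩)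
  have h3 := card_le_of_le (inf_le_right : A ⊓ zpowers z ≤ _)
  rw [cardZ h] at h3
  nlinarith

theorem memZ (h : Hyp z Q φ) {a : G} (ha : a ∈ zpowers z) : a = 1 ∨ a = z := by
  obtain ⟨k, rfl⟩ := ha
  have e : z ^ (2 : ℤ) = 1 := by rw [zpow_two, h.zz]
  rcases Int.emod_two_eq_zero_or_one k with e' | e'
  · left; change z ^ k = 1; rw [← Int.emod_add_mul_ediv k 2, zpow_add, zpow_mul, e, e']; simp
  · right; change z ^ k = z; rw [← Int.emod_add_mul_ediv k 2, zpow_add, zpow_mul, e, e']; simp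

theorem cardC [Finite G] (h : Hyp z Q φ) {j : G} (hj : j ∈ Q) (jj : j * j = 1) (h1 : j ≠ 1) (h2 : j ≠ z) :
    Nat.card ↥(Q ⊓ centralizer {j}) = 256 := by
  have e := CS h (zpowers_le.2 hj)
  have o : orderOf j = 2 := orderOf_eq_prime (by rw [sq, jj]) h1
  rw [Nat.card_zpowers, o, show zpowers j ⊓ zpowers z = ⊥ from eq_bot_iff.2 fun a ha => (memZ h ha.2).resolve_right
    fun e => by
      obtain ⟨k, hk⟩ := ha.1
      have e2 : j ^ (2 : ℤ) = 1 := by rw [zpow_two, jj]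
      change j ^ k = a at hk
      rw [← Int.emod_add_mul_ediv k 2, zpow_add, zpow_mul, e2, e] at hk
      rcases Int.emod_two_eq_zero_or_one k with e' | e' <;> rw [e'] at hk
      exacts [h.ne (by simpa using hk.symm), h2 (by simpa using hk)],
    zpowers_eq_closure, centralizer_closure, card_bot] at e
  omega

/-- The homomorphism `x ↦ φ (g⁻¹ x g)` on a subgroup centralising `g z g⁻¹`. -/
def ψ (φ : centralizer ({z} : Set G) →* Perm (Fin 9)) (g : G) {R : Subgroup G}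
    (hR : R ≤ centralizer {g * z * g⁻¹}) : R →* Perm (Fin 9) :=
  φ.comp (((MulAut.conj g⁻¹).toMonoidHom.comp R.subtype).codRestrict _ fun x => by
    have := mem_centralizer_singleton_iff.1 (hR x.2)
    rw [mem_centralizer_singleton_iff]
    change g⁻¹ * x * g⁻¹⁻¹ * z = z * (g⁻¹ * x * g⁻¹⁻¹)
    calc _ = g⁻¹ * (x * (g * z * g⁻¹)) * g := by group
      _ = _ := by rw [this]; group)

theorem ψ_ker (h : Hyp z Q φ) {R : Subgroup G} (hR : R ≤ centralizer {g * z * g⁻¹}) (x : R) :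
    x ∈ (ψ φ g hR).ker ↔ g⁻¹ * x * g ∈ Q := by
  rw [MonoidHom.mem_ker, ψ, MonoidHom.comp_apply, h.ker]
  simp

theorem Q1 [Finite G] (h : Hyp z Q φ) (hj : g * z * g⁻¹ ∈ Q) : g⁻¹ * z * g ∈ Q := by
  by_cases h0 : g * z * g⁻¹ = z
  · rw [show g⁻¹ * z * g = z from (congrArg (g⁻¹ * · * g) h0.symm).trans (by group)]; exact h.mem
  by_contra hn
  have c := cardC h hj (by rw [conj_mul, h.zz]; group) (fun e => h.ne (by simpa using e)) h0
  set R := Q ⊓ centralizer {g * z * g⁻¹}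
  let θ := ψ φ g (inf_le_right : R ≤ _)
  let A := θ.ker.map R.subtype
  have hA : A ≤ Q := (map_subtype_le _).trans inf_le_left
  have hz : z ∉ A := fun ⟨x, hx, e⟩ => hn (e ▸ (ψ_ker h _ x).1 hx)
  have e := CS h hA
  rw [show A ⊓ zpowers z = ⊥ from eq_bot_iff.2 fun a ha => (memZ h ha.2).resolve_right fun e => hz (e ▸ ha.1)] at e
  have h1 : R ≤ Q ⊓ centralizer (A : Set G) := fun r hr => ⟨hr.1, by
    rintro _ ⟨x, hx, rfl⟩
    refine (h.com _ x.2.1 r hr.1).resolve_right fun e => hz ⟨x * (⟨r, hr⟩ * x⁻¹ * (⟨r, hr⟩ : R)⁻¹),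
      mul_mem hx ((MonoidHom.normal_ker θ).conj_mem _ (inv_mem hx) _), ?_⟩
    change x.1 * (r * x.1⁻¹ * r⁻¹) = z
    rw [← mul_assoc, ← mul_assoc, e]; group⟩
  have h2 := card_le_of_le h1
  have h3 : Nat.card A = Nat.card θ.ker := card_map_of_injective R.subtype_injective
  have h4 := card_eq_card_quotient_mul_card_subgroup θ.ker
  rw [Nat.card_congr (QuotientGroup.quotientKerEquivRange θ).toEquiv, c] at h4
  have h5 := card_dvd_of_le (show θ.range ≤ alternatingGroup (Fin 9) from h.rng ▸ fun _ ⟨x, e⟩ => ⟨_, e⟩)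
  rw [nat_card_alternatingGroup, Nat.card_eq_fintype_card (α := Fin 9), Fintype.card_fin] at h5
  have h6 := (Nat.le_of_dvd (by decide) (Nat.dvd_gcd h5 (Dvd.intro _ h4.symm))).trans_eq
    (by decide : _ = 64)
  rw [card_bot, h3] at e
  rw [c] at h2
  have h7 := Nat.mul_le_mul_left (Nat.card θ.ker) h2
  have h8 := Nat.mul_le_mul h6 (show Nat.card θ.ker ≤ 2 by omega)
  omega

theorem lift (h : Hyp z Q φ) (E : Enc z Q n) {v y : G} (hv : v ∈ centralizer ({z} : Set G))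
    (hy : y ∈ centralizer ({z} : Set G)) (vv : v * v = 1) (yy : φ ⟨y, hy⟩ * φ ⟨y, hy⟩ = 1)
    (e : (φ ⟨v, hv⟩).support.card = (φ ⟨y, hy⟩).support.card) :
    ∃ k ∈ centralizer ({z} : Set G), ∃ p < 512, k * v * k⁻¹ = n p * y := by
  obtain ⟨t, ht, e⟩ := F1 (by rw [← map_mul, ← map_one φ]; exact congrArg φ (Subtype.ext vv)) yy e
  obtain ⟨k, rfl⟩ := h.rng.symm ▸ ht
  obtain ⟨p, hp, e'⟩ := E.surj _ ((h.ker (k * ⟨v, hv⟩ * k⁻¹ * (⟨y, hy⟩ : centralizer ({z} : Set G))⁻¹)).1 (by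
    rw [map_mul, map_mul, map_mul, map_inv, map_inv, e, mul_inv_cancel]))
  exact ⟨k, k.2, p, hp, by rw [e']; simp⟩

end Cfsg.Agent.Lib.ThF9
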