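import Cfsg.Agent.Lib.ThDefs
import Cfsg.Agent.Lib.SuzG1

/-! Coordinates for an extraspecial group of order `2 ^ 9` and plus type. -/

set_option autoImplicit false

namespace Cfsg.Agent.Lib.ThQ

open Subgroup Cfsg.Agent.Lib.PermNet Cfsg.Agent.Lib.DCE Cfsg.Agent.Lib.ThDefs Cfsg.Agent.S3085
  Cfsg.Agent.Lib.SuzG1
open scoped commutatorElement

def bits (m : ℕ) : List ℕ := (List.range 8).filter m.testBit

def ins (i : ℕ) : List ℕ → ℕ × List ℕ
  | [] => (0, [i])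
  | j :: l => if i = j then (0, l) else if i < j then (0, i :: j :: l) else
      ((ins i l).1 + if i = j + 1 ∧ j % 2 = 0 then 1 else 0, j :: (ins i l).2)

theorem ins_ok : ∀ i < 8, ∀ b < 512, (ins i (bits b)).2 = bits (qm (2 ^ i) b) ∧
    ((ins i (bits b)).1 + b / 256) % 2 = qm (2 ^ i) b / 256 := by decide +kernel

theorem top_ok : ∀ b < 512, bits b = bits (qm 256 b) ∧ (1 + b / 256) % 2 = qm 256 b / 256 ∧
    qm 0 b = b ∧ (b = 0 ∨ b = 256 ∨ ∃ i < 8, 2 ^ i = b ^^^ (b &&& (b - 1))) ∧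
    (b = 0 ∨ b = 256 ∨ ∃ i < 8, qm b (2 ^ i) = qm 256 (qm (2 ^ i) b)) ∧
    (b = 0 ∨ (b &&& (b - 1) < b ∧ qm (b ^^^ (b &&& (b - 1))) (b &&& (b - 1)) = b)) := by decide +kernel

theorem ass_ok : allR (fun a => forceB (Nat.land a (Nat.pred a)) fun a' => forceB (Nat.xor a a') fun l =>
    allR (fun b => Nat.beq (qm l (qm a' b)) (qm a b)) 0 512) 0 512 = true := by decide +kernel

theorem inv_ok : allR (fun a => forceB (qm a (qm a a)) fun a' => band (Nat.beq (qm a' a) 0)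
    (allR (fun b => bif' (Nat.beq (qm a' b) 0) (Nat.beq a b) true) 0 512)) 0 512 = true := by
  decide +kernel

variable {G : Type*} [Group G] {z : G} {Q : Subgroup G} {q n : ℕ → G}
  {φ : centralizer ({z} : Set G) →* Equiv.Perm (Fin 9)}

/-- A hyperbolic basis. -/
def Bas (z : G) (q : ℕ → G) : Prop := ∀ i < 8, q i * q i = 1 ∧ ∀ j < i,
  q i * q j = z ^ (if i = j + 1 ∧ j % 2 = 0 then 1 else 0) * (q j * q i)

theorem ins_prod (h : Bas z q) (hz : ∀ i < 8, q i * z = z * q i) {i : ℕ} (hi : i < 8) (l : List ℕ) :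
    q i * (l.map q).prod = z ^ (ins i l).1 * ((ins i l).2.map q).prod := by
  induction l with
  | nil => simp [ins]
  | cons j l ih =>
    rw [ins]
    by_cases h1 : i = j
    · simp [h1, ← mul_assoc, (h j (h1 ▸ hi)).1]
    by_cases h2 : i < j
    · simp [h1, h2]
    rw [if_neg h1, if_neg h2, List.map_cons, List.map_cons, List.prod_cons, List.prod_cons,
      ← mul_assoc, (h i hi).2 j (by omega), mul_assoc, mul_assoc, ih, add_comm (ins i l).1, pow_add, mul_assoc,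
      ← mul_assoc (q j), (Commute.pow_right (hz j (by omega)) _).eq, mul_assoc]

theorem of_basis [Finite G] (h : Hyp z Q φ) (hq : ∀ i < 8, q i ∈ Q) (hb : Bas z q) :
    ∃ n, Enc z Q n ∧ ∀ i < 8, n (2 ^ i) = q i := by
  have hc : ∀ g ∈ Q, g * z = z * g := fun g hg => mem_centralizer_singleton_iff.1 (h.le hg)
  have hp : ∀ m, ((bits m).map q).prod ∈ Q := fun m => Q.list_prod_mem fun x hx => by
    obtain ⟨i, hi, rfl⟩ := List.mem_map.1 hx
    exact hq i (List.mem_range.1 (List.mem_filter.1 hi).1)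
  have hm : ∀ k, z ^ (k % 2) = z ^ k := fun k => (pow_eq_pow_mod k (by rw [sq, h.zz])).symm
  let n : ℕ → G := fun m => z ^ (m / 256) * ((bits m).map q).prod
  have n0 : n 0 = 1 := by simp [n, show bits 0 = [] by decide]
  have nz : n 256 = z := by simp [n, show bits 256 = [] by decide]
  have n2 : ∀ i < 8, n (2 ^ i) = q i := fun i hi => by
    have := (by decide : ∀ i < 8, 2 ^ i / 256 = 0 ∧ bits (2 ^ i) = [i]) i hi
    simp [n, this]
  have m1 : ∀ i < 8, ∀ b < 512, q i * n b = n (qm (2 ^ i) b) := fun i hi b hb' => by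
    obtain ⟨a1, a2⟩ := ins_ok i hi b hb'
    simp only [n]
    rw [← a1, ← a2, hm, add_comm, pow_add, mul_assoc, ← ins_prod hb (fun j hj => hc _ (hq j hj)) hi,
      ← mul_assoc, ← mul_assoc, (Commute.pow_right (hc _ (hq i hi)) _).eq]
  have m2 : ∀ b < 512, z * n b = n (qm 256 b) := fun b hb' => by
    obtain ⟨a1, a2, -⟩ := top_ok b hb'
    simp only [n]
    rw [← a1, ← a2, hm, pow_add, pow_one, mul_assoc]
  have mul : ∀ a < 512, ∀ b < 512, n a * n b = n (qm a b) := fun a => by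
    induction a using Nat.strong_induction_on with | _ a ih => ?_
    intro ha b hb'
    obtain ⟨-, -, -, a1 | a1 | ⟨i, hi, a1⟩, -, a2⟩ := top_ok a ha
    · rw [a1, n0, one_mul, (top_ok b hb').2.2.1]
    · rw [a1, nz, m2 b hb']
    · obtain ⟨a2, a3⟩ := a2.resolve_left (by rintro rfl; simp at a1)
      have := allR_all ass_ok a a.zero_le ha
      rw [forceB_eq, forceB_eq] at this
      replace this := beq_eq (allR_all this b b.zero_le hb')
      change qm (a ^^^ (a &&& (a - 1))) (qm (a &&& (a - 1)) b) = _ at this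
      rw [← this, ← a1, ← m1 i hi _ (qm_lt (by omega) hb'), ← ih _ a2 (by omega) b hb', ← mul_assoc (q i),
        m1 i hi _ (by omega), a1, a3]
  have one : ∀ c < 512, n c = 1 → c = 0 := fun c hc' e => by
    obtain ⟨-, -, -, -, a1 | a1 | ⟨i, hi, a1⟩, -⟩ := top_ok c hc'
    · exact a1
    · exact absurd (nz ▸ a1 ▸ e) h.ne
    · have h2 : 2 ^ i < 512 := (Nat.pow_lt_pow_right one_lt_two hi).trans (by decide)
      have := congrArg n a1
      rw [← m2 _ (qm_lt h2 hc'), ← mul _ hc' _ h2, ← mul _ h2 _ hc', e] at this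
      exact absurd (by simpa using this) h.ne
  have inj : ∀ a < 512, ∀ b < 512, n a = n b → a = b := fun a ha b hb' e => by
    obtain ⟨a1, a2⟩ := band_eq (allR_all inv_ok a a.zero_le ha)
    have a3 := allR_all a2 b b.zero_le hb'
    have hl := qm_lt ha (qm_lt ha ha)
    rw [one _ (qm_lt hl hb') (by rw [← mul _ hl _ hb', ← e, mul _ hl _ ha, beq_eq a1, n0])] at a3
    exact beq_eq a3
  have mem : ∀ a, n a ∈ Q := fun a => mul_mem (pow_mem h.mem _) (hp a)
  refine ⟨n, ⟨mul, fun a _ => mem a, fun g hg => ?_, inj, n0, nz⟩, n2⟩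
  obtain ⟨a, e⟩ := (Function.Injective.bijective_of_nat_card_le
    (f := fun a : Fin 512 => (⟨n a, mem a⟩ : Q))
    (fun a b e => Fin.ext (inj _ a.2 _ b.2 (congrArg Subtype.val e))) (by simp [h.cQ])).2 ⟨g, hg⟩
  exact ⟨a, a.2, congrArg Subtype.val e⟩

/-- Two systems of coordinates. -/
theorem tr {n' : ℕ → G} (E : Enc z Q n) (E' : Enc z Q n') {L L' : List ℕ} (h : List.Forall₂
    (fun a b => a < 512 ∧ b < 512 ∧ n' a = n b) L L') (m : ℕ) :
    lin L m < 512 ∧ lin L' m < 512 ∧ n' (lin L m) = n (lin L' m) := by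
  induction h generalizing m with
  | nil =>
    refine ⟨lin_lt (by simp) m, lin_lt (by simp) m, ?_⟩
    change n' (256 * (m % 2)) = n (256 * (m % 2))
    rcases Nat.mod_two_eq_zero_or_one m with h | h <;> rw [h]
    · rw [E.zero, E'.zero]
    · rw [E.z256, E'.z256]
  | cons h _ ih =>
    obtain ⟨i1, i2, i3⟩ := ih (m / 2)
    rw [lin_cons, lin_cons]
    split_ifs
    · exact ⟨qm_lt h.1 i1, qm_lt h.2.1 i2, by
        rw [← E'.mul _ h.1 _ i1, ← E.mul _ h.2.1 _ i2, ← h.2.2, ← i3]⟩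
    · exact ⟨i1, i2, i3⟩

section ex
variable {X : Type*} [Group X] [Finite X] {z : X}

theorem pairE (h : Ex z) {H E : Subgroup X} (hH : Nd H) (hE : E ≤ H) {k : ℕ}
    (h1 : ∀ a ∈ E, a * a = 1 ∧ ∀ b ∈ E, a * b = b * a) (h2 : 2 * (k + 2) ≤ Nat.card E) :
    ∃ x y, x * x = 1 ∧ y * y = 1 ∧ x * y ≠ y * x ∧ ∃ K ≤ H, x ∈ H ∧ y ∈ H ∧
      (∀ g ∈ K, x * g = g * x ∧ y * g = g * y) ∧ Nd K ∧ ∃ E' ≤ K, E' ≤ E ∧ k + 2 ≤ Nat.card E' := by
  obtain ⟨x, hx, x1⟩ : ∃ x ∈ E, x ∉ center X := by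
    by_contra! hn
    have : Nat.card E ≤ Nat.card Bool := by
      classical
      refine Nat.card_le_card_of_injective (fun a => decide (a.1 = 1)) fun a b e => Subtype.ext ?_
      simp only [decide_eq_decide] at e
      rcases (h.cen _).1 (hn _ a.2) with e1 | e1 <;> rcases (h.cen _).1 (hn _ b.2) with e2 | e2
      exacts [e1.trans e2.symm, e1.trans (e.1 e1).symm, (e.2 e2).trans e2.symm, e1.trans e2.symm]
    simp at this; omega
  obtain ⟨y, hy, e, y2⟩ : ∃ y ∈ H, x * y ≠ y * x ∧ y * y = 1 := by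
    obtain ⟨y, hy, e⟩ : ∃ y ∈ H, y * x ≠ x * y := by
      by_contra! hn; exact x1 (hH x (hE hx) hn)
    by_cases y2 : y * y = 1
    · exact ⟨y, hy, e.symm, y2⟩
    · exact ⟨x * y, mul_mem (hE hx) hy, h.ca rfl e.symm,
        by rw [sq_mul h e.symm, (h1 x hx).1, h.sq y2, one_mul, h.zz]⟩
  let K : Subgroup X := H ⊓ centralizer {x} ⊓ centralizer {y}
  obtain ⟨K, k1, k2, k3, k4, k5⟩ := split h hH (hE hx) hy e
  have k6 : E ⊓ centralizer {y} ≤ K := fun g hg => by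
    have c1 := two_mul_le (inf_le_left : H ⊓ centralizer {x} ⊓ centralizer {y} ≤ _) (x := x)
      ⟨hE hx, mem_centralizer_singleton_iff.2 rfl⟩ fun h => e (mem_centralizer_singleton_iff.1 h.2)
    have c2 := two_mul_le (inf_le_left : H ⊓ centralizer {x} ≤ _) hy
      fun h => e (mem_centralizer_singleton_iff.1 h.2).symm
    rw [eq_of_le_of_card_ge (H := K) (K := H ⊓ centralizer {x} ⊓ centralizer {y}) (fun a ha =>
      ⟨⟨k1 ha, mem_centralizer_singleton_iff.2 (k2 a ha).1.symm⟩,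
        mem_centralizer_singleton_iff.2 (k2 a ha).2.symm⟩) (by omega)]
    exact ⟨⟨hE hg.1, mem_centralizer_singleton_iff.2 ((h1 g hg.1).2 x hx)⟩, hg.2⟩
  refine ⟨x, y, (h1 x hx).1, y2, e, K, k1, hE hx, hy, k2, k4, _, k6, inf_le_left, ?_⟩
  have : Function.Surjective (fun p : Bool × ↥(E ⊓ centralizer {y}) =>
      (⟨p.2.1 * (if p.1 then x⁻¹ else 1), mul_mem p.2.2.1 (by
        split_ifs; exacts [inv_mem hx, one_mem _])⟩ : E)) := by
    rintro ⟨g, hg⟩
    by_cases a : y * g = g * y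
    · exact ⟨(false, ⟨g, hg, mem_centralizer_singleton_iff.2 a.symm⟩), Subtype.ext (by simp)⟩
    · exact ⟨(true, ⟨g * x, mul_mem hg hx, mem_centralizer_singleton_iff.2 (h.aa a e.symm).symm⟩),
        Subtype.ext (by simp)⟩
  have := Nat.card_le_card_of_surjective _ this
  simp only [Nat.card_prod, Nat.card_eq_fintype_card, Fintype.card_bool] at this
  omega

theorem exists_bas (h : Ex z) {E : Subgroup X} (h1 : ∀ a ∈ E, a * a = 1 ∧ ∀ b ∈ E, a * b = b * a)
    (h2 : Nat.card E = 32) : ∃ q, Bas z q := by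
  have r : ∀ {E' : Subgroup X}, E' ≤ E → ∀ a ∈ E', a * a = 1 ∧ ∀ b ∈ E', a * b = b * a :=
    fun l a ha => ⟨(h1 a (l ha)).1, fun b hb => (h1 a (l ha)).2 b (l hb)⟩
  obtain ⟨a, b, a2, b2, ab, K1, -, -, -, c1, n1, E1, l1, m1, s1⟩ := pairE h (H := ⊤) (k := 14)
    (fun c _ hc => mem_center_iff.2 fun g => hc g trivial) le_top h1 h2.ge
  obtain ⟨c, d, c2, d2, cd, K2, k2, hc, hd, e1, n2, E2, l2, m2, s2⟩ := pairE h (k := 6) n1 l1 (r m1) s1
  obtain ⟨u, v, u2, v2, uv, K3, k3, hu, hv, f1, n3, E3, l3, m3, s3⟩ :=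
    pairE h (k := 2) n2 l2 (r (m2.trans m1)) s2
  obtain ⟨x, y, x2, y2, xy, -, -, hx, hy, -⟩ := pairE h (k := 0) n3 l3 (r (m3.trans (m2.trans m1))) s3
  have t : ∀ {x y : X}, x * y = y * x → y * x = z ^ 0 * (x * y) := fun e => by rw [e]; simp
  have t1 : ∀ {x y : X}, x * y ≠ y * x → y * x = z ^ 1 * (x * y) := fun e => by
    rw [pow_one, h.anti e.symm]
  refine ⟨fun i => [a, b, c, d, u, v, x, y].getD i 1, ?_⟩
  simp only [Bas, Nat.forall_lt_succ_right, Nat.not_lt_zero, false_imp_iff, implies_true, true_and]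
  have p := fun g hg => c1 g (k2 hg)
  have p2 := fun g hg => c1 g (k2 (k3 hg))
  have p3 := fun g hg => e1 g (k3 hg)
  exact ⟨⟨⟨⟨⟨⟨⟨⟨a2, trivial⟩, b2, t1 ab⟩, c2, t (c1 c hc).1, t (c1 c hc).2⟩,
    d2, ⟨t (c1 d hd).1, t (c1 d hd).2⟩, t1 cd⟩,
    u2, ⟨⟨t (p u hu).1, t (p u hu).2⟩, t (e1 u hu).1⟩, t (e1 u hu).2⟩,
    v2, ⟨⟨⟨t (p v hv).1, t (p v hv).2⟩, t (e1 v hv).1⟩, t (e1 v hv).2⟩, t1 uv⟩,
    x2, ⟨⟨⟨⟨t (p2 x hx).1, t (p2 x hx).2⟩, t (p3 x hx).1⟩, t (p3 x hx).2⟩, t (f1 x hx).1⟩, t (f1 x hx).2⟩,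
    y2, ⟨⟨⟨⟨⟨t (p2 y hy).1, t (p2 y hy).2⟩, t (p3 y hy).1⟩, t (p3 y hy).2⟩, t (f1 y hy).1⟩,
      t (f1 y hy).2⟩, t1 xy⟩

end ex

theorem exists_enc [Finite G] (hz : orderOf z = 2) (Q : Subgroup (centralizer ({z} : Set G)))
    [hN : Q.Normal] (hQ : IsExtraspecial 2 Q) (hcard : Nat.card Q = 2 ^ 9)
    (hplus : ∃ E : Subgroup Q, IsElementaryAbelian 2 E ∧ Nat.card E = 2 ^ 5)
    (hC : centralizer (Q : Set (centralizer ({z} : Set G))) ≤ Q)
    (e : centralizer ({z} : Set G) ⧸ Q ≃* alternatingGroup (Fin 9)) :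
    ∃ Q' φ n, Hyp z Q' φ ∧ Enc z Q' n := by
  let z' : centralizer ({z} : Set G) := ⟨z, mem_centralizer_singleton_iff.2 rfl⟩
  have hzc : ∀ g, g * z' = z' * g := fun g => Subtype.ext (mem_centralizer_singleton_iff.1 g.2)
  have hzQ : z' ∈ Q := hC fun g _ => hzc g
  have hz1 : z ≠ 1 := by rintro rfl; simp at hz
  have hzz : (⟨z', hzQ⟩ : Q) ∈ center Q := mem_center_iff.mpr fun r => Subtype.ext (hzc r)
  have key : ∀ g : Q, g ∈ center Q → g = 1 ∨ g = ⟨z', hzQ⟩ := by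
    intro g hg
    obtain ⟨y, -, hy⟩ := (Nat.card_eq_two_iff' (1 : center Q)).mp hQ.2
    have h1 := hy ⟨_, hzz⟩ fun h => hz1 (congrArg (fun x : center Q => (x.1.1 : G)) h)
    by_cases h : (⟨g, hg⟩ : center Q) = 1
    · exact Or.inl (congrArg Subtype.val h)
    · exact Or.inr (congrArg Subtype.val ((hy _ h).trans h1.symm))
  have ex : Ex (⟨z', hzQ⟩ : Q) := ⟨fun h => hz1 (congrArg (fun x : Q => (x.1 : G)) h),
    fun a => ⟨key a, by rintro (rfl | rfl); exacts [one_mem _, hzz]⟩, fun q r => by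
      have h1 : ⁅q, r⁆ ∈ commutator Q := commutator_mem_commutator (mem_top _) (mem_top _)
      rw [hQ.1.2.2] at h1
      refine (key _ h1).imp commutatorElement_eq_one_iff_mul_comm.1 fun h => ?_
      rw [← h, commutatorElement_def]; group⟩
  let ι : Q →* G := (centralizer {z}).subtype.comp Q.subtype
  have H : Hyp z (Q.map (centralizer {z}).subtype) ((alternatingGroup (Fin 9)).subtype.comp
      (e.toMonoidHom.comp (QuotientGroup.mk' Q))) := by
    refine ⟨by rw [← sq, ← hz, pow_orderOf_eq_one], hz1, ⟨z', hzQ, rfl⟩, map_subtype_le Q,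
      ?_, fun g hg h => ?_, ?_, ?_, ?_, fun g => ?_, ?_⟩
    · rintro g hg _ ⟨q, hq, rfl⟩
      exact ⟨_, hN.conj_mem q hq ⟨g, hg⟩, rfl⟩
    · have : (⟨g, hg⟩ : centralizer ({z} : Set G)) ∈ centralizer (Q : Set (centralizer ({z} : Set G))) :=
        fun r hr => Subtype.ext (h r ⟨r, hr, rfl⟩).symm
      exact (key ⟨_, hC this⟩ (mem_center_iff.mpr fun r => Subtype.ext (this r r.2))).imp
        (congrArg ι) (congrArg ι)
    · rintro _ ⟨q, hq, rfl⟩ _ ⟨r, hr, rfl⟩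
      exact (ex.comm ⟨q, hq⟩ ⟨r, hr⟩).imp (congrArg ι) (congrArg ι)
    · rw [card_map_of_injective (subtype_injective _), hcard]; rfl
    · have := two_mul_nat_card_alternatingGroup (α := Fin 9)
      rw [Nat.card_perm, Nat.card_fin, show Nat.factorial 9 = 362880 from rfl] at this
      rw [card_eq_card_quotient_mul_card_subgroup Q, Nat.card_congr e.toEquiv, hcard,
        Nat.eq_of_mul_eq_mul_left two_pos (this.trans (show _ = 2 * 181440 from rfl))]
      norm_num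
    · refine .trans ?_ (mem_map_iff_mem (subtype_injective _)).symm
      rw [← QuotientGroup.eq_one_iff, ← map_eq_one_iff e e.injective, ← OneMemClass.coe_eq_one]
      rfl
    · rw [MonoidHom.range_comp, MonoidHom.range_eq_top.2
        (e.surjective.comp (QuotientGroup.mk'_surjective Q)), ← MonoidHom.range_eq_map, range_subtype]
  obtain ⟨E, ⟨e1, e2⟩, e3⟩ := hplus
  obtain ⟨q, hq⟩ := exists_bas ex (E := E) (fun a ha => ⟨by rw [← sq, e2 a ha], fun b hb =>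
    congrArg Subtype.val (e1.is_comm.comm ⟨a, ha⟩ ⟨b, hb⟩)⟩) e3
  obtain ⟨n, h, -⟩ := of_basis H (q := fun i => ι (q i)) (fun i _ => ⟨_, (q i).2, rfl⟩) fun i hi =>
    ⟨congrArg ι (hq i hi).1, fun j hj => by
      have := congrArg ι ((hq i hi).2 j hj)
      rwa [map_mul, map_mul, map_mul, map_pow] at this⟩
  exact ⟨_, _, n, H, h⟩

end Cfsg.Agent.Lib.ThQ
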