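import Cfsg.Agent.Lib.ThV
import Cfsg.Agent.Lib.ThQ

/-! The subgroups `A₉` of the orthogonal group `O⁺₈(2)`. -/

set_option autoImplicit false
set_option maxRecDepth 100000

namespace Cfsg.Agent.Lib.ThO

open Subgroup Cfsg.Agent.Lib.PermNet Cfsg.Agent.Lib.Words Cfsg.Agent.Lib.PermGroup Cfsg.Agent.Lib.DCE
  Cfsg.Agent.Lib.BT Cfsg.Agent.Lib.ThDefs Cfsg.Agent.Lib.ThV

theorem lt_of_fix {g : Equiv.Perm ℕ} (h : ∀ p, 256 ≤ p → g p = p) {p : ℕ} (hp : p < 256) :
    g p < 256 := by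
  by_contra hn
  have := g.injective (h _ (Nat.le_of_not_lt hn))
  omega

theorem xl {a b : ℕ} (ha : a < 256) (hb : b < 256) : a ^^^ b < 256 :=
  Nat.xor_lt_two_pow (n := 8) ha hb

/-- The isometries of the space of codes below `256`. -/
def OV : Subgroup (Equiv.Perm ℕ) where
  carrier := {g | (∀ p, 256 ≤ p → g p = p) ∧ ∀ a < 256, qm (g a) (g a) = qm a a ∧
    ∀ b < 256, g (a ^^^ b) = g a ^^^ g b}
  one_mem' := ⟨fun _ _ => rfl, fun _ _ => ⟨rfl, fun _ _ => rfl⟩⟩
  mul_mem' := fun {g k} hg hk => ⟨fun p hp => by rw [Equiv.Perm.mul_apply, hk.1 p hp, hg.1 p hp],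
    fun a ha => ⟨((hg.2 _ (lt_of_fix hk.1 ha)).1).trans (hk.2 a ha).1, fun b hb => by
      simp only [Equiv.Perm.mul_apply]
      rw [(hk.2 a ha).2 b hb, (hg.2 _ (lt_of_fix hk.1 ha)).2 _ (lt_of_fix hk.1 hb)]⟩⟩
  inv_mem' := fun {g} hg => by
    have h : ∀ p, 256 ≤ p → g⁻¹ p = p := fun p hp => by rw [Equiv.Perm.inv_eq_iff_eq, hg.1 p hp]
    refine ⟨h, fun a ha => ⟨by simpa using (hg.2 _ (lt_of_fix h ha)).1.symm, fun b hb => ?_⟩⟩
    rw [Equiv.Perm.inv_eq_iff_eq, (hg.2 _ (lt_of_fix h ha)).2 _ (lt_of_fix h hb)]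
    simp

theorem zero {g : Equiv.Perm ℕ} (h : g ∈ OV) : g 0 = 0 := by
  simpa using (h.2 0 (by decide)).2 0 (by decide)

instance : Finite OV := Finite.of_injective
  (fun g : OV => fun p : Fin 256 => (⟨g.1 p, lt_of_fix g.2.1 p.2⟩ : Fin 256)) fun a b e =>
    Subtype.ext (Equiv.ext fun p => by
      by_cases hp : p < 256
      · exact congrArg Fin.val (congrFun e ⟨p, hp⟩)
      · rw [a.2.1 p (by omega), b.2.1 p (by omega)])

/-- Induction along the binary expansion. -/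
theorem ind {p : ℕ → Prop} (h0 : p 0) (h : ∀ i < 8, ∀ m < 256, qm (2 ^ i) m = 2 ^ i ^^^ m → p m →
    p (2 ^ i ^^^ m)) : ∀ m < 256, p m := fun m => by
  induction m using Nat.strong_induction_on with | _ m ih => ?_
  intro hm
  rcases (by decide +kernel : ∀ m < 256, m = 0 ∨ ∃ i < 8, 2 ^ i ^^^ m < m ∧
    2 ^ i ^^^ (2 ^ i ^^^ m) = m ∧ qm (2 ^ i) (2 ^ i ^^^ m) = m) m hm with rfl | ⟨i, hi, h1, h2, h3⟩
  · exact h0
  · exact h2 ▸ h i hi _ (by omega) (h3.trans h2.symm) (ih _ h1 (by omega))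

noncomputable def bd : List ℕ → List ℕ → ℕ
  | [], _ => 1
  | b :: r, bs => ((List.range 256).filter fun y => y != 0 && (qm y y == qm b b &&
      bs.all fun x => qm (y ^^^ x) (y ^^^ x) == qm (b ^^^ x) (b ^^^ x))).length * bd r (b :: bs)

theorem le_bd (r bs : List ℕ) (h : ∀ b ∈ r ++ bs, b ≠ 0 ∧ b < 256) :
    Nat.card (fixer OV bs) ≤ bd r bs * Nat.card (fixer OV (r.reverse ++ bs)) := by
  induction r generalizing bs with
  | nil => simp [bd]
  | cons b r ih =>
    rw [card_fixer bs b, bd, mul_assoc, List.reverse_cons, List.append_assoc]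
    refine Nat.mul_le_mul (le_trans ?_ (List.toFinset_card_le _)) (ih _ fun x hx => h x (by
      simp only [List.mem_append, List.mem_cons] at hx ⊢; tauto))
    rw [← Set.ncard_coe_finset]
    refine Set.ncard_le_ncard ?_
    rintro _ ⟨⟨g, hg, h1⟩, rfl⟩
    obtain ⟨b0, hb⟩ := h b (by simp)
    simp only [List.coe_toFinset, List.mem_filter, List.mem_range, Set.mem_ofPred_eq, Bool.and_eq_true,
      bne_iff_ne, beq_iff_eq, List.all_eq_true]
    refine ⟨lt_of_fix hg.1 hb, fun e => b0 (g.injective (e.trans (zero hg).symm)), (hg.2 b hb).1,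
      fun x hx => ?_⟩
    have hx' := (h x (by simp [hx])).2
    have := (hg.2 _ (xl hb hx')).1
    rwa [(hg.2 b hb).2 x hx', h1 x hx] at this

theorem card_le : Nat.card OV ≤ 348364800 := by
  have := le_bd L0 [] (by decide)
  rw [fixer_nil, show bd L0 [] = 348364800 by decide +kernel,
    show fixer OV (L0.reverse ++ []) = ⊥ from eq_bot_iff.2 fun g hg => Equiv.ext fun p => by
      by_cases hp : p < 256
      · refine ind (p := fun m => g m = m) (zero hg.1) (fun i hi m hm _ e => ?_) p hp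
        have := (by decide : ∀ i < 8, 2 ^ i ∈ L0.reverse ++ [] ∧ 2 ^ i < 256) i hi
        rw [(hg.1.2 _ this.2).2 m hm, e, hg.2 _ this.1]
      · exact hg.1.1 p (by omega)] at this
  simpa using this

/-- The permutations. -/
noncomputable abbrev P : ℕ → Equiv.Perm ℕ := tp (nat_lit 256) (nat_lit 8) (nat_lit 255) vtt

theorem lin_ok : allR (fun i => forceB (vtt.get (2 * i + 1)) fun T => allR (fun a =>
    forceB (lk 8 255 T a) fun a' => band (Nat.beq (qm a' a') (qm a a)) (allR (fun b =>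
      Nat.beq (lk 8 255 T (Nat.xor a b)) (Nat.xor a' (lk 8 255 T b))) 0 256)) 0 256) 0 5 = true := by
  decide +kernel

theorem mem (i : ℕ) (hi : i < 5) : P i ∈ OV := by
  refine ⟨fun p hp => by simpa [wval, lval] using tp_fix vtt [2 * i] hp, fun a ha => ?_⟩
  have := allR_all lin_ok i i.zero_le hi
  rw [forceB_eq] at this
  obtain ⟨h1, h2⟩ := band_eq (allR_all this a a.zero_le ha)
  refine ⟨by rw [vok.apply i ha]; exact beq_eq h1, fun b hb => ?_⟩
  rw [vok.apply i ha, vok.apply i hb, vok.apply i (xl ha hb)]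
  exact beq_eq (allR_all h2 b b.zero_le hb)

theorem card_eq : Nat.card OV = 348364800 := by
  have h : gp P (sing 5) ≤ OV := gp_le.2 fun w hw => by
    obtain ⟨i, hi, rfl⟩ := List.mem_map.1 hw
    exact wval_single P i ▸ mem i (List.mem_range.1 hi)
  have := Finite.of_injective _ (inclusion_injective h)
  exact card_le.antisymm ((vTM.le_card (f := P) (MonoidHom.id _) fun _ _ => rfl).trans (card_le_of_le h))

theorem model : Nonempty (Model (ext P 5 vdefs) OV ⊥ (nat_lit 256) (nat_lit 8) (nat_lit 255) vtt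
    (vch.map Lv.b) 348364800) := by
  obtain ⟨M, -⟩ := vTM.mk_model (f := P) (Z := ⊥) OV.subtype
    (fun i => if h : i < 5 then ⟨P i, mem i h⟩ else 1) (fun i hi => by simp [hi])
    (fun i hi => by simp [hi]) (fun g p hp => lt_of_fix g.2.1 hp)
    (by rw [range_subtype, card_eq]; decide) fun _ g => mem_bot.symm
  exact ⟨M⟩

theorem classify {s t x : Equiv.Perm ℕ} (hs : s ∈ OV) (ht : t ∈ OV) (hx : x ∈ OV) (s7 : s ^ 7 = 1)
    (s1 : s ≠ 1) (ts : t * (s * s) * t⁻¹ = s) (t3 : t ^ 3 = 1) (xt : x * t * x⁻¹ = t) (x3 : x ^ 3 = 1)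
    (x1 : x ≠ 1) (xs : ∀ i ∈ [1, 2, 3], (x * (s ^ i * x * (s ^ i)⁻¹)) ^ 2 = 1) :
    ∃ a ∈ OV, a * s * a⁻¹ = P 0 ∧ a * t * a⁻¹ = P 1 ∧ (a * x * a⁻¹ = P 2 ∨ a * x⁻¹ * a⁻¹ = P 2 ∨
      a * x * a⁻¹ = P 3 ∨ a * x⁻¹ * a⁻¹ = P 3) := by
  obtain ⟨M⟩ := model
  set F := ext P 5 vdefs with hF
  have e : ∀ i < 5, F i = P i := fun i hi => ext_of_lt _ _ hi
  have hch := M.ch_top vch (by rw [vc]; decide +kernel)
  have cj : ∀ {a y : Equiv.Perm ℕ}, a ∈ OV → y ∈ OV → a * y * a⁻¹ ∈ OV := fun ha hy =>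
    mul_mem (mul_mem ha hy) (inv_mem ha)
  have p7 := M.pow [0] 7 (by decide +kernel)
  obtain ⟨a, ha, a1⟩ : ∃ a ∈ OV, a * s * a⁻¹ = wval F [0] := by
    obtain ⟨a, ha, h⟩ := SuzG1.sylow_conj (H := OV) (p := 7) (by norm_num) (by rw [card_eq]; decide)
      (M.mem [0]) hs p7 (M.ne_one _ (by decide +kernel)) s7 s1
    have o7 : orderOf (wval F [0]) = 7 :=
      have := Fact.mk (show Nat.Prime 7 by norm_num); orderOf_eq_prime p7 (M.ne_one _ (by decide +kernel))
    obtain ⟨i, hi, h1⟩ : ∃ i < 7, wval F [0] ^ i = a * s * a⁻¹ := by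
      classical
      simpa [o7] using (orderOf_pos_iff.1 (o7 ▸ by decide)).mem_zpowers_iff_mem_range_orderOf.1
        (h.le (mem_zpowers _))
    have i0 : i ≠ 0 := by rintro rfl; exact s1 (by simpa using h1.symm)
    refine ⟨wval F (NW.getD i []) * a, mul_mem (M.mem _) ha, ?_⟩
    rw [← M.cj (NW.getD i []) (rep i [0]) [0] ((by decide +kernel : ∀ i < 7, i ≠ 0 → fixW _ _ vtt
      (vch.map Lv.b) ((NW.getD i [] ++ rep i [0] ++ invW (NW.getD i [])) ++ invW [0]) = true) i hi i0),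
      wval_rep, h1]
    group
  obtain ⟨b, hb, b1, b2⟩ : ∃ b ∈ OV, b * s * b⁻¹ = wval F [0] ∧ b * t * b⁻¹ = wval F [2] := by
    obtain ⟨u, hu, h⟩ := M.find1 hch s_t (by decide) (cj ha ht) (by simp)
      (.cons (by
        rw [mem_bot, show [0, 0] = [0] ++ [0] from rfl, wval_append, ← a1, conj_mul, mul_inv_eq_one]
        nth_rw 3 [← ts]; group) .nil)
      (List.forall_mem_singleton.2 (by
        rw [mem_bot, show [1000, 1000, 1000] = rep 3 [2 * 500] from rfl, wval_rep, wval_single,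
          Function.update_self, conj_pow, t3]; simp)) (by simp)
    rw [wval_mkC, beq_eq (band_eq hu).1] at h
    have c := comm_word (F := F) (c := wval F [0]) [0] (by simp [wval, lval]) (band_eq hu).2
    refine ⟨(wval F u.tail)⁻¹ * a, mul_mem (inv_mem (M.mem _)) ha, ?_, ?_⟩
    · rw [mul_inv_rev, inv_inv, mul_assoc _ a, mul_assoc, ← mul_assoc _ a⁻¹, a1, ← c]; simp
    · rw [mul_inv_rev, inv_inv, mul_assoc _ a, mul_assoc, ← mul_assoc _ a⁻¹, h]; simp
  have w1 : ∀ i, wval (Function.update F 500 (b * x * b⁻¹)) (rep 2 ([2 * 500] ++ (rep i [0] ++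
      [2 * 500] ++ invW (rep i [0])))) = b * (x * (s ^ i * x * (s ^ i)⁻¹)) ^ 2 * b⁻¹ := fun i => by
    simp only [wval_rep, wval_append, wval_invW, wval_single, Function.update_self]
    rw [wval_upd _ (by decide), ← b1, conj_pow, ← conj_pow (a := b) (i := 2)]
    congr 1; group
  obtain ⟨u, hu, h⟩ := M.find1 hch s_x (by decide) (cj hb hx) (by simp)
    (.cons (by rw [mem_bot, ← b2, mul_inv_eq_one]; nth_rw 2 [← xt]; group) .nil)
    (by
      simp only [List.forall_mem_cons, mem_bot]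
      refine ⟨by
        rw [show [1000, 1000, 1000] = rep 3 [2 * 500] from rfl, wval_rep, wval_single,
          Function.update_self, conj_pow, x3]; simp, (w1 1).trans ?_, (w1 2).trans ?_,
        (w1 3).trans ?_, by simp⟩ <;> rw [xs _ (by decide)] <;> simp)
    (List.forall_mem_singleton.2 (by
      rw [mem_bot, show [1000] = [2 * 500] from rfl, wval_single, Function.update_self]
      simpa using x1))
  rw [wval_mkC] at h
  have c := fun w hw => comm_word (c := wval F w) [4] (List.forall_mem_singleton.2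
    (wval_single F 4 ▸ M.comm [2 * 4] w hw)) (band_eq hu).2
  have k : ∀ {y v}, wval F u.tail * v * (wval F u.tail)⁻¹ = b * y * b⁻¹ →
      (wval F u.tail)⁻¹ * b * y * ((wval F u.tail)⁻¹ * b)⁻¹ = v := fun h => by
    rw [mul_inv_rev, inv_inv, mul_assoc _ b, mul_assoc, ← mul_assoc _ b⁻¹, ← h]; simp
  refine ⟨(wval F u.tail)⁻¹ * b, mul_mem (inv_mem (M.mem _)) hb,
    k (by rw [b1, ← e 0 (by decide), ← wval_single F 0, c [0] (by decide +kernel)]; simp),
    k (by rw [b2, ← e 1 (by decide), ← wval_single F 1, c [2] (by decide +kernel)]; simp), ?_⟩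
  have hi := blt_lt (band_eq hu).1
  have k2 : ∀ {v}, b * x * b⁻¹ = wval F u.tail * v⁻¹ * (wval F u.tail)⁻¹ →
      wval F u.tail * v * (wval F u.tail)⁻¹ = b * x⁻¹ * b⁻¹ := fun h => by
    rw [← conj_inv, h, conj_inv, inv_inv]
  rw [← e 2 (by decide), ← e 3 (by decide)]
  generalize u.headD 0 = j at h hi
  interval_cases j
  · exact .inl (k (by simpa [wval, lval] using h.symm))
  · exact .inr (.inl (k (k2 (by simpa [wval, lval] using h))))
  · exact .inr (.inr (.inl (k (by simpa [wval, lval] using h.symm))))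
  · exact .inr (.inr (.inr (k (k2 (by simpa [wval, lval] using h)))))

end Cfsg.Agent.Lib.ThO
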