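import Cfsg.Agent.Lib.ThSM
import Cfsg.Agent.Lib.ThCl

/-! Computing in the involution centraliser, which is only known modulo its centre. -/

set_option autoImplicit false
set_option maxRecDepth 100000

namespace Cfsg.Agent.Lib.ThS1

open Subgroup Cfsg.Agent.Lib.PermNet Cfsg.Agent.Lib.Words Cfsg.Agent.Lib.PermGroup Cfsg.Agent.Lib.DCE
  Cfsg.Agent.Lib.BT Cfsg.Agent.Lib.ThDefs Cfsg.Agent.Lib.ThSM

/-- The code of a letter that lies in `Q`. -/
def qc (i : ℕ) : ℕ :=
  if i = 0 then 256 else if i = 2 then 1 else if 8 ≤ i ∧ i < 15 then 2 ^ (i - 7) else 0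

/-- The word acts trivially on `Q`. -/
noncomputable abbrev fx (w : List ℕ) : Bool := fixW (nat_lit 9) (nat_lit 511) htt (hch.map Lv.b) w

noncomputable abbrev pt (w : List ℕ) (p : ℕ) : ℕ := ap1i (nat_lit 9) (nat_lit 511) htt w p

/-- Collect the letters in `Q`. -/
noncomputable def col (w : List ℕ) (p : ℕ) : ℕ :=
  List.rec (motive := fun _ => ℕ) p (fun l _ ih => force ih fun q =>
    if qc (l / 2) = 0 then pt [l] q else qm (qc (l / 2)) q) w

def nq (w : List ℕ) : List ℕ := w.filter fun l => qc (l / 2) == 0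

noncomputable def colB (I : List ℕ) (K R : List (List ℕ)) : Bool :=
  band (allL (fun w => Nat.beq (col w 0) 0) R) (deriveB I K (R.map nq))

variable {G : Type*} [Group G] {z : G} {Q : Subgroup G} {n : ℕ → G}
  {φ : centralizer ({z} : Set G) →* Equiv.Perm (Fin 9)} {F : ℕ → G}

/-- The letters. -/
structure SF (φ : centralizer ({z} : Set G) →* Equiv.Perm (Fin 9)) (n F : ℕ → G) : Prop where
  st : St φ n F LS
  one : ∀ i, i = 1 ∨ 15 ≤ i → F i = 1
  q : ∀ i, 8 ≤ i → i < 15 → F i = n (2 ^ (i - 7))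

theorem exists_sf {f : ℕ → G} (S : St φ n f LS) : ∃ F, SF φ n F := by
  refine ⟨fun i => if i = 1 ∨ 15 ≤ i then 1 else if i < 8 then f i else n (2 ^ (i - 7)),
    ⟨S.f0, S.f2, fun e he => ?_, S.s7, S.t3⟩, fun i hi => if_pos hi, fun i h1 h2 => ?_⟩
  · have := (by decide : ∀ e ∈ LS, ¬ (e.1 = 1 ∨ 15 ≤ e.1) ∧ e.1 < 8) e he
    simp only [this.1, this.2, if_true, if_false]
    exact S.act e he
  · rw [if_neg (by omega), if_neg (by omega)]

theorem qc_ok (i : ℕ) : qc i < 512 ∧ qm (qc i) (qc i) = 0 := by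
  by_cases hi : i < 15
  · exact (by decide +kernel : ∀ i < 15, qc i < 512 ∧ qm (qc i) (qc i) = 0) i hi
  · rw [qc, if_neg (by omega), if_neg (by omega), if_neg (by omega)]; decide +kernel

theorem cZ {c x : G} (hc : c ∈ centralizer ({z} : Set G)) (hx : x ∈ zpowers z) : c * x = x * c := by
  obtain ⟨j, rfl⟩ := hx
  exact ((show Commute c z from mem_centralizer_singleton_iff.1 hc).zpow_right j).eq

theorem cjZ {c x : G} (hc : c ∈ centralizer ({z} : Set G)) (hx : x ∈ zpowers z) :
    c * x * c⁻¹ ∈ zpowers z := by rwa [cZ hc hx, mul_inv_cancel_right]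

theorem SF.qv (S : SF φ n F) (E : Enc z Q n) {i : ℕ} (hi : qc i ≠ 0) : F i = n (qc i) := by
  unfold qc at hi ⊢
  split_ifs at hi ⊢ with h0 h2 h8
  · rw [h0, S.st.f0, E.z256]
  · rw [h2, S.st.f2]
  · exact S.q i h8.1 h8.2
  · exact absurd rfl hi

theorem nn (E : Enc z Q n) (i : ℕ) : (n (qc i))⁻¹ = n (qc i) :=
  inv_eq_of_mul_eq_one_right (by rw [E.mul _ (qc_ok i).1 _ (qc_ok i).1, (qc_ok i).2, E.zero])

/-- The model. -/
structure Cx (z : G) (n F : ℕ → G) where
  M : Model F (centralizer {z}) (zpowers z) (nat_lit 512) (nat_lit 9) (nat_lit 511) htt (hch.map Lv.b)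
    46448640
  hs : ∀ g : centralizer ({z} : Set G), ∀ p < 512, g * n p * (g : G)⁻¹ = n (M.π g p)
  ch : M.Ch (centralizer {z}) hch

theorem tabs_ok : ∀ i < 15, allR (fun p => Nat.beq (lk 9 511 (htt.get (2 * i + 1)) p)
    (if qc i = 0 then lin (((LS.lookup i).map Prod.fst).getD L0) p
      else qm (qm (qc i) p) (qc i))) 0 512 = true := by decide +kernel

theorem exists_cx [Finite G] (h : Hyp z Q φ) (E : Enc z Q n) (S : SF φ n F) : Nonempty (Cx z n F) := by
  have k : ∀ i < 15, qc i = 0 → F i ∈ centralizer ({z} : Set G) ∧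
      Act n (F i) (((LS.lookup i).map Prod.fst).getD L0) := fun i hi h0 => by
    rcases (by decide : ∀ i < 15, qc i = 0 → i = 1 ∨ ∃ e ∈ LS, e.1 = i ∧
      ((LS.lookup i).map Prod.fst).getD L0 = e.2.1) i hi h0 with rfl | ⟨e, he, rfl, e2⟩
    · rw [S.one 1 (.inl rfl)]
      exact ⟨one_mem _, rfl, by decide, fun j hj => by
        rw [(by decide : ∀ j < 8, (((LS.lookup 1).map Prod.fst).getD L0).getD j 0 = 2 ^ j) j hj]; simp⟩
    · exact ⟨(S.st.act e he).2.1, e2 ▸ (S.st.act e he).1⟩
  obtain ⟨M, hM⟩ := hTM.cmodel (f := F) (H := centralizer {z}) (Z := zpowers z) (s := n)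
    (fun i hi => by
      by_cases h0 : qc i = 0
      · exact (k i hi h0).1
      · exact S.qv E h0 ▸ h.le (E.mem _ (qc_ok i).1)) E.inj
    (fun g hg p hp => by
      obtain ⟨q, hq, e⟩ := E.surj _ (h.nor g hg _ (E.mem p hp))
      exact ⟨q, hq, e.symm⟩)
    (fun g hg => ⟨fun e => (mem_zpowers_two h.zz).2 (h.cen g hg fun q hq => by
        obtain ⟨p, hp, rfl⟩ := E.surj q hq
        exact mul_inv_eq_iff_eq_mul.1 (e p hp)),
      fun e p hp => by rw [← cZ (h.le (E.mem p hp)) e, mul_inv_cancel_right]⟩)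
    (fun i hi p hp => by
      have := beq_eq (allR_all (tabs_ok i hi) p p.zero_le (by simpa using hp))
      refine Eq.trans ?_ (congrArg n this.symm)
      split_ifs with h0
      · exact (k i hi h0).2.all E (k i hi h0).1 hp
      · rw [S.qv E h0, nn E, E.mul _ (qc_ok i).1 _ hp, E.mul _ (qm_lt (qc_ok i).1 hp) _ (qc_ok i).1])
    (by
      have := Fact.mk Nat.prime_two
      rw [h.cH, Nat.card_congr (subgroupOfEquivOfLe (zpowers_le.2 (h.le h.mem))).toEquiv,
        Nat.card_zpowers, orderOf_eq_prime (p := 2) (by rw [sq, h.zz]) h.ne])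
  have e : ext F 15 [] = F := funext fun i => by
    by_cases hi : i < 15
    · exact ext_of_lt _ _ hi
    · rw [ext_out _ (by simpa using hi), S.one i (.inr (by omega))]
  revert M
  rw [e]
  exact fun M hM => ⟨M, hM, M.ch_top hch (by rw [hc]; decide +kernel)⟩

theorem flip (h : Hyp z Q φ) (E : Enc z Q n) (S : SF φ n F) {i : ℕ} (hi : i = 3 ∨ i = 4 ∨ i = 7) :
    SF φ n (Function.update F i (z * F i)) := by
  have u : ∀ j, j ≠ i → Function.update F i (z * F i) j = F j := fun j hj => Function.update_of_ne hj _ _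
  refine ⟨⟨(u 0 (by omega)).trans S.st.f0, (u 2 (by omega)).trans S.st.f2, fun e he => ?_,
    u 5 (by omega) ▸ S.st.s7, u 6 (by omega) ▸ S.st.t3⟩, fun j hj => (u j (by omega)).trans (S.one j hj),
    fun j h1 h2 => (u j (by omega)).trans (S.q j h1 h2)⟩
  obtain ⟨a, hm, b⟩ := S.st.act e he
  by_cases hj : e.1 = i
  · subst hj
    rw [Function.update_self]
    refine ⟨⟨a.1, a.2.1, fun j hj => ?_⟩, mul_mem (h.le h.mem) hm, fun p => ?_⟩
    · rw [mul_inv_rev, mul_assoc z, mul_assoc z, ← mul_assoc _ _ z⁻¹, a.2.2 j hj, ← mul_assoc,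
        ← ThCl.nz h E (a.2.1 _ (by rw [List.getD_eq_getElem _ _ (a.1 ▸ hj)]; exact List.getElem_mem _)),
        mul_inv_cancel_right]
    · rw [← b p, show (⟨z * F e.1, _⟩ : centralizer ({z} : Set G)) = ⟨z, h.le h.mem⟩ * ⟨F e.1, hm⟩ from rfl,
        map_mul, (h.ker _).2 h.mem, one_mul]
  · rw [u _ hj]; exact ⟨a, hm, b⟩

theorem wval_flip (zz : z * z = 1) (hF : ∀ j, F j ∈ centralizer ({z} : Set G)) (i : ℕ) (w : List ℕ) :
    wval (Function.update F i (z * F i)) w = z ^ w.countP (· / 2 == i) * wval F w := by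
  induction w with
  | nil => simp
  | cons l w ih =>
    have c : lval F l * z ^ w.countP (· / 2 == i) = z ^ w.countP (· / 2 == i) * lval F l :=
      cZ (by unfold lval; split_ifs; exacts [hF _, inv_mem (hF _)]) (pow_mem (mem_zpowers z) _)
    rw [wval_cons, wval_cons, ih, List.countP_cons, ← mul_assoc, ← mul_assoc, pow_add, mul_assoc _ _ (lval F l)]
    congr 1
    by_cases hl : l / 2 = i
    · have : lval (Function.update F i (z * F i)) l = z * lval F l := by
        unfold lval
        rw [hl, Function.update_self]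
        split_ifs
        · rfl
        · rw [mul_inv_rev, inv_eq_of_mul_eq_one_right zz, cZ (inv_mem (hF i)) (mem_zpowers z)]
      rw [this, mul_assoc, c, if_pos (by simpa using hl), pow_one, ← mul_assoc, ← mul_assoc, ← pow_succ,
        ← pow_succ']
    · rw [if_neg (by simpa using hl), pow_zero, one_mul, ← c, lval, lval, Function.update_of_ne hl]

theorem pin [Finite G] (h : Hyp z Q φ) (E : Enc z Q n) (S : SF φ n F) {i : ℕ}
    (hi : i = 3 ∨ i = 4 ∨ i = 7) (w : List ℕ) (K : List (List ℕ)) (hK : ∀ u ∈ K, wval F u = 1)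
    (hb : band (fx w) (w.countP (· / 2 == i) % 2 == 1 && K.all fun u => u.countP (· / 2 == i) == 0)
      = true) : ∃ F', SF φ n F' ∧ ∀ u ∈ w :: K, wval F' u = 1 := by
  obtain ⟨C⟩ := exists_cx h E S
  obtain ⟨b1, b2⟩ := band_eq hb
  simp only [Bool.and_eq_true, beq_iff_eq, List.all_eq_true] at b2
  rcases (mem_zpowers_two h.zz).1 (C.M.rel w b1) with e | e
  · exact ⟨F, S, List.forall_mem_cons.2 ⟨e, hK⟩⟩
  · refine ⟨_, flip h E S hi, List.forall_mem_cons.2 ⟨?_, fun u hu => ?_⟩⟩
    · rw [wval_flip h.zz C.M.lmem, e, ← pow_succ, ← Nat.div_add_mod (List.countP _ w) 2, b2.1, add_assoc,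
        ← mul_add_one, pow_mul, sq, h.zz, one_pow]
    · rw [wval_flip h.zz C.M.lmem, b2.2 u hu, hK u hu, pow_zero, one_mul]

/-- `v` conjugates the words `us` to the words `vs`, modulo `z`. -/
def CZ (z v : G) (F F' : ℕ → G) (us vs : List (List ℕ)) : Prop :=
  ∀ i, v * wval F (us.getD i []) * v⁻¹ * (wval F' (vs.getD i []))⁻¹ ∈ zpowers z

section
variable {v : G} {F' : ℕ → G} {us vs : List (List ℕ)}

theorem CZ.nil : CZ z v F F' [] [] := fun _ => by simp

theorem CZ.cons {x y : List ℕ} (h1 : v * wval F x * v⁻¹ * (wval F' y)⁻¹ ∈ zpowers z)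
    (h : CZ z v F F' us vs) : CZ z v F F' (x :: us) (y :: vs) := fun i => by
  cases i
  exacts [h1, h _]

theorem CZ.sub (h : CZ z v F F' us vs) (hF : ∀ j, F' j ∈ centralizer ({z} : Set G)) (p : List ℕ) :
    v * wval F (subst us p) * v⁻¹ * (wval F' (subst vs p))⁻¹ ∈ zpowers z := by
  induction p with
  | nil => simp [subst]
  | cons l p ih =>
    have m : ∀ w, wval F' w ∈ centralizer ({z} : Set G) := fun w => wval_mem fun _ _ => hF _
    rw [subst, subst, wval_append, wval_append]
    split_ifs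
    · convert mul_mem (h (l / 2)) (cjZ (m (vs.getD (l / 2) [])) ih) using 1
      group
    · rw [wval_invW, wval_invW]
      convert cjZ (inv_mem (m (vs.getD (l / 2) []))) (mul_mem (inv_mem (h (l / 2))) ih) using 1
      group

end

namespace Cx
variable (C : Cx z n F)
include C

theorem cpt (w : List ℕ) (p q : ℕ) (h : band (Nat.blt p 512) (Nat.beq (pt w p) q) = true) :
    wval F w * n p * (wval F w)⁻¹ = n q := C.M.conj_pt C.hs w p q h

theorem md (u w : List ℕ) (h : fx (u ++ invW w) = true) : wval F u * (wval F w)⁻¹ ∈ zpowers z := by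
  simpa only [wval_append, wval_invW] using C.M.rel _ h

theorem sq (zz : z * z = 1) (u k y : List ℕ) (h : fx (u ++ invW (k ++ y ++ invW k)) = true) :
    wval F u * wval F u = wval F k * (wval F y * wval F y) * (wval F k)⁻¹ := by
  have e := C.md _ _ h
  rw [← conj_mul, ← wval_invW, ← wval_append F k, ← wval_append F (k ++ y)]
  rcases (mem_zpowers_two zz).1 e with e | e
  · rw [mul_inv_eq_one.1 e]
  · rw [mul_inv_eq_iff_eq_mul.1 e, mul_assoc, ← mul_assoc _ z, cZ (C.M.mem _) (mem_zpowers z),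
      ← mul_assoc, ← mul_assoc, zz, one_mul]

theorem fix1 (E : Enc z Q n) {c : G} (hc : c ∈ centralizer ({z} : Set G)) (h : c * n 1 = n 1 * c) :
    ∀ b ∈ (hch.take 1).map Lv.b, C.M.π ⟨c, hc⟩ b = b :=
  List.forall_mem_singleton.2 (C.M.fix_pt (fun g p hp => ⟨C.M.lt g p hp, C.hs g p hp⟩) E.inj hc
    (b := 1) (by decide) h)

theorem rig (zz : z * z = 1) {A : List (List ℕ)} (hA : ∀ a ∈ A, wval F a ^ 21 = 1)
    (L : List (List ℕ × List ℕ × List ℕ)) (h : allL (fun e => band (A.contains e.2.1 && A.contains e.2.2)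
      (fx (e.1 ++ e.2.1 ++ invW e.1 ++ invW ([] ++ e.2.2 ++ invW [])))) L = true) :
    ∀ w ∈ L.map fun e => e.1 ++ e.2.1 ++ invW e.1 ++ invW e.2.2, wval F w = 1 := fun w hw => by
  obtain ⟨e, he, rfl⟩ := List.mem_map.1 hw
  obtain ⟨b1, b2⟩ := band_eq (allL_all h e he)
  simp only [Bool.and_eq_true, List.contains_iff_mem] at b1
  simp only [wval_append, wval_invW]
  rw [C.M.rigid zz (fun g hg => mem_centralizer_singleton_iff.1 hg) 10 _ _ _ _ (hA _ b1.1) (hA _ b1.2) b2]
  simp

variable (E : Enc z Q n) (S : SF φ n F)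
include E S

theorem col_eq (w : List ℕ) {p : ℕ} (hp : p < 512) :
    col w p < 512 ∧ wval F w * n p = n (col w p) * wval F (nq w) := by
  induction w with
  | nil => exact ⟨hp, by simp [col, nq]⟩
  | cons l w ih =>
    rw [wval_cons, mul_assoc, ih.2, ← mul_assoc, show col (l :: w) p = if qc (l / 2) = 0 then
      pt [l] (col w p) else qm (qc (l / 2)) (col w p) from rfl, show nq (l :: w) =
      if qc (l / 2) == 0 then l :: nq w else nq w from List.filter_cons]
    by_cases h0 : qc (l / 2) = 0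
    · have := ap1i_eq C.M.good [l] ih.1
      rw [if_pos h0, if_pos (by simpa using h0)]
      refine ⟨this.trans_lt (C.M.lt _ _ ih.1), ?_⟩
      rw [wval_cons, ← mul_assoc, ← C.cpt [l] (col w p) (pt [l] (col w p))
        (by rw [show Nat.blt (col w p) 512 = true by simpa using ih.1]; exact Nat.beq_refl _)]
      simp [wval]
    · rw [if_neg h0, if_neg (by simpa using h0)]
      refine ⟨qm_lt (qc_ok _).1 ih.1, ?_⟩
      rw [← E.mul _ (qc_ok _).1 _ ih.1, lval, S.qv E h0, nn E, ite_self]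

theorem colv (w : List ℕ) : wval F w = n (col w 0) * wval F (nq w) := by
  rw [← (C.col_eq E S w (by decide)).2, E.zero, mul_one]

theorem colrel (I : List ℕ) {K : List (List ℕ)} (hK : ∀ w ∈ K, wval F w = 1) (R : List (List ℕ))
    (h : colB I K R = true) : ∀ w ∈ R, wval F w = 1 := fun w hw => by
  rw [C.colv E S, beq_eq (allL_all (band_eq h).1 w hw), E.zero, one_mul]
  exact derive I hK _ (band_eq h).2 _ (List.mem_map_of_mem hw)

theorem coleq (I : List ℕ) {K : List (List ℕ)} (hK : ∀ w ∈ K, wval F w = 1) (u w : List ℕ)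
    (h : colB I K [u ++ invW w] = true) : wval F u = wval F w := by
  simpa only [wval_append, wval_invW, mul_inv_eq_one] using C.colrel E S I hK _ h _ List.mem_cons_self

end Cx

/-- An involution that interchanges `z` and `n 1`. -/
structure SW (z : G) (n : ℕ → G) (v : G) : Prop where
  vv : v * v = 1
  vz : v * z * v⁻¹ = n 1

section
variable {v : G} {us vs : List (List ℕ)} (h : Hyp z Q φ) (E : Enc z Q n) (C : Cx z n F) (W : SW z n v)
  (D : CZ z v F F us vs)

include W in
theorem SW.vc : v * n 1 * v⁻¹ = z := by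
  rw [← W.vz, ← mul_assoc, ← mul_assoc, W.vv, one_mul, mul_assoc, ← mul_inv_rev, W.vv, inv_one, mul_one]

include h E in
theorem n1 : n 1 ∉ zpowers z := fun e => by
  rcases (mem_zpowers_two h.zz).1 e with e | e
  · exact absurd (E.inj 1 (by decide) 0 (by decide) (e.trans E.zero.symm)) (by decide)
  · exact absurd (E.inj 1 (by decide) 256 (by decide) (e.trans E.z256.symm)) (by decide)

include E C W D in
theorem step {r : List ℕ} {pa pb ps U : List (List ℕ)} {ts : List Tst} {ct : CT}
    (hs : solveB (nat_lit 9) (nat_lit 511) htt (nat_lit 512) 500 (hch.map Lv.b) (fun _ => true) hch 1 []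
      (pa.map (subst vs)) (pb.map (subst vs)) (prEq 500 (pa.map (subst vs)) (pb.map (subst vs)) ++
      ps.map (subst ([2 * 500] :: vs))) [] [] (memLL U) id ts ct = true)
    (hb : band (band (Nat.blt 1 512) (Nat.beq (pt r 1) 1)) (vs.all (lt2 500) &&
      (pa.map (subst vs) ++ pb.map (subst vs)).all (lt2 500) && pa.length == pb.length) = true)
    (hR : ∀ w ∈ (pa.zip pb).map (fun p => r ++ subst us p.1 ++ invW r ++ invW (subst us p.2)) ++
      ps.map (subst (r :: us)), wval F w = 1) :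
    ∃ u ∈ U, v * wval F r * v⁻¹ * (wval F u)⁻¹ ∈ zpowers z := by
  obtain ⟨b1, b2⟩ := band_eq hb
  simp only [Bool.and_eq_true, beq_iff_eq] at b2
  have hx : v * wval F r * v⁻¹ ∈ centralizer ({z} : Set G) := by
    rw [mem_centralizer_singleton_iff, ← W.vc, conj_mul, conj_mul, mul_inv_eq_iff_eq_mul.1 (C.cpt r 1 1 b1)]
  have hF : ∀ j, Function.update F 500 (v * wval F r * v⁻¹) j ∈ centralizer ({z} : Set G) := fun j => by
    by_cases e : j = 500
    · rw [e, Function.update_self]; exact hx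
    · rw [Function.update_of_ne e]; exact C.M.lmem j
  have D' : CZ z v F (Function.update F 500 (v * wval F r * v⁻¹)) (r :: us) ([2 * 500] :: vs) :=
    .cons (by rw [wval_single, Function.update_self]; simp) fun i => by
      rw [wval_upd _ (by
        rw [← getW_eq]
        rcases getW_mem_or vs i with e | e
        · exact List.all_eq_true.1 b2.1.1 _ e
        · rw [e]; rfl)]
      exact D i
  obtain ⟨u, hu, x, h1, e⟩ := C.M.find C.ch hs b2.1.2 hx (C.fix1 E hx (by
      rw [← W.vz, conj_mul, conj_mul, mem_centralizer_singleton_iff.1 (C.M.mem r)]))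
    (List.forall₂_map_left_iff.2 (List.forall₂_map_right_iff.2 (List.forall₂_iff_zip.2
      ⟨b2.2, fun {a b} hp => by
        have := hR _ (List.mem_append_left _ (List.mem_map_of_mem hp))
        simp only [wval_append, wval_invW, mul_inv_eq_one] at this
        convert mul_mem (cjZ hx (inv_mem (D.sub C.M.lmem a))) (D.sub C.M.lmem b) using 1
        rw [← this]; group⟩)))
    (fun w hw => by
      obtain ⟨p, hp, rfl⟩ := List.mem_map.1 hw
      have := D'.sub hF p
      rw [hR _ (List.mem_append_right _ (List.mem_map_of_mem hp))] at this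
      simpa using this) (by simp)
  exact ⟨u, memLL_mem hu, by rw [e]; exact cjZ (C.M.mem u) h1⟩

include h E C W D

theorem exact (q p : List ℕ) (hb : band (fx (subst vs q ++ invW (subst us p)))
    (fx (subst vs p ++ invW (subst us q))) = true) :
    v * wval F (subst us q) * v⁻¹ = wval F (subst us p) := by
  have h1 := mul_mem (D.sub C.M.lmem q) (C.md _ _ (band_eq hb).1)
  have h2 := inv_mem (mul_mem (D.sub C.M.lmem p) (C.md _ _ (band_eq hb).2))
  rw [mul_assoc, inv_mul_cancel_left] at h1 h2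
  rcases (mem_zpowers_two h.zz).1 h1 with e | e
  · exact mul_inv_eq_one.1 e
  · refine absurd ?_ (n1 h E)
    convert h2 using 1
    rw [← W.vz, ← e, ← mul_assoc, ← mul_assoc, ← mul_assoc, W.vv, inv_eq_of_mul_eq_one_right W.vv]
    simp only [mul_inv_rev, inv_inv, inv_eq_of_mul_eq_one_right W.vv, one_mul, mul_assoc]

theorem orc (P : List (List ℕ)) (hb : allL (fun p => band (fx (subst vs [] ++ invW (subst us p)))
    (fx (subst vs p ++ invW (subst us [])))) P = true) : ∀ w ∈ P.map (subst us), wval F w = 1 :=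
  fun w hw => by
    obtain ⟨p, hp, rfl⟩ := List.mem_map.1 hw
    rw [← exact h E C W D [] p (allL_all hb p hp)]; simp [subst]

theorem sqrel (S : SF φ n F) (I : List ℕ) {K : List (List ℕ)} (hK : ∀ w ∈ K, wval F w = 1)
    (y tl k p q : List ℕ) (hb : band (fx (y ++ invW (k ++ subst us p ++ invW k)))
      (band (band (fx (subst vs [] ++ invW (subst us (p ++ p ++ invW q))))
        (fx (subst vs (p ++ p ++ invW q) ++ invW (subst us []))))
      (colB I K [k ++ subst us q ++ invW k ++ tl])) = true) : wval F (y ++ y ++ tl) = 1 := by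
  obtain ⟨b1, hb⟩ := band_eq hb
  obtain ⟨b2, b3⟩ := band_eq hb
  have e1 := exact h E C W D [] _ b2
  have e2 := C.colrel E S I hK _ b3 _ List.mem_cons_self
  rw [wval_subst F us (_ ++ _), wval_append, wval_append, wval_invW, ← wval_subst, ← wval_subst, subst,
    wval_nil, mul_one, mul_inv_cancel, eq_comm, mul_inv_eq_one] at e1
  rw [wval_append, wval_append, C.sq h.zz _ _ _ b1, e1, ← e2]
  simp only [wval_append, wval_invW]

omit E W in
theorem ctstep (t3 : wval F [12] ^ 3 = 1) (vt : v * wval F [12] * v⁻¹ = wval F [12]) (k m p : List ℕ)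
    (hb : fx (k ++ m ++ [12] ++ invW (k ++ m) ++ invW (subst us p ++ [12] ++ invW (subst us p))) = true) :
    v * wval F k * (wval F m * wval F [12] * (wval F m)⁻¹) * (v * wval F k)⁻¹ =
      wval F (subst vs p) * wval F [12] * (wval F (subst vs p))⁻¹ := by
  have e := C.M.rigid h.zz (fun g hg => mem_centralizer_singleton_iff.1 hg) 1 _ _ _ _ t3 t3 hb
  have c := cZ (mul_mem (mul_mem (C.M.mem (subst vs p)) (C.M.mem [12])) (inv_mem (C.M.mem (subst vs p))))
    (D.sub C.M.lmem p)
  rw [wval_append] at e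
  rw [eq_mul_inv_of_mul_eq c]
  nth_rw 2 [← vt]
  calc _ = v * (wval F k * wval F m * wval F [12] * (wval F k * wval F m)⁻¹) * v⁻¹ := by group
    _ = _ := by rw [e]; group

end

end Cfsg.Agent.Lib.ThS1
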