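import Cfsg.Agent.Lib.ThompsonNPC

/-!
Glauberman's theorem on weakly closed elements: an element of a Sylow subgroup `S` central in
`N(J(S))` is weakly closed.
-/

set_option autoImplicit false

namespace Cfsg.Agent.Lib.WeakClosed

open Subgroup Cfsg Cfsg.Agent.Lib.PCoreConj Cfsg.Agent.Lib.PCore Cfsg.Agent.Lib.PCoreResidual
open Cfsg.Agent.Lib.PCoreMod Cfsg.Agent.Lib.ZJ Cfsg.Agent.Lib.Sections Cfsg.Agent.Lib.QuadPair
open Cfsg.Agent.Lib.ThompsonJ Cfsg.Agent.Lib.FusionControl Cfsg.Agent.Lib.ThompsonNPC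
open Cfsg.Agent.Lib.TransferAlperin (IsExtremal IsCentricRadical)
open scoped Pointwise commutatorElement

universe u

local notation "C(" X ")" => centralizer ((X : Subgroup _) : Set _)

theorem mem_cent_iff {G : Type*} [Group G] {g x : G} : g ∈ centralizer ({x} : Set G) ↔ g * x * g⁻¹ = x := by
  rw [mem_centralizer_singleton_iff, mul_inv_eq_iff_eq_mul]

/-- splitting of a quadratic module -/
theorem split {H : Type*} [Group H] [Finite H] {W A K : Subgroup H} [hWn : W.Normal]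
    (hW : ∀ u ∈ W, ∀ v ∈ W, u * v = v * u) (hq : ⁅W, A⁆ ≤ C(A))
    (hfix : ∀ w ∈ W, (∀ g, g * w * g⁻¹ = w) → w = 1) (hcom : W ≤ ⁅W, (⊤ : Subgroup H)⁆)
    (hK : K ≤ A) {l : H} (h : K ⊔ A ^ᶜ l ⊔ C(W) = ⊤) :
    W ⊓ C(K) ≤ C(A) ∧ (W ⊓ C(A)) ⊓ C(A ^ᶜ l) = ⊥ ∧
      Nat.card W = Nat.card ↥(W ⊓ C(A)) * Nat.card ↥(W ⊓ C(A)) := by
  have h1 : (W ⊓ C(K)) ⊓ (W ⊓ C(A ^ᶜ l)) = ⊥ := eq_bot_iff.mpr fun w hw => hfix w hw.1.1 fun g => by
    have : K ⊔ A ^ᶜ l ⊔ C(W) ≤ centralizer {w} := sup_le (sup_le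
      (fun k hk => mem_centralizer_singleton_iff.mpr (hw.1.2 k hk))
      fun k hk => mem_centralizer_singleton_iff.mpr (hw.2.2 k hk))
      fun k hk => mem_centralizer_singleton_iff.mpr (hk w hw.1.1).symm
    exact mem_cent_iff.mp (this (h ▸ mem_top g))
  have hc : W ⊓ C(A ^ᶜ l) = (W ⊓ C(A)) ^ᶜ l := by rw [conj_inf, conj_centralizer, conj_eq_of_normal W]
  have hWW : ∀ {X Y : Subgroup H}, X ≤ W → Y ≤ W → X ≤ normalizer (Y : Set H) := fun hX hY =>
    le_normalizer_of_le_centralizer fun x hx y hy => hW y (hY hy) x (hX hx)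
  set N := (W ⊓ C(A)) ⊔ (W ⊓ C(A ^ᶜ l))
  have hNW : N ≤ W := sup_le inf_le_left inf_le_left
  have e1 : ⁅W, K⁆ ≤ N := ((commutator_mono le_rfl hK).trans (le_inf (commutator_le_left _ _) hq)).trans le_sup_left
  have e2 : ⁅W, A ^ᶜ l⁆ ≤ N := by
    refine le_trans (le_inf (commutator_le_left _ _) ?_) le_sup_right
    have := conj_mono l hq
    rwa [conj_commutator, conj_centralizer, conj_eq_of_normal W] at this
  have e3 : ⁅W, C(W)⁆ ≤ N := (commutator_eq_bot_iff_le_centralizer'.mpr le_rfl).le.trans bot_le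
  have n1 := le_normalizer_of_commutator_le_of_le e1 hNW
  have n2 := le_normalizer_of_commutator_le_of_le e2 hNW
  have h2 : N = W := le_antisymm hNW (hcom.trans (h ▸ commutator_sup_le (sup_le n1 n2)
    (le_normalizer_of_commutator_le_of_le e3 hNW) (commutator_sup_le n1 n2 e1 e2) e3))
  have hAK : W ⊓ C(A) ≤ W ⊓ C(K) := inf_le_inf_left _ (centralizer_anti hK)
  have h3 : (W ⊓ C(A)) ⊓ (W ⊓ C(A ^ᶜ l)) = ⊥ := le_bot_iff.mp ((inf_le_inf_right _ hAK).trans h1.le)
  have c1 := card_sup_mul_card_inf (hWW (inf_le_left : W ⊓ C(A) ≤ W) (inf_le_left : W ⊓ C(A ^ᶜ l) ≤ W))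
  rw [h3, card_bot, mul_one, show (W ⊓ C(A)) ⊔ (W ⊓ C(A ^ᶜ l)) = W from h2, hc, card_conj] at c1
  have c2 := card_sup_mul_card_inf (hWW (inf_le_left : W ⊓ C(K) ≤ W) (inf_le_left : W ⊓ C(A ^ᶜ l) ≤ W))
  have c3 := card_le_of_le (sup_le inf_le_left inf_le_left : (W ⊓ C(K)) ⊔ (W ⊓ C(A ^ᶜ l)) ≤ W)
  rw [h1, card_bot, mul_one] at c2
  rw [c2, c1, hc, card_conj] at c3
  refine ⟨((eq_of_le_of_card_le hAK (Nat.le_of_mul_le_mul_right c3 Nat.card_pos)).ge).trans inf_le_right,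
    le_bot_iff.mp (le_trans ?_ h3.le), c1⟩
  exact le_inf inf_le_left (inf_le_inf_right _ inf_le_left)

theorem core {H : Type*} [Group H] [Finite H] {W A A₀ : Subgroup H} [hWn : W.Normal] {x : H}
    (hW : ∀ u ∈ W, ∀ v ∈ W, u * v = v * u) (hq : ⁅W, A⁆ ≤ C(A))
    (hfix : ∀ w ∈ W, (∀ g, g * w * g⁻¹ = w) → w = 1) (hcom : W ≤ ⁅W, (⊤ : Subgroup H)⁆)
    (hgen : ∀ a ∈ A, a ∉ A₀ → ∃ l, zpowers a ⊔ A ^ᶜ l ⊔ C(W) = ⊤)
    (hcount : C(A).relIndex W ≤ A₀.relIndex A) (hx : x ∈ W ⊓ C(A)) (hx1 : x ≠ 1)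
    (hΩ : ∀ l, l * x * l⁻¹ = x ∨ A ⊔ A ^ᶜ l ⊔ C(W) = ⊤) :
    (∀ u ∈ W ⊓ C(A), u = 1 ∨ u = x) ∧ A₀.relIndex A ≤ 2 := by
  set U := W ⊓ C(A)
  have hy : ∀ l, l * x * l⁻¹ ≠ x → l * x * l⁻¹ ∉ C(A) := fun l hl h => hx1 (by
    have := (split hW hq hfix hcom le_rfl ((hΩ l).resolve_left hl)).2.1.le
      (mem_inf.mpr ⟨⟨hWn.conj_mem x hx.1 l, h⟩, conj_centralizer A l ▸ conj_mem_conj l hx.2⟩)
    exact conj_eq_one_iff.mp this)
  have surj : ∀ l, l * x * l⁻¹ ≠ x → (∀ u ∈ U, ∃ a ∈ A, a * (l * x * l⁻¹) * a⁻¹ = u * (l * x * l⁻¹)) ∧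
      A₀.relIndex A ≤ Nat.card U := fun l hl => by
    have hy' := hy l hl
    have hyW := hWn.conj_mem x hx.1 l
    have hc := (split hW hq hfix hcom le_rfl ((hΩ l).resolve_left hl)).2.2
    generalize l * x * l⁻¹ = y at hy' hyW
    have m : ∀ a ∈ A, ⁅a, y⁆ ∈ U := fun a ha => by
      rw [← commutatorElement_inv]
      exact inv_mem ((le_inf (commutator_le_left W A) hq) (commutator_mem_commutator hyW ha))
    let φ : A →* H := MonoidHom.mk' (fun a => ⁅(a : H), y⁆) fun a b => by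
      have e1 := (m b b.2).2 a a.2
      have e2 := hW _ (m a a.2).1 _ (m b b.2).1
      rw [e2, coe_mul, show ⁅(a : H) * b, y⁆ = a * ⁅(b : H), y⁆ * y * (a : H)⁻¹ * y⁻¹ by
        simp only [commutatorElement_def]; group, e1]
      simp only [commutatorElement_def, mul_assoc]
    have hr : φ.range ≤ U := by rintro _ ⟨a, rfl⟩; exact m a a.2
    have hk : φ.ker ≤ A₀.subgroupOf A := fun a ha => by
      by_contra hn
      obtain ⟨l', hl'⟩ := hgen a a.2 hn
      refine hy' ((split hW hq hfix hcom (zpowers_le.mpr a.2) hl').1 (mem_inf.mpr ⟨hyW, ?_⟩))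
      rw [zpowers_eq_closure, centralizer_closure, mem_centralizer_singleton_iff]
      exact (commutatorElement_eq_one_iff_mul_comm.mp ha).symm
    have h1 : A₀.relIndex A ≤ Nat.card φ.range := by
      rw [← index_ker]
      exact Nat.le_of_dvd (Nat.pos_of_ne_zero index_ne_zero_of_finite) (index_dvd_of_le hk)
    have h2 : C(A).relIndex W = Nat.card U := by
      have := card_inf_mul_relIndex C(A) W
      rw [inf_comm, hc] at this
      exact Nat.eq_of_mul_eq_mul_left Nat.card_pos this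
    refine ⟨fun u hu => ?_, h1.trans (card_le_of_le hr)⟩
    obtain ⟨a, ha⟩ := (eq_of_le_of_card_le hr (h2 ▸ hcount.trans h1)).ge hu
    refine ⟨a, a.2, ?_⟩
    rw [← ha]
    show _ = ⁅(a : H), y⁆ * y
    rw [commutatorElement_def]; group
  obtain ⟨l, hl⟩ : ∃ l, l * x * l⁻¹ ≠ x := by
    by_contra h
    push Not at h
    exact hx1 (hfix x hx.1 h)
  have key : ∀ u ∈ U, u = 1 ∨ u = x := fun u hu => or_iff_not_imp_left.mpr fun hu1 => by
    obtain ⟨a, -, ha⟩ := (surj l hl).1 u hu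
    have e : l⁻¹ * a * l * x * (l⁻¹ * a * l)⁻¹ = l⁻¹ * u * l * x := by
      rw [show l⁻¹ * a * l * x * (l⁻¹ * a * l)⁻¹ = l⁻¹ * (a * (l * x * l⁻¹) * a⁻¹) * l by group, ha]; group
    obtain ⟨b, -, hb⟩ := (surj (l⁻¹ * a * l) (by
      rw [e]; intro h; exact hu1 (by simpa [mul_assoc, inv_mul_eq_iff_eq_mul] using h))).1 x⁻¹ (inv_mem hx)
    have e' : l * b * (l⁻¹ * a * l) * x * (l * b * (l⁻¹ * a * l))⁻¹ = u := by
      rw [show l * b * (l⁻¹ * a * l) * x * (l * b * (l⁻¹ * a * l))⁻¹ =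
        l * (b * (l⁻¹ * a * l * x * (l⁻¹ * a * l)⁻¹) * b⁻¹) * l⁻¹ by group, hb, e,
        hW (l⁻¹ * u * l) (by simpa using hWn.conj_mem u hu.1 l⁻¹) x hx.1]
      group
    by_contra hn
    exact hy _ (e' ▸ hn) (e' ▸ hu.2)
  refine ⟨key, (surj l hl).2.trans ?_⟩
  have : (U : Set H) ⊆ {1, x} := fun u hu => key u hu
  exact (Set.ncard_le_ncard this).trans (Set.ncard_pair hx1.symm).le

variable {p : ℕ} [hp : Fact p.Prime]

theorem config_min {G : Type*} [Group G] [Finite G] {V A : Subgroup G} [hVn : V.Normal] {x : G}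
    (hV : ∀ u ∈ V, ∀ v ∈ V, u * v = v * u) (hVp : IsPGroup p V) (hAp : IsPGroup p A)
    (hq : ⁅V, A⁆ ≤ C(A)) (hcount : ∀ W ≤ V, C(A).relIndex W ≤ C(W).relIndex A) (hxV : x ∈ V)
    (hu : ∀ g, g * x * g⁻¹ ∈ C(A) ↔ g * x * g⁻¹ = x)
    (h : p ≠ 2 ∨ (∀ P : Subgroup G, IsPGroup p P → P ≤ centralizer {x} → ∃ z ∈ V ⊓ C(P), z ^ p = x) ∨
      ¬ Involves (Equiv.Perm (Fin 4)) G)
    (hmin : ∀ K : Subgroup G, A ⊔ V ≤ K → K ≠ ⊤ → K ≤ centralizer {x}) : centralizer {x} = (⊤ : Subgroup G) := by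
  by_contra hM
  have hxA : x ∈ C(A) := by simpa using (hu 1).mpr (by simp)
  have hA : A ≤ centralizer {x} := fun a ha => mem_centralizer_singleton_iff.mpr (hxA a ha)
  obtain ⟨P, hP, hAP⟩ := exists_isSylowIn_ge hA hAp
  have hxP : x ∈ C(P) := fun a ha => mem_centralizer_singleton_iff.mp (hP.le ha)
  have hP' : IsSylowIn p P ⊤ := IsSylowIn.of_inf_normalizer (hP.of_le (le_inf le_top le_normalizer)
    fun g hg => mem_cent_iff.mpr ((hu g).mp (centralizer_anti hAP
      ((mem_normalizer_iff.mp (le_normalizer_centralizer le_rfl hg.2) x).mp hxP))))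
  have hVP : V ≤ P := hP'.le_of_le_normalizer' le_top hVp le_normalizer_of_normal
  obtain ⟨z, hz, hxz, h⟩ : ∃ z ∈ V ⊓ C(P), x ∈ zpowers z ∧
      (p ≠ 2 ∨ z ^ p = x ∨ ¬ Involves (Equiv.Perm (Fin 4)) G) := by
    rcases h with h | h | h
    · exact ⟨x, ⟨hxV, hxP⟩, mem_zpowers x, Or.inl h⟩
    · obtain ⟨z, hz, e⟩ := h P hP.isPGroup hP.le
      exact ⟨z, hz, e ▸ pow_mem (mem_zpowers z) p, Or.inr (Or.inl e)⟩
    · exact ⟨x, ⟨hxV, hxP⟩, mem_zpowers x, Or.inr (Or.inr h)⟩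
  set W := nclIn (zpowers z) ⊤
  have hWn : W.Normal := normal_iff_top_le.mpr (le_normalizer_nclIn _ _)
  have hWV : W ≤ V := nclIn_le (zpowers_le.mpr hz.1) le_normalizer_of_normal
  have hzW : z ∈ W := le_nclIn _ _ (mem_zpowers z)
  have hxW : x ∈ W := le_nclIn _ _ hxz
  have hW : ∀ u ∈ W, ∀ v ∈ W, u * v = v * u := fun u hu v hv => hV u (hWV hu) v (hWV hv)
  have hVW : V ≤ C(W) := fun v hv w hw => hV w (hWV hw) v hv
  have hWp := hVp.to_le hWV
  have gen : ∀ (K : Subgroup G) (l : G), ¬ K ≤ centralizer {l * x * l⁻¹} → K ⊔ A ^ᶜ l ⊔ C(W) = ⊤ :=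
    fun K l hK => by
      by_contra hn
      have h1 : (A ⊔ V) ^ᶜ l ≤ K ⊔ A ^ᶜ l ⊔ C(W) := by
        rw [conj_sup, conj_eq_of_normal V]
        exact sup_le (le_sup_right.trans le_sup_left) (hVW.trans le_sup_right)
      have h2 := hmin _ (conj_le_iff_le_conj_inv.mp h1) fun e => hn (conj_eq_top_iff.mp e)
      have h3 := le_conj_iff_conj_inv_le.mpr h2
      rw [conj_centralizer_singleton] at h3
      exact hK (le_sup_left.trans (le_sup_left.trans h3))
  have hgen : ∀ a ∈ A, a ∉ C(W) → ∃ l, zpowers a ⊔ A ^ᶜ l ⊔ C(W) = ⊤ := fun a ha hn => by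
    by_contra hc
    push Not at hc
    set N := (centralizer {x} : Subgroup G).normalCore
    have haN : a ∈ N := fun b => by
      have h1 : zpowers a ≤ centralizer {b⁻¹ * x * b⁻¹⁻¹} := not_not.mp fun e => hc _ (gen _ _ e)
      rw [← conj_centralizer_singleton] at h1
      simpa using mem_conj_iff.mp (h1 (mem_zpowers a))
    have hPN := hP'.inf_normal (N := N) le_top le_normalizer_of_normal
    have hn' : P ≤ normalizer ((P ⊓ N : Subgroup G) : Set G) := le_normalizer_inf le_normalizer le_normalizer_of_normal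
    have h2 : normalizer ((P ⊓ N : Subgroup G) : Set G) = ⊤ := by
      by_contra e
      exact hM (top_le_iff.mp (hPN.frattini_top.ge.trans (sup_le (normalCore_le _)
        (hmin _ ((sup_le hAP hVP).trans hn') e))))
    have h3 : W ≤ C(P ⊓ N) := nclIn_le_centralizer h2.ge
      (zpowers_le.mpr (centralizer_anti inf_le_left hz.2))
    exact hn (le_centralizer_iff.mp h3 ⟨hAP ha, haN⟩)
  have hres : ∀ K : Subgroup G, pResidual p G ≤ K → P ≤ K → K = ⊤ := fun K h1 h2 =>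
    top_le_iff.mp ((pResidualOf_sup_of_isSylowIn hP').ge.trans (sup_le (pResidualOf_top p G ▸ h1) h2))
  set D := W ⊓ C(pResidual p G)
  have hDn : D.Normal := inferInstance
  set π := QuotientGroup.mk' D
  have hπ : Function.Surjective π := QuotientGroup.mk'_surjective D
  have hker : π.ker = D := QuotientGroup.ker_mk' D
  have := hWn.map π hπ
  have hx1 : π x ≠ 1 := fun e => hM (hres _ (fun r hr => mem_centralizer_singleton_iff.mpr
    (((QuotientGroup.eq_one_iff x).mp e).2 r hr)) hP.le)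
  have top : ∀ (K : Subgroup G) (l : G), K ⊔ A ^ᶜ l ⊔ C(W) = ⊤ →
      K.map π ⊔ A.map π ^ᶜ π l ⊔ C(W.map π) = ⊤ := fun K l e => by
    rw [eq_top_iff, ← map_top_of_surjective π hπ, ← e, Subgroup.map_sup, Subgroup.map_sup, map_conj]
    exact sup_le_sup_left (map_centralizer_le π W) _
  have hU : ∀ w ∈ W, w ∈ C(A) → π w ∈ W.map π ⊓ C(A.map π) := fun w h1 h2 =>
    ⟨mem_map_of_mem π h1, map_centralizer_le π A (mem_map_of_mem π h2)⟩
  have e1 : (C(W).map π).relIndex (A.map π) = C(W).relIndex A := by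
    rw [← relIndex_comap, comap_map_eq, hker, sup_eq_left.mpr (inf_le_left.trans (hWV.trans hVW))]
  obtain ⟨k1, k2⟩ := core (W := W.map π) (A := A.map π) (A₀ := C(W).map π) (x := π x)
    (by rintro _ ⟨u, hu, rfl⟩ _ ⟨v, hv, rfl⟩; rw [← map_mul, ← map_mul, hW u hu v hv])
    (by rw [← map_commutator]
        exact (map_mono ((commutator_mono hWV le_rfl).trans hq)).trans (map_centralizer_le π A))
    (by
      rintro _ ⟨w, hw, rfl⟩ hc
      refine (QuotientGroup.eq_one_iff w).mpr ⟨hw, ?_⟩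
      have h1 : pResidualOf p (pResidual p G) ≤ C(D ⊔ zpowers w) := by
        have h0 : ⁅D ⊔ zpowers w, pResidualOf p (pResidual p G)⁆ ≤ D := commutator_le.mpr fun u hu g _ => by
          have : D ⊔ zpowers w ≤ (centralizer {π g}).comap π :=
            sup_le (fun d hd => by
              rw [mem_comap, show π d = 1 from (QuotientGroup.eq_one_iff d).mpr hd]; exact one_mem _)
              (zpowers_le.mpr (mem_centralizer_singleton_iff.mpr (mul_inv_eq_iff_eq_mul.mp (hc (π g))).symm))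
          refine (QuotientGroup.eq_one_iff _).mp (show π _ = 1 from ?_)
          rw [map_commutatorElement, commutatorElement_eq_one_iff_mul_comm]
          exact mem_centralizer_singleton_iff.mp (this hu)
        refine pResidualOf_le_centralizer_of_le (N := D) (hWp.to_le (sup_le inf_le_left (zpowers_le.mpr hw)))
          (le_normalizer_of_commutator_le (h0.trans le_sup_left)) h0 ?_
        rw [pResidualOf_pResidual]; exact le_centralizer_iff.mp inf_le_right
      rw [pResidualOf_pResidual] at h1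
      exact le_centralizer_iff.mp h1 (mem_sup_right (mem_zpowers w)))
    (by
      rw [← map_top_of_surjective π hπ, ← map_commutator, map_le_iff_le_comap, comap_map_eq, hker]
      refine nclIn_le (zpowers_le.mpr ?_) le_normalizer_of_normal
      refine (sup_le (le_trans ?_ le_sup_right) ((commutator_mono le_rfl le_top).trans le_sup_left) :
        _ ≤ ⁅W, (⊤ : Subgroup G)⁆ ⊔ D) (inf_centralizer_le_sup_commutator
          (isMulCommutative_iff_forall.mpr hW) hWp le_normalizer_of_normal hP' ⟨hzW, hz.2⟩)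
      exact inf_le_inf_left _ (centralizer_anti le_top))
    (by
      rintro _ ⟨a, ha, rfl⟩ hn
      obtain ⟨l, hl⟩ := hgen a ha fun e => hn (mem_map_of_mem π e)
      exact ⟨π l, MonoidHom.map_zpowers π a ▸ top _ l hl⟩)
    (by
      rw [e1, ← relIndex_comap]
      exact (relIndex_le_of_le_left (map_le_iff_le_comap.mp (map_centralizer_le π A))
        index_ne_zero_of_finite).trans (hcount W hWV))
    (hU x hxW hxA) hx1 fun l => by
      obtain ⟨l, rfl⟩ := hπ l
      by_cases e : l * x * l⁻¹ = x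
      · exact Or.inl (by rw [← map_inv, ← map_mul, ← map_mul, e])
      · exact Or.inr (top A l (gen A l fun h => e ((hu l).mp fun a ha =>
          mem_centralizer_singleton_iff.mp (h ha))))
  have hx2 : π x ^ 2 = 1 := by
    rcases k1 _ (inv_mem (hU x hxW hxA)) with e | e
    · exact absurd (inv_eq_one.mp e) hx1
    · rw [sq]; exact inv_eq_iff_mul_eq_one.mp e
  by_cases hp2 : p = 2; swap
  · obtain ⟨k, hk⟩ := isPGroup_iff_forall_mem.mp hVp x hxV
    have := pow_gcd_eq_one.mpr ⟨hx2, (show π x ^ p ^ k = 1 by rw [← map_pow, hk, map_one])⟩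
    rw [Nat.Coprime.gcd_eq_one (Nat.Coprime.pow_right _
      ((Nat.coprime_primes Nat.prime_two hp.out).mpr (Ne.symm hp2))), pow_one] at this
    exact hx1 this
  subst hp2
  rcases h.resolve_left (fun h => h rfl) with h | h
  · refine hx1 ?_
    rcases k1 _ (hU z hzW (centralizer_anti hAP hz.2)) with e | e
    · rw [← h, map_pow, e, one_pow]
    · rw [← hx2, ← e, ← map_pow, h, e]
  refine h (involves_trans involves_S4_qd ?_)
  rw [e1] at k2
  obtain ⟨a, ha, haW⟩ : ∃ a ∈ A, a ∉ C(W) := by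
    by_contra hc
    push Not at hc
    exact hM (eq_top_iff.mpr fun g _ => mem_cent_iff.mpr ((hu g).mp
      (le_centralizer_iff.mp (show A ≤ C(W) from hc) (hWn.conj_mem x hxW g))))
  obtain ⟨l, hl⟩ := hgen a ha haW
  have i1 : C(W).relIndex A = 2 := by
    have h1 : C(W).relIndex A ≠ 0 := index_ne_zero_of_finite
    have h2 : C(W).relIndex A ≠ 1 := fun e => haW (relIndex_eq_one.mp e ha)
    omega
  have f1 : ∀ u ∈ W, ∀ v ∈ W, a * u * a⁻¹ ≠ u → a * v * a⁻¹ ≠ v → a * (u * v) * a⁻¹ = u * v := by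
    have fx : ∀ u ∈ C(A), a * u * a⁻¹ = u := fun u hu => mul_inv_eq_iff_eq_mul.mpr (hu a ha)
    intro u hu v hv n1 n2
    have c1 := hcount W hWV
    have c3 : C(A).relIndex W ≠ 0 := index_ne_zero_of_finite
    have c4 : C(A).relIndex W ≠ 1 := fun h => n1 (fx u (relIndex_eq_one.mp h hu))
    refine fx _ ((mul_mem_iff_of_index_two (show C(A).relIndex W = 2 by omega)
      (a := ⟨u, hu⟩) (b := ⟨v, hv⟩)).mpr ?_)
    exact iff_of_false (fun h => n1 (fx u h)) fun h => n2 (fx v h)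
  refine involves_qd_two hWp hW (a := a) (b := l * a * l⁻¹) (le_normalizer_of_normal (mem_top _))
    (le_normalizer_of_normal (mem_top _)) f1 (fun u hu v hv n1 n2 => ?_) fun h => ?_
  · have m : ∀ u ∈ W, l⁻¹ * u * l ∈ W := fun u hu => by simpa using hWn.conj_mem u hu l⁻¹
    have e : ∀ u, l * a * l⁻¹ * u * (l * a * l⁻¹)⁻¹ = l * (a * (l⁻¹ * u * l) * a⁻¹) * l⁻¹ :=
      fun u => by group
    have := f1 _ (m u hu) _ (m v hv) (fun h => n1 (by rw [e, h]; group)) fun h => n2 (by rw [e, h]; group)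
    rw [e, show l⁻¹ * (u * v) * l = l⁻¹ * u * l * (l⁻¹ * v * l) by group, this]; group
  · have h1 : A ≤ zpowers a ⊔ C(W) := fun b hb => by
      by_cases e : b ∈ C(W)
      · exact mem_sup_right e
      have := (mul_mem_iff_of_index_two i1 (a := ⟨a, ha⟩⁻¹) (b := ⟨b, hb⟩)).mpr
        (iff_of_false (fun h => haW (inv_mem_iff.mp h)) e)
      rw [← mul_inv_cancel_left a b]
      exact mul_mem (mem_sup_left (mem_zpowers a)) (mem_sup_right this)
    have h2 : closure {a, l * a * l⁻¹} ⊔ C(W) = ⊤ := by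
      refine top_le_iff.mp (hl.ge.trans (sup_le (sup_le (zpowers_le.mpr (mem_sup_left
        (subset_closure (by simp)))) ((conj_mono l h1).trans ?_)) le_sup_right))
      rw [conj_sup, conj_zpowers, conj_eq_of_normal]
      exact sup_le_sup_right (zpowers_le.mpr (subset_closure (by simp))) _
    have h3 := pResidualOf_sup_le_sup (p := 2) (H := closure {a, l * a * l⁻¹}) (N := C(W)) le_normalizer_of_normal
    rw [h2, pResidualOf_top] at h3
    exact hx1 ((QuotientGroup.eq_one_iff x).mpr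
      ⟨hxW, le_centralizer_iff.mp (h3.trans (sup_le h le_rfl)) hxW⟩)

omit hp in
theorem mem_cent_coe {G : Type*} [Group G] {L : Subgroup G} {g x : L} :
    g ∈ centralizer ({x} : Set L) ↔ (g : G) ∈ centralizer ({(x : G)} : Set G) := by
  rw [mem_cent_iff, mem_cent_iff, Subtype.ext_iff]; rfl

theorem config (G : Type u) [Group G] [Finite G] : ∀ (V A : Subgroup G) (x : G), V.Normal →
    (∀ u ∈ V, ∀ v ∈ V, u * v = v * u) → IsPGroup p V → IsPGroup p A → ⁅V, A⁆ ≤ C(A) →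
    (∀ W ≤ V, C(A).relIndex W ≤ C(W).relIndex A) → x ∈ V →
    (∀ g, g * x * g⁻¹ ∈ C(A) ↔ g * x * g⁻¹ = x) →
    (p ≠ 2 ∨ (∀ P : Subgroup G, IsPGroup p P → P ≤ centralizer {x} → ∃ z ∈ V ⊓ C(P), z ^ p = x) ∨
      ¬ Involves (Equiv.Perm (Fin 4)) G) → centralizer {x} = (⊤ : Subgroup G) := by
  refine SolvBasic.card_induction (P := fun G _ _ => ∀ (V A : Subgroup G) (x : G), V.Normal →
    (∀ u ∈ V, ∀ v ∈ V, u * v = v * u) → IsPGroup p V → IsPGroup p A → ⁅V, A⁆ ≤ C(A) →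
    (∀ W ≤ V, C(A).relIndex W ≤ C(W).relIndex A) → x ∈ V →
    (∀ g, g * x * g⁻¹ ∈ C(A) ↔ g * x * g⁻¹ = x) →
    (p ≠ 2 ∨ (∀ P : Subgroup G, IsPGroup p P → P ≤ centralizer {x} → ∃ z ∈ V ⊓ C(P), z ^ p = x) ∨
      ¬ Involves (Equiv.Perm (Fin 4)) G) → centralizer {x} = (⊤ : Subgroup G)) ?_ G
  intro G _ _ ih V A x hVn hV hVp hAp hq hcount hxV hu h
  refine config_min hV hVp hAp hq hcount hxV hu h fun L hL hLt => ?_
  have hAL : A ≤ L := le_sup_left.trans hL
  have hVL : V ≤ L := le_sup_right.trans hL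
  have := ih L (SolvBasic.card_lt_of_ne_top hLt) (V.subgroupOf L) (A.subgroupOf L) ⟨x, hVL hxV⟩ inferInstance
    (fun u hu v hv => Subtype.ext (hV u hu v hv)) (isPGroup_subgroupOf hVp L) (isPGroup_subgroupOf hAp L)
    (by rw [centralizer_subgroupOf hAL]
        exact commutator_le.mpr fun u hu a ha => hq (commutator_mem_commutator hu ha))
    (fun W hW => by
      have e : W = (W.map L.subtype).subgroupOf L := (map_subtype_subgroupOf W).symm
      have hW' : W.map L.subtype ≤ V := map_le_iff_le_comap.mpr hW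
      rw [e, centralizer_subgroupOf hAL, centralizer_subgroupOf (hW'.trans hVL),
        relIndex_subgroupOf (hW'.trans hVL), relIndex_subgroupOf hAL]
      exact hcount _ hW') hxV
    (fun g => by rw [centralizer_subgroupOf hAL, Subtype.ext_iff]; exact hu g)
    (h.imp_right fun h => h.imp (fun h P hP hPx => by
      obtain ⟨z, hz, e⟩ := h (P.map L.subtype) (hP.map _)
        (by rintro _ ⟨g, hg, rfl⟩; exact mem_cent_coe.mp (hPx hg))
      exact ⟨⟨z, hVL hz.1⟩, ⟨hz.1, fun g hg => Subtype.ext (hz.2 g (mem_map_of_mem _ hg))⟩, Subtype.ext e⟩)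
      fun h h' => h (involves_of_subgroup h'))
  exact fun g hg => mem_cent_coe.mp (show (⟨g, hg⟩ : L) ∈ _ from this ▸ mem_top _)

/-- the hypothesis on `p`, `x` -/
def Hyp (p : ℕ) {G : Type*} [Group G] (S : Subgroup G) (x : G) : Prop :=
  p ≠ 2 ∨ (∃ z ∈ S ⊓ C(S), z ^ p = x) ∨ ¬ Involves (Equiv.Perm (Fin 4)) G

/-- the statement for one group -/
def WC (p : ℕ) (G : Type*) [Group G] : Prop :=
  ∀ (S : Subgroup G) (x : G), IsSylowIn p S ⊤ → x ∈ S → normalizer (J 0 S : Set G) ≤ centralizer {x} →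
    Hyp p S x → ∀ g, g * x * g⁻¹ ∈ S → g * x * g⁻¹ = x

omit hp in
theorem WC.apply {G : Type*} [Group G] {L T S : Subgroup G} (h : WC p L) (hT : IsSylowIn p T L) (hTS : T ≤ S)
    (hZ : S ⊓ C(S) ≤ T) {x : G} (hx : x ∈ T) (hN : normalizer (J 0 T : Set G) ≤ centralizer {x})
    (hH : Hyp p S x) {g : G} (hg : g ∈ L) (hgx : g * x * g⁻¹ ∈ T) : g ∈ centralizer ({x} : Set G) := by
  refine mem_cent_iff.mpr (congrArg Subtype.val (h (T.subgroupOf L) ⟨x, hT.le hx⟩
    (by simpa using hT.subgroupOf le_rfl) hx ?_ ?_ ⟨g, hg⟩ hgx))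
  · rw [J_subgroupOf hT.le, ← subgroupOf_normalizer_eq ((J_le _ _).trans hT.le)]
    exact fun g hg => mem_cent_coe.mpr (hN hg)
  · refine hH.imp_right fun h => h.imp (fun ⟨z, hz, e⟩ => ?_) fun h h' => h (involves_of_subgroup h')
    exact ⟨⟨z, hT.le (hZ hz)⟩, ⟨hZ hz, fun g hg => Subtype.ext (hz.2 g (hTS hg))⟩, Subtype.ext e⟩

theorem family {G : Type*} [Group G] [Finite G] (ih : ∀ L : Subgroup G, L ≠ ⊤ → WC p L) {S : Subgroup G}
    {x : G} (hS : IsSylowIn p S ⊤) (hx : x ∈ S) (hN : normalizer (J 0 S : Set G) ≤ centralizer {x})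
    (hH : Hyp p S x) (F : Subgroup G → Prop) (F1 : ∀ T, F T → T ≤ S)
    (F2 : ∀ T T', F T → T ≤ T' → T' ≤ S → F T') (F3 : ∀ T g, F T → T ^ᶜ g ≤ S → F (T ^ᶜ g))
    (F4 : ∀ T, F T → S ⊓ C(S) ≤ T) (F5 : ∀ T, F T → normalizer (J 0 T : Set G) ≠ ⊤) {T : Subgroup G}
    (hT : F T) {g : G} (hg : T ^ᶜ g ≤ S) : g ∈ centralizer ({x} : Set G) := by
  have hxZ : x ∈ S ⊓ C(S) := ⟨hx, fun s hs => mem_centralizer_singleton_iff.mp
    (hN (normalizer_le_normalizer_J 0 S (le_normalizer hs)))⟩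
  have key : ∀ (m : ℕ) (T : Subgroup G), F T → Nat.card S < Nat.card T + m →
      normalizer (J 0 T : Set G) ≤ centralizer {x} ∧ ∀ g, T ^ᶜ g ≤ S → g ∈ centralizer ({x} : Set G) := by
    intro m
    induction m with
    | zero => exact fun T hT h => absurd (card_le_of_le (F1 T hT)) (by omega)
    | succ m ihm =>
      intro T hT hc
      rcases (F1 T hT).eq_or_lt with rfl | hlt
      · exact ⟨hN, fun g hg => hN (normalizer_le_normalizer_J 0 _ (mem_normalizer_of_conj_le hg))⟩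
      have big : ∀ T' g, F T' → T ^ᶜ g < T' → normalizer (J 0 T' : Set G) ≤ centralizer {x} ∧
          ∀ g, T' ^ᶜ g ≤ S → g ∈ centralizer ({x} : Set G) := fun T' g h1 h2 =>
        ihm T' h1 (by have := card_lt_of_lt h2; rw [card_conj] at this; omega)
      have l1 := lt_inf_normalizer hS.isPGroup hlt
      obtain ⟨P, hP, hTP⟩ := exists_isSylowIn_ge (inf_le_right.trans (normalizer_le_normalizer_J 0 T) :
        S ⊓ normalizer (T : Set G) ≤ _) (hS.isPGroup.to_le inf_le_left)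
      obtain ⟨h, -, hh⟩ := hS.exists_conj_le le_top hP.isPGroup
      have hh1 : h ∈ centralizer ({x} : Set G) :=
        (big _ 1 (F2 _ _ hT l1.le inf_le_left) (by rwa [conj_one])).2 h ((conj_mono h hTP).trans hh)
      have l2 : T ^ᶜ h < P ^ᶜ h := conj_lt_conj_iff.mpr (l1.trans_le hTP)
      have hTh := F3 T h hT (l2.le.trans hh)
      have hPh := F2 _ _ hTh l2.le hh
      have hP' := hP.conj h
      rw [conj_normalizer, conj_J] at hP'
      have hxJ : x ∈ J 0 (T ^ᶜ h) := ZJ_le_J 0 _ (inf_centralizer_le_ZJ _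
        ⟨F4 _ hTh hxZ, centralizer_anti (F1 _ hTh) hxZ.2⟩)
      have c1 : normalizer (J 0 T : Set G) ≤ centralizer {x} := by
        rw [← conj_le_conj_iff (g := h), conj_normalizer, conj_J, conj_eq_of_mem hh1]
        exact fun l hl => (ih _ (F5 _ hTh)).apply hP' hh (F4 _ hPh) (F4 _ hPh hxZ) (big _ h hPh l2).1 hH hl
          (l2.le (J_le _ _ ((mem_normalizer_iff.mp hl x).mp hxJ)))
      refine ⟨c1, fun g hg => ?_⟩
      have l3 : T ^ᶜ g < S := lt_of_le_of_ne hg fun e => by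
        have := card_lt_of_lt hlt
        rw [← e, card_conj] at this
        exact lt_irrefl _ this
      have l4 := lt_inf_normalizer hS.isPGroup l3
      obtain ⟨l, hl, hl'⟩ := hP.exists_conj_le
        (Q := (S ⊓ normalizer ((T ^ᶜ g : Subgroup G) : Set G)) ^ᶜ g⁻¹) (by
          rw [← conj_normalizer, conj_inf, conj_conj_inv]
          exact inf_le_right.trans (normalizer_le_normalizer_J 0 T))
        (isPGroup_conj (hS.isPGroup.to_le inf_le_left) _)
      have h3 := (big _ g (F2 _ _ (F3 T g hT hg) l4.le inf_le_left) l4).2 (h * (l * g⁻¹))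
        (by rw [← conj_conj, ← conj_conj]; exact (conj_mono h hl').trans hh)
      rwa [mul_mem_cancel_left hh1, mul_mem_cancel_left (c1 hl), inv_mem_iff] at h3
  exact (key (Nat.card S + 1) T hT (by omega)).2 g hg

theorem wc (G : Type u) [Group G] [Finite G] : WC p G := by
  refine SolvBasic.card_induction (P := fun G _ _ => WC p G) ?_ G
  intro G _ _ ih S x hS hx hN hH g hg
  have ih' : ∀ L : Subgroup G, L ≠ ⊤ → WC p L := fun L hL => ih L (SolvBasic.card_lt_of_ne_top hL)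
  have hSx : S ≤ centralizer {x} := le_normalizer.trans ((normalizer_le_normalizer_J 0 S).trans hN)
  have hxZ : x ∈ S ⊓ C(S) := ⟨hx, fun s hs => mem_centralizer_singleton_iff.mp (hSx hs)⟩
  have sub : ∀ L : Subgroup G, L ≠ ⊤ → S ≤ L → ∀ l ∈ L, l * x * l⁻¹ ∈ S → l ∈ centralizer ({x} : Set G) :=
    fun L hL h l hl hl' => (ih' L hL).apply (hS.of_le h le_top) le_rfl inf_le_left hx hN hH hl hl'
  by_cases hQ : pCore p G = ⊥
  · refine TransferAlperin.alperin_centric_radical hS.toSylowTop (fun A g => x ∈ A → g * x * g⁻¹ = x)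
      (fun A B g h1 _ _ h2 h3 => h2 (h1 h3)) (fun A g h _ _ _ h1 h2 h3 => ?_)
      (fun n hn _ => mem_cent_iff.mp (hN (normalizer_le_normalizer_J 0 S hn)))
      (fun A _ c hc h => mul_inv_eq_iff_eq_mul.mpr (hc x h).symm) (fun R h1 h2 h3 n hn _ => ?_) (zpowers x) g
      (zpowers_le.mpr hx) (show zpowers x ^ᶜ g ≤ S from conj_zpowers x g ▸ zpowers_le.mpr hg) (mem_zpowers x)
    · rw [show g * h * x * (g * h)⁻¹ = g * (h * x * h⁻¹) * g⁻¹ by group, h1 h3]
      exact h2 (h1 h3 ▸ conj_mem_conj h h3)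
    refine mem_cent_iff.mp (family ih' hS hx hN hH
      (fun T => T ≤ S ∧ T ≠ ⊥ ∧ ∀ g, T ^ᶜ g ≤ S → S ⊓ C(S) ≤ T ^ᶜ g) (fun _ h => h.1)
      (fun T T' h h1 h2 => ⟨h2, fun e => h.2.1 (le_bot_iff.mp (e ▸ h1)), fun g hg =>
        (h.2.2 g ((conj_mono g h1).trans hg)).trans (conj_mono g h1)⟩)
      (fun T g h h1 => ⟨h1, fun e => h.2.1 (conj_eq_bot_iff.mp e), fun k hk => by
        rw [conj_conj] at hk ⊢; exact h.2.2 _ hk⟩)
      (fun T h => by simpa only [conj_one] using h.2.2 1 (by simpa only [conj_one] using h.1)) (fun T h e => ?_) (T := R)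
      ⟨h1.le, ne_bot_of_centricRadical h1 h3, fun g hg => ?_⟩
      ((conj_eq_of_mem_normalizer hn).le.trans h1.le))
    · exact J_ne_bot (hS.isPGroup.to_le h.1) h.2.1 (dvd_zero p) (le_bot_iff.mp (hQ ▸ le_pCore
        (normalizer_eq_top_iff.mp e) (hS.isPGroup.to_le ((J_le _ _).trans h.1))))
    · refine (inf_le_inf_left _ (centralizer_anti hg)).trans (centric_conj hS.isPGroup h2 ?_)
      exact le_of_centricRadical hS.isPGroup h2 h3 (centralizer_le_normalizer _)
        (le_normalizer_centralizer le_rfl) (pResidualOf_le _ _)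
  set Q := pCore p G
  set π := QuotientGroup.mk' Q
  have hπ : Function.Surjective π := QuotientGroup.mk'_surjective Q
  have hQS : Q ≤ S := hS.pCore_le
  have hS' : IsSylowIn p (S.map π) ⊤ := hS.map_mk' Q
  have proper : ∀ U : Subgroup (G ⧸ Q), U ≤ S.map π → U ≠ ⊥ → (normalizer (U : Set (G ⧸ Q))).comap π ≠ ⊤ :=
    fun U h1 h2 h => h2 (le_bot_iff.mp (pCore_quotient_pCore p G ▸ le_pCore (normalizer_eq_top_iff.mp (by
      rw [← map_comap_eq_self_of_surjective hπ (normalizer _), h, map_top_of_surjective _ hπ]))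
      (hS'.isPGroup.to_le h1)))
  have back : ∀ y, π y ∈ S.map π → y ∈ S := fun y hy => by
    have : y ∈ (S.map π).comap π := hy
    rwa [SolvBasic.comap_map_mk, sup_eq_left.mpr hQS] at this
  have hxS' : π x ∈ S.map π ⊓ C(S.map π) := ⟨mem_map_of_mem π hx, map_centralizer_le π S (mem_map_of_mem π hxZ.2)⟩
  by_cases hxQ : x ∈ Q; swap
  · have h0 : zpowers (π x) ≠ ⊥ := fun e => hxQ ((QuotientGroup.eq_one_iff x).mp (zpowers_eq_bot.mp e))
    have h1 := ih _ (SolvBasic.card_quotient_lt hQ) (S.map π) (π x) hS' hxS'.1 (fun n hn => by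
        obtain ⟨n, rfl⟩ := hπ n
        have := sub _ (proper (J 0 (S.map π)) (J_le _ _) (J_ne_bot hS'.isPGroup
          (fun e => h0 (le_bot_iff.mp (e ▸ zpowers_le.mpr hxS'.1))) (dvd_zero p)))
          (map_le_iff_le_comap.mp (le_normalizer.trans (normalizer_le_normalizer_J 0 _))) n hn
          (back _ (by
            rw [map_mul, map_mul, map_inv]
            exact J_le 0 _ ((mem_normalizer_iff.mp hn _).mp (ZJ_le_J 0 _ (inf_centralizer_le_ZJ _ hxS')))))
        rw [mem_cent_iff] at this ⊢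
        rw [← map_inv, ← map_mul, ← map_mul, this])
      (hH.imp_right fun h => h.imp (fun ⟨z, hz, e⟩ => ⟨π z, ⟨mem_map_of_mem π hz.1,
        map_centralizer_le π S (mem_map_of_mem π hz.2)⟩, by rw [← map_pow, e]⟩)
        fun h h' => h (involves_of_quotient h')) (π g)
      (by rw [← map_inv, ← map_mul, ← map_mul]; exact mem_map_of_mem π hg)
    have c : ∀ y : G ⧸ Q, y * π x * y⁻¹ = π x → y ∈ normalizer ((zpowers (π x) : Subgroup (G ⧸ Q)) : Set (G ⧸ Q)) :=
      fun y hy => mem_normalizer_iff_conj_eq.mpr (by rw [conj_zpowers, hy])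
    exact mem_cent_iff.mp (sub _ (proper _ (zpowers_le.mpr hxS'.1) h0)
      (fun s hs => c _ (mul_inv_eq_iff_eq_mul.mpr (hxS'.2 _ (mem_map_of_mem π hs)))) g (c _ h1) hg)
  have hQn : Q.Normal := inferInstance
  have sub' : ∀ L : Subgroup G, L ≠ ⊤ → S ≤ L → L ≤ centralizer {x} := fun L hL h l hl =>
    sub L hL h l hl (hQS (hQn.conj_mem x hxQ l))
  by_contra hne
  have hM : centralizer {x} ≠ (⊤ : Subgroup G) := fun e => hne (mem_cent_iff.mp (e ▸ mem_top g))
  have hC : S ⊓ C(Q) ≤ Q := by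
    have h1 := hS.inf_normal (N := C(Q)) le_top le_normalizer_of_normal
    refine le_pCore (normalizer_eq_top_iff.mp ?_) h1.isPGroup
    by_contra e
    exact hM (top_le_iff.mp (h1.frattini_top.ge.trans (sup_le
      (fun c hc => mem_centralizer_singleton_iff.mpr (hc x hxQ).symm)
      (sub' _ e (le_normalizer_inf le_normalizer le_normalizer_of_normal)))))
  have hJ : ¬ J 0 S ≤ Q := fun hJ => by
    rw [← J_eq_of_J_le hJ hQS] at hN
    exact hM (top_le_iff.mp (((normal_iff_top_le.mp hQn).trans (normalizer_le_normalizer_J 0 Q)).trans hN))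
  set V := Q ⊓ C(Q)
  have hVS : V ≤ S := inf_le_left.trans hQS
  have hV : AbExp 0 V := ⟨fun x hx y hy => hy.2 x hx.1, fun _ _ => pow_zero _⟩
  have hZV : S ⊓ C(S) ≤ V := le_inf ((inf_le_inf_left _ (centralizer_anti hQS)).trans hC)
    (inf_le_right.trans (centralizer_anti hQS))
  rw [J_le_iff] at hJ
  push Not at hJ
  obtain ⟨A, hA, hAQ⟩ := hJ
  obtain ⟨A, hA, hAQ, hmax⟩ := exists_maxAb_max V (fun A => ¬ A ≤ Q) hA hAQ
  have hVA : V ≤ normalizer (A : Set G) := by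
    by_contra hn
    obtain ⟨S, s1, s2, s3, -⟩ := hA.thompson_replacement hS.isPGroup hVS hV le_normalizer_of_normal hn
    exact hn ((s1.le_of_le_centralizer hVS hV ((not_not.mp (hmax S s1 s2)).trans
      (le_centralizer_iff.mp inf_le_right))).trans s3)
  have hM' := hS.of_le hSx le_top
  have hAp := hS.isPGroup.to_le hA.le
  refine hM (config G V A x inferInstance hV.1 (hS.isPGroup.to_le hVS) hAp
    (commutator_eq_bot_iff_le_centralizer.mp (quadratic_of_le_normalizer hA.abExp.1 hVA))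
    (fun W hW => ?_) (hZV hxZ) (fun k => ⟨fun hk => ?_, fun hk => hk.symm ▸ centralizer_anti hA.le hxZ.2⟩)
    (hH.imp_right fun h => h.imp_left fun ⟨z, hz, e⟩ P hP hPx => ?_))
  · have c1 := hA.card_le (B := (C(W) ⊓ A) ⊔ W) (sup_le (inf_le_right.trans hA.le) (hW.trans hVS))
      (AbExp.sup (hA.abExp.mono inf_le_right) (hV.mono hW) inf_le_left)
    have c2 := card_sup_mul_card_inf (le_normalizer_of_le_centralizer (inf_le_left : C(W) ⊓ A ≤ C(W)))
    have c3 := card_le_of_le (inf_le_inf_right W (inf_le_right.trans hA.abExp.le_centralizer) :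
      (C(W) ⊓ A) ⊓ W ≤ C(A) ⊓ W)
    rw [← card_inf_mul_relIndex C(W) A] at c1
    rw [← card_inf_mul_relIndex C(A) W] at c2
    have c4 := (Nat.mul_le_mul c1 c3).trans' c2.ge
    rw [mul_assoc, mul_comm (C(W).relIndex A)] at c4
    exact Nat.le_of_mul_le_mul_left (Nat.le_of_mul_le_mul_left c4 Nat.card_pos) Nat.card_pos
  · obtain ⟨m, hm, hm'⟩ := hM'.exists_conj_le (Q := A ^ᶜ k⁻¹) (by
      rw [conj_le_iff_le_conj_inv, inv_inv, conj_centralizer_singleton]
      exact fun a ha => mem_centralizer_singleton_iff.mpr (hk a ha)) (isPGroup_conj hAp _)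
    have := family ih' hS hx hN hH (fun T => T ≤ S ∧ ∃ A, MaxAb 0 S A ∧ ¬ A ≤ Q ∧ A ≤ T) (fun _ h => h.1)
      (fun T T' ⟨_, A, h1, h2, h3⟩ h4 h5 => ⟨h5, A, h1, h2, h3.trans h4⟩)
      (fun T g ⟨_, A, h1, h2, h3⟩ h4 => ⟨h4, A ^ᶜ g, h1.of_card_le ((conj_mono g h3).trans h4)
        (h1.abExp.map _) (card_conj A g).ge,
        fun e => h2 (by simpa only [conj_conj_inv] using conj_le_of_normal e g⁻¹), conj_mono g h3⟩)
      (fun T ⟨_, A, h1, _, h3⟩ => ((inf_centralizer_le_ZJ S).trans h1.ZJ_le).trans h3)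
      (fun T ⟨h0, A, h1, h2, h3⟩ e => h2 ((h1.of_le h3 h0).le_J.trans (le_pCore (normalizer_eq_top_iff.mp e)
        (hS.isPGroup.to_le ((J_le _ _).trans h0))))) (T := A) ⟨hA.le, A, hA, hAQ, le_rfl⟩ (g := m * k⁻¹)
      (by rwa [← conj_conj])
    rw [mul_mem_cancel_left hm, inv_mem_iff] at this
    exact mem_cent_iff.mp this
  · obtain ⟨m, hm, hm'⟩ := hM'.exists_conj_le hPx hP
    refine ⟨m⁻¹ * z * m, ⟨by simpa using (inferInstance : V.Normal).conj_mem z (hZV hz) m⁻¹, ?_⟩, ?_⟩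
    · have := centralizer_anti hm' hz.2
      rw [← conj_centralizer] at this
      exact mem_conj_iff.mp this
    · have := mem_cent_iff.mp (inv_mem hm)
      rw [← this, ← e, ← conj_pow, inv_inv]

end Cfsg.Agent.Lib.WeakClosed
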