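import Cfsg.Agent.Lib.WrDefs

/-! The abstract amalgam argument for S1832: the critical distance is one. -/

set_option autoImplicit false

namespace Cfsg.Agent.Lib.WrAb

open Cfsg Subgroup Cfsg.Agent.Lib.PCoreConj Cfsg.Agent.Lib.WR

universe u

variable {G : Type u} [Group G]

/-- four-groups -/
structure Fo (X : Subgroup G) : Prop where
  card : Nat.card X = 4
  sq : ∀ x ∈ X, x ^ 2 = 1
  cm : ∀ x ∈ X, ∀ y ∈ X, Commute x y

theorem cj {g x : G} : g * x * g⁻¹ = x ↔ Commute g x := mul_inv_eq_iff_eq_mul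

theorem cj_mem {X : Subgroup G} {g x : G} (hg : g ∈ normalizer (X : Set G)) (hx : x ∈ X) : g * x * g⁻¹ ∈ X :=
  (mem_normalizer_iff.1 hg x).1 hx

theorem cj_ne {g x : G} (hx : x ≠ 1) : g * x * g⁻¹ ≠ 1 := fun e => hx (by simpa using e)

namespace Fo

variable {X : Subgroup G} (h : Fo X) {a b r s g x : G}
include h

theorem mm (hx : x ∈ X) : x * x = 1 := by rw [← pow_two]; exact h.sq x hx

theorem inv (hx : x ∈ X) : x⁻¹ = x := inv_eq_of_mul_eq_one_right (h.mm hx)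

theorem cases (ha : a ∈ X) (hb : b ∈ X) (hx : x ∈ X) (ha1 : a ≠ 1) (hb1 : b ≠ 1) (hab : b ≠ a) :
    x = 1 ∨ x = a ∨ x = b ∨ x = a * b := by
  by_cases hx1 : x = 1
  · exact Or.inl hx1
  have : Finite X := Nat.finite_of_card_ne_zero (by rw [h.card]; decide)
  have := JAmalg.four_cases (G := X) (W := ⊤) (by rw [card_top, h.card])
    (fun w _ => Subtype.ext (h.sq w w.2)) (a := ⟨a, ha⟩) (b := ⟨b, hb⟩) (u := ⟨x, hx⟩) trivial trivial trivial
    (fun e => ha1 (congrArg Subtype.val e)) (fun e => hb1 (congrArg Subtype.val e))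
    (fun e => hx1 (congrArg Subtype.val e)) (fun e => hab (congrArg Subtype.val e))
  exact Or.inr (this.imp (congrArg Subtype.val) (Or.imp (congrArg Subtype.val) (congrArg Subtype.val)))

theorem two : ∃ a ∈ X, ∃ b ∈ X, a ≠ 1 ∧ b ≠ 1 ∧ a ≠ b := by
  have : Finite X := Nat.finite_of_card_ne_zero (by rw [h.card]; decide)
  have := Fintype.ofFinite X
  obtain ⟨a, b, c, h1, h2, h3⟩ := Fintype.two_lt_card_iff.1
    (show 2 < Fintype.card X by rw [← Nat.card_eq_fintype_card, h.card]; decide)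
  have k1 : a.1 ≠ b.1 := fun e => h1 (Subtype.ext e)
  have k2 : a.1 ≠ c.1 := fun e => h2 (Subtype.ext e)
  have k3 : b.1 ≠ c.1 := fun e => h3 (Subtype.ext e)
  by_cases ha : a.1 = 1
  · exact ⟨b, b.2, c, c.2, fun e => k1 (ha.trans e.symm), fun e => k2 (ha.trans e.symm), k3⟩
  by_cases hb : b.1 = 1
  · exact ⟨a, a.2, c, c.2, ha, fun e => k3 (hb.trans e.symm), k2⟩
  · exact ⟨a, a.2, b, b.2, ha, hb, k1⟩

theorem other (r : G) : ∃ a ∈ X, a ≠ 1 ∧ a ≠ r := by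
  obtain ⟨a, ha, b, hb, h1, h2, h3⟩ := h.two
  by_cases e : a = r
  · exact ⟨b, hb, h2, fun e' => h3 (e.trans e'.symm)⟩
  · exact ⟨a, ha, h1, e⟩

theorem all (hr : r ∈ X) (hs : s ∈ X) (r1 : r ≠ 1) (s1 : s ≠ 1) (hrs : s ≠ r) (h1 : Commute g r)
    (h2 : Commute g s) (hx : x ∈ X) : Commute g x := by
  rcases h.cases hr hs hx r1 s1 hrs with e | e | e | e <;> rw [e]
  exacts [Commute.one_right g, h1, h2, h1.mul_right h2]

theorem fixr (hg : g ∈ normalizer (X : Set G)) (hr : r ∈ X) (r1 : r ≠ 1) (h1 : Commute g r) (ha : a ∈ X) :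
    g * a * g⁻¹ = a ∨ g * a * g⁻¹ = r * a := by
  by_cases a1 : a = 1
  · left; simp [a1]
  by_cases ar : a = r
  · left; rw [ar]; exact cj.2 h1
  rcases h.cases hr ha (cj_mem hg ha) r1 a1 ar with e | e | e | e
  · exact absurd e (cj_ne a1)
  · exact absurd (by rw [← cj.2 h1] at e; simpa using e) ar
  exacts [Or.inl e, Or.inr e]

end Fo

section Walk

variable {Γ : Type u} {A : Γ → Γ → Prop} {α β γ : Γ} {n : ℕ}

theorem wk_snoc (h1 : Wk A n α β) (h2 : A β γ) : Wk A (n + 1) α γ := by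
  induction n generalizing α with
  | zero => exact ⟨γ, (show α = β from h1) ▸ h2, rfl⟩
  | succ n ih => obtain ⟨δ, h3, h4⟩ := h1; exact ⟨δ, h3, ih h4⟩

theorem wk_last (h1 : Wk A (n + 1) α γ) : ∃ β, Wk A n α β ∧ A β γ := by
  induction n generalizing α with
  | zero => obtain ⟨δ, h3, h4⟩ := h1; exact ⟨α, rfl, (show δ = γ from h4) ▸ h3⟩
  | succ n ih =>
    obtain ⟨δ, h3, h4⟩ := h1
    obtain ⟨β, h5, h6⟩ := ih h4
    exact ⟨β, ⟨δ, h3, h5⟩, h6⟩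

theorem wk_symm (hs : ∀ {α β}, A α β → A β α) (h1 : Wk A n α β) : Wk A n β α := by
  induction n generalizing α with
  | zero => exact Eq.symm h1
  | succ n ih => obtain ⟨δ, h3, h4⟩ := h1; exact wk_snoc (ih h4) (hs h3)

theorem wk_one (h1 : A α β) : Wk A 1 α β := ⟨β, h1, rfl⟩

end Walk

theorem norm_sSup {P : Set (Subgroup G)} {g : G} (h1 : ∀ Y ∈ P, ∀ y ∈ Y, g * y * g⁻¹ ∈ sSup P)
    (h2 : ∀ Y ∈ P, ∀ y ∈ Y, g⁻¹ * y * g⁻¹⁻¹ ∈ sSup P) : g ∈ normalizer ((sSup P : Subgroup G) : Set G) := by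
  have k : ∀ g : G, (∀ Y ∈ P, ∀ y ∈ Y, g * y * g⁻¹ ∈ sSup P) → (sSup P) ^ᶜ g ≤ sSup P := fun g hg =>
    map_le_iff_le_comap.2 (sSup_le fun Y hY y hy => hg Y hY y hy)
  exact mem_normalizer_iff_conj_eq.2 (le_antisymm (k g h1) (by
    have := conj_mono g (k g⁻¹ h2); rwa [conj_inv_conj] at this))

variable {Γ : Type u} [MulAction G Γ] {A : Γ → Γ → Prop} {S : Γ → Subgroup G → Prop}

/-- `r` is the involution of `X` fixed by the edge group -/
structure U (S : Γ → Subgroup G → Prop) (α β : Γ) (X : Subgroup G) (r : G) : Prop where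
  s : S α X
  mem : r ∈ X
  ne : r ≠ 1
  fix : ∀ t : G, t • α = α → t • β = β → t ∈ normalizer (X : Set G) → Commute t r

/-- the strands of each vertex fix the other -/
structure Mu (S : Γ → Subgroup G → Prop) (α β : Γ) : Prop where
  l : ∀ X, S α X → ∀ x ∈ X, x • β = β
  r : ∀ X, S β X → ∀ x ∈ X, x • α = α

/-- the data of a critical pair -/
structure D (S : Γ → Subgroup G → Prop) (α β : Γ) (X Y : Subgroup G) (r : G) : Prop where
  mu : Mu S α β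
  sX : S α X
  sY : S β Y
  rX : r ∈ X
  rY : r ∈ Y
  ne : r ≠ 1
  nc : ∃ x ∈ X, ∃ y ∈ Y, ¬ Commute x y

variable {α β γ δ α' ε : Γ} {X Y X' : Subgroup G} {a r g j k x : G}

theorem Mu.symm (m : Mu S α β) : Mu S β α := ⟨m.r, m.l⟩

theorem D.symm (d : D S α β X Y r) : D S β α Y X r :=
  ⟨d.mu.symm, d.sY, d.sX, d.rY, d.rX, d.ne, by
    obtain ⟨x, hx, y, hy, e⟩ := d.nc; exact ⟨y, hy, x, hx, fun c => e c.symm⟩⟩

theorem inv_fix (hg : g • α = α) : g⁻¹ • α = α := inv_smul_eq_iff.2 hg.symm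

variable (h : Gr G Γ A S)
include h

theorem fo (hX : S α X) : Fo X := ⟨h.card hX, h.sq hX, h.cm hX hX⟩

theorem sconj (hX : S α X) (hg : g • α = α) : S α (X ^ᶜ g) := by
  have := h.ssm g hX; rwa [hg] at this

theorem eq_of_mem (hX : S α X) (hY : S α Y) (h1 : r ∈ X) (h2 : r ∈ Y) (r1 : r ≠ 1) : X = Y :=
  (h.disj hX hY).resolve_right fun e => r1 (mem_bot.1 (e ▸ mem_inf.2 ⟨h1, h2⟩))

theorem norm_of_fix (hX : S α X) (hg : g • α = α) (h1 : r ∈ X) (r1 : r ≠ 1) (c : Commute g r) :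
    g ∈ normalizer (X : Set G) :=
  mem_normalizer_iff_conj_eq.2 (eq_of_mem h (sconj h hX hg) hX (by
    have := conj_mem_conj g h1; rwa [cj.2 c] at this) h1 r1)

theorem U.uniq (hab : A α β) {r' : G} (u1 : U S α β X r) (u2 : U S α β X r') : r = r' := by
  obtain ⟨j, j1, j2, j3, x, hx, j4⟩ := h.cross hab u1.s
  by_contra e
  exact j4 ((fo h u1.s).all u2.mem u1.mem u2.ne u1.ne e (u2.fix j j1 j2 (j3 X (Or.inl u1.s)))
    (u1.fix j j1 j2 (j3 X (Or.inl u1.s))) hx)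

theorem U.smul (u1 : U S α β X r) (g : G) : U S (g • α) (g • β) (X ^ᶜ g) (g * r * g⁻¹) := by
  refine ⟨h.ssm g u1.s, conj_mem_conj g u1.mem, cj_ne u1.ne, fun t t1 t2 t3 => ?_⟩
  have := u1.fix (g⁻¹ * t * g) (by rw [mul_smul, mul_smul, t1, inv_smul_smul])
    (by rw [mul_smul, mul_smul, t2, inv_smul_smul]) (by
      rw [mem_normalizer_iff_conj_eq] at t3 ⊢
      rw [← conj_conj, ← conj_conj, t3, conj_conj_inv])
  have e := congrArg (fun z => g * z * g⁻¹) this.eq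
  simp only [mul_assoc, mul_inv_cancel_left, mul_inv_cancel, mul_one] at e
  show _ = _
  simp only [mul_assoc, e]

theorem U.smul' (u1 : U S α β X r) (g1 : g • α = α) (g2 : g ∈ normalizer (X : Set G)) :
    U S α (g • β) X (g * r * g⁻¹) := by
  have := u1.smul h g
  rwa [g1, conj_eq_of_mem_normalizer g2] at this

theorem Mu.norm (m : Mu S α α') (hX : S α X) (hX' : S α' X') (hx : x ∈ X') : x ∈ normalizer (X : Set G) := by
  by_contra hn
  have fX := fo h hX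
  have fX' := fo h hX'
  have xa := m.r X' hX' x hx
  have nc : ∀ w ∈ X, w ≠ 1 → ¬ Commute w x := fun w hw w1 c => hn (norm_of_fix h hX xa hw w1 c.symm)
  obtain ⟨w₁, h1, w₂, h2, e1, e2, e3⟩ := fX.two
  obtain ⟨w₀, h0, e0, n0⟩ : ∃ w ∈ X, w ≠ 1 ∧ w ∈ normalizer (X' : Set G) := by
    rcases h.two hX' (sconj h hX' (m.l X hX w₁ h1)) (sconj h hX' (m.l X hX w₂ h2)) with e | e | e
    · exact ⟨w₁, h1, e1, mem_normalizer_iff_conj_eq.2 e.symm⟩
    · exact ⟨w₂, h2, e2, mem_normalizer_iff_conj_eq.2 e.symm⟩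
    · refine ⟨w₂⁻¹ * w₁, X.mul_mem (X.inv_mem h2) h1, fun e => e3 (inv_mul_eq_one.1 e).symm,
        mem_normalizer_iff_conj_eq.2 ?_⟩
      rw [← conj_conj, e, conj_conj_inv]
  have hr : w₀ * x * w₀⁻¹ * x⁻¹ ∈ X' := X'.mul_mem (cj_mem n0 hx) (X'.inv_mem hx)
  have r1 : w₀ * x * w₀⁻¹ * x⁻¹ ≠ 1 := fun e => nc w₀ h0 e0 (cj.1 (mul_inv_eq_one.1 e))
  have cr : ∀ w ∈ X, Commute w (w₀ * x * w₀⁻¹ * x⁻¹) := fun w hw => by
    have := (fX.cm w hw w₀ h0).mul_right (h.cm hX (sconj h hX xa) w hw _ (conj_mem_conj x (X.inv_mem h0)))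
    simpa only [mul_assoc] using this
  generalize w₀ * x * w₀⁻¹ * x⁻¹ = r at hr r1 cr
  have k : ∀ w ∈ X, w ≠ 1 → w * x * w⁻¹ = r * x := fun w hw w1 =>
    (fX'.fixr (norm_of_fix h hX' (m.l X hX w hw) hr r1 (cr w hw)) hr r1 (cr w hw) hx).resolve_left
      fun e => nc w hw w1 (cj.1 e)
  refine nc (w₁ * w₂) (X.mul_mem h1 h2) (fun e => e3 (by rw [mul_eq_one_iff_eq_inv.1 e, fX.inv h2])) (cj.1 ?_)
  calc w₁ * w₂ * x * (w₁ * w₂)⁻¹ = w₁ * (w₂ * x * w₂⁻¹) * w₁⁻¹ := by group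
    _ = (w₁ * r * w₁⁻¹) * (w₁ * x * w₁⁻¹) := by rw [k w₂ h2 e2]; group
    _ = x := by rw [cj.2 (cr w₁ h1), k w₁ h1 e1, ← mul_assoc, fX'.mm hr, one_mul]

theorem Mu.comm_mem (m : Mu S α α') (hX : S α X) (hX' : S α' X') (hx : x ∈ X) (ha : a ∈ X') :
    x * a * x⁻¹ * a⁻¹ ∈ X ∧ x * a * x⁻¹ * a⁻¹ ∈ X' :=
  ⟨by simpa only [mul_assoc] using X.mul_mem hx (cj_mem (m.norm h hX hX' ha) (X.inv_mem hx)),
    X'.mul_mem (cj_mem (m.symm.norm h hX' hX hx) ha) (X'.inv_mem ha)⟩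

theorem Mu.exists_D (m : Mu S α α') (c : Cr S α α') : ∃ X X' r, D S α α' X X' r := by
  obtain ⟨X, X', hX, hX', x, hx, y, hy, e⟩ := c
  exact ⟨X, X', _, m, hX, hX', (m.comm_mem h hX hX' hx hy).1, (m.comm_mem h hX hX' hx hy).2,
    fun e' => e (cj.1 (mul_inv_eq_one.1 e')), x, hx, y, hy, e⟩

theorem D.far (d : D S α α' X X' r) (hY : S α Y) (hne : Y ≠ X) (ha : a ∈ X') {y : G} (hy : y ∈ Y) :
    Commute a y := by
  by_contra e
  obtain ⟨k1, k2⟩ := d.mu.comm_mem h hY d.sY hy ha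
  have k3 : y * a * y⁻¹ * a⁻¹ ≠ 1 := fun e' => e (cj.1 (mul_inv_eq_one.1 e')).symm
  obtain ⟨x, hx, z, hz, e'⟩ := d.nc
  exact e' ((fo h d.sY).all d.rY k2 d.ne k3 (fun e => hne (eq_of_mem h hY d.sX (e ▸ k1) d.rX d.ne))
    (h.cm d.sX d.sX x hx r d.rX) (h.cm d.sX hY x hx _ k1) hz)

/-- an element of `X'` other than `1, r` fixes only `r` in `X` -/
theorem D.only (d : D S α α' X X' r) (ha : a ∈ X') (a1 : a ≠ 1) (ar : a ≠ r) {s : G} (hs : s ∈ X) (s1 : s ≠ 1)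
    (c : Commute a s) : s = r := by
  by_contra e
  obtain ⟨x, hx, z, hz, e'⟩ := d.nc
  have := (fo h d.sX).all d.rX hs d.ne s1 e (h.cm d.sY d.sY a ha r d.rY) c hx
  exact e' ((fo h d.sY).all d.rY ha d.ne a1 ar (h.cm d.sX d.sX x hx r d.rX) this.symm hz)

theorem D.u (d : D S α α' X X' r) (hab : A α β) (hb : ∀ a ∈ X', a • β = β) : U S α β X r := by
  obtain ⟨u, hu, u1, u2⟩ := h.u hab d.sX
  obtain ⟨a, ha, a1, ar⟩ := (fo h d.sY).other r
  have := d.only h ha a1 ar hu u1 (u2 a (d.mu.r _ d.sY a ha) (hb a ha) (d.mu.norm h d.sX d.sY ha))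
  exact ⟨d.sX, d.rX, d.ne, this ▸ u2⟩

theorem D.moves (d : D S α α' X X' r) (u : U S α β X r) (ha : a ∈ X') (a1 : a ≠ 1) (ar : a ≠ r)
    (g1 : g • α = α) (g2 : g ∈ normalizer (X : Set G)) (g3 : ¬ Commute g r) : a • g • β ≠ g • β := fun e =>
  g3 (cj.1 (d.only h ha a1 ar (u.smul' h g1 g2).mem (u.smul' h g1 g2).ne
    ((u.smul' h g1 g2).fix a (d.mu.r _ d.sY a ha) e (d.mu.norm h d.sX d.sY ha))))

/-- the element moving `k • β` back to `β` -/
theorem D.back (d : D S α α' X X' r) (hab : A α β) (u : U S α β X r) (ha : a ∈ X') (a1 : a ≠ 1) (ar : a ≠ r) :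
    ∃ k j : G, k • α = α ∧ k ∈ normalizer (X : Set G) ∧ ¬ Commute k r ∧ j • α = α ∧ j • k • β = k • β ∧
      (∀ Y, S (k • β) Y → j ∈ normalizer (Y : Set G)) ∧ ¬ Commute j r ∧ (j * a) • k • β = β := by
  obtain ⟨k, k1, k2, k3, k4⟩ := h.three d.sX
  have hg : A α (k • β) := by have := h.asm k hab; rwa [k1] at this
  obtain ⟨j, j1, j2, j3, x, hx, j4⟩ := h.cross hg d.sX
  have fX := fo h d.sX
  have u' := u.smul' h k1 k2
  have kr : k * r * k⁻¹ ≠ r := fun e => d.ne (k3 r d.rX (cj.1 e))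
  have ju := u'.fix j j1 j2 (j3 X (Or.inl d.sX))
  have jr : ¬ Commute j r := fun c => j4 (fX.all d.rX u'.mem d.ne u'.ne kr c ju hx)
  have aN : ∀ Y, S α Y → a ∈ normalizer (Y : Set G) := fun Y hY => d.mu.norm h hY d.sY ha
  refine ⟨k, j, k1, k2, fun c => kr (cj.2 c), j1, j2, fun Y hY => j3 Y (Or.inr hY), jr, ?_⟩
  rw [← mul_smul]
  refine h.fix hab (by rw [mul_smul, mul_smul, k1, d.mu.r _ d.sY a ha, j1]) fun Y hY => ?_
  by_cases e : Y = X
  · subst e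
    refine ⟨mul_mem (mul_mem (j3 Y (Or.inl hY)) (aN Y hY)) k2, fun w hw hw' => ?_⟩
    by_cases w1 : w = 1
    · rw [w1]; exact Commute.one_right _
    rw [← u.uniq h hab ⟨hY, hw, w1, hw'⟩]
    have e1 := (fX.fixr (aN Y hY) d.rX d.ne (h.cm d.sY d.sY a ha r d.rY) u'.mem).resolve_left
      fun e => kr (d.only h ha a1 ar u'.mem u'.ne (cj.1 e))
    have e2 := (fX.fixr (j3 Y (Or.inl hY)) u'.mem u'.ne ju d.rX).resolve_left fun e => jr (cj.1 e)
    refine cj.1 ?_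
    calc j * a * k * r * (j * a * k)⁻¹ = j * (a * (k * r * k⁻¹) * a⁻¹) * j⁻¹ := by group
      _ = (j * r * j⁻¹) * (j * (k * r * k⁻¹) * j⁻¹) := by rw [e1]; group
      _ = r := by rw [e2, cj.2 ju, (fX.cm _ u'.mem _ d.rX).eq, mul_assoc r, fX.mm u'.mem, mul_one]
  · have kN : k ∈ normalizer (Y : Set G) :=
      centralizer_le_normalizer _ (mem_centralizer_iff.2 fun y hy => (k4 Y hY e y hy).symm.eq)
    refine ⟨mul_mem (mul_mem (j3 Y (Or.inl hY)) (aN Y hY)) kN, fun w hw hw' => ?_⟩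
    by_cases w1 : w = 1
    · rw [w1]; exact Commute.one_right _
    have u2 := (U.mk hY hw w1 hw').smul' h k1 kN
    rw [cj.2 (k4 Y hY e w hw)] at u2
    exact ((u2.fix j j1 j2 (j3 Y (Or.inl hY))).mul_left (d.far h hY e ha hw)).mul_left (k4 Y hY e w hw)

variable {b : ℕ} (hb : ∀ n < b, ∀ α β, Wk A n α β → ¬ Cr S α β)
include hb

omit h [MulAction G Γ] in
theorem near {n : ℕ} (hn : n < b) (w : Wk A n α β) (hX : S α X) (hY : S β Y) (hx : x ∈ X) {y : G} (hy : y ∈ Y) :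
    Commute x y := by
  by_contra e
  exact hb n hn α β w ⟨X, Y, hX, hY, x, hx, y, hy, e⟩

theorem fixes {n : ℕ} (hn : n ≤ b) (w : Wk A n α β) (hX : S α X) (hx : x ∈ X) : x • β = β := by
  induction n generalizing β with
  | zero => exact (show α = β from w) ▸ h.st hX x hx
  | succ n ih =>
    obtain ⟨γ, w1, w2⟩ := wk_last w
    exact h.Q w2 (ih (by omega) w1) fun Y hY y hy => near hb (by omega) w1 hX hY hx hy

theorem mu {n : ℕ} (hn : n ≤ b) (w : Wk A n α β) : Mu S α β :=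
  ⟨fun _ hX _ hx => fixes h hb hn w hX hx, fun _ hX _ hx => fixes h hb hn (wk_symm h.symm w) hX hx⟩

theorem shift (b2 : 2 ≤ b) (d : D S α α' X X' r) (hg : A α γ) (he : A ε α') (w : Wk A b γ ε) (ha : a ∈ X')
    (hm : a • γ ≠ γ) : Cr S γ ε := by
  by_contra c
  have fX' := fo h d.sY
  have aa := d.mu.r _ d.sY a ha
  have k : ∀ Y ∈ {Y | S α Y ∨ S γ Y}, ∀ y ∈ Y, a * y * a⁻¹ ∈ sSup {Y | S α Y ∨ S γ Y} := by
    rintro Y (hY | hY) y hy
    · exact le_sSup (s := {Y | S α Y ∨ S γ Y}) (Or.inl hY) (cj_mem (d.mu.norm h hY d.sY ha) hy)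
    have y1 : y • α' = α' := h.Q he (fixes h hb le_rfl w hY hy) fun Z hZ z hz => by
      by_contra e; exact c ⟨Y, Z, hY, hZ, y, hy, z, hz, e⟩
    have y2 : Commute y r := near hb (by omega) (wk_one (h.symm hg)) hY d.sX hy d.rX
    have y3 : y ∈ sSup {Y | S α Y ∨ S γ Y} := le_sSup (s := {Y | S α Y ∨ S γ Y}) (Or.inr hY) hy
    have y4 : r ∈ sSup {Y | S α Y ∨ S γ Y} := le_sSup (s := {Y | S α Y ∨ S γ Y}) (Or.inl d.sX) d.rX
    rcases fX'.fixr (norm_of_fix h d.sY y1 d.rY d.ne y2) d.rY d.ne y2 ha with e | e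
    · rwa [cj.2 (cj.1 e).symm]
    · have : a * y * a⁻¹ = r * y := by
        calc a * y * a⁻¹ = a * (y * a * y⁻¹) * y := by rw [fX'.inv ha]; group
          _ = r * y := by rw [e, ← mul_assoc, (fX'.cm a ha r d.rY).eq, mul_assoc r, fX'.mm ha, mul_one]
      rw [this]; exact mul_mem y4 y3
  have k' : ∀ t : G, t • α = α → t • γ = γ →
      ∀ Y ∈ {Y | S α Y ∨ S γ Y}, ∀ y ∈ Y, t * y * t⁻¹ ∈ sSup {Y | S α Y ∨ S γ Y} := fun t t1 t2 Y hY y hy =>
    le_sSup (s := {Y | S α Y ∨ S γ Y}) (hY.imp (fun e => sconj h e t1) fun e => sconj h e t2) (conj_mem_conj t hy)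
  exact h.F1 hg (h.max _ hg aa hm (norm_sSup k (by rw [fX'.inv ha] at k ⊢; rw [fX'.inv ha]; exact k))
    fun t t1 t2 => norm_sSup (k' t t1 t2) (k' t⁻¹ (inv_fix t1) (inv_fix t2)))

/-- one shift with the element moving back -/
theorem step {n : ℕ} (bn : b = n + 2) (d : D S α α' X X' r) (hab : A α β) (w : Wk A n β ε) (he : A ε α')
    (ha : a ∈ X') (a1 : a ≠ 1) (ar : a ≠ r) :
    ∃ γ j X₁ X₂ s, A α γ ∧ D S γ ε X₁ X₂ s ∧ j ∈ normalizer (X₁ : Set G) ∧ ¬ Commute j r ∧ Commute j s ∧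
      Commute a s ∧ U S β α (X₁ ^ᶜ (j * a)) s := by
  have u : U S α β X r := d.u h hab fun y hy =>
    fixes h hb (by omega) (wk_symm h.symm (wk_snoc w he)) d.sY hy
  obtain ⟨k, j, k1, k2, k3, j1, j2, j3, j4, j5⟩ := d.back h hab u ha a1 ar
  have hg : A α (k • β) := by have := h.asm k hab; rwa [k1] at this
  have w' : Wk A b (k • β) ε := bn ▸ ⟨α, h.symm hg, β, hab, w⟩
  obtain ⟨X₁, X₂, s, d'⟩ := (mu h hb le_rfl w').exists_D h
    (shift h hb (by omega) d hg he w' ha (d.moves h u ha a1 ar k1 k2 k3))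
  have u' : U S (k • β) α X₁ s := d'.u h (h.symm hg) fun y hy =>
    fixes h hb (n := n + 1) (by omega) (wk_symm h.symm ⟨β, hab, w⟩) d'.sY hy
  have c1 : Commute j s := u'.fix j j2 j1 (j3 _ d'.sX)
  have c2 : Commute a s := near hb (by omega) (wk_one (h.symm he)) d.sY d'.sY ha d'.rY
  have u2 := u'.smul h (j * a)
  rw [j5, mul_smul, d.mu.r _ d.sY a ha, j1, cj.2 (c1.mul_left c2)] at u2
  exact ⟨_, j, X₁, X₂, s, hg, d', j3 _ d'.sX, j4, c1, c2, u2⟩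

theorem two_false (b2 : b = 0 + 2) (d : D S α α' X X' r) (hab : A α β) (he : A β α') : False := by
  obtain ⟨a, ha, a1, ar⟩ := (fo h d.sY).other r
  obtain ⟨γ, j, X₁, X₂, s, hg, d', j1, j2, j3, c, u⟩ := step h hb b2 d hab rfl he ha a1 ar
  have e : X₁ ^ᶜ (j * a) = X₂ := eq_of_mem h u.s d'.sY u.mem d'.rY d'.ne
  have f1 := fo h d'.sX
  have fX' := fo h d.sY
  have hm : ∀ z ∈ X₁, j * (a * z * a⁻¹) * j⁻¹ ∈ X₂ := fun z hz => by
    have := conj_mem_conj (j * a) hz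
    rw [e] at this
    simpa only [mul_inv_rev, mul_assoc] using this
  obtain ⟨z, hz, nz⟩ : ∃ z ∈ X₁, ¬ Commute z (a * z * a⁻¹) := by
    obtain ⟨x, hx, y, hy, n⟩ := d'.nc
    rw [← e, mem_conj_iff'] at hy
    obtain ⟨z', hz', rfl⟩ := hy
    have hz : j⁻¹ * x * j⁻¹⁻¹ ∈ X₁ := cj_mem (inv_mem j1) hx
    have n' : ¬ Commute (j⁻¹ * x * j⁻¹⁻¹) (a * z' * a⁻¹) := fun c => n (by
      have := congrArg (fun z => j * z * j⁻¹) c.eq
      show _ = _
      simpa only [mul_inv_rev, mul_assoc, inv_inv, mul_inv_cancel_left, mul_inv_cancel, mul_one,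
        inv_mul_cancel_left] using this)
    generalize j⁻¹ * x * j⁻¹⁻¹ = z at hz n'
    have cs : ∀ y ∈ X₁, Commute s (a * y * a⁻¹) := fun y hy =>
      (c.symm.mul_right (f1.cm s d'.rX y hy)).mul_right c.symm.inv_right
    refine ⟨z, hz, fun c' => n' ?_⟩
    rcases f1.cases d'.rX hz hz' d'.ne (fun e => n' (e ▸ Commute.one_left _)) (fun e => n' (e ▸ cs z' hz'))
      with e | e | e | e <;> rw [e]
    · simp
    · rw [cj.2 c]; exact f1.cm z hz s d'.rX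
    · exact c'
    · have : a * (s * z) * a⁻¹ = s * (a * z * a⁻¹) := by rw [← mul_assoc a, c.eq]; group
      rw [this]; exact (f1.cm z hz s d'.rX).mul_right c'
  have ab : a • β = β := fixes h hb (by omega) (wk_one (h.symm he)) d.sY ha
  have zb : z • β = β := d'.mu.l _ d'.sX z hz
  have ac : ∀ Y, S β Y → ∀ y ∈ Y, Commute a y := fun Y hY y hy =>
    near hb (by omega) (wk_one (h.symm he)) d.sY hY ha hy
  have zr : Commute z r := near hb (by omega) (wk_one (h.symm hg)) d'.sX d.sX hz d.rX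
  have ar' : Commute a r := fX'.cm a ha r d.rY
  have zz := f1.mm hz
  have zi := f1.inv hz
  have ai := fX'.inv ha
  have qa : (z * (a * z * a⁻¹)) • α' = α' := by
    refine h.Q he (by simp only [mul_smul, inv_fix ab, ab, zb]) fun Y hY y hy => cj.1 ?_
    have y' : z * y * z⁻¹ ∈ Y := cj_mem (d'.mu.symm.norm h hY d'.sX hz) hy
    calc z * (a * z * a⁻¹) * y * (z * (a * z * a⁻¹))⁻¹ = z * (a * (z * (a⁻¹ * y * a⁻¹⁻¹) * z⁻¹) * a⁻¹) * z⁻¹ := by
          group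
      _ = z * (z * y * z⁻¹) * z⁻¹ := by rw [cj.2 (ac Y hY y hy).inv_left, cj.2 (ac Y hY _ y')]
      _ = (z * z) * y * (z * z)⁻¹ := by group
      _ = y := by rw [zz]; group
  have qr : Commute (z * (a * z * a⁻¹)) r := zr.mul_left ((ar'.mul_left zr).mul_left ar'.inv_left)
  have key : z * (a * z * a⁻¹) * a * (z * (a * z * a⁻¹))⁻¹ =
      (z * (a * z * a⁻¹) * z⁻¹ * (a * z * a⁻¹)⁻¹) * a := by
    have aa := fX'.mm ha
    have aa' : ∀ y, a * (a * y) = y := fun y => by rw [← mul_assoc, aa, one_mul]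
    simp only [mul_inv_rev, zi, ai, mul_assoc, aa, aa', mul_one]
  have hs : z * (a * z * a⁻¹) * z⁻¹ * (a * z * a⁻¹)⁻¹ = r := by
    rcases fX'.fixr (norm_of_fix h d.sY qa d.rY d.ne qr) d.rY d.ne qr ha with e | e <;> rw [key] at e
    · exact absurd (cj.1 (mul_inv_eq_one.1 (mul_eq_right.1 e))) nz
    · exact mul_right_cancel e
  have hr : r ∈ X₁ := by
    have k1 := (d'.mu.comm_mem h d'.sX d'.sY (cj_mem j1 hz) (hm z hz)).1
    have k2 := cj_mem (inv_mem j1) k1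
    rw [← hs]
    simpa only [mul_inv_rev, mul_assoc, inv_inv, mul_inv_cancel_left, mul_inv_cancel, mul_one,
      inv_mul_cancel_left, inv_mul_cancel] using k2
  by_cases e' : r = s
  · exact j2 (e' ▸ j3)
  · exact nz (by rw [cj.2 (f1.all d'.rX hr d'.ne d.ne e' c ar' hz)])

theorem three_false {m : ℕ} (b3 : b = m + 1 + 2) (d : D S α α' X X' r) (hab : A α β) {ε₂ : Γ}
    (w : Wk A m β ε₂) (he₂ : A ε₂ ε) (he : A ε α') : False := by
  obtain ⟨a, ha, a1, ar⟩ := (fo h d.sY).other r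
  obtain ⟨ε₃, w3, he₃⟩ := wk_last (show Wk A (m + 1) α ε₂ from ⟨β, hab, w⟩)
  have u : U S α β X r := d.u h hab fun y hy =>
    fixes h hb (by omega) (wk_symm h.symm (wk_snoc (wk_snoc w he₂) he)) d.sY hy
  have cl : ∀ g : G, g • α = α → g ∈ normalizer (X : Set G) → ¬ Commute g r →
      ∃ Y s Z, Y ≠ X ∧ U S α (g • β) Y s ∧ U S ε₂ ε₃ Z s := fun g g1 g2 g3 => by
    have hg : A α (g • β) := by have := h.asm g hab; rwa [g1] at this
    have w' : Wk A b (g • β) ε := b3 ▸ ⟨α, h.symm hg, β, hab, wk_snoc w he₂⟩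
    obtain ⟨X₁, X₂, s, d'⟩ := (mu h hb le_rfl w').exists_D h
      (shift h hb (by omega) d hg he w' ha (d.moves h u ha a1 ar g1 g2 g3))
    obtain ⟨a', ha', a1', ar'⟩ := (fo h d'.sY).other s
    obtain ⟨δ, j, X₃, X₄, s', hd, d'', -, -, -, -, u'⟩ :=
      step h hb b3 d' (h.symm hg) (show Wk A (m + 1) α ε₂ from ⟨β, hab, w⟩) he₂ ha' a1' ar'
    refine ⟨_, s', X₄, fun e => ?_, u', d''.symm.u h (h.symm he₃) fun y hy =>
      fixes h hb (n := m + 2) (by omega) ⟨_, h.symm hd, α, h.symm hg, w3⟩ d''.sX hy⟩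
    rw [e] at u'
    have c : Commute a s' := near hb (n := 2) (by omega) ⟨ε, h.symm he, ε₂, h.symm he₂, rfl⟩ d.sY d''.sY ha d''.rY
    exact g3 (cj.1 (((u.smul' h g1 g2).uniq h hg u').trans (d.only h ha a1 ar u'.mem u'.ne c)))
  obtain ⟨k, k1, k2, k3, -⟩ := h.three d.sX
  have kr : ¬ Commute k r := fun c => d.ne (k3 r d.rX c)
  obtain ⟨Y, s₀, Z₀, y0, u0, v0⟩ := cl k k1 k2 kr
  obtain ⟨l, l1, l2, l3, l4⟩ := h.three u0.s
  have lX : ∀ x ∈ X, Commute l x := l4 X d.sX (Ne.symm y0)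
  have lN : l ∈ normalizer (X : Set G) :=
    centralizer_le_normalizer _ (mem_centralizer_iff.2 fun y hy => (lX y hy).symm.eq)
  have nx : ∀ (g s : G), g • α = α → g ∈ normalizer (X : Set G) → ¬ Commute g r → U S α (g • β) Y s →
      ((l * g) • α = α ∧ l * g ∈ normalizer (X : Set G) ∧ ¬ Commute (l * g) r ∧
        U S α ((l * g) • β) Y (l * s * l⁻¹)) ∧ ∃ Z, U S ε₂ ε₃ Z (l * s * l⁻¹) := fun g s g1 g2 g3 g4 => by
    have p1 : (l * g) • α = α := by rw [mul_smul, g1, l1]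
    have p3 : ¬ Commute (l * g) r := fun c => g3 (by
      simpa only [inv_mul_cancel_left] using (lX r d.rX).inv_left.mul_left c)
    have p4 : U S α ((l * g) • β) Y (l * s * l⁻¹) := by rw [mul_smul]; exact g4.smul' h l1 l2
    obtain ⟨Y', s', Z, y1, u1, v1⟩ := cl (l * g) p1 (mul_mem lN g2) p3
    have hg : A α ((l * g) • β) := by have := h.asm (l * g) hab; rwa [p1] at this
    have : Y' = Y := ((h.two u1.s u0.s d.sX).resolve_right fun e => e.elim y1 y0)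
    subst this
    exact ⟨⟨p1, mul_mem lN g2, p3, p4⟩, Z, u1.uniq h hg p4 ▸ v1⟩
  obtain ⟨⟨p1, p2, p3, p4⟩, Z₁, v1⟩ := nx k s₀ k1 k2 kr u0
  obtain ⟨-, Z₂, v2⟩ := nx (l * k) _ p1 p2 p3 p4
  have n1 : s₀ ≠ l * s₀ * l⁻¹ := fun e => u0.ne (l3 _ u0.mem (cj.1 e.symm))
  rcases h.two v0.s v1.s v2.s with e | e | e
  · exact n1 (v0.uniq h (h.symm he₃) (e ▸ v1))
  · have e1 := v0.uniq h (h.symm he₃) (e ▸ v2)
    have fY := fo h u0.s
    refine n1 ((mul_eq_one_iff_eq_inv.1 (l3 _ (Y.mul_mem u0.mem p4.mem) (cj.1 ?_))).trans (fY.inv p4.mem))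
    calc l * (s₀ * (l * s₀ * l⁻¹)) * l⁻¹ = (l * s₀ * l⁻¹) * (l * (l * s₀ * l⁻¹) * l⁻¹) := by group
      _ = s₀ * (l * s₀ * l⁻¹) := by rw [← e1]; exact (fY.cm _ p4.mem _ u0.mem).eq
  · exact p4.ne (l3 _ p4.mem (cj.1 (v1.uniq h (h.symm he₃) (e ▸ v2)).symm))

omit hb in
theorem main : ∃ α β, A α β ∧ Cr S α β := by
  classical
  obtain ⟨α, α', w, c⟩ := Nat.find_spec h.ex
  have hb : ∀ n < Nat.find h.ex, ∀ α β, Wk A n α β → ¬ Cr S α β := fun n hn α β w c =>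
    Nat.find_min h.ex hn ⟨α, β, w, c⟩
  generalize Nat.find h.ex = b at w hb
  obtain ⟨X, X', r, d⟩ := (mu h hb le_rfl w).exists_D h c
  match b, w, hb with
  | 0, w, _ =>
    obtain ⟨x, hx, y, hy, e⟩ := d.nc
    exact absurd (h.cm d.sX ((show α = α' from w) ▸ d.sY) x hx y hy) e
  | 1, ⟨β, h1, h2⟩, _ => exact ⟨α, α', (show β = α' from h2) ▸ h1, c⟩
  | 2, ⟨β, h1, γ, h2, h3⟩, hb => exact (two_false h hb rfl d h1 ((show γ = α' from h3) ▸ h2)).elim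
  | m + 3, ⟨β, h1, w⟩, hb =>
    obtain ⟨ε, w1, he⟩ := wk_last w
    obtain ⟨ε₂, w2, he₂⟩ := wk_last w1
    exact (three_false h hb rfl d h1 w2 he₂ he).elim

end Cfsg.Agent.Lib.WrAb

universe u in
instance Cfsg.Agent.Lib.WrAb.instWAb : Cfsg.Agent.Lib.WR.WAb.{u} := ⟨fun h => Cfsg.Agent.Lib.WrAb.main h⟩
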