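import Cfsg.Agent.Lib.WrDefs

/-! Critical distance one, wreathed type: the elementary part. -/

set_option autoImplicit false

namespace Cfsg.Agent.Lib.WR

open Cfsg Subgroup Cfsg.Agent.Lib.PCoreConj Cfsg.Agent.Lib.PCore Cfsg.Agent.Lib.PCoreResidual
  Cfsg.Agent.Lib.PReduced Cfsg.Agent.Lib.LocIdx Cfsg.Agent.Lib.LocFour Cfsg.Agent.Lib.ThompsonJ
  Cfsg.Agent.Lib.JComp Cfsg.Agent.Lib.JTop Cfsg.Agent.Lib.JGlobal
open scoped commutatorElement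

universe u

namespace B1

variable {G : Type u} [Group G] {P P' T I W₁ W₂ V₁ V₂ W X : Subgroup G}

theorem le_of_two (h4 : Nat.card W = 4) {a b : G} (ha : a ∈ W) (hb : b ∈ W) (ha' : a ∈ X) (hb' : b ∈ X)
    (a1 : a ≠ 1) (b1 : b ≠ 1) (ab : a ≠ b) : W ≤ X := by
  rcases card_cases_of_le_four h4 (inf_le_left : W ⊓ X ≤ W) with h | h | h
  · exact absurd (mem_bot.1 (h ▸ mem_inf.2 ⟨ha, ha'⟩)) a1
  · obtain ⟨u, -, hu⟩ := (Nat.card_eq_two_iff' (1 : (W ⊓ X : Subgroup G))).1 h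
    have e1 := hu ⟨a, mem_inf.2 ⟨ha, ha'⟩⟩ (fun e => a1 (congrArg Subtype.val e))
    have e2 := hu ⟨b, mem_inf.2 ⟨hb, hb'⟩⟩ (fun e => b1 (congrArg Subtype.val e))
    exact absurd (congrArg Subtype.val (e1.trans e2.symm)) ab
  · exact inf_eq_left.1 h

theorem exists_ne (h4 : Nat.card W = 4) (hs : ∀ w ∈ W, w ^ 2 = 1) {a : G} (ha : a ∈ W) :
    ∃ b ∈ W, b ≠ 1 ∧ b * a ≠ 1 := by
  by_contra hn
  push Not at hn
  have h1 : W ≤ zpowers a := fun b hb => by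
    by_cases e : b = 1
    · rw [e]; exact one_mem _
    · rw [eq_inv_of_mul_eq_one_left (hn b hb e)]; exact inv_mem (mem_zpowers a)
  have h2 : Nat.card (zpowers a) ∣ 2 := by
    rw [Nat.card_zpowers]; exact orderOf_dvd_of_pow_eq_one (hs a ha)
  have h3 := (card_dvd_of_le h1).trans h2
  rw [h4] at h3
  omega

theorem _root_.Cfsg.Agent.Lib.WR.Lo.swap (h : Lo P T I W₁ W₂) : Lo P T I W₂ W₁ where
  pT := h.pT
  le := h.le
  max := h.max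
  c1 := h.c2
  c2 := h.c1
  s1 := h.s2
  s2 := h.s1
  disj := h.disj.imp Eq.symm fun e => by rw [inf_comm, e]
  cm := by rw [sup_comm]; exact h.cm
  perm := fun g hg => (h.perm g hg).imp And.symm And.symm
  tr := by
    obtain ⟨t, ht, e⟩ := h.tr
    exact ⟨t⁻¹, inv_mem ht, by rw [← e, conj_conj_inv]⟩
  Q := by rw [sup_comm]; exact h.Q
  QT := h.QT
  WQ := by rw [sup_comm]; exact h.WQ
  IT := h.IT
  n1 := h.n2
  n2 := h.n1
  nc1 := h.nc2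
  nc2 := h.nc1
  u1 := h.u2
  u2 := h.u1
  fix := fun x hx h1 h2 h3 h4 => h.fix x hx h2 h1 h4 h3
  three1 := by
    obtain ⟨k, h1, h2, h3, h4⟩ := h.three2
    exact ⟨k, h1, h2, h3, h4.imp Eq.symm id⟩
  three2 := by
    obtain ⟨k, h1, h2, h3, h4⟩ := h.three1
    exact ⟨k, h1, h2, h3, h4.imp Eq.symm id⟩

theorem _root_.Cfsg.Agent.Lib.WR.Lo.WT (h : Lo P T I W₁ W₂) : W₁ ≤ T := le_sup_left.trans (h.WQ.trans h.QT)

theorem _root_.Cfsg.Agent.Lib.WR.Lo.c11 (h : Lo P T I W₁ W₂) : W₁ ≤ centralizer (W₁ : Set G) :=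
  le_sup_left.trans (h.cm.trans (centralizer_anti le_sup_left))

theorem _root_.Cfsg.Agent.Lib.WR.Lo.c12 (h : Lo P T I W₁ W₂) : W₁ ≤ centralizer (W₂ : Set G) :=
  le_sup_left.trans (h.cm.trans (centralizer_anti le_sup_right))

theorem _root_.Cfsg.Agent.Lib.WR.Lo.nU (h : Lo P T I W₁ W₂) :
    P ≤ normalizer ((W₁ ⊔ W₂ : Subgroup G) : Set G) := fun g hg => by
  rw [mem_normalizer_iff_conj_eq, conj_sup]
  rcases h.perm g hg with ⟨e1, e2⟩ | ⟨e1, e2⟩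
  · rw [e1, e2]
  · rw [e1, e2, sup_comm]

theorem _root_.Cfsg.Agent.Lib.WR.Lo.sw (h : Lo P T I W₁ W₂) {g : G} (hg : g ∈ P)
    (hn : g ∉ normalizer (W₁ : Set G)) : W₁ ^ᶜ g = W₂ ∧ W₂ ^ᶜ g = W₁ ∧ W₁ ⊓ W₂ = ⊥ := by
  rw [mem_normalizer_iff_conj_eq] at hn
  obtain ⟨e1, e2⟩ := (h.perm g hg).resolve_left fun e => hn e.1
  exact ⟨e1, e2, h.disj.resolve_left fun e => hn (e1.trans e.symm)⟩

theorem _root_.Cfsg.Agent.Lib.WR.Lo.n12 (h : Lo P T I W₁ W₂) {g : G} (hg : g ∈ P)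
    (hn : g ∈ normalizer (W₁ : Set G)) : g ∈ normalizer (W₂ : Set G) := by
  rw [mem_normalizer_iff_conj_eq] at hn ⊢
  rcases h.perm g hg with ⟨-, e2⟩ | ⟨e1, e2⟩
  · exact e2
  · rw [e2, ← e1, hn]

theorem _root_.Cfsg.Agent.Lib.WR.Lo.nmul (h : Lo P T I W₁ W₂) {a b : G} (ha : a ∈ P) (hb : b ∈ P)
    (ha' : a ∉ normalizer (W₁ : Set G)) (hb' : b ∉ normalizer (W₁ : Set G)) :
    a * b ∈ normalizer (W₁ : Set G) := by
  rw [mem_normalizer_iff_conj_eq, ← conj_conj, (h.sw hb hb').1, (h.sw ha ha').2.1]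

variable [Finite G]

theorem norm (h : Lo P T I W₁ W₂) (h' : Lo P' T I V₁ V₂) : V₁ ≤ normalizer (W₁ : Set G) := by
  intro x hx
  by_contra hn
  obtain ⟨e1, -, e3⟩ := h.sw (h.le (h'.WT hx)) hn
  have m2 : ∀ w ∈ W₁, x * w * x⁻¹ ∈ W₂ := fun w hw => e1 ▸ conj_mem_conj x hw
  have ne : ∀ w ∈ W₁, w * x * w⁻¹ * x⁻¹ = 1 → w = 1 := fun w hw e => by
    have e' : x * w⁻¹ * x⁻¹ = w⁻¹ := by
      calc x * w⁻¹ * x⁻¹ = w⁻¹ * (w * x * w⁻¹ * x⁻¹) := by group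
        _ = w⁻¹ := by rw [e, mul_one]
    have : w⁻¹ ∈ W₁ ⊓ W₂ := mem_inf.2 ⟨inv_mem hw, e' ▸ m2 _ (inv_mem hw)⟩
    rw [e3, mem_bot, inv_eq_one] at this
    exact this
  have nc : ∀ w ∈ W₁, w ∈ centralizer (V₁ : Set G) → w = 1 := fun w hw hc =>
    ne w hw (by rw [← mem_centralizer_iff.1 hc x hx]; group)
  by_cases hall : W₁ ≤ normalizer (V₁ : Set G)
  · obtain ⟨a, ha, a1, -⟩ := exists_ne h.c1 h.s1 (one_mem W₁)
    obtain ⟨b, hb, b1, ba⟩ := exists_ne h.c1 h.s1 ha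
    exact ba (nc _ (mul_mem hb ha) (mul_mem_centralizer_of_four (isPGroup_of_card_four h.c1) hall h'.c1 hb ha
      (fun e => b1 (nc b hb e)) (fun e => a1 (nc a ha e))))
  · obtain ⟨a, ha, an⟩ := SetLike.not_le_iff_exists.1 hall
    obtain ⟨f1, -, f3⟩ := h'.sw (h'.le (h.WT ha)) an
    obtain ⟨b, hb, b1, ba⟩ := exists_ne h.c1 h.s1 ha
    obtain ⟨w, hw, w1, wn⟩ : ∃ w ∈ W₁, w ≠ 1 ∧ w ∈ normalizer (V₁ : Set G) := by
      by_cases bn : b ∈ normalizer (V₁ : Set G)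
      · exact ⟨b, hb, b1, bn⟩
      · exact ⟨b * a, mul_mem hb ha, ba, h'.nmul (h'.le (h.WT hb)) (h'.le (h.WT ha)) bn an⟩
    have r1 : w * x * w⁻¹ * x⁻¹ ∈ V₁ := mul_mem ((mem_normalizer_iff.1 wn x).1 hx) (inv_mem hx)
    have r2 : w * x * w⁻¹ * x⁻¹ ∈ W₁ ⊔ W₂ := by
      have := mul_mem (mem_sup_left hw : w ∈ W₁ ⊔ W₂) (mem_sup_right (m2 _ (inv_mem hw)))
      simpa only [mul_assoc] using this
    have r3 := mem_centralizer_iff.1 (h.cm r2) a (mem_sup_left ha : a ∈ W₁ ⊔ W₂)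
    have r4 : w * x * w⁻¹ * x⁻¹ ∈ V₂ := by
      have := conj_mem_conj a r1
      rw [f1, r3, mul_inv_cancel_right] at this
      exact this
    exact w1 (ne w hw (mem_bot.1 (f3 ▸ mem_inf.2 ⟨r1, r4⟩)))

theorem exists_r (h : Lo P T I W₁ W₂) (h' : Lo P' T I V₁ V₂) (hn : ¬ V₁ ≤ centralizer (W₁ : Set G)) :
    ∃ r ∈ W₁, r ∈ V₁ ∧ r ≠ 1 := by
  obtain ⟨x, hx, hx'⟩ := SetLike.not_le_iff_exists.1 hn
  rw [mem_centralizer_iff] at hx'
  push Not at hx'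
  obtain ⟨w, hw, e⟩ := hx'
  refine ⟨w * x * w⁻¹ * x⁻¹, ?_, mul_mem ((mem_normalizer_iff.1 (norm h' h hw) x).1 hx) (inv_mem hx), fun e' => e ?_⟩
  · have := mul_mem hw ((mem_normalizer_iff.1 (norm h h' hx) _).1 (inv_mem hw))
    simpa only [mul_assoc] using this
  · calc w * x = w * x * w⁻¹ * x⁻¹ * (x * w) := by group
      _ = x * w := by rw [e', one_mul]

omit [Finite G] in
theorem le_C_conj {A B : Subgroup G} (g : G) :
    A ^ᶜ g ≤ centralizer ((B ^ᶜ g : Subgroup G) : Set G) ↔ A ≤ centralizer (B : Set G) := by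
  rw [← conj_centralizer, conj_le_conj_iff]

/-- the normalized situation -/
structure Sy (P P' T I W₁ W₂ V₁ V₂ : Subgroup G) : Prop where
  l : Lo P T I W₁ W₂
  r : Lo P' T I V₁ V₂
  f11 : ¬ V₁ ≤ centralizer (W₁ : Set G)
  f22 : ¬ V₂ ≤ centralizer (W₂ : Set G)
  f12 : V₁ ≤ centralizer (W₂ : Set G)
  f21 : V₂ ≤ centralizer (W₁ : Set G)

theorem sy_of (h : Lo P T I W₁ W₂) (h' : Lo P' T I V₁ V₂) (hd : W₁ ⊓ W₂ = ⊥)
    (hn : ¬ V₁ ≤ centralizer (W₁ : Set G)) : Sy P P' T I W₁ W₂ V₁ V₂ := by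
  have f12 : V₁ ≤ centralizer (W₂ : Set G) := by
    by_contra hn'
    obtain ⟨r, r1, r2, r3⟩ := exists_r h h' hn
    obtain ⟨s, s1, s2, s3⟩ := exists_r h.swap h' hn'
    exact hn (le_of_two h'.c1 r2 s2 (h.c11 r1) (h.swap.c12 s1) r3 s3 fun e =>
      r3 (mem_bot.1 (hd ▸ mem_inf.2 ⟨r1, e ▸ s1⟩)))
  obtain ⟨t, ht, e⟩ := h.tr
  have tn : t ∉ normalizer (W₁ : Set G) := fun hn' => by
    rw [conj_eq_of_mem_normalizer hn'] at e
    have := h.c1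
    rw [← e, inf_idem] at hd
    rw [hd, card_bot] at this
    omega
  obtain ⟨-, e2, -⟩ := h.sw (h.le ht) tn
  have tn' : t ∉ normalizer (V₁ : Set G) := fun hn' => hn (by
    rw [← le_C_conj t, e, conj_eq_of_mem_normalizer hn']; exact f12)
  obtain ⟨e3, -, -⟩ := h'.sw (h'.le ht) tn'
  refine ⟨h, h', hn, ?_, f12, ?_⟩
  · rw [← e3, ← e, le_C_conj]; exact hn
  · rw [← e3, ← e2, le_C_conj]; exact f12

namespace Sy

omit [Finite G] in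
theorem symm (h : Sy P P' T I W₁ W₂ V₁ V₂) : Sy P' P T I V₁ V₂ W₁ W₂ :=
  ⟨h.r, h.l, fun e => h.f11 (le_centralizer_iff.1 e), fun e => h.f22 (le_centralizer_iff.1 e),
    le_centralizer_iff.1 h.f21, le_centralizer_iff.1 h.f12⟩

omit [Finite G] in
theorem swap (h : Sy P P' T I W₁ W₂ V₁ V₂) : Sy P P' T I W₂ W₁ V₂ V₁ :=
  ⟨h.l.swap, h.r.swap, h.f22, h.f11, h.f21, h.f12⟩

variable (h : Sy P P' T I W₁ W₂ V₁ V₂)
include h

omit [Finite G] in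
theorem nV {g : G} (hg : g ∈ T) (hn : g ∈ normalizer (W₁ : Set G)) : g ∈ normalizer (V₁ : Set G) := by
  by_contra hn'
  obtain ⟨e, -, -⟩ := h.r.sw (h.r.le hg) hn'
  exact h.f11 (by rw [← le_C_conj g, e, conj_eq_of_mem_normalizer hn]; exact h.f21)

theorem adj1 {g : G} (hg : g ∈ T) (hn : g ∈ normalizer (V₁ : Set G)) :
    ∃ w ∈ W₁, g * w ∈ centralizer (V₁ : Set G) := by
  by_cases hc : g ∈ centralizer (V₁ : Set G)
  · exact ⟨1, one_mem _, by rwa [mul_one]⟩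
  · obtain ⟨w, hw, hw'⟩ := SetLike.not_le_iff_exists.1 h.symm.f11
    exact ⟨w, hw, mul_mem_centralizer_of_four (A := T ⊓ normalizer (V₁ : Set G)) (h.l.pT.to_le inf_le_left)
      inf_le_right h.r.c1 (mem_inf.2 ⟨hg, hn⟩) (mem_inf.2 ⟨h.l.WT hw, norm h.r h.l hw⟩) hc hw'⟩

omit h [Finite G] in
theorem mem_C_sup {A B : Subgroup G} {g : G} (h1 : g ∈ centralizer (A : Set G)) (h2 : g ∈ centralizer (B : Set G)) :
    g ∈ centralizer ((A ⊔ B : Subgroup G) : Set G) :=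
  mem_centralizer_iff_le.2 (sup_le (mem_centralizer_iff_le.1 h1) (mem_centralizer_iff_le.1 h2))

theorem adj {g : G} (hg : g ∈ T) (hn : g ∈ normalizer (V₁ : Set G)) :
    ∃ u ∈ W₁ ⊔ W₂, g * u ∈ centralizer ((V₁ ⊔ V₂ : Subgroup G) : Set G) := by
  obtain ⟨a, ha, ha'⟩ := h.adj1 hg hn
  obtain ⟨b, hb, hb'⟩ := h.swap.adj1 hg (h.r.n12 (h.r.le hg) hn)
  refine ⟨a * b, mul_mem (mem_sup_left ha) (mem_sup_right hb), mem_C_sup ?_ ?_⟩
  · rw [← mul_assoc]; exact mul_mem ha' (h.symm.f21 hb)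
  · rw [← mem_centralizer_iff.1 (h.l.c12 ha) b hb, ← mul_assoc]; exact mul_mem hb' (h.symm.f12 ha)

omit [Finite G] in
theorem UT : W₁ ⊔ W₂ ≤ T := h.l.WQ.trans h.l.QT

/-- `C = C_T(U U')` -/
theorem decQ {q : G} (hq : q ∈ pCoreOf 2 P) :
    ∃ u ∈ W₁ ⊔ W₂, q * u ∈ T ⊓ centralizer ((W₁ ⊔ W₂ ⊔ (V₁ ⊔ V₂) : Subgroup G) : Set G) := by
  have hT := h.l.QT hq
  have hc := (mem_inf.1 (h.l.Q ▸ hq)).2
  obtain ⟨u, hu, hu'⟩ := h.adj hT (h.nV hT (centralizer_le_normalizer _ (centralizer_anti le_sup_left hc)))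
  exact ⟨u, hu, mem_inf.2 ⟨mul_mem hT (h.UT hu), mem_C_sup (mul_mem hc (h.l.cm hu)) hu'⟩⟩

theorem decT {g : G} (hg : g ∈ T) (hn : g ∈ normalizer (W₁ : Set G)) : ∃ m ∈ W₁ ⊔ W₂ ⊔ (V₁ ⊔ V₂),
    g * m ∈ T ⊓ centralizer ((W₁ ⊔ W₂ ⊔ (V₁ ⊔ V₂) : Subgroup G) : Set G) := by
  obtain ⟨v, hv, hv'⟩ := h.symm.adj hg hn
  obtain ⟨u, hu, hu'⟩ := h.decQ (q := g * v)
    (h.l.Q ▸ mem_inf.2 ⟨h.l.le (mul_mem hg (h.symm.UT hv)), hv'⟩)
  exact ⟨v * u, mul_mem (mem_sup_right hv) (mem_sup_left hu), by rwa [← mul_assoc]⟩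

omit [Finite G] in
theorem sqU {u : G} (hu : u ∈ W₁ ⊔ W₂) : u * u = 1 := by
  obtain ⟨a, ha, b, hb, rfl⟩ := (mem_sup_iff_of_le_normalizer (le_normalizer_of_le_centralizer h.l.c12)).1 hu
  have e := mem_centralizer_iff.1 (h.l.c12 ha) b hb
  calc a * b * (a * b) = a * (b * a) * b := by group
    _ = (a * a) * (b * b) := by rw [e]; group
    _ = 1 := by rw [← sq, ← sq, h.l.s1 a ha, h.l.s2 b hb, one_mul]

theorem nSq : P ≤ normalizer ((closure {x | ∃ c ∈ T ⊓ centralizer ((W₁ ⊔ W₂ ⊔ (V₁ ⊔ V₂) : Subgroup G) : Set G),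
    c * c = x} : Subgroup G) : Set G) := by
  rw [le_normalizer_iff_conj_le]
  intro g hg
  rw [conj_le_iff_le_conj_inv, closure_le]
  rintro _ ⟨c, hc, rfl⟩
  rw [SetLike.mem_coe, mem_conj_iff, inv_inv]
  have h1 : c ∈ pCoreOf 2 P :=
    h.l.Q ▸ mem_inf.2 ⟨h.l.le (mem_inf.1 hc).1, centralizer_anti le_sup_left (mem_inf.1 hc).2⟩
  have h2 : g * c * g⁻¹ ∈ pCoreOf 2 P := (mem_normalizer_iff.1 (le_normalizer_pCoreOf 2 P hg) c).1 h1
  obtain ⟨u, hu, hu'⟩ := h.decQ h2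
  refine subset_closure ⟨_, hu', ?_⟩
  have e := mem_centralizer_iff.1 (mem_inf.1 (h.l.Q ▸ h2)).2 u hu
  calc g * c * g⁻¹ * u * (g * c * g⁻¹ * u) = g * c * g⁻¹ * (u * (g * c * g⁻¹)) * u := by group
    _ = g * (c * c) * g⁻¹ * (u * u) := by rw [e]; group
    _ = _ := by rw [h.sqU hu, mul_one]

variable (core : ∀ N : Subgroup G, N ≤ T → P ≤ normalizer (N : Set G) → P' ≤ normalizer (N : Set G) → N = ⊥)
include core

theorem sqC {c : G} (hc : c ∈ T ⊓ centralizer ((W₁ ⊔ W₂ ⊔ (V₁ ⊔ V₂) : Subgroup G) : Set G)) : c * c = 1 := by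
  have h2 := h.symm.nSq
  rw [sup_comm (V₁ ⊔ V₂)] at h2
  have := core _ ((closure_le _).2 (by rintro _ ⟨c, hc, rfl⟩; exact mul_mem (mem_inf.1 hc).1 (mem_inf.1 hc).1))
    h.nSq h2
  exact mem_bot.1 (this ▸ subset_closure ⟨c, hc, rfl⟩)

theorem sqQ {q : G} (hq : q ∈ pCoreOf 2 P) : q * q = 1 := by
  obtain ⟨u, hu, hu'⟩ := h.decQ hq
  have e := mem_centralizer_iff.1 (mem_inf.1 (h.l.Q ▸ hq)).2 u hu
  calc q * q = q * q * (u * u) := by rw [h.sqU hu, mul_one]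
    _ = q * (q * u) * u := by group
    _ = q * (u * q) * u := by rw [e]
    _ = q * u * (q * u) := by group
    _ = 1 := h.sqC core hu'

theorem commC {c g : G} (hc : c ∈ T ⊓ centralizer ((W₁ ⊔ W₂ ⊔ (V₁ ⊔ V₂) : Subgroup G) : Set G)) (hg : g ∈ T)
    (hn : g ∈ normalizer (W₁ : Set G)) : g * c = c * g := by
  obtain ⟨m, hm, hm'⟩ := h.decT hg hn
  have e1 := mem_centralizer_iff.1 (mem_inf.1 hc).2 m hm
  have e2 : g * m * c = c * (g * m) := by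
    have a1 := h.sqC core hc
    have a2 := h.sqC core hm'
    have a3 := h.sqC core (mul_mem hm' hc)
    calc g * m * c = (c * c) * (g * m * c) * ((g * m) * (g * m)) := by rw [a1, a2, one_mul, mul_one]
      _ = c * (c * (g * m) * (c * (g * m))) * (g * m) := by group
      _ = c * (g * m) := by
        rw [show c * (g * m) * (c * (g * m)) = c * (g * m * c * (g * m * c)) * c⁻¹ by group, a3]; group
  calc g * c = g * (c * m) * m⁻¹ := by group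
    _ = g * m * c * m⁻¹ := by rw [← e1]; group
    _ = c * g := by rw [e2]; group

omit core in
theorem nM : T ≤ normalizer ((W₁ ⊔ W₂ ⊔ (V₁ ⊔ V₂) : Subgroup G) : Set G) :=
  le_normalizer_sup (h.l.le.trans h.l.nU) (h.r.le.trans h.r.nU)

omit core in
theorem comm_le : ⁅T, T⁆ ≤ (W₁ ⊔ W₂ ⊔ (V₁ ⊔ V₂)) ⊔
    ⁅T ⊓ centralizer ((W₁ ⊔ W₂ ⊔ (V₁ ⊔ V₂) : Subgroup G) : Set G), T⁆ := by
  set M := W₁ ⊔ W₂ ⊔ (V₁ ⊔ V₂) with hM
  have key : ∀ a ∈ T, a ∈ normalizer (W₁ : Set G) → ∀ g ∈ T, ⁅a, g⁆ ∈ M ⊔ ⁅T ⊓ centralizer (M : Set G), T⁆ := by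
    intro a ha hn g hg
    obtain ⟨m, hm, hm'⟩ := h.decT ha hn
    have h1 : m⁻¹ * (g * m * g⁻¹) ∈ M := mul_mem (inv_mem hm) ((mem_normalizer_iff.1 (h.nM hg) m).1 hm)
    have h2 := (mem_normalizer_iff.1 (h.nM (mem_inf.1 hm').1) _).1 h1
    have h3 := mul_mem (mem_sup_left h2 : _ ∈ M ⊔ ⁅T ⊓ centralizer (M : Set G), T⁆)
      (mem_sup_right (commutator_mem_commutator hm' hg))
    have e : a * m * (m⁻¹ * (g * m * g⁻¹)) * (a * m)⁻¹ * ⁅a * m, g⁆ = ⁅a, g⁆ := by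
      simp only [commutatorElement_def]; group
    rwa [e] at h3
  refine commutator_le.2 fun a ha g hg => ?_
  by_cases an : a ∈ normalizer (W₁ : Set G)
  · exact key a ha an g hg
  by_cases gn : g ∈ normalizer (W₁ : Set G)
  · rw [← commutatorElement_inv]; exact inv_mem (key g hg gn a ha)
  have := key (a * g⁻¹) (mul_mem ha (inv_mem hg))
    (h.l.nmul (h.l.le ha) (h.l.le (inv_mem hg)) an fun e => gn (inv_mem_iff.1 e)) g hg
  have e : ⁅a * g⁻¹, g⁆ = ⁅a, g⁆ := by simp only [commutatorElement_def]; group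
  rwa [e] at this

omit core in
theorem C_le (hc : T ⊓ centralizer ((W₁ ⊔ W₂ ⊔ (V₁ ⊔ V₂) : Subgroup G) : Set G) ≤ ⁅T, T⁆) :
    T ⊓ centralizer ((W₁ ⊔ W₂ ⊔ (V₁ ⊔ V₂) : Subgroup G) : Set G) ≤ W₁ ⊔ W₂ ⊔ (V₁ ⊔ V₂) :=
  le_of_le_sup_commutator h.l.pT (h.l.pT.to_le inf_le_left)
    (le_normalizer_inf le_normalizer (PCoreConj.le_normalizer_centralizer h.nM)) h.nM
    (inf_le_left.trans h.nM) (hc.trans h.comm_le)

omit core in
theorem mem_W {v : G} (hv : v ∈ V₁) (hc : v ∈ centralizer (W₁ : Set G)) : v ∈ W₁ := by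
  obtain ⟨r, r1, r2, r3⟩ := exists_r h.l h.r h.f11
  by_cases v1 : v = 1
  · rw [v1]; exact one_mem _
  by_cases vr : v = r
  · rw [vr]; exact r1
  exact absurd (le_of_two h.r.c1 hv r2 hc (h.l.c11 r1) v1 r3 vr) h.f11

omit core in
theorem mem_U {d : G} (hd : d ∈ W₁ ⊔ W₂ ⊔ (V₁ ⊔ V₂)) (hc : d ∈ centralizer ((W₁ ⊔ W₂ : Subgroup G) : Set G)) :
    d ∈ W₁ ⊔ W₂ := by
  rw [sup_comm] at hd
  obtain ⟨v, hv, u, hu, rfl⟩ := (mem_sup_iff_of_le_normalizer (h.symm.UT.trans (h.l.le.trans h.l.nU))).1 hd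
  obtain ⟨a, ha, b, hb, rfl⟩ := (mem_sup_iff_of_le_normalizer (le_normalizer_of_le_centralizer h.r.c12)).1 hv
  have h1 : a * b ∈ centralizer ((W₁ ⊔ W₂ : Subgroup G) : Set G) := (mul_mem_cancel_right (h.l.cm hu)).1 hc
  have h2 := h.mem_W ha ((mul_mem_cancel_right (h.f21 hb)).1 (centralizer_anti le_sup_left h1))
  have h3 := h.swap.mem_W hb ((mul_mem_cancel_left (h.f12 ha)).1 (centralizer_anti le_sup_right h1))
  exact mul_mem (mul_mem (mem_sup_left h2) (mem_sup_right h3)) hu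

omit core in
theorem D_le {D : Subgroup G} (hD : D ≤ T) (hn : T ≤ normalizer (D : Set G)) (hc : D ≤ centralizer (W₁ : Set G))
    (hi : W₁ ⊓ D = ⊥) : D ≤ centralizer (V₁ : Set G) := fun d hd => mem_centralizer_iff.2 fun v hv => by
  have h1 : v * d * v⁻¹ * d⁻¹ ∈ D := mul_mem ((mem_normalizer_iff.1 (hn (h.r.WT hv)) d).1 hd) (inv_mem hd)
  have h2 : v * d * v⁻¹ * d⁻¹ ∈ V₁ := by
    have := mul_mem hv ((mem_normalizer_iff.1 (h.nV (hD hd) (centralizer_le_normalizer _ (hc hd))) _).1 (inv_mem hv))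
    simpa only [mul_assoc] using this
  have h3 : v * d * v⁻¹ * d⁻¹ = 1 := mem_bot.1 (hi ▸ mem_inf.2 ⟨h.mem_W h2 (hc h1), h1⟩)
  calc v * d = v * d * v⁻¹ * d⁻¹ * (d * v) := by group
    _ = d * v := by rw [h3, one_mul]

end Sy

end B1

end Cfsg.Agent.Lib.WR
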