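import Cfsg.Agent.Lib.QZDefs
import Cfsg.Agent.Lib.JAmalg

/-! Interfaces for S1832. -/

set_option autoImplicit false

namespace Cfsg.Agent.Lib.WR

open Cfsg Subgroup Cfsg.Agent.Lib.PCoreConj Cfsg.Agent.Lib.PCore Cfsg.Agent.Lib.PCoreResidual
  Cfsg.Agent.Lib.PReduced Cfsg.Agent.Lib.LocIdx Cfsg.Agent.Lib.LocFour Cfsg.Agent.Lib.ThompsonJ
  Cfsg.Agent.Lib.JComp Cfsg.Agent.Lib.JTop Cfsg.Agent.Lib.JGlobal
open scoped commutatorElement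

universe u

/-- the global situation -/
structure Ctx {G : Type u} [Group G] (T : Sylow 2 G) : Prop where
  hyp : QZ.Hyp T
  cz : centralizer (omegaOneCenter 2 (T : Subgroup G) : Set G) = (T : Subgroup G)

/-- a `T`-orbit `{K₁, K₂}` (`K₁ = K₂` allowed) of `J(T)`-components inside a member of `𝓗(T)` -/
structure Jt {G : Type u} [Group G] (T K₁ K₂ : Subgroup G) : Prop where
  j1 : JC (J 2 T) K₁
  j2 : JC (J 2 T) K₂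
  perm : ∀ t ∈ T, (K₁ ^ᶜ t = K₁ ∧ K₂ ^ᶜ t = K₂) ∨ (K₁ ^ᶜ t = K₂ ∧ K₂ ^ᶜ t = K₁)
  tr : ∃ t ∈ T, K₁ ^ᶜ t = K₂
  ne : pCoreOf 2 (K₁ ⊔ K₂ ⊔ T) ≠ ⊥

/-- two such orbits without a common normal 2-subgroup -/
structure Two {G : Type u} [Group G] (T K₁ K₂ L₁ L₂ : Subgroup G) : Prop where
  l : Jt T K₁ K₂
  r : Jt T L₁ L₂
  core : ∀ N : Subgroup G, N ≤ T → K₁ ⊔ K₂ ⊔ T ≤ normalizer (N : Set G) →
    L₁ ⊔ L₂ ⊔ T ≤ normalizer (N : Set G) → N = ⊥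

/-- the local structure of `P = K₁ K₂ T` on the strands `Wᵢ = wOf Kᵢ`, `I = J(T)` -/
structure Lo {G : Type u} [Group G] (P T I W₁ W₂ : Subgroup G) : Prop where
  pT : IsPGroup 2 T
  le : T ≤ P
  max : ∀ H : Subgroup G, T ≤ H → ∀ a ∈ P, a ∉ T → a ∈ H → P ≤ H
  c1 : Nat.card W₁ = 4
  c2 : Nat.card W₂ = 4
  s1 : ∀ w ∈ W₁, w ^ 2 = 1
  s2 : ∀ w ∈ W₂, w ^ 2 = 1
  disj : W₁ = W₂ ∨ W₁ ⊓ W₂ = ⊥
  cm : W₁ ⊔ W₂ ≤ centralizer ((W₁ ⊔ W₂ : Subgroup G) : Set G)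
  perm : ∀ g ∈ P, (W₁ ^ᶜ g = W₁ ∧ W₂ ^ᶜ g = W₂) ∨ (W₁ ^ᶜ g = W₂ ∧ W₂ ^ᶜ g = W₁)
  tr : ∃ t ∈ T, W₁ ^ᶜ t = W₂
  Q : pCoreOf 2 P = P ⊓ centralizer ((W₁ ⊔ W₂ : Subgroup G) : Set G)
  QT : pCoreOf 2 P ≤ T
  WQ : W₁ ⊔ W₂ ≤ pCoreOf 2 P
  IT : I ≤ T
  n1 : I ≤ normalizer (W₁ : Set G)
  n2 : I ≤ normalizer (W₂ : Set G)
  nc1 : ¬ I ≤ centralizer (W₁ : Set G)
  nc2 : ¬ I ≤ centralizer (W₂ : Set G)
  u1 : ∃ u ∈ W₁, u ≠ 1 ∧ ∀ t ∈ T, t ∈ normalizer (W₁ : Set G) → Commute t u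
  u2 : ∃ u ∈ W₂, u ≠ 1 ∧ ∀ t ∈ T, t ∈ normalizer (W₂ : Set G) → Commute t u
  fix : ∀ x ∈ P, x ∈ normalizer (W₁ : Set G) → x ∈ normalizer (W₂ : Set G) →
    (∀ u ∈ W₁, (∀ t ∈ T, t ∈ normalizer (W₁ : Set G) → Commute t u) → Commute x u) →
    (∀ u ∈ W₂, (∀ t ∈ T, t ∈ normalizer (W₂ : Set G) → Commute t u) → Commute x u) → x ∈ T
  three1 : ∃ k ∈ P, k ∈ normalizer (W₁ : Set G) ∧ (∀ w ∈ W₁, Commute k w → w = 1) ∧
    (W₁ = W₂ ∨ k ∈ centralizer (W₂ : Set G))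
  three2 : ∃ k ∈ P, k ∈ normalizer (W₂ : Set G) ∧ (∀ w ∈ W₂, Commute k w → w = 1) ∧
    (W₁ = W₂ ∨ k ∈ centralizer (W₁ : Set G))

/-- walks of length `n` -/
def Wk {Γ : Type u} (A : Γ → Γ → Prop) : ℕ → Γ → Γ → Prop
  | 0, α, γ => α = γ
  | n + 1, α, γ => ∃ β, A α β ∧ Wk A n β γ

/-- the strands at `α` and at `β` do not commute -/
def Cr {G : Type u} [Group G] {Γ : Type u} (S : Γ → Subgroup G → Prop) (α β : Γ) : Prop :=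
  ∃ X Y, S α X ∧ S β Y ∧ ∃ x ∈ X, ∃ y ∈ Y, ¬ Commute x y

/-- the abstract graph: `A` adjacency, `S α X`: `X` is a strand at the vertex `α` -/
structure Gr (G : Type u) [Group G] (Γ : Type u) [MulAction G Γ] (A : Γ → Γ → Prop)
    (S : Γ → Subgroup G → Prop) : Prop where
  symm : ∀ {α β}, A α β → A β α
  asm : ∀ {α β} (g : G), A α β → A (g • α) (g • β)
  ssm : ∀ {α X} (g : G), S α X → S (g • α) (X ^ᶜ g)
  card : ∀ {α X}, S α X → Nat.card X = 4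
  sq : ∀ {α X}, S α X → ∀ x ∈ X, x ^ 2 = 1
  disj : ∀ {α X Y}, S α X → S α Y → X = Y ∨ X ⊓ Y = ⊥
  cm : ∀ {α X Y}, S α X → S α Y → ∀ x ∈ X, ∀ y ∈ Y, Commute x y
  two : ∀ {α X Y Z}, S α X → S α Y → S α Z → X = Y ∨ X = Z ∨ Y = Z
  st : ∀ {α X}, S α X → ∀ x ∈ X, x • α = α
  Q : ∀ {α β} {q : G}, A α β → q • α = α → (∀ X, S α X → ∀ x ∈ X, Commute q x) → q • β = β
  max : ∀ {α β} {a : G} (H : Subgroup G), A α β → a • α = α → a • β ≠ β → a ∈ H →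
    (∀ t : G, t • α = α → t • β = β → t ∈ H) → ∀ g : G, g • α = α → g ∈ H
  F1 : ∀ {α β}, A α β →
    ¬ ∀ g : G, g • α = α → g ∈ normalizer ((sSup {X | S α X ∨ S β X} : Subgroup G) : Set G)
  u : ∀ {α β X}, A α β → S α X →
    ∃ u ∈ X, u ≠ 1 ∧ ∀ t : G, t • α = α → t • β = β → t ∈ normalizer (X : Set G) → Commute t u
  fix : ∀ {α β} {x : G}, A α β → x • α = α → (∀ X, S α X → x ∈ normalizer (X : Set G) ∧ ∀ u ∈ X,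
    (∀ t : G, t • α = α → t • β = β → t ∈ normalizer (X : Set G) → Commute t u) → Commute x u) →
    x • β = β
  three : ∀ {α X}, S α X → ∃ k : G, k • α = α ∧ k ∈ normalizer (X : Set G) ∧
    (∀ x ∈ X, Commute k x → x = 1) ∧ ∀ Y, S α Y → Y ≠ X → ∀ y ∈ Y, Commute k y
  cross : ∀ {α β X}, A α β → S α X → ∃ j : G, j • α = α ∧ j • β = β ∧
    (∀ Y, S α Y ∨ S β Y → j ∈ normalizer (Y : Set G)) ∧ ∃ x ∈ X, ¬ Commute j x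
  ex : ∃ n α β, Wk A n α β ∧ Cr S α β

/-- (helper8) the critical distance is one -/
class WAb : Prop where
  out : ∀ {G : Type u} [Group G] {Γ : Type u} [MulAction G Γ] {A : Γ → Γ → Prop} {S : Γ → Subgroup G → Prop},
    Gr G Γ A S → ∃ α β, A α β ∧ Cr S α β

/-- the amalgam theorem -/
class WGr : Prop where
  out : ∀ {G : Type u} [Group G] [Finite G] {P P' T I W₁ W₂ V₁ V₂ : Subgroup G},
    Lo P T I W₁ W₂ → Lo P' T I V₁ V₂ →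
    (∀ N : Subgroup G, N ≤ T → P ≤ normalizer (N : Set G) → P' ≤ normalizer (N : Set G) → N = ⊥) →
    ¬ P ≤ normalizer ((W₁ ⊔ W₂ ⊔ (V₁ ⊔ V₂) : Subgroup G) : Set G) →
    ¬ P' ≤ normalizer ((W₁ ⊔ W₂ ⊔ (V₁ ⊔ V₂) : Subgroup G) : Set G) →
    ¬ W₁ ⊔ W₂ ≤ centralizer ((V₁ ⊔ V₂ : Subgroup G) : Set G)

/-- at most two components in a member of `𝓗(T)` -/
class WR2 : Prop where
  out : ∀ {G : Type u} [Group G] [Finite G] (T : Sylow 2 G), Ctx T → ∀ L : Subgroup G, (T : Subgroup G) ≤ L →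
    pCoreOf 2 L ≠ ⊥ → ∀ K₁ K₂ K₃ : Subgroup G, K₁ ≤ L → K₂ ≤ L → K₃ ≤ L → JC (J 2 (T : Subgroup G)) K₁ →
    JC (J 2 (T : Subgroup G)) K₂ → JC (J 2 (T : Subgroup G)) K₃ → K₁ = K₂ ∨ K₁ = K₃ ∨ K₂ = K₃

/-- the local structure -/
class WLo : Prop where
  out : ∀ {G : Type u} [Group G] [Finite G] (T : Sylow 2 G), Ctx T → ∀ K₁ K₂ : Subgroup G, Jt (T : Subgroup G) K₁ K₂ →
    Lo (K₁ ⊔ K₂ ⊔ T) T (J 2 (T : Subgroup G)) (wOf K₁) (wOf K₂) ∧ oddGenerated (K₁ ⊔ K₂ ⊔ T) = K₁ ⊔ K₂ ∧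
    pCoreOf 2 (K₁ ⊔ K₂) = pCoreOf 2 K₁ ⊔ pCoreOf 2 K₂ ∧ (T : Subgroup G) ⊓ (K₁ ⊔ K₂) = pCoreOf 2 (K₁ ⊔ K₂)

/-- `N(J(T))` permutes `K₁, K₂` -/
class WN : Prop where
  out : ∀ {G : Type u} [Group G] [Finite G] [IsSimpleGroup G], ¬ IsMulCommutative G → IsQTKE G → ∀ T : Sylow 2 G,
    Ctx T → ∀ K₁ K₂ : Subgroup G, Jt (T : Subgroup G) K₁ K₂ → ∀ g ∈ normalizer (J 2 (T : Subgroup G) : Set G),
    (K₁ ^ᶜ g = K₁ ∧ K₂ ^ᶜ g = K₂) ∨ (K₁ ^ᶜ g = K₂ ∧ K₂ ^ᶜ g = K₁)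

/-- the amalgam exists -/
class WP1 : Prop where
  out : ∀ {G : Type u} [Group G] [Finite G] [IsSimpleGroup G], ¬ IsMulCommutative G → IsQTKE G → ∀ T : Sylow 2 G,
    Ctx T → ∀ M₁ M₂ : Subgroup G, M₁ ∈ maxTwoLocalsContaining (T : Subgroup G) →
    M₂ ∈ maxTwoLocalsContaining (T : Subgroup G) → M₁ ≠ M₂ → ∃ K₁ K₂ L₁ L₂, Two (T : Subgroup G) K₁ K₂ L₁ L₂

/-- `W W'` is not normal -/
class WF1 : Prop where
  out : ∀ {G : Type u} [Group G] [Finite G] [IsSimpleGroup G], ¬ IsMulCommutative G → IsQTKE G → ∀ T : Sylow 2 G,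
    Ctx T → ∀ K₁ K₂ L₁ L₂ : Subgroup G, Two (T : Subgroup G) K₁ K₂ L₁ L₂ →
    ¬ K₁ ⊔ K₂ ⊔ T ≤ normalizer ((wOf K₁ ⊔ wOf K₂ ⊔ (wOf L₁ ⊔ wOf L₂) : Subgroup G) : Set G)

/-- the transfer lemma -/
class WT : Prop where
  out : ∀ {G : Type u} [Group G] [Finite G] [IsSimpleGroup G], ¬ IsMulCommutative G → ∀ T : Sylow 2 G,
    normalizer (J 2 (T : Subgroup G) : Set G) = (T : Subgroup G) →
    omegaOneCenter 2 (J 2 (T : Subgroup G)) ≤ ⁅(T : Subgroup G), (T : Subgroup G)⁆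

/-- the wreathed block: `O₂(Kᵢ) = Wᵢ` and `C_T(K₁ K₂) = 1` is impossible -/
class WE : Prop where
  out : ∀ {G : Type u} [Group G] [Finite G] [IsSimpleGroup G], ¬ IsMulCommutative G → IsQTKE G → ∀ T : Sylow 2 G,
    Ctx T → ∀ K₁ K₂ : Subgroup G, Jt (T : Subgroup G) K₁ K₂ → K₁ ≠ K₂ → pCoreOf 2 K₁ = wOf K₁ →
    pCoreOf 2 K₂ = wOf K₂ → (T : Subgroup G) ⊓ centralizer ((K₁ ⊔ K₂ : Subgroup G) : Set G) = ⊥ → False

/-- critical distance one excludes the wreathed type -/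
class WB1 : Prop where
  out : ∀ {G : Type u} [Group G] [Finite G] [IsSimpleGroup G], ¬ IsMulCommutative G → IsQTKE G → ∀ T : Sylow 2 G,
    Ctx T → ∀ K₁ K₂ L₁ L₂ : Subgroup G, Two (T : Subgroup G) K₁ K₂ L₁ L₂ →
    ¬ wOf K₁ ⊔ wOf K₂ ≤ centralizer ((wOf L₁ ⊔ wOf L₂ : Subgroup G) : Set G) → K₁ = K₂

variable {G : Type u} [Group G] [Finite G] {T : Sylow 2 G} {K K' L M : Subgroup G}

omit [Finite G] in
theorem Two.symm {T K₁ K₂ L₁ L₂ : Subgroup G} (h : Two T K₁ K₂ L₁ L₂) : Two T L₁ L₂ K₁ K₂ :=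
  ⟨h.r, h.l, fun N h1 h2 h3 => h.core N h1 h3 h2⟩

namespace Ctx

variable (h : Ctx T)
include h

theorem ov (hL : (T : Subgroup G) ≤ L) (hO : pCoreOf 2 L ≠ ⊥) : Ov (T : Subgroup G) L := by
  have hs : IsSylowIn 2 (T : Subgroup G) L := (isSylowIn_top T).of_le hL le_top
  refine ⟨hs, hO, le_trans (le_inf ?_ le_rfl) (h.hyp.ch2 L hL hO)⟩
  refine le_trans (centralizer_anti ?_) (h.cz.le.trans hL)
  exact le_trans (le_inf ((omegaOneCenter_le 2 _).trans hL)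
    ((omegaOneCenter_le_centralizer 2 _).trans (centralizer_anti hs.pCoreOf_le))) (h.hyp.ch2 L hL hO)

theorem top (hL : (T : Subgroup G) ≤ L) (hO : pCoreOf 2 L ≠ ⊥) : JTop.Top ((T : Subgroup G).subgroupOf L) where
  solv := h.hyp.solv L hL hO
  syl := subgroupOf_self L ▸ (h.ov hL hO).syl.subgroupOf le_rfl
  cent := by
    intro x hx
    rw [centralizer_eq_subgroupOf, map_V] at hx
    rw [normalizer_eq_subgroupOf, map_subgroupOf_eq_of_le hL]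
    exact le_normalizer (h.cz.le (centralizer_anti ((h.ov hL hO).omega_le le_rfl) hx))

theorem subnormal (hL : (T : Subgroup G) ≤ L) (hO : pCoreOf 2 L ≠ ⊥) (hK : JC (J 2 (T : Subgroup G)) K)
    (hKL : K ≤ L) : SubnormalIn L K :=
  subnormalIn_iff.2 ⟨hKL, subnormalIn_top_iff.1 ((h.top hL hO).subnormal ((jc_sub (h.ov hL hO) hKL).2 hK))⟩

theorem wOf_eq (hL : (T : Subgroup G) ≤ L) (hO : pCoreOf 2 L ≠ ⊥) (hK : JC (J 2 (T : Subgroup G)) K)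
    (hKL : K ≤ L) : wOf K = ⁅omegaOneCenter 2 (pCoreOf 2 L), K⁆ := by
  rw [← map_wOf_subgroupOf hKL, (h.top hL hO).wOf_eq ((jc_sub (h.ov hL hO) hKL).2 hK), map_commutator, map_V,
    map_subgroupOf_eq_of_le hKL]

theorem eq_or (hL : (T : Subgroup G) ≤ L) (hO : pCoreOf 2 L ≠ ⊥) (hK : JC (J 2 (T : Subgroup G)) K) (hKL : K ≤ L)
    (hK' : JC (J 2 (T : Subgroup G)) K') (hKL' : K' ≤ L) {g : G} (hg : g ∈ L) :
    K = K' ^ᶜ g ∨ (wOf K ⊓ wOf (K' ^ᶜ g) = ⊥ ∧ K' ^ᶜ g ≤ centralizer (wOf K : Set G)) := by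
  have h1 := conj_le_of_mem hKL' hg
  rcases (h.top hL hO).eq_or ((jc_sub (h.ov hL hO) hKL).2 hK) ((jc_sub (h.ov hL hO) hKL').2 hK') ⟨g, hg⟩
    with e | ⟨e, e'⟩
  · rw [conj_subgroupOf] at e
    left
    rw [← map_subgroupOf_eq_of_le hKL, e, map_subgroupOf_eq_of_le h1]
  · rw [conj_subgroupOf] at e e'
    rw [centralizer_eq_subgroupOf, map_wOf_subgroupOf hKL] at e'
    refine Or.inr ⟨?_, fun x hx => e' (show (⟨x, h1 hx⟩ : L) ∈ _ from hx)⟩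
    rw [← map_wOf_subgroupOf hKL, ← map_wOf_subgroupOf h1,
      ← Subgroup.map_inf _ _ _ L.subtype_injective, e, Subgroup.map_bot]

theorem le_of (hL : (T : Subgroup G) ≤ L) (hO : pCoreOf 2 L ≠ ⊥)
    (h1 : ∀ K ≤ L, JC (J 2 (T : Subgroup G)) K → K ≤ M)
    (h2 : L ⊓ normalizer (J 2 (T : Subgroup G) : Set G) ≤ M) : L ≤ M := by
  refine subgroupOf_eq_top.1 ((h.top hL hO).eq_top (fun K hK => ?_) fun x hx => ?_)
  · rw [← map_subtype_subgroupOf K, jc_sub (h.ov hL hO) (map_subtype_le K)] at hK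
    exact map_le_iff_le_comap.1 (h1 _ (map_subtype_le K) hK)
  · rw [normalizer_eq_subgroupOf, J_subgroupOf hL, map_subgroupOf_eq_of_le ((J_le 2 _).trans hL)] at hx
    exact h2 (mem_inf.2 ⟨x.2, hx⟩)

end Ctx

end Cfsg.Agent.Lib.WR
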