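import Cfsg.Agent.Lib.WrDefs

/-! The coset graph of the amalgam of S1832. -/

set_option autoImplicit false

namespace Cfsg.Agent.Lib.WR

open Cfsg Subgroup Cfsg.Agent.Lib.PCoreConj Cfsg.Agent.Lib.PCore

universe u

variable {G : Type u} [Group G]

/-- the local structure with indexed strands -/
structure Un (P T I : Subgroup G) (W : Bool → Subgroup G) : Prop where
  le : T ≤ P
  max : ∀ H : Subgroup G, T ≤ H → ∀ a ∈ P, a ∉ T → a ∈ H → P ≤ H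
  card : ∀ c, Nat.card (W c) = 4
  sq : ∀ c, ∀ w ∈ W c, w ^ 2 = 1
  disj : ∀ c d, W c = W d ∨ W c ⊓ W d = ⊥
  cm : ∀ c d, ∀ x ∈ W c, ∀ y ∈ W d, Commute x y
  perm : ∀ g ∈ P, ∀ c, ∃ d, W c ^ᶜ g = W d
  Q : ∀ q ∈ P, (∀ c, ∀ x ∈ W c, Commute q x) → q ∈ T
  QT : pCoreOf 2 P ≤ T
  WQ : ∀ c, W c ≤ pCoreOf 2 P
  IT : I ≤ T
  n : ∀ c, I ≤ normalizer (W c : Set G)
  nc : ∀ c, ∃ j ∈ I, ∃ x ∈ W c, ¬ Commute j x
  u : ∀ c, ∃ u ∈ W c, u ≠ 1 ∧ ∀ t ∈ T, t ∈ normalizer (W c : Set G) → Commute t u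
  fix : ∀ x ∈ P, (∀ c, x ∈ normalizer (W c : Set G) ∧
    ∀ u ∈ W c, (∀ t ∈ T, t ∈ normalizer (W c : Set G) → Commute t u) → Commute x u) → x ∈ T
  three : ∀ c, ∃ k ∈ P, k ∈ normalizer (W c : Set G) ∧ (∀ w ∈ W c, Commute k w → w = 1) ∧
    ∀ d, W d ≠ W c → ∀ y ∈ W d, Commute k y

theorem Lo.un {P T I W₁ W₂ : Subgroup G} (h : Lo P T I W₁ W₂) : Un P T I fun c => cond c W₂ W₁ := by
  have le : ∀ c : Bool, cond c W₂ W₁ ≤ W₁ ⊔ W₂ := fun c => by cases c <;> simp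
  have nc : ∀ X : Subgroup G, ¬ I ≤ centralizer (X : Set G) → ∃ j ∈ I, ∃ x ∈ X, ¬ Commute j x := fun X a => by
    by_contra! b
    exact a fun j hj x hx => (b j hj x hx).symm
  refine ⟨h.le, h.max, fun c => ?_, fun c => ?_, fun c d => ?_, fun c d x hx y hy => (h.cm (le c hx) y (le d hy)).symm,
    fun g hg c => ?_, fun q hq a => h.QT (h.Q.ge ⟨hq, ?_⟩), h.QT, fun c => (le c).trans h.WQ, h.IT, fun c => ?_,
    fun c => ?_, fun c => ?_, fun x hx a => h.fix x hx (a false).1 (a true).1 (a false).2 (a true).2, fun c => ?_⟩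
  · cases c
    exacts [h.c1, h.c2]
  · cases c
    exacts [h.s1, h.s2]
  · cases c <;> cases d
    exacts [Or.inl rfl, h.disj, h.disj.imp Eq.symm fun a => (inf_comm _ _).trans a, Or.inl rfl]
  · rcases h.perm g hg with a | a <;> cases c
    exacts [⟨false, a.1⟩, ⟨true, a.2⟩, ⟨true, a.1⟩, ⟨false, a.2⟩]
  · rw [centralizer_sup]
    exact ⟨fun x hx => (a false x hx).symm, fun x hx => (a true x hx).symm⟩
  · cases c
    exacts [h.n1, h.n2]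
  · cases c
    exacts [nc _ h.nc1, nc _ h.nc2]
  · cases c
    exacts [h.u1, h.u2]
  · cases c
    · obtain ⟨k, a₁, a₂, a₃, a₄⟩ := h.three1
      refine ⟨k, a₁, a₂, a₃, fun d hd y hy => ?_⟩
      cases d
      · exact absurd rfl hd
      · exact ((a₄.resolve_left fun b => hd b.symm) y hy).symm
    · obtain ⟨k, a₁, a₂, a₃, a₄⟩ := h.three2
      refine ⟨k, a₁, a₂, a₃, fun d hd y hy => ?_⟩
      cases d
      · exact ((a₄.resolve_left hd) y hy).symm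
      · exact absurd rfl hd

/-- the vertices -/
abbrev Vx (P : Bool → Subgroup G) : Type u := Σ e : Bool, G ⧸ P e

/-- the vertex `x P` -/
def vx (P : Bool → Subgroup G) (e : Bool) (x : G) : Vx P := ⟨e, (x : G ⧸ P e)⟩

/-- adjacency -/
def Adj (P : Bool → Subgroup G) (α β : Vx P) : Prop := ∃ e x, α = vx P e x ∧ β = vx P (!e) x

/-- strands -/
def Str (P : Bool → Subgroup G) (W : Bool → Bool → Subgroup G) (α : Vx P) (X : Subgroup G) : Prop :=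
  ∃ e x c, α = vx P e x ∧ X = W e c ^ᶜ x

variable {P : Bool → Subgroup G} {W : Bool → Bool → Subgroup G} {T I : Subgroup G} {e : Bool} {x y g : G}

theorem smul_vx : g • vx P e x = vx P e (g * x) := rfl

theorem vx_eq {e' : Bool} (h : vx P e x = vx P e' y) : e = e' ∧ x⁻¹ * y ∈ P e := by
  obtain rfl : e = e' := congrArg Sigma.fst h
  exact ⟨rfl, QuotientGroup.eq.mp (eq_of_heq (Sigma.mk.inj_iff.mp h).2)⟩

theorem fx_vx : g • vx P e x = vx P e x ↔ g ∈ P e ^ᶜ x := by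
  rw [smul_vx, mem_conj_iff, ← inv_mem_iff]
  have : (x⁻¹ * g * x)⁻¹ = (g * x)⁻¹ * x := by group
  rw [this]
  exact ⟨fun h => (vx_eq h).2, fun h => congrArg (Sigma.mk e) (QuotientGroup.eq.mpr h)⟩

theorem fx_vx' : (x * g * x⁻¹) • vx P e x = vx P e x ↔ g ∈ P e := fx_vx.trans conj_mem_conj_iff

theorem ex_cj (x g : G) : ∃ y, g = x * y * x⁻¹ := ⟨x⁻¹ * g * x, by group⟩

theorem cm_cj {a b : G} : Commute (x * a * x⁻¹) (x * b * x⁻¹) ↔ Commute a b := by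
  have : ∀ a b : G, x * a * x⁻¹ * (x * b * x⁻¹) = x * (a * b) * x⁻¹ := fun a b => by group
  simp only [Commute, SemiconjBy, this, mul_left_inj, mul_right_inj]

theorem nm_cj {X : Subgroup G} : x * g * x⁻¹ ∈ normalizer ((X ^ᶜ x : Subgroup G) : Set G) ↔
    g ∈ normalizer (X : Set G) := by rw [← conj_normalizer, conj_mem_conj_iff]

theorem Wk.smul {Γ : Type u} [MulAction G Γ] {A : Γ → Γ → Prop} (hA : ∀ {α β} (g : G), A α β → A (g • α) (g • β))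
    (g : G) : ∀ {n : ℕ} {α β : Γ}, Wk A n α β → Wk A n (g • α) (g • β)
  | 0, _, _, h => congrArg (g • ·) h
  | _ + 1, _, _, ⟨β, h₁, h₂⟩ => ⟨g • β, hA g h₁, Wk.smul hA g h₂⟩

/-- the amalgam -/
structure Bs (P : Bool → Subgroup G) (T I : Subgroup G) (W : Bool → Bool → Subgroup G) : Prop where
  un : ∀ e, Un (P e) T I (W e)
  core : ∀ N : Subgroup G, N ≤ T → (∀ e, P e ≤ normalizer (N : Set G)) → N = ⊥
  F1 : ∀ e, ¬ P e ≤ normalizer ((⨆ e, ⨆ c, W e c : Subgroup G) : Set G)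

namespace Bs

variable (h : Bs P T I W)
include h

theorem ne (e c : Bool) : W e c ≠ ⊥ := fun a => by
  have := (h.un e).card c
  rw [a] at this
  simp at this

theorem memT (h₁ : g ∈ P e) (h₂ : g ∈ P (!e)) : g ∈ T := by
  by_contra a
  have h₃ : ∀ d, g ∈ P d := fun d => by cases d <;> cases e <;> assumption
  refine h.ne false false (eq_bot_iff.mpr (((h.un false).WQ false).trans (h.core _ (h.un false).QT fun d => ?_).le))
  rw [le_antisymm ((h.un false).max _ (h.un d).le g (h₃ _) a (h₃ _)) ((h.un d).max _ (h.un false).le g (h₃ _) a (h₃ _))]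
  exact le_normalizer_pCoreOf 2 _

theorem str {X : Subgroup G} : Str P W (vx P e x) X ↔ ∃ c, X = W e c ^ᶜ x := by
  refine ⟨?_, fun ⟨c, a⟩ => ⟨e, x, c, rfl, a⟩⟩
  rintro ⟨e', y, c, a, rfl⟩
  obtain ⟨rfl, b⟩ := vx_eq a
  obtain ⟨d, hd⟩ := (h.un e).perm _ b c
  exact ⟨d, by rw [← hd, conj_conj, mul_inv_cancel_left]⟩

theorem st {α : Vx P} {X : Subgroup G} (a : Str P W α X) : ∀ x ∈ X, x • α = α := by
  obtain ⟨e, x, c, rfl, rfl⟩ := a
  exact fun y hy => fx_vx.mpr (conj_mono x (((h.un e).WQ c).trans ((h.un e).QT.trans (h.un e).le)) hy)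

theorem Q {α β : Vx P} {q : G} (a : Adj P α β) (hq : q • α = α) (b : ∀ X, Str P W α X → ∀ x ∈ X, Commute q x) :
    q • β = β := by
  obtain ⟨e, x, rfl, rfl⟩ := a
  obtain ⟨q, rfl⟩ := ex_cj x q
  exact fx_vx'.mpr ((h.un _).le ((h.un e).Q q (fx_vx'.mp hq) fun c y hy =>
    cm_cj.mp (b _ (h.str.mpr ⟨c, rfl⟩) _ (conj_mem_conj x hy))))

omit h in
theorem symm {α β : Vx P} (a : Adj P α β) : Adj P β α := by
  obtain ⟨e, x, rfl, rfl⟩ := a
  exact ⟨!e, x, rfl, by rw [Bool.not_not]⟩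

omit h in
theorem asm {α β : Vx P} (g : G) (a : Adj P α β) : Adj P (g • α) (g • β) := by
  obtain ⟨e, x, rfl, rfl⟩ := a
  exact ⟨e, g * x, rfl, rfl⟩

omit h in
theorem ssm {α : Vx P} {X : Subgroup G} (g : G) (a : Str P W α X) : Str P W (g • α) (X ^ᶜ g) := by
  obtain ⟨e, x, c, rfl, rfl⟩ := a
  exact ⟨e, g * x, c, rfl, conj_conj _ _ _⟩

theorem ex : ∃ n α β, Wk (Adj P) n α β ∧ Cr (Str P W) α β := by
  by_contra! hh
  have k₁ : ∀ (n : ℕ) (α γ : Vx P), Wk (Adj P) n α γ → ∀ X, Str P W γ X → ∀ x ∈ X, x • α = α := by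
    intro n
    induction n with
    | zero => exact fun α γ a X hX => (show α = γ from a) ▸ h.st hX
    | succ n ih =>
      rintro α γ ⟨β, a, b⟩ X hX x hx
      refine h.Q (symm a) (ih β γ b X hX x hx) fun Y hY y hy => ?_
      by_contra c
      exact hh n β γ b ⟨Y, X, hY, hX, y, hy, x, hx, fun d => c d.symm⟩
  have k₂ : ∀ (e d : Bool) (n : ℕ) (γ : Vx P), Wk (Adj P) n (vx P e 1) γ → ∃ m, Wk (Adj P) m (vx P d 1) γ :=
    fun e d n γ a => by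
      cases e <;> cases d
      exacts [⟨n, a⟩, ⟨n + 1, _, ⟨true, 1, rfl, rfl⟩, a⟩, ⟨n + 1, _, ⟨false, 1, rfl, rfl⟩, a⟩, ⟨n, a⟩]
  have k₃ : ∀ e, ∀ g ∈ P e, g • vx P e 1 = vx P e 1 := fun e g hg => fx_vx.mpr (by rwa [conj_one])
  have := h.core (sSup {X | ∃ n γ, Wk (Adj P) n (vx P false 1) γ ∧ Str P W γ X}) (sSup_le ?_) fun e => ?_
  · refine h.ne false false (eq_bot_iff.mpr (le_trans (le_sSup ?_) this.le))
    exact ⟨0, _, rfl, false, 1, false, rfl, (conj_one _).symm⟩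
  · rintro X ⟨n, γ, a, b⟩ x hx
    obtain ⟨m, a'⟩ := k₂ false true n γ a
    have c₁ := fx_vx.mp (k₁ n _ γ a X b x hx)
    have c₂ := fx_vx.mp (k₁ m _ γ a' X b x hx)
    rw [conj_one] at c₁ c₂
    exact h.memT (e := false) c₁ c₂
  · refine le_normalizer_iff_conj_le.mpr fun g hg => conj_le_iff_le_conj_inv.mpr (sSup_le ?_)
    rintro X ⟨n, γ, a, b⟩
    refine conj_le_iff_le_conj_inv.mp (le_sSup ?_)
    obtain ⟨m, a₁⟩ := k₂ false e n γ a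
    have a₂ := Wk.smul (fun g a => asm g a) g a₁
    rw [k₃ e g hg] at a₂
    obtain ⟨l, a₃⟩ := k₂ e false m _ a₂
    exact ⟨l, _, a₃, ssm g b⟩

theorem gr : Gr G (Vx P) (Adj P) (Str P W) where
  symm := symm
  asm := asm
  ssm := ssm
  card := by
    rintro _ _ ⟨e, x, c, rfl, rfl⟩
    rw [card_conj, (h.un e).card]
  sq := by
    rintro _ _ ⟨e, x, c, rfl, rfl⟩ y hy
    obtain ⟨y, hy', rfl⟩ := mem_conj_iff'.mp hy
    rw [conj_pow, (h.un e).sq c y hy', mul_one, mul_inv_cancel]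
  disj := by
    rintro _ _ Y ⟨e, x, c, rfl, rfl⟩ hY
    obtain ⟨d, rfl⟩ := h.str.mp hY
    rw [← conj_inf, conj_inj, conj_eq_bot_iff]
    exact (h.un e).disj c d
  cm := by
    rintro _ _ Y ⟨e, x, c, rfl, rfl⟩ hY a ha b hb
    obtain ⟨d, rfl⟩ := h.str.mp hY
    obtain ⟨a, ha', rfl⟩ := mem_conj_iff'.mp ha
    obtain ⟨b, hb', rfl⟩ := mem_conj_iff'.mp hb
    exact cm_cj.mpr ((h.un e).cm c d a ha' b hb')
  two := by
    rintro _ _ Y Z ⟨e, x, c, rfl, rfl⟩ hY hZ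
    obtain ⟨d, rfl⟩ := h.str.mp hY
    obtain ⟨f, rfl⟩ := h.str.mp hZ
    cases c <;> cases d <;> cases f <;> simp
  st := h.st
  Q := h.Q
  max := by
    rintro _ _ a H ⟨e, x, rfl, rfl⟩ h₁ h₂ h₃ h₄ g hg
    obtain ⟨a, rfl⟩ := ex_cj x a
    obtain ⟨H, rfl⟩ : ∃ H', H = H' ^ᶜ x := ⟨H ^ᶜ x⁻¹, (conj_inv_conj H x).symm⟩
    refine conj_mono x ((h.un e).max H (fun t ht => conj_mem_conj_iff.mp (h₄ _ (fx_vx'.mpr ((h.un _).le ht))
      (fx_vx'.mpr ((h.un _).le ht)))) a (fx_vx'.mp h₁) (fun b => h₂ (fx_vx'.mpr ((h.un _).le b)))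
      (conj_mem_conj_iff.mp h₃)) (fx_vx.mp hg)
  F1 := by
    rintro _ _ ⟨e, x, rfl, rfl⟩ a
    have b : sSup {X | Str P W (vx P e x) X ∨ Str P W (vx P (!e) x) X} = (⨆ e, ⨆ c, W e c) ^ᶜ x := by
      refine le_antisymm (sSup_le ?_) ?_
      · rintro X (hX | hX) <;> obtain ⟨c, rfl⟩ := h.str.mp hX <;>
          exact conj_mono x (le_iSup₂_of_le _ c le_rfl)
      · simp only [conj_iSup]
        refine iSup₂_le fun d c => le_sSup ?_
        cases d <;> cases e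
        exacts [Or.inl (h.str.mpr ⟨c, rfl⟩), Or.inr (h.str.mpr ⟨c, rfl⟩), Or.inr (h.str.mpr ⟨c, rfl⟩),
          Or.inl (h.str.mpr ⟨c, rfl⟩)]
    rw [b] at a
    exact h.F1 e fun g hg => nm_cj.mp (a _ (fx_vx'.mpr hg))
  u := by
    rintro _ _ X ⟨e, x, rfl, rfl⟩ hX
    obtain ⟨c, rfl⟩ := h.str.mp hX
    obtain ⟨u, a₁, a₂, a₃⟩ := (h.un e).u c
    refine ⟨_, conj_mem_conj x a₁, by simpa using a₂, fun t b₁ b₂ b₃ => ?_⟩
    obtain ⟨t, rfl⟩ := ex_cj x t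
    exact cm_cj.mpr (a₃ t (h.memT (fx_vx'.mp b₁) (fx_vx'.mp b₂)) (nm_cj.mp b₃))
  fix := by
    rintro _ _ y ⟨e, x, rfl, rfl⟩ hy a
    obtain ⟨y, rfl⟩ := ex_cj x y
    refine fx_vx'.mpr ((h.un _).le ((h.un e).fix y (fx_vx'.mp hy) fun c => ?_))
    obtain ⟨a₁, a₂⟩ := a _ (h.str.mpr ⟨c, rfl⟩)
    refine ⟨nm_cj.mp a₁, fun u hu b => cm_cj.mp (a₂ _ (conj_mem_conj x hu) fun t b₁ b₂ b₃ => ?_)⟩
    obtain ⟨t, rfl⟩ := ex_cj x t
    exact cm_cj.mpr (b t (h.memT (fx_vx'.mp b₁) (fx_vx'.mp b₂)) (nm_cj.mp b₃))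
  three := by
    rintro _ _ ⟨e, x, c, rfl, rfl⟩
    obtain ⟨k, a₁, a₂, a₃, a₄⟩ := (h.un e).three c
    refine ⟨x * k * x⁻¹, fx_vx'.mpr a₁, nm_cj.mpr a₂, fun w hw b => ?_, fun Y hY b y hy => ?_⟩
    · obtain ⟨w, hw', rfl⟩ := mem_conj_iff'.mp hw
      rw [a₃ w hw' (cm_cj.mp b), mul_one, mul_inv_cancel]
    · obtain ⟨d, rfl⟩ := h.str.mp hY
      obtain ⟨y, hy', rfl⟩ := mem_conj_iff'.mp hy
      exact cm_cj.mpr (a₄ d (fun f => b (by rw [f])) y hy')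
  cross := by
    rintro _ _ X ⟨e, x, rfl, rfl⟩ hX
    obtain ⟨c, rfl⟩ := h.str.mp hX
    obtain ⟨j, a₁, y, a₂, a₃⟩ := (h.un e).nc c
    refine ⟨x * j * x⁻¹, fx_vx'.mpr ((h.un _).le ((h.un e).IT a₁)), fx_vx'.mpr ((h.un _).le ((h.un e).IT a₁)), ?_,
      _, conj_mem_conj x a₂, fun b => a₃ (cm_cj.mp b)⟩
    rintro Y (hY | hY) <;> obtain ⟨d, rfl⟩ := h.str.mp hY <;> exact nm_cj.mpr ((h.un _).n d a₁)
  ex := h.ex

theorem out [WAb.{u}] : ∃ c d, ∃ a ∈ W false c, ∃ b ∈ W true d, ¬ Commute a b := by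
  obtain ⟨_, _, ⟨e, x, rfl, rfl⟩, X, Y, hX, hY, a, ha, b, hb, hab⟩ := WAb.out h.gr
  obtain ⟨c, rfl⟩ := h.str.mp hX
  obtain ⟨d, rfl⟩ := h.str.mp hY
  obtain ⟨a, ha', rfl⟩ := mem_conj_iff'.mp ha
  obtain ⟨b, hb', rfl⟩ := mem_conj_iff'.mp hb
  rw [cm_cj] at hab
  cases e
  exacts [⟨c, d, a, ha', b, hb', hab⟩, ⟨d, c, b, hb', a, ha', fun f => hab f.symm⟩]

end Bs

instance instWGr [WAb.{u}] : WGr.{u} where
  out := fun {G} _ _ {P P' T I W₁ W₂ V₁ V₂} h h' core f f' hc => by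
    have hs : (⨆ e : Bool, ⨆ c : Bool, cond e (cond c V₂ V₁) (cond c W₂ W₁)) = W₁ ⊔ W₂ ⊔ (V₁ ⊔ V₂) := by
      simp only [iSup_bool_eq, cond_true, cond_false]
      ac_rfl
    have hb : Bs (fun e => cond e P' P) T I fun e c => cond e (cond c V₂ V₁) (cond c W₂ W₁) := by
      refine ⟨fun e => ?_, fun N a b => core N a (b false) (b true), fun e => ?_⟩
      · cases e
        exacts [h.un, h'.un]
      · rw [hs]
        cases e
        exacts [f, f']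
    obtain ⟨c, d, a, ha, b, hb, hab⟩ := hb.out
    refine hab (hc (?_ : a ∈ W₁ ⊔ W₂) b (?_ : b ∈ V₁ ⊔ V₂)).symm
    · cases c
      exacts [mem_sup_left ha, mem_sup_right ha]
    · cases d
      exacts [mem_sup_left hb, mem_sup_right hb]

end Cfsg.Agent.Lib.WR
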