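import Cfsg.Agent.Lib.WrDefs

/-! The local structure of `K₁ K₂ T` (instance of `WR.WLo`). -/

set_option autoImplicit false
set_option linter.unusedSectionVars false
set_option linter.style.haveILetI false

namespace Cfsg.Agent.Lib.WrLo

open Cfsg Subgroup Cfsg.Agent.Lib.PCoreConj Cfsg.Agent.Lib.PCore Cfsg.Agent.Lib.PCoreResidual
  Cfsg.Agent.Lib.PReduced Cfsg.Agent.Lib.LocIdx Cfsg.Agent.Lib.LocFour Cfsg.Agent.Lib.ThompsonJ
  Cfsg.Agent.Lib.JComp Cfsg.Agent.Lib.WR Cfsg.Agent.Lib.PCoreMod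
open scoped commutatorElement

universe u

variable {G : Type u} [Group G]

/-- the stabilizer of the unordered pair `{A, B}` -/
def pairStab (A B : Subgroup G) : Subgroup G where
  carrier := {g | (A ^ᶜ g = A ∧ B ^ᶜ g = B) ∨ (A ^ᶜ g = B ∧ B ^ᶜ g = A)}
  one_mem' := Or.inl ⟨conj_one _, conj_one _⟩
  mul_mem' := by
    rintro a b (⟨h1, h2⟩ | ⟨h1, h2⟩) (⟨h3, h4⟩ | ⟨h3, h4⟩)
    · left; rw [← conj_conj, ← conj_conj, h3, h4, h1, h2]; exact ⟨rfl, rfl⟩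
    · right; rw [← conj_conj, ← conj_conj, h3, h4, h1, h2]; exact ⟨rfl, rfl⟩
    · right; rw [← conj_conj, ← conj_conj, h3, h4, h1, h2]; exact ⟨rfl, rfl⟩
    · left; rw [← conj_conj, ← conj_conj, h3, h4, h1, h2]; exact ⟨rfl, rfl⟩
  inv_mem' := by
    rintro a (⟨h1, h2⟩ | ⟨h1, h2⟩)
    · exact Or.inl ⟨(conj_eq_iff_eq_conj_inv.1 h1).symm, (conj_eq_iff_eq_conj_inv.1 h2).symm⟩
    · exact Or.inr ⟨(conj_eq_iff_eq_conj_inv.1 h2).symm, (conj_eq_iff_eq_conj_inv.1 h1).symm⟩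

theorem jt_symm {T K₁ K₂ : Subgroup G} (j : Jt T K₁ K₂) : Jt T K₂ K₁ where
  j1 := j.j2
  j2 := j.j1
  perm := fun t ht => (j.perm t ht).imp And.symm And.symm
  tr := by
    obtain ⟨t, ht, e⟩ := j.tr
    exact ⟨t⁻¹, inv_mem ht, (conj_eq_iff_eq_conj_inv.1 e).symm⟩
  ne := by rw [sup_comm K₂]; exact j.ne

variable [Finite G] {T : Sylow 2 G} {K₁ K₂ : Subgroup G} (h : Ctx T) (j : Jt (T : Subgroup G) K₁ K₂)
include h j

theorem K_le : K₁ ≤ K₁ ⊔ K₂ ⊔ T := le_sup_left.trans le_sup_left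

theorem O_le_Q : pCoreOf 2 K₁ ≤ pCoreOf 2 (K₁ ⊔ K₂ ⊔ T) :=
  pCoreOf_le_of_subnormalIn (h.subnormal le_sup_right j.ne j.j1 (K_le h j))

theorem Q_le_T : pCoreOf 2 (K₁ ⊔ K₂ ⊔ T) ≤ T := (h.ov le_sup_right j.ne).syl.pCoreOf_le

theorem O_le_T : pCoreOf 2 K₁ ≤ T := (O_le_Q h j).trans (Q_le_T h j)

theorem W_le_V : wOf K₁ ≤ omegaOneCenter 2 (pCoreOf 2 (K₁ ⊔ K₂ ⊔ T)) := by
  rw [h.wOf_eq le_sup_right j.ne j.j1 (K_le h j)]
  exact commutator_le_left_of_le_normalizer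
    ((K_le h j).trans (le_normalizer_omegaOneCenter (le_normalizer_pCoreOf 2 _)))

theorem Q_le_C : pCoreOf 2 (K₁ ⊔ K₂ ⊔ T) ≤ centralizer (wOf K₁ : Set G) :=
  (le_centralizer_omegaOneCenter 2 _).trans (centralizer_anti (W_le_V h j))

theorem far (hne : K₁ ≠ K₂) : wOf K₁ ⊓ wOf K₂ = ⊥ ∧ K₂ ≤ centralizer (wOf K₁ : Set G) := by
  have := (h.eq_or le_sup_right j.ne j.j1 (K_le h j) j.j2 (le_sup_right.trans le_sup_left) (one_mem _))
  rw [conj_one] at this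
  exact this.resolve_left hne

theorem eq_of_W {g : G} (hg : g ∈ K₁ ⊔ K₂ ⊔ T) (hw : g ∈ normalizer (wOf K₁ : Set G)) : K₁ ^ᶜ g = K₁ := by
  refine ((h.eq_or le_sup_right j.ne j.j1 (K_le h j) j.j1 (K_le h j) hg).resolve_right fun e => ?_).symm
  rw [← conj_wOf, conj_eq_of_mem_normalizer hw, inf_idem] at e
  exact j.j1.W_ne_bot e.1

theorem K_norm : K₂ ≤ normalizer (K₁ : Set G) := by
  by_cases e : K₁ = K₂
  · rw [e]; exact le_normalizer
  · exact fun g hg => mem_normalizer_iff_conj_eq.2 (eq_of_W h j (mem_sup_left (mem_sup_right hg))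
      (le_normalizer_of_le_centralizer (far h j e).2 hg))

theorem permK : K₁ ⊔ K₂ ⊔ T ≤ pairStab K₁ K₂ :=
  sup_le (sup_le (fun _ hg => Or.inl ⟨conj_eq_of_mem hg, conj_eq_of_mem_normalizer (K_norm h (jt_symm j) hg)⟩)
    fun _ hg => Or.inl ⟨conj_eq_of_mem_normalizer (K_norm h j hg), conj_eq_of_mem hg⟩) j.perm

theorem normE : K₁ ⊔ K₂ ⊔ T ≤ normalizer ((K₁ ⊔ K₂ : Subgroup G) : Set G) := fun g hg => by
  rw [mem_normalizer_iff_conj_eq, conj_sup]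
  rcases permK h j hg with ⟨e1, e2⟩ | ⟨e1, e2⟩
  · rw [e1, e2]
  · rw [e1, e2, sup_comm]

theorem E_norm : K₁ ⊔ K₂ ≤ normalizer (K₁ : Set G) := sup_le le_normalizer (K_norm h j)

theorem exists_u : ∃ u ∈ wOf K₁, u ≠ 1 ∧ ∀ t ∈ (T : Subgroup G), t ∈ normalizer (wOf K₁ : Set G) → Commute t u := by
  have h2 := j.j1.card_Z_inf
  obtain ⟨⟨u, hu⟩, h1, -⟩ := (Nat.card_eq_two_iff' (1 : (omegaOneCenter 2 (J 2 (T : Subgroup G)) ⊓ wOf K₁ :
    Subgroup G))).1 h2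
  refine ⟨u, hu.2, fun e => h1 (Subtype.ext e), fun t ht hn => ?_⟩
  exact (mem_centralizer_iff.1 (mem_centralizer_of_card_two h2 (zpowers_le.1 (PCoreConj.le_normalizer_inf
    (le_normalizer_omegaOneCenter ((zpowers_le.2 ht).trans (le_normalizer.trans (normalizer_le_normalizer_J 2 _))))
    (zpowers_le.2 hn)))) u hu).symm

theorem mem_O {a u : G} (ha : a ∈ K₁) (hu : u ∈ wOf K₁) (h1 : u ≠ 1) (hc : Commute a u) : a ∈ pCoreOf 2 K₁ := by
  by_contra hn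
  exact h1 (mem_bot.1 ((inf_centralizer_eq_bot j.j1.idx j.j1.W_inf (pCoreOf_le_centralizer_wOf K₁) ha hn).le
    ⟨hu, mem_centralizer_singleton_iff.2 hc.eq.symm⟩))

theorem split {x : G} (hx : x ∈ K₁ ⊔ K₂) : ∃ a ∈ K₁, ∃ b ∈ K₂, a * b = x :=
  (mem_sup_iff_of_le_normalizer (K_norm h (jt_symm j))).1 hx

/-- an element of `E` fixing nontrivial vectors of both strands lies in `O₂(K₁) O₂(K₂)` -/
theorem mem_OO {x u v : G} (hx : x ∈ K₁ ⊔ K₂) (hu : u ∈ wOf K₁) (h1 : u ≠ 1) (hc : Commute x u)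
    (hv : v ∈ wOf K₂) (h2 : v ≠ 1) (hd : Commute x v) : x ∈ pCoreOf 2 K₁ ⊔ pCoreOf 2 K₂ := by
  by_cases e : K₁ = K₂
  · subst e
    rw [sup_idem] at hx
    exact mem_sup_left (mem_O h j hx hu h1 hc)
  obtain ⟨a, ha, b, hb, rfl⟩ := split h j hx
  have c1 : Commute b u := (mem_centralizer_iff.1 ((far h j e).2 hb) u hu).symm
  have c2 : Commute a v := (mem_centralizer_iff.1 ((far h (jt_symm j) (Ne.symm e)).2 ha) v hv).symm
  refine mul_mem (mem_sup_left (mem_O h j ha hu h1 ?_)) (mem_sup_right (mem_O h (jt_symm j) hb hv h2 ?_))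
  · simpa using hc.mul_left c1.inv_left
  · simpa using c2.inv_left.mul_left hd

theorem TE_le : (T : Subgroup G) ⊓ (K₁ ⊔ K₂) ≤ pCoreOf 2 K₁ ⊔ pCoreOf 2 K₂ := fun x hx => by
  obtain ⟨u, hu, h1, hc⟩ := exists_u h j
  obtain ⟨v, hv, h2, hd⟩ := exists_u h (jt_symm j)
  refine mem_OO h j hx.2 hu h1 (hc x hx.1 (normalizer_le_normalizer_wOf _ (E_norm h j hx.2))) hv h2
    (hd x hx.1 (normalizer_le_normalizer_wOf _ (E_norm h (jt_symm j) ?_)))
  rw [sup_comm]; exact hx.2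

theorem OO_le : pCoreOf 2 K₁ ⊔ pCoreOf 2 K₂ ≤ pCoreOf 2 (K₁ ⊔ K₂) :=
  sup_le (pCoreOf_le_of_normal le_sup_left (E_norm h j))
    (pCoreOf_le_of_normal le_sup_right (sup_le (K_norm h (jt_symm j)) le_normalizer))

theorem OE_le : pCoreOf 2 (K₁ ⊔ K₂) ≤ (T : Subgroup G) ⊓ (K₁ ⊔ K₂) :=
  le_inf ((pCoreOf_le_of_normal le_sup_left (normE h j)).trans (Q_le_T h j)) (pCoreOf_le 2 _)

theorem OO_le_T : pCoreOf 2 K₁ ⊔ pCoreOf 2 K₂ ≤ T := sup_le (O_le_T h j) (O_le_T h (jt_symm j))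

theorem res : pResidualOf 2 (K₁ ⊔ K₂ ⊔ T) = K₁ ⊔ K₂ :=
  le_antisymm (pResidualOf_sup_le T.isPGroup' (le_sup_right.trans (normE h j)))
    (sup_le (j.j1.res.ge.trans (pResidualOf_mono (K_le h j)))
      (j.j2.res.ge.trans (pResidualOf_mono (le_sup_right.trans le_sup_left))))

theorem permW {g : G} (hg : g ∈ K₁ ⊔ K₂ ⊔ T) :
    (wOf K₁ ^ᶜ g = wOf K₁ ∧ wOf K₂ ^ᶜ g = wOf K₂) ∨ (wOf K₁ ^ᶜ g = wOf K₂ ∧ wOf K₂ ^ᶜ g = wOf K₁) := by
  rw [conj_wOf, conj_wOf]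
  rcases permK h j hg with ⟨e1, e2⟩ | ⟨e1, e2⟩
  · left; rw [e1, e2]; exact ⟨rfl, rfl⟩
  · right; rw [e1, e2]; exact ⟨rfl, rfl⟩

theorem Q_le_C2 : pCoreOf 2 (K₁ ⊔ K₂ ⊔ T) ≤ centralizer (wOf K₂ : Set G) := by
  rw [sup_comm K₁]; exact Q_le_C h (jt_symm j)

theorem W_le_Q : wOf K₁ ⊔ wOf K₂ ≤ pCoreOf 2 (K₁ ⊔ K₂ ⊔ T) :=
  sup_le ((W_le_V h j).trans (omegaOneCenter_le 2 _))
    (by rw [sup_comm K₁]; exact (W_le_V h (jt_symm j)).trans (omegaOneCenter_le 2 _))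

theorem Q_le_CU : pCoreOf 2 (K₁ ⊔ K₂ ⊔ T) ≤ centralizer ((wOf K₁ ⊔ wOf K₂ : Subgroup G) : Set G) :=
  le_centralizer_iff.1 (sup_le (le_centralizer_iff.1 (Q_le_C h j)) (le_centralizer_iff.1 (Q_le_C2 h j)))

theorem Q_eq : pCoreOf 2 (K₁ ⊔ K₂ ⊔ T) =
    (K₁ ⊔ K₂ ⊔ T) ⊓ centralizer ((wOf K₁ ⊔ wOf K₂ : Subgroup G) : Set G) := by
  refine le_antisymm (le_inf (pCoreOf_le 2 _) (Q_le_CU h j)) (le_pCoreOf inf_le_left
    (PCoreConj.le_normalizer_inf le_normalizer (PCoreConj.le_normalizer_centralizer fun g hg => ?_)) ?_)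
  · rw [mem_normalizer_iff_conj_eq, conj_sup]
    rcases permW h j hg with ⟨e1, e2⟩ | ⟨e1, e2⟩
    · rw [e1, e2]
    · rw [e1, e2, sup_comm]
  · refine isPGroup_of_pResidualOf_le (T.isPGroup'.to_le (OO_le_T h j)) fun x hx => ?_
    obtain ⟨u, hu, h1, -⟩ := exists_u h j
    obtain ⟨v, hv, h2, -⟩ := exists_u h (jt_symm j)
    have hc := (pResidualOf_le 2 _ hx).2
    exact mem_OO h j ((res h j).le (pResidualOf_mono inf_le_left hx)) hu h1
      (mem_centralizer_iff.1 hc u (mem_sup_left hu)).symm hv h2 (mem_centralizer_iff.1 hc v (mem_sup_right hv)).symm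

theorem exists_tv (hne : K₁ ≠ K₂) : ∃ s ∈ J 2 (T : Subgroup G), s ∈ centralizer (wOf K₂ : Set G) ∧
    s ∉ centralizer (wOf K₁ : Set G) := by
  by_contra hh
  push Not at hh
  refine j.j1.not_le_C' (J_le_iff.2 fun A hA => ?_)
  by_cases h2 : A ≤ centralizer (wOf K₂ : Set G)
  · exact fun a ha => hh a (hA.le_J ha) (h2 ha)
  have hW2 : wOf K₂ ≤ T := le_sup_right.trans ((W_le_Q h j).trans (Q_le_T h j))
  have hW1 : wOf K₁ ≤ T := le_sup_left.trans ((W_le_Q h j).trans (Q_le_T h j))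
  have hA' := maxAb_replace hA hW2 (fun w hw => wOf_sq hw) j.j2.card (hA.le_J.trans j.j2.normW) h2
  have h4 : A ⊓ centralizer (wOf K₂ : Set G) ≤ centralizer (wOf K₁ : Set G) :=
    fun a ha => hh a (hA.le_J (mem_inf.1 ha).1) (mem_inf.1 ha).2
  have h5 : wOf K₂ ≤ centralizer (wOf K₁ : Set G) := le_sup_right.trans ((W_le_Q h j).trans (Q_le_C h j))
  have h6 : AbExp 2 (wOf K₁) := abExp_of_sq fun w hw => wOf_sq hw
  have h3 : wOf K₁ ≤ (A ⊓ centralizer (wOf K₂ : Set G)) ⊔ wOf K₂ :=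
    hA'.le_of_le_centralizer hW1 h6 (sup_le h4 h5)
  have h7 : A ⊓ centralizer (wOf K₂ : Set G) ≤ normalizer (wOf K₂ : Set G) :=
    le_normalizer_of_le_centralizer inf_le_right
  intro b hb
  refine mem_centralizer_iff_le.2 fun w hw => ?_
  obtain ⟨a, ha, w', hw', e⟩ := (mem_sup_iff_of_le_normalizer h7).1 (h3 hw)
  refine (mem_centralizer_of_mul (far h j hne).1 (j.j1.normW (hA.le_J hb)) (j.j2.normW (hA.le_J hb)) hw
    (inv_mem hw') ?_).1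
  rw [← e, mul_inv_cancel_right]
  exact mem_centralizer_singleton_iff.2 (hA.abExp.comm ha.1 hb)

theorem le_of_K {H : Subgroup G} (hT : (T : Subgroup G) ≤ H) (hK : K₁ ≤ H) : K₁ ⊔ K₂ ⊔ T ≤ H := by
  obtain ⟨t, ht, e⟩ := j.tr
  exact sup_le (sup_le hK (e ▸ conj_le_of_mem hK (hT ht))) hT

theorem comm_not_mem {a s : G} (ha : a ∈ K₁) (ha' : a ∉ pCoreOf 2 K₁) (hs : s ∈ (T : Subgroup G))
    (hn : s ∈ normalizer (wOf K₁ : Set G)) (hs' : s ∉ centralizer (wOf K₁ : Set G)) :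
    a * s * a⁻¹ * s⁻¹ ∉ pCoreOf 2 K₁ := fun hc => by
  obtain ⟨u, hu, h1, hcu⟩ := exists_u h j
  have c1 := hcu s hs hn
  have hw : a * u * a⁻¹ ∈ wOf K₁ := (mem_normalizer_iff.1 (le_normalizer_wOf K₁ ha) u).1 hu
  have c2 : Commute (a * s * a⁻¹ * s⁻¹) (a * u * a⁻¹) :=
    (mem_centralizer_iff.1 (pCoreOf_le_centralizer_wOf K₁ hc) _ hw).symm
  have c3 : Commute (a * s * a⁻¹) (a * u * a⁻¹) := by
    have := c1.map (MulAut.conj a)
    simpa using this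
  have c4 : Commute s (a * u * a⁻¹) := by
    have := c2.inv_left.mul_left c3
    rwa [show (a * s * a⁻¹ * s⁻¹)⁻¹ * (a * s * a⁻¹) = s by group] at this
  have hne : a * u * a⁻¹ ≠ u := fun e => ha' (mem_O h j ha hu h1 (mul_inv_eq_iff_eq_mul.1 e))
  have m1 : u ∈ wOf K₁ ⊓ centralizer ({s} : Set G) := ⟨hu, mem_centralizer_singleton_iff.2 c1.eq.symm⟩
  have m2 : a * u * a⁻¹ ∈ wOf K₁ ⊓ centralizer ({s} : Set G) := ⟨hw, mem_centralizer_singleton_iff.2 c4.eq.symm⟩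
  rcases card_cases_of_le_four j.j1.card (inf_le_left : wOf K₁ ⊓ centralizer ({s} : Set G) ≤ _) with e | e | e
  · exact h1 (mem_bot.1 (e.le m1))
  · obtain ⟨y, -, hy⟩ := (Nat.card_eq_two_iff' (1 : (wOf K₁ ⊓ centralizer ({s} : Set G) : Subgroup G))).1 e
    have e1 := hy ⟨u, m1⟩ fun e' => h1 (congrArg Subtype.val e')
    have e2 := hy ⟨_, m2⟩ fun e' => h1 (by simpa using congrArg Subtype.val e')
    exact hne (congrArg Subtype.val (e2.trans e1.symm))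
  · exact hs' (mem_centralizer_iff_le.2 (e.ge.trans inf_le_right))

theorem maxi (H : Subgroup G) (hT : (T : Subgroup G) ≤ H) (x : G) (hx : x ∈ K₁ ⊔ K₂ ⊔ T) (hx' : x ∉ (T : Subgroup G))
    (hH : x ∈ H) : K₁ ⊔ K₂ ⊔ T ≤ H := by
  obtain ⟨e, he, s, hs, rfl⟩ := (mem_sup_iff_of_le_normalizer' (le_sup_right.trans (normE h j))).1
    (by rwa [sup_comm] at hx)
  have heH : e ∈ H := by simpa using mul_mem hH (inv_mem (hT hs))
  have heT : e ∉ (T : Subgroup G) := fun h' => hx' (mul_mem h' hs)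
  have o1 := O_le_T h j
  have o2 := O_le_T h (jt_symm j)
  by_cases hne : K₁ = K₂
  · subst hne
    rw [sup_idem] at he
    exact le_of_K h j hT (le_of_not_mem j.j1.idx (o1.trans hT) he (fun h' => heT (o1 h')) heH)
  obtain ⟨a, ha, b, hb, rfl⟩ := split h j he
  by_cases ha' : a ∈ pCoreOf 2 K₁
  · rw [sup_comm K₁]
    refine le_of_K h (jt_symm j) hT (le_of_not_mem j.j2.idx (o2.trans hT) hb
      (fun h' => heT (mul_mem (o1 ha') (o2 h'))) ?_)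
    simpa using mul_mem (inv_mem (hT (o1 ha'))) heH
  obtain ⟨r, hr, hr2, hr1⟩ := exists_tv h j hne
  have hrT := J_le 2 _ hr
  have q1 : b * r * b⁻¹ * r⁻¹ ∈ pCoreOf 2 K₂ := by
    refine j.j2.mem_pCoreOf ?_ (mul_mem ((mem_normalizer_iff.1 (PCoreConj.le_normalizer_centralizer
      (le_normalizer_wOf K₂) hb) r).1 hr2) (inv_mem hr2))
    have := mul_mem hb ((mem_normalizer_iff.1 (j.j2.norm hr) b⁻¹).1 (inv_mem hb))
    simpa [mul_assoc] using this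
  have q2 : a * (b * r * b⁻¹ * r⁻¹) * a⁻¹ ∈ pCoreOf 2 K₂ :=
    (mem_normalizer_iff.1 (le_normalizer_pCoreOf_of (K_norm h (jt_symm j)) ha) _).1 q1
  refine le_of_K h j hT (le_of_not_mem j.j1.idx (o1.trans hT) (x := a * r * a⁻¹ * r⁻¹) ?_
    (comm_not_mem h j ha ha' hrT (j.j1.normW hr) hr1) ?_)
  · have := mul_mem ha ((mem_normalizer_iff.1 (j.j1.norm hr) a⁻¹).1 (inv_mem ha))
    simpa [mul_assoc] using this
  · have := mul_mem (inv_mem (hT (o2 q2))) (mul_mem (mul_mem (mul_mem heH (hT hrT)) (inv_mem heH)) (inv_mem (hT hrT)))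
    convert this using 1
    group

theorem three : ∃ k ∈ K₁, k ∈ normalizer (wOf K₁ : Set G) ∧ (∀ w ∈ wOf K₁, Commute k w → w = 1) ∧
    (wOf K₁ = wOf K₂ ∨ k ∈ centralizer (wOf K₂ : Set G)) := by
  obtain ⟨y, hy, -, hy'⟩ := exists_three j.j1.idx
  refine ⟨y, hy, le_normalizer_wOf K₁ hy, fun w hw hc => ?_, ?_⟩
  · by_contra h1
    exact hy' (mem_O h j hy hw h1 hc)
  · by_cases e : K₁ = K₂
    · left; rw [e]
    · exact Or.inr ((far h (jt_symm j) (Ne.symm e)).2 hy)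

theorem lo : Lo (K₁ ⊔ K₂ ⊔ T) T (J 2 (T : Subgroup G)) (wOf K₁) (wOf K₂) where
  pT := T.isPGroup'
  le := le_sup_right
  max := maxi h j
  c1 := j.j1.card
  c2 := j.j2.card
  s1 := fun _ hw => wOf_sq hw
  s2 := fun _ hw => wOf_sq hw
  disj := by
    by_cases e : K₁ = K₂
    · left; rw [e]
    · exact Or.inr (far h j e).1
  cm := (W_le_Q h j).trans (Q_le_CU h j)
  perm := fun _ hg => permW h j hg
  tr := by
    obtain ⟨t, ht, e⟩ := j.tr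
    exact ⟨t, ht, by rw [conj_wOf, e]⟩
  Q := Q_eq h j
  QT := Q_le_T h j
  WQ := W_le_Q h j
  IT := J_le 2 _
  n1 := j.j1.normW
  n2 := j.j2.normW
  nc1 := j.j1.not_le_C'
  nc2 := j.j2.not_le_C'
  u1 := exists_u h j
  u2 := exists_u h (jt_symm j)
  fix := fun x hx n1 n2 f1 f2 => by
    obtain ⟨u, hu, h1, hc⟩ := exists_u h j
    obtain ⟨v, hv, h2, hd⟩ := exists_u h (jt_symm j)
    obtain ⟨e, he, s, hs, rfl⟩ := (mem_sup_iff_of_le_normalizer' (le_sup_right.trans (normE h j))).1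
      (by rwa [sup_comm] at hx)
    have e1 := normalizer_le_normalizer_wOf _ (E_norm h j he)
    have e2 := normalizer_le_normalizer_wOf _ (E_norm h (jt_symm j) (by rwa [sup_comm]))
    have s1 := hc s hs (by simpa using mul_mem (inv_mem e1) n1)
    have s2 := hd s hs (by simpa using mul_mem (inv_mem e2) n2)
    refine mul_mem (OO_le_T h j (mem_OO h j he hu h1 ?_ hv h2 ?_)) hs
    · simpa using (f1 u hu hc).mul_left s1.inv_left
    · simpa using (f2 v hv hd).mul_left s2.inv_left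
  three1 := by
    obtain ⟨k, hk, r⟩ := three h j
    exact ⟨k, K_le h j hk, r⟩
  three2 := by
    obtain ⟨k, hk, r1, r2, r3⟩ := three h (jt_symm j)
    exact ⟨k, mem_sup_left (mem_sup_right hk), r1, r2, r3.imp_left Eq.symm⟩

omit h j in
instance instWLo : WLo.{u} where
  out := fun _ h _ _ j => ⟨lo h j, (closure_odd_eq _).trans (res h j),
    le_antisymm ((OE_le h j).trans (TE_le h j)) (OO_le h j),
    le_antisymm ((TE_le h j).trans (OO_le h j)) (OE_le h j)⟩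

end Cfsg.Agent.Lib.WrLo
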