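import Cfsg.Agent.Lib.WrDefs

/-! `N(J(T)) = T` in the wreathed configuration of S1832. -/

set_option autoImplicit false

namespace Cfsg.Agent.Lib.WR

open Cfsg Subgroup Cfsg.Agent.Lib.PCoreConj Cfsg.Agent.Lib.PCore Cfsg.Agent.Lib.PCoreResidual
  Cfsg.Agent.Lib.PReduced Cfsg.Agent.Lib.LocIdx Cfsg.Agent.Lib.LocFour Cfsg.Agent.Lib.ThompsonJ
  Cfsg.Agent.Lib.JComp Cfsg.Agent.Lib.JTop Cfsg.Agent.Lib.JGlobal
open scoped commutatorElement

universe u

namespace NJ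

variable {G : Type u} [Group G] [Finite G]

theorem fix {I K : Subgroup G} (h : JC I K) {g w : G} (hg : g ∈ normalizer (I : Set G)) (e : K ^ᶜ g = K)
    (hw : w ∈ omegaOneCenter 2 I ⊓ wOf K) : g * w * g⁻¹ = w := by
  have : zpowers g ≤ normalizer ((omegaOneCenter 2 I ⊓ wOf K : Subgroup G) : Set G) :=
    le_normalizer_inf (le_normalizer_omegaOneCenter (zpowers_le.2 hg))
      (zpowers_le.2 (normalizer_le_normalizer_wOf K (mem_normalizer_iff_conj_eq.2 e)))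
  have := mem_centralizer_iff.1 (mem_centralizer_of_card_two h.card_Z_inf (this (mem_zpowers g))) w hw
  rw [← this, mul_inv_cancel_right]

theorem dif {I K₁ K₂ : Subgroup G} (h1 : JC I K₁) (h2 : JC I K₂) (k1 : K₁ ≤ centralizer (wOf K₂ : Set G))
    {g y : G} (hg : g ∈ normalizer (I : Set G)) (e1 : K₁ ^ᶜ g = K₁) (e2 : K₂ ^ᶜ g = K₂)
    (hy : y ∈ omegaOneCenter 2 I) : y⁻¹ * (g * y * g⁻¹) ∈ centralizer ((K₁ ⊔ K₂ : Subgroup G) : Set G) := by
  obtain ⟨w₁, a1, c₁, b1, rfl⟩ := h1.Z_split hy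
  obtain ⟨w₂, a2, c, b2, rfl⟩ := h2.Z_split (mem_inf.1 b1).1
  have hc : c ∈ centralizer ((K₁ ⊔ K₂ : Subgroup G) : Set G) := by
    rw [centralizer_sup]
    exact mem_inf.2 ⟨(mul_mem_cancel_left (le_centralizer_iff.1 k1 (mem_inf.1 a2).2)).1 (mem_inf.1 b1).2,
      (mem_inf.1 b2).2⟩
  have hn : g ∈ normalizer ((K₁ ⊔ K₂ : Subgroup G) : Set G) := by
    rw [mem_normalizer_iff_conj_eq, conj_sup, e1, e2]
  have e : (w₁ * (w₂ * c))⁻¹ * (g * (w₁ * (w₂ * c)) * g⁻¹) = c⁻¹ * (g * c * g⁻¹) := by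
    calc _ = (w₁ * (w₂ * c))⁻¹ * ((g * w₁ * g⁻¹) * ((g * w₂ * g⁻¹) * (g * c * g⁻¹))) := by group
      _ = _ := by rw [fix h1 hg e1 a1, fix h2 hg e2 a2]; group
  rw [e]
  exact mul_mem (inv_mem hc) ((mem_normalizer_iff.1 (normalizer_le_normalizer_centralizer _ hn) c).1 hc)

omit [Finite G] in
theorem norm_sup {T K₁ K₂ : Subgroup G} (h : Jt T K₁ K₂) : T ≤ normalizer ((K₁ ⊔ K₂ : Subgroup G) : Set G) := by
  intro t ht
  rw [mem_normalizer_iff_conj_eq, conj_sup]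
  rcases h.perm t ht with ⟨a, b⟩ | ⟨a, b⟩ <;> rw [a, b]
  exact sup_comm _ _

end NJ

theorem nj [WN.{u}] {G : Type u} [Group G] [Finite G] [IsSimpleGroup G] (hc : ¬ IsMulCommutative G)
    (hq : IsQTKE G) (T : Sylow 2 G) (h : Ctx T) {K₁ K₂ L₁ L₂ : Subgroup G}
    (t : Two (T : Subgroup G) K₁ K₂ L₁ L₂) (hK : K₁ ≠ K₂) (k1 : K₁ ≤ centralizer (wOf K₂ : Set G))
    (l1 : L₁ ≤ centralizer (wOf L₂ : Set G)) (f1 : ¬ wOf L₁ ≤ centralizer (wOf K₁ : Set G))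
    (f2 : wOf L₂ ≤ centralizer (wOf K₁ : Set G)) : normalizer (J 2 (T : Subgroup G) : Set G) ≤ T := by
  have nJ : (T : Subgroup G) ≤ normalizer (J 2 (T : Subgroup G) : Set G) :=
    le_normalizer.trans (normalizer_le_normalizer_J 2 _)
  have hN : omegaOneCenter 2 (J 2 (T : Subgroup G)) ⊓ (centralizer ((K₁ ⊔ K₂ : Subgroup G) : Set G) ⊓
      centralizer ((L₁ ⊔ L₂ : Subgroup G) : Set G)) = ⊥ := by
    have nT : (T : Subgroup G) ≤ normalizer ((omegaOneCenter 2 (J 2 (T : Subgroup G)) ⊓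
        (centralizer ((K₁ ⊔ K₂ : Subgroup G) : Set G) ⊓ centralizer ((L₁ ⊔ L₂ : Subgroup G) : Set G)) :
          Subgroup G) : Set G) :=
      le_normalizer_inf (le_normalizer_omegaOneCenter nJ) (le_normalizer_inf
        (le_normalizer_centralizer (NJ.norm_sup t.l)) (le_normalizer_centralizer (NJ.norm_sup t.r)))
    refine t.core _ (inf_le_left.trans ((omegaOneCenter_le 2 _).trans (J_le 2 _)))
      (sup_le (le_normalizer_of_le_centralizer (le_centralizer_iff.1 (inf_le_right.trans inf_le_left))) nT)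
      (sup_le (le_normalizer_of_le_centralizer (le_centralizer_iff.1 (inf_le_right.trans inf_le_right))) nT)
  have key : ∀ g ∈ normalizer (J 2 (T : Subgroup G) : Set G), K₁ ^ᶜ g = K₁ → K₂ ^ᶜ g = K₂ → g ∈ (T : Subgroup G) := by
    intro g hg e1 e2
    rcases WN.out hc hq T h L₁ L₂ t.r g hg with ⟨a, b⟩ | ⟨-, b⟩
    · refine h.cz.le (mem_centralizer_iff.2 fun y hy => ?_)
      have hy' : y ∈ omegaOneCenter 2 (J 2 (T : Subgroup G)) := by
        rw [omegaOneCenter_J]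
        exact mem_ZJ_of_centralizer (omegaOneCenter_le 2 _ hy) (omegaOneCenter_le_centralizer 2 _ hy)
          ((isElementaryAbelian_omegaOneCenter 2 _).2 y hy)
      have : y⁻¹ * (g * y * g⁻¹) ∈ (⊥ : Subgroup G) := hN ▸ mem_inf.2 ⟨mul_mem (inv_mem hy')
        ((mem_normalizer_iff.1 (le_normalizer_omegaOneCenter le_rfl hg) y).1 hy'),
        mem_inf.2 ⟨NJ.dif t.l.j1 t.l.j2 k1 hg e1 e2 hy', NJ.dif t.r.j1 t.r.j2 l1 hg a b hy'⟩⟩
      rw [mem_bot, inv_mul_eq_one, eq_mul_inv_iff_mul_eq] at this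
      exact this
    · refine absurd ?_ f1
      have := conj_mono g f2
      rwa [conj_centralizer, conj_wOf, conj_wOf, b, e1] at this
  intro g hg
  rcases WN.out hc hq T h K₁ K₂ t.l g hg with ⟨a, b⟩ | ⟨a, b⟩
  · exact key g hg a b
  · obtain ⟨s, hs, e⟩ := t.l.tr
    rcases t.l.perm s hs with ⟨a', -⟩ | ⟨a', b'⟩
    · exact absurd (a'.symm.trans e) hK
    · refine (mul_mem_cancel_left hs).1 (key (s * g) (mul_mem (nJ hs) hg) ?_ ?_)
      · rw [← conj_conj, a, b']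
      · rw [← conj_conj, b, a']

end Cfsg.Agent.Lib.WR
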