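import Cfsg.Agent.Lib.WrR2

/-! S1832: the amalgam exists (instance of `WR.WP1`). -/

set_option autoImplicit false

namespace Cfsg.Agent.Lib.WrP1

open Cfsg Subgroup Cfsg.Agent.Lib.PCoreConj Cfsg.Agent.Lib.PCore Cfsg.Agent.Lib.PReduced
  Cfsg.Agent.Lib.LocIdx Cfsg.Agent.Lib.LocFour Cfsg.Agent.Lib.PCoreResidual Cfsg.Agent.Lib.ThompsonJ Cfsg.Agent.Lib.JComp Cfsg.Agent.Lib.WR

universe u

variable {G : Type u} [Group G] [Finite G] {T : Sylow 2 G} {K L : Subgroup G}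

theorem exists_jt (h : Ctx T) (hL : (T : Subgroup G) ≤ L) (hO : pCoreOf 2 L ≠ ⊥)
    (hK : JC (J 2 (T : Subgroup G)) K) (hKL : K ≤ L) : ∃ K', Jt (T : Subgroup G) K K' := by
  have jc : ∀ t ∈ (T : Subgroup G), JC (J 2 (T : Subgroup G)) (K ^ᶜ t) := fun t ht =>
    hK.conj_of_mem (JMax.le_normalizer_J _ ht)
  have le : ∀ t ∈ (T : Subgroup G), K ^ᶜ t ≤ L := fun t ht => conj_le_of_mem hKL (hL ht)
  have ne : ∀ K' ≤ L, pCoreOf 2 (K ⊔ K' ⊔ T) ≠ ⊥ := fun K' l e => hO (le_bot_iff.1 (e ▸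
    pCoreOf_le_of_le_of_le ((h.ov hL hO).syl.pCoreOf_le.trans le_sup_right) (sup_le (sup_le hKL l) hL)))
  by_cases e : ∀ t ∈ (T : Subgroup G), K ^ᶜ t = K
  · exact ⟨K, hK, hK, fun t ht => .inl ⟨e t ht, e t ht⟩, ⟨1, one_mem _, conj_one K⟩, ne K hKL⟩
  push Not at e
  obtain ⟨s, hs, e⟩ := e
  have two : ∀ t ∈ (T : Subgroup G), K ^ᶜ t = K ∨ K ^ᶜ t = K ^ᶜ s := fun t ht => by
    rcases WrR2.instWR2.out T h L hL hO K (K ^ᶜ s) (K ^ᶜ t) hKL (le s hs) (le t ht) hK (jc s hs) (jc t ht)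
      with k | k | k
    · exact absurd k.symm e
    · exact .inl k.symm
    · exact .inr k.symm
  refine ⟨K ^ᶜ s, hK, jc s hs, fun t ht => ?_, ⟨s, hs, rfl⟩, ne _ (le s hs)⟩
  have n : (K ^ᶜ s) ^ᶜ t ≠ K ^ᶜ t := fun k => e (by
    have := congrArg (fun X => X ^ᶜ t⁻¹) k
    simpa only [conj_conj_inv] using this)
  have a := two _ (mul_mem ht hs)
  rw [← conj_conj] at a
  rcases two t ht with k | k <;> rcases a with a | a
  · exact absurd (a.trans k.symm) n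
  · exact .inl ⟨k, a⟩
  · exact .inr ⟨k, a⟩
  · exact absurd (a.trans k.symm) n

instance instWP1 [WN.{u}] : WP1.{u} where
  out := fun {G} _ _ _ hG hQ T h M₁ M₂ h₁ h₂ ne => by
    by_contra k
    have hO : ∀ M : Subgroup G, IsTwoLocal M → pCoreOf 2 M ≠ ⊥ := by
      rintro _ ⟨R, r1, r2, rfl⟩ e
      exact r2 (le_bot_iff.1 (e ▸ JGlobal.le_pCoreOf_normalizer r1))
    have fin : ∀ U : Subgroup G, U ≤ T → U ≠ ⊥ → (∀ M ∈ maxTwoLocalsContaining (T : Subgroup G),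
        M ≤ normalizer (U : Set G)) → False := fun U u1 u2 u3 =>
      ne ((h₁.1.2 _ ⟨U, T.isPGroup'.to_le u1, u2, rfl⟩ (u3 _ h₁)).symm.trans
        (h₂.1.2 _ ⟨U, T.isPGroup'.to_le u1, u2, rfl⟩ (u3 _ h₂)))
    by_cases e : ∃ K₁ K₂, Jt (T : Subgroup G) K₁ K₂
    · obtain ⟨K₁, K₂, j⟩ := e
      have w : ∀ K ≤ K₁ ⊔ K₂ ⊔ T, JC (J 2 (T : Subgroup G)) K → wOf K ≤ T := fun K l jc =>
        (wOf_le_pCoreOf K).trans ((pCoreOf_le_of_subnormalIn (h.subnormal le_sup_right j.ne jc l)).trans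
          (h.ov le_sup_right j.ne).syl.pCoreOf_le)
      refine fin (wOf K₁ ⊔ wOf K₂) (sup_le (w _ (le_sup_of_le_left le_sup_left) j.j1)
        (w _ (le_sup_of_le_left le_sup_right) j.j2)) (fun e => j.j1.W_ne_bot (le_bot_iff.1 (e ▸ le_sup_left)))
        fun M hM => h.le_of hM.2 (hO M hM.1.1) (fun K l jc => ?_) fun g hg => ?_
      · obtain ⟨K', j'⟩ := exists_jt h hM.2 (hO M hM.1.1) jc l
        obtain ⟨N, n1, n2, n3, n4⟩ : ∃ N : Subgroup G, N ≤ T ∧ K₁ ⊔ K₂ ⊔ T ≤ normalizer (N : Set G) ∧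
            K ⊔ K' ⊔ T ≤ normalizer (N : Set G) ∧ N ≠ ⊥ := by
          by_contra c
          push Not at c
          exact k ⟨K₁, K₂, K, K', j, j', c⟩
        have o := hO _ ⟨N, T.isPGroup'.to_le n1, n4, rfl⟩
        have t := le_sup_right.trans n2
        have lK := (le_sup_of_le_left le_sup_left : K ≤ K ⊔ K' ⊔ T).trans n3
        exact le_normalizer_sup
          ((WrR2.le_N h t o j.j1 ((le_sup_of_le_left le_sup_left).trans n2) jc lK).trans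
            (normalizer_le_normalizer_wOf _))
          ((WrR2.le_N h t o j.j2 ((le_sup_of_le_left le_sup_right).trans n2) jc lK).trans
            (normalizer_le_normalizer_wOf _))
      · refine mem_normalizer_iff_conj_eq.2 ?_
        rw [conj_sup, conj_wOf, conj_wOf]
        rcases WN.out hG hQ T h K₁ K₂ j g hg.2 with ⟨a, b⟩ | ⟨a, b⟩
        · rw [a, b]
        · rw [a, b, sup_comm]
    · have T1 : (T : Subgroup G) ≠ ⊥ := fun e' => hO M₁ h₁.1.1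
        (le_bot_iff.1 (e' ▸ (h.ov h₁.2 (hO M₁ h₁.1.1)).syl.pCoreOf_le))
      exact fin (J 2 (T : Subgroup G)) (J_le 2 _) (J_ne_bot T.isPGroup' T1 dvd_rfl) fun M hM =>
        h.le_of hM.2 (hO M hM.1.1) (fun K l jc => absurd ⟨K, exists_jt h hM.2 (hO M hM.1.1) jc l⟩ e) inf_le_right

end Cfsg.Agent.Lib.WrP1
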