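import Cfsg.Agent.Lib.WrAb

/-! Critical distance one: normal form of the strands. -/

set_option autoImplicit false

namespace Cfsg.Agent.Lib.WrQ

open Cfsg Subgroup Cfsg.Agent.Lib.PCoreConj Cfsg.Agent.Lib.WR Cfsg.Agent.Lib.WrAb

universe u

variable {G : Type u} [Group G] {P P' T I W₁ W₂ V₁ V₂ : Subgroup G} {x r g : G}

theorem swap (h : Lo P T I W₁ W₂) : Lo P T I W₂ W₁ where
  pT := h.pT
  le := h.le
  max := h.max
  c1 := h.c2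
  c2 := h.c1
  s1 := h.s2
  s2 := h.s1
  disj := h.disj.imp Eq.symm fun e => by rwa [inf_comm]
  cm := by rw [sup_comm]; exact h.cm
  perm := fun g hg => (h.perm g hg).imp And.symm And.symm
  tr := by
    obtain ⟨t, ht, e⟩ := h.tr
    exact ⟨t⁻¹, T.inv_mem ht, by rw [← e, conj_conj_inv]⟩
  Q := by rw [sup_comm]; exact h.Q
  QT := h.QT
  WQ := by rw [sup_comm]; exact h.WQ
  IT := h.IT
  n1 := h.n2
  n2 := h.n1
  nc1 := h.nc2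
  nc2 := h.nc1
  u1 := h.u2
  u2 := h.u1
  fix := fun x hx h1 h2 h3 h4 => h.fix x hx h2 h1 h4 h3
  three1 := by
    obtain ⟨k, h1, h2, h3, h4⟩ := h.three2
    exact ⟨k, h1, h2, h3, h4.imp Eq.symm id⟩
  three2 := by
    obtain ⟨k, h1, h2, h3, h4⟩ := h.three1
    exact ⟨k, h1, h2, h3, h4.imp Eq.symm id⟩

theorem cm (h : Lo P T I W₁ W₂) {x y : G} (hx : x ∈ W₁ ⊔ W₂) (hy : y ∈ W₁ ⊔ W₂) : Commute x y :=
  (mem_centralizer_iff.1 (h.cm hy) x hx)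

theorem fo (h : Lo P T I W₁ W₂) : Fo W₁ :=
  ⟨h.c1, h.s1, fun _ hx _ hy => cm h (mem_sup_left hx) (mem_sup_left hy)⟩

theorem le_T (h : Lo P T I W₁ W₂) : W₁ ≤ T := le_sup_left.trans (h.WQ.trans h.QT)

theorem eq_of_mem (h : Lo P T I W₁ W₂) (h1 : r ∈ W₁) (h2 : r ∈ W₂) (r1 : r ≠ 1) : W₁ = W₂ :=
  h.disj.resolve_right fun e => r1 (mem_bot.1 (e ▸ mem_inf.2 ⟨h1, h2⟩))

theorem norm_of_fix (h : Lo P T I W₁ W₂) (hg : g ∈ P) (h1 : r ∈ W₁) (r1 : r ≠ 1) (c : Commute g r) :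
    g ∈ normalizer (W₁ : Set G) := by
  refine mem_normalizer_iff_conj_eq.2 ((h.perm g hg).elim And.left fun e => e.1.trans (eq_of_mem h h1 ?_ r1).symm)
  have := conj_mem_conj g h1
  rwa [cj.2 c, e.1] at this

/-- step (Q) -/
theorem qn (h : Lo P T I W₁ W₂) (h' : Lo P' T I V₁ V₂) : V₁ ≤ normalizer (W₁ : Set G) := fun x hx => by
  by_contra hn
  have fX := fo h
  have fX' := fo h'
  have xa : x ∈ P := h.le (le_T h' hx)
  have wa : ∀ w ∈ W₁, w ∈ P' := fun w hw => h'.le (le_T h hw)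
  have nc : ∀ w ∈ W₁, w ≠ 1 → ¬ Commute w x := fun w hw w1 c => hn (norm_of_fix h xa hw w1 c.symm)
  have e2' : W₁ ^ᶜ x = W₂ := ((h.perm x xa).resolve_left fun e => hn (mem_normalizer_iff_conj_eq.2 e.1)).1
  obtain ⟨w₁, h1, w₂, h2, e1, e2, e3⟩ := fX.two
  obtain ⟨w₀, h0, e0, n0⟩ : ∃ w ∈ W₁, w ≠ 1 ∧ w ∈ normalizer (V₁ : Set G) := by
    rcases h'.perm w₁ (wa w₁ h1) with e | e
    · exact ⟨w₁, h1, e1, mem_normalizer_iff_conj_eq.2 e.1⟩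
    rcases h'.perm w₂ (wa w₂ h2) with e' | e'
    · exact ⟨w₂, h2, e2, mem_normalizer_iff_conj_eq.2 e'.1⟩
    · refine ⟨w₂⁻¹ * w₁, W₁.mul_mem (W₁.inv_mem h2) h1, fun e => e3 (inv_mul_eq_one.1 e).symm,
        mem_normalizer_iff_conj_eq.2 ?_⟩
      rw [← conj_conj, e.1, ← e'.1, conj_conj_inv]
  have hr : w₀ * x * w₀⁻¹ * x⁻¹ ∈ V₁ := V₁.mul_mem (cj_mem n0 hx) (V₁.inv_mem hx)
  have r1 : w₀ * x * w₀⁻¹ * x⁻¹ ≠ 1 := fun e => nc w₀ h0 e0 (cj.1 (mul_inv_eq_one.1 e))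
  have cr : ∀ w ∈ W₁, Commute w (w₀ * x * w₀⁻¹ * x⁻¹) := fun w hw => by
    have := (fX.cm w hw w₀ h0).mul_right
      (cm h (mem_sup_left hw) (mem_sup_right (e2' ▸ conj_mem_conj x (W₁.inv_mem h0))))
    simpa only [mul_assoc] using this
  generalize w₀ * x * w₀⁻¹ * x⁻¹ = r at hr r1 cr
  have k : ∀ w ∈ W₁, w ≠ 1 → w * x * w⁻¹ = r * x := fun w hw w1 =>
    (fX'.fixr (norm_of_fix h' (wa w hw) hr r1 (cr w hw)) hr r1 (cr w hw) hx).resolve_left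
      fun e => nc w hw w1 (cj.1 e)
  refine nc (w₁ * w₂) (W₁.mul_mem h1 h2) (fun e => e3 (by rw [mul_eq_one_iff_eq_inv.1 e, fX.inv h2])) (cj.1 ?_)
  calc w₁ * w₂ * x * (w₁ * w₂)⁻¹ = w₁ * (w₂ * x * w₂⁻¹) * w₁⁻¹ := by group
    _ = (w₁ * r * w₁⁻¹) * (w₁ * x * w₁⁻¹) := by rw [k w₂ h2 e2]; group
    _ = x := by rw [cj.2 (cr w₁ h1), k w₁ h1 e1, ← mul_assoc, fX'.mm hr, one_mul]

theorem comm_mem (h : Lo P T I W₁ W₂) (h' : Lo P' T I V₁ V₂) {a : G} (hx : x ∈ W₁) (ha : a ∈ V₁) :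
    x * a * x⁻¹ * a⁻¹ ∈ W₁ ∧ x * a * x⁻¹ * a⁻¹ ∈ V₁ :=
  ⟨by simpa only [mul_assoc] using W₁.mul_mem hx (cj_mem (qn h h' ha) (W₁.inv_mem hx)),
    V₁.mul_mem (cj_mem (qn h' h hx) ha) (V₁.inv_mem ha)⟩

/-- noncommuting strands share an involution -/
theorem exists_r (h : Lo P T I W₁ W₂) (h' : Lo P' T I V₁ V₂) (n : ¬ V₁ ≤ centralizer (W₁ : Set G)) :
    ∃ r ∈ W₁, r ∈ V₁ ∧ r ≠ 1 := by
  obtain ⟨a, ha, n⟩ := SetLike.not_le_iff_exists.1 n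
  rw [mem_centralizer_iff] at n
  push Not at n
  obtain ⟨x, hx, n⟩ := n
  exact ⟨_, (comm_mem h h' hx ha).1, (comm_mem h h' hx ha).2, fun e => n (cj.1 (mul_inv_eq_one.1 e))⟩

/-- a strand moving `W₁` centralizes `W₂` -/
theorem far (h : Lo P T I W₁ W₂) (h' : Lo P' T I V₁ V₂) (hne : W₁ ≠ W₂) (n : ¬ V₁ ≤ centralizer (W₁ : Set G)) :
    V₁ ≤ centralizer (W₂ : Set G) := by
  by_contra n'
  obtain ⟨r, r1, r2, r3⟩ := exists_r h h' n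
  obtain ⟨s, s1, s2, s3⟩ := exists_r (swap h) h' n'
  refine n fun a ha => mem_centralizer_iff.2 fun x hx => ?_
  exact (fo h').all r2 s2 r3 s3 (fun e => hne (eq_of_mem h r1 (e ▸ s1) r3))
    (cm h (mem_sup_left hx) (mem_sup_left r1)) (cm h (mem_sup_left hx) (mem_sup_right s1)) ha

/-- the normal form -/
structure NF (T W₁ W₂ V₁ V₂ : Subgroup G) : Prop where
  ne : V₁ ≠ V₂
  f11 : ¬ V₁ ≤ centralizer (W₁ : Set G)
  f22 : ¬ V₂ ≤ centralizer (W₂ : Set G)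
  f21 : V₂ ≤ centralizer (W₁ : Set G)
  f12 : V₁ ≤ centralizer (W₂ : Set G)
  perm : ∀ t ∈ T, (W₁ ^ᶜ t = W₁ ∧ W₂ ^ᶜ t = W₂ ∧ V₁ ^ᶜ t = V₁ ∧ V₂ ^ᶜ t = V₂) ∨
    (W₁ ^ᶜ t = W₂ ∧ W₂ ^ᶜ t = W₁ ∧ V₁ ^ᶜ t = V₂ ∧ V₂ ^ᶜ t = V₁)

theorem conj_not {A B : Subgroup G} (t : G) (n : ¬ A ≤ centralizer (B : Set G)) :
    ¬ A ^ᶜ t ≤ centralizer ((B ^ᶜ t : Subgroup G) : Set G) := by
  rw [← conj_centralizer, conj_le_conj_iff]; exact n

theorem nf (h : Lo P T I W₁ W₂) (h' : Lo P' T I V₁ V₂) (hne : W₁ ≠ W₂) (n : ¬ V₁ ≤ centralizer (W₁ : Set G)) :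
    NF T W₁ W₂ V₁ V₂ := by
  have f12 := far h h' hne n
  have k : ∀ t ∈ T, W₁ ^ᶜ t = W₂ → V₁ ^ᶜ t = V₂ ∧ V₂ ^ᶜ t = V₁ := fun t ht e =>
    (h'.perm t (h'.le ht)).resolve_left fun e' => by
      have := conj_not t n
      rw [e, e'.1] at this
      exact this f12
  obtain ⟨t, ht, e⟩ := h.tr
  have f22 : ¬ V₂ ≤ centralizer (W₂ : Set G) := by
    have := conj_not t n
    rwa [e, (k t ht e).1] at this
  have f21 := far (swap h) (swap h') hne.symm f22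
  refine ⟨fun e => n (e ▸ f21), n, f22, f21, f12, fun s hs => ?_⟩
  rcases h.perm s (h.le hs) with e | e
  · refine Or.inl ⟨e.1, e.2, (h'.perm s (h'.le hs)).resolve_right fun e' => ?_⟩
    have := conj_not s n
    rw [e.1, e'.1] at this
    exact this f21
  · exact Or.inr ⟨e.1, e.2, k s hs e.1⟩

theorem nf_or (h : Lo P T I W₁ W₂) (h' : Lo P' T I V₁ V₂) (hne : W₁ ≠ W₂)
    (n : ¬ W₁ ⊔ W₂ ≤ centralizer ((V₁ ⊔ V₂ : Subgroup G) : Set G)) : NF T W₁ W₂ V₁ V₂ ∨ NF T W₁ W₂ V₂ V₁ := by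
  by_cases a : V₁ ≤ centralizer (W₁ : Set G)
  · by_cases b : V₂ ≤ centralizer (W₁ : Set G)
    · exfalso
      obtain ⟨t, ht, e⟩ := h.tr
      have c : V₁ ⊔ V₂ ≤ centralizer (W₁ : Set G) := sup_le a b
      have c' : V₁ ⊔ V₂ ≤ centralizer (W₂ : Set G) := by
        have := conj_mono t c
        rw [conj_centralizer, e, conj_sup] at this
        rcases h'.perm t (h'.le ht) with e' | e' <;> rw [e'.1, e'.2] at this
        exacts [this, by rwa [sup_comm]]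
      exact n (sup_le (le_centralizer_iff.1 c) (le_centralizer_iff.1 c'))
    · exact Or.inr (nf h (swap h') hne b)
  · exact Or.inl (nf h h' hne a)

end Cfsg.Agent.Lib.WrQ
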