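import Cfsg.Agent.Lib.WrDefs
import Cfsg.Agent.Lib.FTBase5

/-! S1832: at most two `J(T)`-components in a member of `𝓗(T)` (instance of `WR.WR2`). -/

set_option autoImplicit false

namespace Cfsg.Agent.Lib.WrR2

open Cfsg Subgroup Cfsg.Agent.Lib.PCoreConj Cfsg.Agent.Lib.PCore Cfsg.Agent.Lib.PReduced
  Cfsg.Agent.Lib.LocIdx Cfsg.Agent.Lib.LocFour Cfsg.Agent.Lib.PCoreResidual Cfsg.Agent.Lib.ThompsonJ Cfsg.Agent.Lib.JComp Cfsg.Agent.Lib.WR
open scoped commutatorElement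

universe u

variable {G : Type u} [Group G] [Finite G] {T : Sylow 2 G} {K K' L : Subgroup G}

theorem le_C (h : Ctx T) (hL : (T : Subgroup G) ≤ L) (hO : pCoreOf 2 L ≠ ⊥) (hK : JC (J 2 (T : Subgroup G)) K)
    (hKL : K ≤ L) (hK' : JC (J 2 (T : Subgroup G)) K') (hKL' : K' ≤ L) (ne : K ≠ K') :
    K' ≤ centralizer (wOf K : Set G) := by
  have := h.eq_or hL hO hK hKL hK' hKL' (one_mem L)
  rw [conj_one] at this
  exact (this.resolve_left ne).2

theorem le_N (h : Ctx T) (hL : (T : Subgroup G) ≤ L) (hO : pCoreOf 2 L ≠ ⊥) (hK : JC (J 2 (T : Subgroup G)) K)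
    (hKL : K ≤ L) (hK' : JC (J 2 (T : Subgroup G)) K') (hKL' : K' ≤ L) : K' ≤ normalizer (K : Set G) := by
  by_cases ne : K = K'
  · exact ne ▸ le_normalizer
  intro g hg
  refine mem_normalizer_iff_conj_eq.2 ((h.eq_or hL hO hK hKL hK hKL (hKL' hg)).resolve_right fun e => ?_).symm
  have := e.1
  rw [← conj_wOf, conj_eq_of_mem_normalizer (centralizer_le_normalizer _ (le_C h hL hO hK hKL hK' hKL' ne hg)),
    inf_idem] at this
  exact hK.W_ne_bot this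

instance instWR2 : WR2.{u} where
  out := fun {G} _ _ T h L hL hO K₁ K₂ K₃ l₁ l₂ l₃ j₁ j₂ j₃ => by
    by_contra k
    push Not at k
    haveI : Fact (Nat.Prime 3) := ⟨Nat.prime_three⟩
    obtain ⟨P, hP⟩ := exists_isSylowIn 3 L
    have ex : ∀ K ≤ L, JC (J 2 (T : Subgroup G)) K →
        ∃ y ∈ P ⊓ K, orderOf y = 3 ∧ y ∉ centralizer (wOf K : Set G) := fun K l j => by
      obtain ⟨y, hy, o, n⟩ := exists_three j.idx
      obtain ⟨g, hg, e⟩ := (hP.inf_subnormalIn (h.subnormal hL hO j l)).exists_conj_mem hy (k := 1)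
        (by rw [pow_one, ← o, pow_orderOf_eq_one])
      refine ⟨_, e, by rw [← o]; exact (MulAut.conj g).orderOf_eq y, fun c => n ?_⟩
      exact (mem_normalizer_iff.1 (le_normalizer_pCoreOf 2 K hg) y).2 (j.mem_pCoreOf e.2 c)
    have cm : ∀ K ≤ L, JC (J 2 (T : Subgroup G)) K → ∀ K' ≤ L, JC (J 2 (T : Subgroup G)) K' → K ≠ K' →
        ∀ y ∈ P ⊓ K, ∀ y' ∈ P ⊓ K', y * y' = y' * y := fun K l j K' l' j' ne y hy y' hy' => by
      have a : ⁅y, y'⁆ ∈ K := commutator_le_left_of_le_normalizer (le_N h hL hO j l j' l')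
        (commutator_mem_commutator hy.2 hy'.2)
      have b : ⁅y, y'⁆ ∈ K' := commutator_le_right_of_le_normalizer (le_N h hL hO j' l' j l)
        (commutator_mem_commutator hy.2 hy'.2)
      have c : ⁅y, y'⁆ ∈ P := commutator_le_left_of_le_normalizer le_normalizer
        (commutator_mem_commutator hy.1 hy'.1)
      exact commutatorElement_eq_one_iff_mul_comm.1 (disjoint_def.1 (IsPGroup.disjoint_of_ne 3 2 (by decide) _ _
        hP.isPGroup (pCoreOf_isPGroup 2 K)) c (j.mem_pCoreOf a (le_C h hL hO j l j' l' ne b)))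
    obtain ⟨y₁, m₁, o₁, -⟩ := ex K₁ l₁ j₁
    obtain ⟨y₂, m₂, o₂, n₂⟩ := ex K₂ l₂ j₂
    obtain ⟨y₃, m₃, o₃, n₃⟩ := ex K₃ l₃ j₃
    have c : ∀ {y y' : G}, y * y' = y' * y → zpowers y ≤ centralizer ({y'} : Set G) := fun e =>
      zpowers_le.2 (mem_centralizer_singleton_iff.2 e)
    have E := ((FTDefs.ea_zpowers Nat.prime_three (l₁ m₁.2) o₁).sup_zpowers Nat.prime_three (l₂ m₂.2)
      (mem_centralizer_iff_le.2 (c (cm _ l₁ j₁ _ l₂ j₂ k.1 _ m₁ _ m₂))) (o₂ ▸ pow_orderOf_eq_one y₂)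
      (fun e => n₂ (zpowers_le.2 (le_C h hL hO j₂ l₂ j₁ l₁ k.1.symm m₁.2) e))).sup_zpowers Nat.prime_three (l₃ m₃.2)
      (mem_centralizer_iff_le.2 (sup_le (c (cm _ l₁ j₁ _ l₃ j₃ k.2.1 _ m₁ _ m₃))
        (c (cm _ l₂ j₂ _ l₃ j₃ k.2.2 _ m₂ _ m₃)))) (o₃ ▸ pow_orderOf_eq_one y₃)
      (fun e => n₃ (sup_le (zpowers_le.2 (le_C h hL hO j₃ l₃ j₁ l₁ k.2.1.symm m₁.2))
        (zpowers_le.2 (le_C h hL hO j₃ l₃ j₂ l₂ k.2.2.symm m₂.2)) e))
    haveI := E.2.1.1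
    have := h.hyp.rank L hO 3 Nat.prime_three (by decide)
      ((zpowers y₁ ⊔ zpowers y₂ ⊔ zpowers y₃).subgroupOf L) inferInstance
      (fun a ha => Subtype.ext (E.2.1.2 a ha))
    rw [Nat.card_congr (subgroupOfEquivOfLe E.1).toEquiv, E.2.2] at this
    omega

end Cfsg.Agent.Lib.WrR2
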