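import Cfsg.Agent.Lib.WrDefs
import Cfsg.Agent.Lib.QZTr

/-! S1832: the transfer lemma (instance of `WR.WT`). -/

set_option autoImplicit false

namespace Cfsg.Agent.Lib.WrT

open Cfsg Subgroup Cfsg.Agent.Lib.PCoreConj Cfsg.Agent.Lib.PCore Cfsg.Agent.Lib.PReduced
  Cfsg.Agent.Lib.LocIdx Cfsg.Agent.Lib.LocFour Cfsg.Agent.Lib.PCoreResidual Cfsg.Agent.Lib.ThompsonJ Cfsg.Agent.Lib.WR

universe u

instance instWT : WT.{u} where
  out := fun {G} _ _ _ hG T h d hd => by
    have hc : _root_.commutator G = ⊤ := by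
      refine (IsSimpleGroup.eq_bot_or_eq_top_of_normal (_root_.commutator G) inferInstance).resolve_left
        fun e => hG ⟨⟨fun a b => ?_⟩⟩
      rw [← commutatorElement_eq_one_iff_mul_comm, ← mem_bot, ← e]
      exact commutator_mem_commutator (mem_top a) (mem_top b)
    obtain ⟨h1, h2, h3⟩ := mem_omegaOneCenter_iff.1 hd
    exact QZTr.mem_commutator hc (T.isPGroup'.to_le (J_le 2 _)) (J_le 2 _)
      (fun g hg => h.le (mem_normalizer_iff_conj_eq.2 (conj_J_eq_of_le hg))) (J_le 2 _ h1) h2 h3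

end Cfsg.Agent.Lib.WrT
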