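import Cfsg.Agent.Lib.XiDefs

/-! The `p`-group centralizes the invariant subgroups of order prime to `p`. -/

set_option autoImplicit false
set_option linter.unusedSectionVars false

namespace Cfsg.Agent.Lib.XiA

open Cfsg Subgroup Cfsg.Agent.Lib.PCoreConj Cfsg.Agent.Lib.PCore Cfsg.Agent.Lib.PCoreResidual
  Cfsg.Agent.Lib.FTDefs Cfsg.Agent.Lib.XiS

variable {G : Type} [Group G] [Finite G] {p : ℕ} {X T P O M R : Subgroup G}

theorem perm_of_coprime {A B L : Subgroup G} (h₁ : A ≤ L) (h₂ : B ≤ L)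
    (h : (A.relIndex L).Coprime (B.relIndex L)) : Permutes A B ∧ A ⊔ B = L := by
  refine Permutes.of_card_le h₁ h₂ ?_
  have e : ∀ K ≤ L, Nat.card K * K.relIndex L = Nat.card L := fun K hK => by
    rw [← Nat.card_congr (subgroupOfEquivOfLe hK).toEquiv]
    exact card_mul_index _
  have nz : ∀ K : Subgroup G, K.relIndex L ≠ 0 := fun K => index_ne_zero_of_finite
  have d := Nat.le_of_dvd (Nat.pos_of_ne_zero (nz _))
    (h.mul_dvd_of_dvd_of_dvd (relIndex_dvd_of_le_left L (inf_le_left : A ⊓ B ≤ A))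
      (relIndex_dvd_of_le_left L (inf_le_right : A ⊓ B ≤ B)))
  have p0 : 0 < A.relIndex L * B.relIndex L :=
    Nat.pos_of_ne_zero (mul_ne_zero (nz _) (nz _))
  refine Nat.le_of_mul_le_mul_right ?_ p0
  calc _ ≤ Nat.card L * Nat.card ↥(A ⊓ B) * (A ⊓ B).relIndex L := Nat.mul_le_mul_left _ d
    _ = Nat.card L * Nat.card L := by rw [mul_assoc, e _ (inf_le_left.trans h₁)]
    _ = _ := by
      nth_rw 1 [← e A h₁]
      rw [← e B h₂]
      ring

theorem pP (h : Pd p P) : IsPGroup p P := fun x => ⟨1, Subtype.ext (by simpa using h.ex x x.2)⟩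

theorem dich (h : Xd p X T P O) (hM : X ⊔ T ≤ N[M]) (hp : ¬ p ∣ Nat.card M) {r : ℕ} (hr : r.Prime)
    (hR : IsSylowIn r R M) (hPR : P ≤ N[R]) {D : Subgroup G} (hD : D ≤ P) (hW : N[R] ⊓ N[P] ≤ N[D]) :
    P ≤ D ∨ D ≤ ⁅P, P⁆ := by
  have := Fact.mk hr
  have := Fact.mk h.hp
  have PX : P ≤ X := h.XO ▸ le_sup_right
  have OX : O ≤ X := h.XO ▸ le_sup_left
  have nK : X ⊔ T ≤ N[M ⊔ O] := le_normalizer_sup hM h.NO
  have pK : P ≤ N[M ⊔ O] := PX.trans (le_sup_left.trans nK)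
  have cK : (Nat.card ↥(M ⊔ O)).Coprime p := by
    refine ((Nat.Prime.coprime_iff_not_dvd h.hp).2 fun hd => ?_).symm
    rw [sup_comm] at hd
    rcases (Nat.Prime.dvd_mul h.hp).1 (hd.trans (card_sup_dvd (OX.trans (le_sup_left.trans hM)))) with e | e
    · have := Fact.mk Nat.prime_two
      obtain ⟨n, hn⟩ := h.pO.exists_card_eq
      exact h.p2 ((Nat.prime_dvd_prime_iff_eq h.hp Nat.prime_two).1 (h.hp.dvd_of_dvd_pow (hn ▸ e)))
    · exact hp e
  have one : ∀ Q : Subgroup G, IsPGroup p Q → ∀ k ∈ M ⊔ O, k ∈ Q → k = 1 := fun Q hQ k h1 h2 =>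
    mem_bot.1 (inf_eq_bot_of_isPGroup_of_coprime hQ cK ▸ (⟨h2, h1⟩ : k ∈ Q ⊓ (M ⊔ O)))
  have eL : M ⊔ O ⊔ P = M ⊔ X := by rw [sup_assoc, ← h.XO]
  have sP : IsSylowIn p P ((M ⊔ O ⊔ P) ⊓ N[R]) :=
    ⟨le_inf le_sup_right hPR, pP h.toPd, fun Q h1 h2 h3 => le_antisymm (fun q hq => by
      obtain ⟨k, hk, a, ha, rfl⟩ := (mem_sup_iff_of_le_normalizer' pK).1 (h1 hq).1
      rw [one Q h2 k hk ((Q.mul_mem_cancel_right (h3 ha)).1 hq), one_mul]
      exact ha) h3⟩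
  have nL : X ⊔ T ≤ N[M ⊔ O ⊔ P] := eL ▸ le_normalizer_sup hM (sup_le le_normalizer h.TX)
  have nY : X ⊔ T ≤ N[M ⊔ O ⊔ D] := fun y hy => by
    obtain ⟨m, hm, x, hx, e⟩ := hR.frattini (hM hy)
    have hm' : m ∈ M ⊔ O := mem_sup_left hm
    have x1 : x ∈ N[M ⊔ O ⊔ P] := by
      rw [eq_inv_mul_iff_mul_eq.2 e.symm]
      exact mul_mem (inv_mem (le_normalizer (mem_sup_left hm'))) (nL hy)
    obtain ⟨b, hb, w, hw, e'⟩ := sP.frattini (g := x) (le_normalizer_inf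
      (L := N[M ⊔ O ⊔ P] ⊓ N[R]) inf_le_left (inf_le_right.trans le_normalizer) ⟨x1, hx⟩)
    obtain ⟨k, hk, a, ha, rfl⟩ := (mem_sup_iff_of_le_normalizer' pK).1 hb.1
    have e2 : y = m * k * (a * w) := by rw [e, e']; group
    have w1 : a * w ∈ N[M ⊔ O] := by
      rw [eq_inv_mul_iff_mul_eq.2 e2.symm]
      exact mul_mem (inv_mem (le_normalizer (mul_mem hm' hk))) (nK hy)
    have w0 : w ∈ N[R] := by
      rw [eq_inv_mul_iff_mul_eq.2 e'.symm]
      exact mul_mem (inv_mem (mem_inf.1 hb).2) hx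
    have w2 : a * w ∈ N[R] ⊓ N[P] := ⟨mul_mem (hPR ha) w0, mul_mem (le_normalizer ha) hw⟩
    rw [e2]
    exact mul_mem (le_normalizer (mem_sup_left (mul_mem hm' hk))) (le_normalizer_sup
      (L := N[M ⊔ O] ⊓ N[D]) inf_le_left inf_le_right ⟨w1, hW w2⟩)
  have e : ∀ x ∈ P, x ∈ M ⊔ O ⊔ D → x ∈ D := fun x h1 h2 => by
    obtain ⟨k, hk, a, ha, rfl⟩ := (mem_sup_iff_of_le_normalizer' (hD.trans pK)).1 h2
    rw [one P (pP h.toPd) k hk ((P.mul_mem_cancel_right (hD ha)).1 h1), one_mul]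
    exact ha
  exact (h.irr _ nY).imp (fun h1 x hx => e x hx (h1 hx)) fun h1 => (le_inf hD le_sup_right).trans h1

theorem cent_sylow [XL] (h : Xd p X T P O) (hM : X ⊔ T ≤ N[M]) (hp : ¬ p ∣ Nat.card M) {r : ℕ}
    (hr : r.Prime) (r2 : r ≠ 2) (rp : r ≠ p) (hR : IsSylowIn r R M) (hPR : P ≤ N[R]) : P ≤ C[R] := by
  obtain ⟨a, ha, ha', hw⟩ := XL.out h.toPd hr r2 rp hR.isPGroup hPR
  have nC : ∀ g ∈ N[R], ∀ c ∈ C[R], g * c * g⁻¹ ∈ C[R] := fun g hg c hc =>
    (mem_normalizer_iff.1 (normalizer_le_normalizer_centralizer R hg) c).1 hc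
  have nP : ∀ g ∈ N[P], ∀ c ∈ P, g * c * g⁻¹ ∈ P := fun g hg c hc => (mem_normalizer_iff.1 hg c).1 hc
  let D1 : Subgroup G :=
    { carrier := {x | x ∈ P ∧ ∀ w ∈ N[R] ⊓ N[P], x * w * x⁻¹ * w⁻¹ ∈ C[R]}
      one_mem' := ⟨one_mem _, fun w _ => by simp⟩
      mul_mem' := fun {x y} hx hy => ⟨mul_mem hx.1 hy.1, fun w hw => by
        have := mul_mem (nC x (hPR hx.1) _ (hy.2 w hw)) (hx.2 w hw)
        convert this using 1
        group⟩
      inv_mem' := fun {x} hx => ⟨inv_mem hx.1, fun w hw => by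
        have := nC x⁻¹ (inv_mem (hPR hx.1)) _ (inv_mem (hx.2 w hw))
        convert this using 1
        group⟩ }
  have h1 : P ≤ D1 := (dich h hM hp hr hR hPR (D := D1) (fun x hx => hx.1)
    (le_normalizer_iff_conj_le.2 fun u hu => conj_le_iff.2 fun x hx => ⟨nP u hu.2 x hx.1, fun w hw => by
      have := nC u hu.1 _ (hx.2 _ (mul_mem (mul_mem (inv_mem hu) hw) hu))
      convert this using 1
      group⟩)).resolve_right fun e => ha' (e ⟨ha, hw⟩)
  rcases dich h hM hp hr hR hPR (D := P ⊓ C[R]) inf_le_left (le_normalizer_inf inf_le_right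
    (inf_le_left.trans (normalizer_le_normalizer_centralizer R))) with h2 | h2
  · exact h2.trans inf_le_right
  have dP : ⁅P, P⁆ ≤ P := commutator_le_left_of_le_normalizer le_normalizer
  have aP : zpowers a ≤ P := zpowers_le.2 ha
  have nD : N[P] ≤ N[⁅P, P⁆] := le_normalizer_commutator le_rfl le_rfl
  rcases dich h hM hp hr hR hPR (D := zpowers a ⊔ ⁅P, P⁆) (sup_le aP dP)
    (le_normalizer_iff_conj_le.2 fun u hu => by
      rw [conj_sup, conj_eq_of_mem_normalizer (nD hu.2), conj_zpowers]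
      refine sup_le (zpowers_le.2 ?_) le_sup_right
      have : a * u * a⁻¹ * u⁻¹ ∈ ⁅P, P⁆ := h2 (mem_inf.2 ⟨by
        simpa only [mul_assoc] using mul_mem ha (nP u hu.2 _ (inv_mem ha)), (h1 ha).2 u hu⟩)
      have := mul_mem (inv_mem (mem_sup_right (S := zpowers a) this)) (mem_sup_left (mem_zpowers a))
      convert this using 1
      group) with h3 | h3
  · exfalso
    have d := (card_dvd_of_le h3).trans (card_sup_dvd (aP.trans (le_normalizer.trans nD)))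
    rw [h.cP, Nat.card_zpowers] at d
    have d1 := (Nat.dvd_of_mul_dvd_mul_right Nat.card_pos d).trans (orderOf_dvd_of_pow_eq_one (h.ex a ha))
    have := Nat.le_of_dvd h.hp.pos d1
    have := h.hp.one_lt
    nlinarith
  · exact absurd (h3 (mem_sup_left (mem_zpowers a))) ha'

instance instXA [XL] : XA := ⟨fun {G} _ _ {p X T P O M} h hM hp h2 => by
  have := Fact.mk h.hp
  have := Fact.mk Nat.prime_two
  have hn : P ≤ N[M] := (h.XO ▸ le_sup_right : P ≤ X).trans (le_sup_left.trans hM)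
  have hc : (Nat.card M).Coprime (Nat.card P) := by
    obtain ⟨n, e⟩ := (pP h.toPd).exists_card_eq
    exact e ▸ ((Nat.Prime.coprime_iff_not_dvd h.hp).2 hp).symm.pow_right n
  have hs : Group.IsSolvable P ∨ Group.IsSolvable M :=
    .inl (haveI := (pP h.toPd).isNilpotent; inferInstance)
  obtain ⟨S, hS, hPS⟩ := cop_exists_sylow Nat.prime_two hn hc hs
  obtain ⟨h3, h4⟩ := perm_of_coprime hS.le (inf_le_left : M ⊓ C[P] ≤ M)
    (Nat.coprime_of_dvd fun r hr d1 d2 => by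
      have := Fact.mk hr
      by_cases r2 : r = 2
      · exact hS.not_dvd_relIndex (r2 ▸ d1)
      obtain ⟨R, hR, hPR⟩ := cop_exists_sylow hr hn hc hs
      refine hR.not_dvd_relIndex_of_le (le_inf hR.le (le_cent_comm.1
        (cent_sylow h hM hp hr r2 ?_ hR hPR))) d2
      rintro rfl
      exact hp (d1.trans (relIndex_dvd_card _ _)))
  have h5 := comm_le_of_le_sup_cent hPS h3 inf_le_right
  rw [h4] at h5
  refine le_cent_comm.1 (commutator_eq_bot_iff_le_centralizer.1 (le_bot_iff.1 (h2 ▸ le_pCoreOf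
    (commutator_le_left_of_le_normalizer hn) (normalizer_commutator_ge_left M P) (hS.isPGroup.to_le h5))))⟩

end Cfsg.Agent.Lib.XiA
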