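import Cfsg.Agent.Lib.XiDefs

/-! S1822, piece `XB`: `P = Ω₁(R)`, and perfect invariant subgroups meeting `P` in `P'` are `p'`-groups. -/

set_option autoImplicit false
set_option linter.unusedSectionVars false

namespace Cfsg.Agent.Lib.XiB

open Cfsg Subgroup Cfsg.Agent.Lib.PCoreConj Cfsg.Agent.Lib.PCore Cfsg.Agent.Lib.PCoreResidual
  Cfsg.Agent.Lib.FTDefs Cfsg.Agent.Lib.XiS
open scoped commutatorElement

variable {G : Type} [Group G] [Finite G] {p : ℕ} {P R M Q Z : Subgroup G} {y : G}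

theorem pg (h : Pd p P) : IsPGroup p P := fun x => ⟨1, Subtype.ext (by simpa using h.ex x x.2)⟩

theorem cen (h : Pd p P) : ⁅P, P⁆ ≤ C[P] :=
  le_cent_of_card_dvd_prime h.hp (pg h) h.cD (le_normalizer_commutator le_normalizer le_normalizer)

theorem om1 (h : Pd p P) (hy : ∀ a ∈ P, ⁅a, y⁆ ∈ ⁅P, P⁆) (yp : y ^ p = 1) : y ∈ P := by
  have h1 := card_le_mul_cent1 hy
  rw [h.cP, mul_comm] at h1
  have h2 := Nat.le_of_mul_le_mul_left h1 Nat.card_pos
  obtain ⟨k, hk⟩ := exists_card_eq_pow h.hp ((pg h).to_inf_left (K := c[y]))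
  rw [hk] at h2
  obtain ⟨E, hE, hc⟩ := exists_le_card_pow (M := P ⊓ c[y]) (m := 2) h.hp
    (hk ▸ pow_dvd_pow _ ((Nat.pow_le_pow_iff_right h.hp.one_lt).1 h2))
  have hEA : EA p 2 ⊤ E := ⟨le_top, ⟨comm_of_card_dvd_sq h.hp hc.dvd, fun a ha => h.ex a (hE ha).1⟩, hc⟩
  exact (hE ((hEA.eamax h.hp (h.rk p h.hp h.p2 ⊤)).mem (mem_top y)
    (mem_cent_iff.2 fun a ha => mem_cent1.1 (hE ha).2) yp)).1

theorem om (h : Pd p P) (hR : IsPGroup p R) (hP : P ≤ R) (hc : ⁅P, R ⊓ N[P]⁆ ≤ ⁅P, P⁆) :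
    ∀ y ∈ R, y ^ p = 1 → y ∈ P := by
  have := Fact.mk h.hp
  have h1 : ∀ y ∈ R ⊓ N[P], y ^ p = 1 → y ∈ P := fun y hy yp =>
    om1 h (fun a ha => hc (commutator_mem_commutator ha hy)) yp
  have h2 : R ⊓ N[P] = R := eq_of_inf_normalizer_le hR inf_le_left fun g hg =>
    ⟨hg.1, mem_normalizer_of_conj_le (conj_le_iff.2 fun a ha =>
      h1 _ ((mem_normalizer_iff.1 hg.2 a).1 ⟨hP ha, le_normalizer ha⟩) (by rw [conj_pow, h.ex a ha]; group))⟩
  rwa [h2] at h1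

/-- an element centralizing a nontrivial subgroup of a cyclic Sylow subgroup that it normalizes -/
theorem cyc (hp : p.Prime) (hQ : IsSylowIn p Q M) (hc : IsCyclic Q) (hZ : Z ≤ Q) (h1 : Z ≠ ⊥)
    (h : M ⊓ N[Q] ≤ C[Z]) : M ⊓ N[Q] ≤ C[Q] := by
  have := Fact.mk hp
  intro g hg
  obtain ⟨a, ha, b, hb, ⟨k, hk⟩, ho, rfl⟩ := exists_pPart (p := p) (isOfFinOrder_of_finite g)
  have ha' := zpowers_le.2 (zpowers_le.2 hg ha)
  have hb' := zpowers_le.2 (zpowers_le.2 hg hb)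
  have hA := comm_of_cyclic hc
  refine mul_mem (le_centralizer Q (hQ.le_of_le_normalizer (ha'.trans inf_le_left)
    (IsPGroup.of_card (by rw [Nat.card_zpowers, hk])) (ha'.trans inf_le_right) (mem_zpowers a))) ?_
  obtain ⟨j, hj⟩ := exists_card_eq_pow hp hQ.isPGroup
  have hco : (Nat.card Q).Coprime (Nat.card (zpowers b)) := by
    rw [hj, Nat.card_zpowers]; exact (ho.pow_right j).symm
  rcases hQ.isPGroup.commutator_eq_bot_or_commutator_eq_self (hb'.trans inf_le_right) hco with e | e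
  · exact commutator_eq_bot_iff_le_centralizer.1 e (mem_zpowers b)
  · have h2 := cop_comm_inf_cent_of_comm hA (hb'.trans inf_le_right) hco
    rw [commutator_comm, e] at h2
    exact absurd (le_bot_iff.1 (h2 ▸ le_inf hZ (le_cent_comm.1 (hb'.trans h)))) h1

theorem out (h : Pd p P) (hM : ⁅M, M⁆ = M) (hn : P ≤ N[M]) (hi : P ⊓ M ≤ ⁅P, P⁆) :
    ¬ p ∣ Nat.card M := by
  have := Fact.mk h.hp
  intro hd
  obtain ⟨R, hR, hPR⟩ := exists_isSylowIn_ge (le_sup_right : P ≤ M ⊔ P) (pg h)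
  have hnM : M ⊔ P ≤ N[M] := sup_le le_normalizer hn
  have hQ := hR.inf_normal le_sup_left hnM
  have key : ∀ m ∈ M, m ∈ N[P] → ∀ a ∈ P, ⁅a, m⁆ ∈ ⁅P, P⁆ := fun m hm hmP a ha =>
    hi ⟨commutator_le_left_of_le_normalizer (L := N[P]) le_rfl (commutator_mem_commutator ha hmP),
      commutator_le_right_of_le_normalizer hn (commutator_mem_commutator ha hm)⟩
  have hom := om h hR.isPGroup hPR (commutator_le.2 fun a ha x hx => by
    obtain ⟨m, hm, b, hb, rfl⟩ := (mem_sup_iff_of_le_normalizer' hn).1 (hR.le hx.1)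
    have h1 := key m hm ((mul_mem_cancel_right (le_normalizer hb)).1 hx.2) a ha
    have h2 : m ∈ N[⁅P, P⁆] := by
      have := (mul_mem_cancel_right (le_normalizer hb)).1 hx.2
      exact le_normalizer_commutator (L := N[P]) le_rfl le_rfl this
    have h3 := mul_mem h1 ((mem_normalizer_iff.1 h2 _).1 (commutator_mem_commutator ha hb))
    convert h3 using 1
    simp only [commutatorElement_def]; group)
  have hZ : ∀ y ∈ R ⊓ M, y ^ p = 1 → y ∈ ⁅P, P⁆ := fun y hy yp => hi ⟨hom y hy.1 yp, hy.2⟩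
  have hcyc : IsCyclic ↥(R ⊓ M) := by
    by_contra hc
    obtain ⟨E, hE⟩ := exists_ea_two_of_not_cyclic h.hp h.p2 hQ.isPGroup hc
    have h1 := (card_dvd_of_le (show E ≤ ⁅P, P⁆ from fun y hy => hZ y (hE.1 hy) (hE.2.1.2 y hy))).trans h.cD
    rw [hE.2.2] at h1
    have := (Nat.pow_dvd_pow_iff_le_right h.hp.one_lt).1 (h1.trans (pow_one p).symm.dvd)
    omega
  obtain ⟨X, hX⟩ := exists_ea_one_of_isPGroup h.hp hQ.isPGroup (hQ.ne_bot hd)
  have hXc : Nat.card X = p := by rw [hX.2.2, pow_one]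
  have hXZ : X = ⁅P, P⁆ := eq_of_le_of_card_le (fun y hy => hZ y (hX.1 hy) (hX.2.1.2 y hy))
    (hXc ▸ Nat.le_of_dvd h.hp.pos h.cD)
  have hX1 : X ≠ ⊥ := fun e => h.hp.ne_one (by rw [← hXc, e, card_bot])
  have hRP : N[R] ≤ N[P] := fun g hg => mem_normalizer_of_conj_le (conj_le_iff.2 fun a ha =>
    hom _ ((mem_normalizer_iff.1 hg a).1 (hPR ha)) (by rw [conj_pow, h.ex a ha]; group))
  have hRX : R ≤ C[X] := le_cent_comm.1 (le_cent_of_card_dvd_prime h.hp hR.isPGroup hXc.dvd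
    (hXZ ▸ le_normalizer_commutator (le_normalizer.trans hRP) (le_normalizer.trans hRP)))
  have hN : M ⊓ N[R ⊓ M] ≤ C[X] := fun g hg => by
    have h1 : g ∈ N[(M ⊔ P) ⊓ C[X]] := by
      have h2 : zpowers g ≤ N[X] := (zpowers_le.2 hg.2).trans (normalizer_le_of_le_cyclic hcyc hX.1)
      exact le_normalizer_inf (le_normalizer_of_le ((zpowers_le.2 hg.1).trans le_sup_left))
        (le_normalizer_centralizer h2) (mem_zpowers g)
    obtain ⟨c, hc, x, hx, rfl⟩ := (hR.of_le (le_inf hR.le hRX) inf_le_left).frattini h1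
    have hxM : x ∈ M ⊔ P := ((M ⊔ P).mul_mem_cancel_left hc.1).1 (Subgroup.mem_sup_left hg.1)
    obtain ⟨m, hm, b, hb, rfl⟩ := (mem_sup_iff_of_le_normalizer' hn).1 hxM
    have hmP : m ∈ N[P] := (mul_mem_cancel_right (le_normalizer hb)).1 (hRP hx)
    refine mul_mem hc.2 (mul_mem ?_ (hRX (hPR hb)))
    rw [hXZ]
    have hh : ⁅P, P⁆ ≤ c[m] := commutator_le.2 fun a ha d hd => ?_
    · exact mem_cent_iff.2 fun w hw => mem_cent1.1 (hh hw)
    · have e1 := mem_cent_iff.1 (cen h (key m hm hmP a⁻¹ (inv_mem ha)))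
      have e2 := mem_cent_iff.1 (cen h (key m hm hmP d⁻¹ (inv_mem hd)))
      set s := ⁅a⁻¹, m⁆ with hs
      set t := ⁅d⁻¹, m⁆ with ht
      have e3 : m * a * m⁻¹ = a * s := by rw [hs, commutatorElement_def]; group
      have e4 : m * d * m⁻¹ = d * t := by rw [ht, commutatorElement_def]; group
      have e5 : s * t = t * s := e2 s (commutator_le_left_of_le_normalizer le_normalizer
        (key m hm hmP a⁻¹ (inv_mem ha)))
      have e6 : m * ⁅a, d⁆ * m⁻¹ = ⁅a * s, d * t⁆ := by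
        rw [← e3, ← e4]; simp only [commutatorElement_def]; group
      have e7 : ⁅a * s, d * t⁆ = ⁅a, d⁆ := by
        simp only [commutatorElement_def, mul_inv_rev]
        calc a * s * (d * t) * (s⁻¹ * a⁻¹) * (t⁻¹ * d⁻¹)
            = a * (s * d) * t * s⁻¹ * a⁻¹ * t⁻¹ * d⁻¹ := by group
          _ = a * d * (s * t) * s⁻¹ * a⁻¹ * t⁻¹ * d⁻¹ := by rw [← e1 d hd]; group
          _ = a * d * (a⁻¹ * t) * t⁻¹ * d⁻¹ := by rw [e5, e2 a⁻¹ (inv_mem ha)]; group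
          _ = a * d * a⁻¹ * d⁻¹ := by group
      rw [mem_cent1, eq_comm, ← mul_inv_eq_iff_eq_mul, e6, e7]
  have hnpc := npc_of_norm_le_cent h.hp hQ (cyc h.hp hQ hcyc hX.1 hX1 hN)
  have hs := hnpc.sdp h.hp hQ
  have hO : M ≤ N[pPrimeCoreOf p M] := hs.sup.ge.trans (sup_le le_normalizer hs.norm)
  have hA := comm_of_cyclic hcyc
  have h1 : M ≤ pPrimeCoreOf p M := by
    refine hM.ge.trans (commutator_le.2 fun a ha d hd => ?_)
    obtain ⟨u, hu, a, ha', rfl⟩ := (mem_sup_iff_of_le_normalizer' hs.norm).1 (hs.sup.ge ha)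
    obtain ⟨v, hv, d, hd', rfl⟩ := (mem_sup_iff_of_le_normalizer' hs.norm).1 (hs.sup.ge hd)
    have e : a * d = d * a := mem_cent_iff.1 (le_centralizer (R ⊓ M) hd') a ha'
    have h2 := mul_mem (mul_mem hu ((mem_normalizer_iff.1 (hs.norm ha') v).1 hv))
      (mul_mem ((mem_normalizer_iff.1 (hs.norm hd') _).1 (inv_mem hu)) (inv_mem hv))
    convert h2 using 1
    rw [commutatorElement_def]
    calc u * a * (v * d) * (u * a)⁻¹ * (v * d)⁻¹ = u * a * v * (d * a⁻¹) * u⁻¹ * d⁻¹ * v⁻¹ := by group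
      _ = u * a * v * (a⁻¹ * d) * u⁻¹ * d⁻¹ * v⁻¹ := by
        rw [show d * a⁻¹ = a⁻¹ * d by rw [mul_inv_eq_iff_eq_mul, mul_assoc, ← e]; group]
      _ = _ := by group
  exact hX1 (le_bot_iff.1 (hs.inf ▸ le_inf ((hX.1.trans inf_le_right).trans h1) hX.1))

instance instXB : XB := ⟨om, out⟩

end Cfsg.Agent.Lib.XiB
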