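import Cfsg.Agent.Lib.XiDefs
import Cfsg.Agent.Lib.FStarAct

/-! S1822: the theorem in `H / O₂(H)`. -/

set_option autoImplicit false
set_option linter.unusedSectionVars false

namespace Cfsg.Agent.Lib.XiS

open Cfsg Subgroup Cfsg.Agent.Lib.PCoreConj Cfsg.Agent.Lib.PCore Cfsg.Agent.Lib.PCoreResidual
  Cfsg.Agent.Lib.FTDefs

section
variable {G : Type} [Group G] [Finite G] {p : ℕ} {X T P O : Subgroup G}

theorem xd_pP (h : Pd p P) : IsPGroup p P :=
  isPGroup_iff_forall_mem.2 fun x hx => ⟨1, by rw [pow_one, h.ex x hx]⟩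

theorem xd_PX (h : Xd p X T P O) : P ≤ X := h.XO ▸ le_sup_right

theorem xd_cyc (h : Xd p X T P O) {Y : Subgroup G} (hY : X ⊔ T ≤ N[Y]) (hi : Y.relIndex P ∣ p) : P ≤ Y := by
  refine (h.irr Y hY).resolve_right fun e => ?_
  have e1 := card_inf_mul_relIndex Y P
  have e2 : Nat.card ↥(Y ⊓ P) ≤ Nat.card ↥⁅P, P⁆ := Subgroup.card_le_of_le (inf_comm P Y ▸ e)
  have e3 := Nat.le_of_dvd h.hp.pos hi
  have e4 : 0 < Nat.card ↥⁅P, P⁆ := Nat.card_pos
  have e5 := h.hp.two_le
  rw [h.cP] at e1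
  have : p ^ 2 * Nat.card ↥⁅P, P⁆ ≤ Nat.card ↥⁅P, P⁆ * p := e1 ▸ Nat.mul_le_mul e2 e3
  rw [mul_comm _ p] at this
  have := Nat.le_of_mul_le_mul_right this e4
  nlinarith

theorem xd_perf [XB] (h : Xd p X T P O) {M : Subgroup G} (hM : ⁅M, M⁆ = M) (hn : X ⊔ T ≤ N[M])
    (hd : p ∣ Nat.card M) : X ≤ M :=
  h.gen M (le_sup_left.trans hn) ((h.irr M hn).resolve_right fun e =>
    XB.out h.toPd hM ((xd_PX h).trans (le_sup_left.trans hn)) e hd)

theorem xd_comp [XB] (h : Xd p X T P O) (hd : p ∣ Nat.card (layer G)) :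
    ∃ K : Subgroup G, IsComponent K ∧ X ≤ K ⊔ T := by
  haveI := FStarComp.layer_normal (G := G)
  have XE : X ≤ layer G := xd_perf h FStarComp.layer_perfect (le_top.trans (normal_iff_top_le.1 inferInstance)) hd
  obtain ⟨K, hK, hk⟩ : ∃ K : Subgroup G, IsComponent K ∧ p ∣ Nat.card K := by
    by_contra hn
    push Not at hn
    have : layer G ≤ pPrimeCore p G := sSup_le fun K hK =>
      le_pPrimeCore_of_isSubnormal hK.1 ((Nat.Prime.coprime_iff_not_dvd h.hp).2 (hn K hK)).symm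
    exact (Nat.Prime.coprime_iff_not_dvd h.hp).1 (coprime_card_pPrimeCore p G).symm
      (hd.trans (card_dvd_of_le this))
  have l1 : ∀ t : T, K ^ᶜ (t : G) ≤ ⨆ t : T, K ^ᶜ (t : G) := fun t => le_iSup (fun t : T => K ^ᶜ (t : G)) t
  refine ⟨K, hK, (xd_perf h (M := ⨆ t : T, K ^ᶜ (t : G)) ?_ (sup_le ?_ ?_) ?_).trans ?_⟩
  · refine le_antisymm (commutator_le_left_of_le_normalizer le_normalizer) (iSup_le fun t => ?_)
    rw [← FStarComp.IsComponent.perfect (FStarComp.IsComponent.conj hK t)]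
    exact commutator_mono (l1 t) (l1 t)
  · exact le_normalizer_iSup fun t => XE.trans
      (FStarComp.IsComponent.layer_le_normalizer (FStarComp.IsComponent.conj hK t))
  · refine le_normalizer_iff_conj_le.2 fun s hs => ?_
    rw [conj_iSup]
    refine iSup_le fun t => ?_
    rw [conj_conj]
    exact l1 (⟨s, hs⟩ * t)
  · have := l1 1
    rw [OneMemClass.coe_one, conj_one] at this
    exact hk.trans (card_dvd_of_le this)
  · exact iSup_le fun t => conj_le_of_mem le_sup_left (mem_sup_right t.2)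

theorem xd_fit [XA] (h : Xd p X T P O) (hd : ¬ p ∣ Nat.card (layer G)) : X ≤ fittingSubgroup G := by
  haveI := Fact.mk h.hp
  haveI := FStarComp.layer_normal (G := G)
  have cD := coprime_card_pPrimeCore p G
  have nD : ∀ L : Subgroup G, L ≤ N[pPrimeCore p G] := fun L => le_top.trans (normal_iff_top_le.1 inferInstance)
  have PD : P ≤ C[pPrimeCore p G] := XA.out h (nD _) ((Nat.Prime.coprime_iff_not_dvd h.hp).1 cD.symm)
    (eq_bot_iff.2 (h.o2 ▸ pCoreOf_le_pCore _))
  have ED : layer G ≤ pPrimeCore p G :=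
    le_pPrimeCore inferInstance ((Nat.Prime.coprime_iff_not_dvd h.hp).2 hd).symm
  obtain ⟨N, H, h1, h2, h3, h4, h5⟩ := exists_critical_rank2 h.hp h.p2 (pCore_isPGroup p G)
    (h.rk p h.hp h.p2 _)
  have nR : ∀ L : Subgroup G, L ≤ N[pCore p G] := fun L => le_top.trans (normal_iff_top_le.1 inferInstance)
  set Y := ppre (qmap N) C[H /ₙ N] with hY
  have nV : ∀ L : Subgroup G, L /ₙ N ≤ N[H /ₙ N] := fun L => pim_norm ((nR L).trans h2)
  have nY : ∀ L : Subgroup G, L ≤ N[Y] := fun L =>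
    le_norm_ppre ((nR L).trans h1) (le_normalizer_centralizer (nV L))
  have PY : P ≤ Y := xd_cyc h (nY _) (by
    rw [hY, relIndex_ppre ((nR P).trans h1)]
    exact relIndex_cent_dvd_prime h.hp h3 h4 (isPGroup_pim (xd_pP h.toPd) _) (nV P))
  set Y1 := Y ⊓ C[pPrimeCore p G] with hY1
  have nY1 : ∀ L : Subgroup G, L ≤ N[Y1] := fun L =>
    le_normalizer_inf (nY L) (le_normalizer_centralizer (nD L))
  refine (h.gen Y1 (nY1 _) (le_inf PY PD)).trans (FStar.le_fitting (normal_iff_top_le.2 (nY1 _)) ?_)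
  have key := exists_pow_mem_of_cop (K := Y1) (L := pPrimeCore p G) h.hp fun A hA hc => by
    have a1 : A ≤ C[pCore p G] := h5 A (nR _) hc (pim_le_of_le_ppre (hA.trans inf_le_left))
    have a2 : A ≤ C[generalizedFittingSubgroup G] := by
      refine le_centralizer_iff.1 (sup_le (ED.trans (le_centralizer_iff.1 (hA.trans inf_le_right)))
        (FStar.fitting_le_of_forall_pCore_le fun q hq => ?_))
      by_cases e : q = p
      · subst e; exact le_centralizer_iff.1 a1
      · refine le_trans (le_pPrimeCore inferInstance ?_) (le_centralizer_iff.1 (hA.trans inf_le_right))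
        obtain ⟨k, hk⟩ := (pCore_isPGroup q G).exists_card_eq
        rw [hk]
        exact Nat.Coprime.pow_left _ ((Nat.coprime_primes hq.out h.hp).2 e)
    exact le_pPrimeCore_of_isSubnormal
      (FStarAct.isSubnormal_of_le_fitting (a2.trans FStar.centralizer_fstar_le_fitting)) hc
  have : IsPGroup p (Y1 ⧸ center Y1) := by
    intro x
    obtain ⟨y, rfl⟩ := QuotientGroup.mk_surjective x
    obtain ⟨k, hk⟩ := key y y.2
    refine ⟨k, ?_⟩
    rw [← QuotientGroup.mk_pow, QuotientGroup.eq_one_iff, mem_center_iff]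
    intro z
    exact Subtype.ext (mem_centralizer_iff.1 z.2.2 _ hk).symm
  exact of_quotient_center_nilpotent this.isNilpotent

theorem xd_normal [XA] [XB] (h : Xd p X T P O) (hd : ¬ p ∣ Nat.card (layer G)) : X.Normal := by
  haveI := Fact.mk h.hp
  haveI : Fact (Nat.Prime 2) := ⟨Nat.prime_two⟩
  have XF := xd_fit h hd
  have O0 : O = ⊥ := eq_bot_iff.2 (h.o2 ▸ FStarAct.le_pCore_of_le_fitting
    ((h.XO ▸ le_sup_left : O ≤ X).trans XF) h.pO)
  have XP : X = P := by rw [h.XO, O0, bot_sup_eq]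
  have PR : P ≤ pCore p G := FStarAct.le_pCore_of_le_fitting ((xd_PX h).trans XF) (xd_pP h.toPd)
  have nP : X ⊔ T ≤ N[P] := XP ▸ sup_le le_normalizer h.TX
  have nS : X ⊔ T ≤ N[pCore p G ⊓ N[P]] :=
    le_normalizer_inf (le_top.trans (normal_iff_top_le.1 inferInstance)) (le_normalizer_normalizer nP)
  have ne : P ≠ ⊥ := by
    intro e
    have := h.cP
    rw [e, card_bot] at this
    have e2 := h.hp.two_le
    have := Nat.eq_one_of_mul_eq_one_right this.symm
    nlinarith
  have lt := commutator_lt (P := pCore p G ⊓ N[P]) (pCore_isPGroup p G).to_inf_left (xd_pP h.toPd)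
    inf_le_right ne
  have c : ⁅P, pCore p G ⊓ N[P]⁆ ≤ ⁅P, P⁆ := by
    rcases h.irr _ (le_normalizer_commutator nP nS) with e | e
    · exact absurd e (not_le_of_gt lt)
    · exact (le_inf lt.le le_rfl).trans e
  have om := XB.om h.toPd (pCore_isPGroup p G) PR c
  rw [XP]
  refine ⟨fun x hx g => om _ ((pCore_normal p G).conj_mem x (PR hx) g) ?_⟩
  rw [conj_pow, h.ex x hx]; group

end

instance instXD [XA] [XB] : XD := ⟨fun {G} _ _ {p} _ _ _ _ h => by
  by_cases hd : p ∣ Nat.card (layer G)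
  · exact Or.inr (xd_comp h hd)
  · exact Or.inl (xd_normal h hd)⟩

end Cfsg.Agent.Lib.XiS
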