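import Cfsg.Prelude.Def_QuasithinSetup
import Cfsg.Agent.Lib.FTBG5
import Cfsg.Agent.Lib.FStar

/-! Interfaces for S1822 (`N(X)` is the unique maximal 2-local over `XT` for `X ∈ Ξ*(G,T)`). -/

set_option autoImplicit false
set_option linter.unusedSectionVars false

namespace Cfsg.Agent.Lib.XiS

open Cfsg Subgroup Cfsg.Agent.Lib.PCoreConj Cfsg.Agent.Lib.PCore Cfsg.Agent.Lib.PCoreResidual
  Cfsg.Agent.Lib.FTDefs

universe u

/-- `P` has exponent `p` and is elementary abelian of order `p²` or extraspecial of order `p³`,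
in a group all of whose odd ranks are at most two. -/
structure Pd {G : Type} [Group G] (p : ℕ) (P : Subgroup G) : Prop where
  hp : p.Prime
  p2 : p ≠ 2
  rk : ∀ r : ℕ, r.Prime → r ≠ 2 → ∀ H : Subgroup G, prank r H ≤ 2
  ex : ∀ x ∈ P, x ^ p = 1
  cP : Nat.card P = p ^ 2 * Nat.card ↥⁅P, P⁆
  cD : Nat.card ↥⁅P, P⁆ ∣ p

/-- The image of `X ∈ Ξ(G,T)` in `H / O₂(H)`. -/
structure Xd {G : Type} [Group G] (p : ℕ) (X T P O : Subgroup G) : Prop extends Pd p P where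
  o2 : pCore 2 G = ⊥
  syl : IsSylowIn 2 T ⊤
  TX : T ≤ N[X]
  pO : IsPGroup 2 O
  NO : X ⊔ T ≤ N[O]
  XO : X = O ⊔ P
  gen : ∀ Y : Subgroup G, X ≤ N[Y] → P ≤ Y → X ≤ Y
  irr : ∀ Y : Subgroup G, X ⊔ T ≤ N[Y] → P ≤ Y ∨ P ⊓ Y ≤ ⁅P, P⁆

/-- some element of `P` outside `P'` acts as a scalar on the critical section of `R` -/
class XL : Prop where
  out : ∀ {G : Type} [Group G] [Finite G] {p r : ℕ} {P R : Subgroup G}, Pd p P → r.Prime → r ≠ 2 → r ≠ p →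
    IsPGroup r R → P ≤ N[R] →
    ∃ x ∈ P, x ∉ ⁅P, P⁆ ∧ ∀ w ∈ N[R] ⊓ N[P], x * w * x⁻¹ * w⁻¹ ∈ C[R]

/-- `P` centralizes the invariant `p'`-subgroups -/
class XA : Prop where
  out : ∀ {G : Type} [Group G] [Finite G] {p : ℕ} {X T P O M : Subgroup G}, Xd p X T P O →
    X ⊔ T ≤ N[M] → ¬ p ∣ Nat.card M → pCoreOf 2 M = ⊥ → P ≤ C[M]

/-- `P = Ω₁(R)`, and perfect invariant subgroups meeting `P` inside `P'` are `p'`-groups -/
class XB : Prop where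
  om : ∀ {G : Type} [Group G] [Finite G] {p : ℕ} {P R : Subgroup G}, Pd p P → IsPGroup p R → P ≤ R →
    ⁅P, R ⊓ N[P]⁆ ≤ ⁅P, P⁆ → ∀ y ∈ R, y ^ p = 1 → y ∈ P
  out : ∀ {G : Type} [Group G] [Finite G] {p : ℕ} {P M : Subgroup G}, Pd p P → ⁅M, M⁆ = M → P ≤ N[M] →
    P ⊓ M ≤ ⁅P, P⁆ → ¬ p ∣ Nat.card M

/-- the theorem in `H / O₂(H)` -/
class XD : Prop where
  out : ∀ {G : Type} [Group G] [Finite G] {p : ℕ} {X T P O : Subgroup G}, Xd p X T P O →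
    X.Normal ∨ ∃ K : Subgroup G, IsComponent K ∧ X ≤ K ⊔ T

/-- the passage to `H / O₂(H)` -/
class XE : Prop where
  out : ∀ {G : Type u} [Group G] [Finite G] (T : Sylow 2 G) (X H : Subgroup G), X ∈ Xi (T : Subgroup G) →
    X ⊔ (T : Subgroup G) ≤ H → IsStronglyQuasithin H →
    ∃ (Γ : Type) (_ : Group Γ) (_ : Finite Γ) (f : H →* Γ) (p : ℕ) (P O : Subgroup Γ),
      Function.Surjective f ∧ f.ker = pCore 2 H ∧
      Xd p ((X.subgroupOf H).map f) (((T : Subgroup G).subgroupOf H).map f) P O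

end Cfsg.Agent.Lib.XiS
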