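import Cfsg.Agent.Lib.TrDeg
import Cfsg.Agent.Lib.FrattiniFacts

/-!
Yoshida's transfer theorem.
-/

set_option autoImplicit false

namespace Cfsg.Agent.Lib.Yoshida

open Subgroup Cfsg Cfsg.Agent.Lib.PCoreConj Cfsg.Agent.Lib.PCore Cfsg.Agent.Lib.PCoreResidual
open Cfsg.Agent.Lib.TrAvg
open scoped Pointwise commutatorElement

local notation "N(" X ")" => normalizer (SetLike.coe (X : Subgroup _))

variable {G : Type*} [Group G] {p : ℕ}

section Orbits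
variable {X A : Type*} [MulAction G X] [Fintype X] [CommGroup A] {R R₁ : Subgroup G}

open Classical in
/-- the orbit as a finite set -/
noncomputable def orb (R : Subgroup G) (ω₀ : X) : Finset X := Finset.univ.filter fun ω => ∃ r ∈ R, r • ω₀ = ω

theorem mem_orb {ω₀ ω : X} : ω ∈ orb R ω₀ ↔ ∃ r ∈ R, r • ω₀ = ω := by simp [orb]

theorem smul_mem_orb {ω₀ : X} : ∀ r ∈ R, ∀ ω ∈ orb R ω₀, r • ω ∈ orb R ω₀ := fun r hr ω hω => by
  obtain ⟨s, hs, rfl⟩ := mem_orb.mp hω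
  exact mem_orb.mpr ⟨r * s, mul_mem hr hs, mul_smul _ _ _⟩

theorem orb_eq {ω₀ ω : X} (h : ω ∈ orb R ω₀) : orb R ω₀ = orb R ω := by
  obtain ⟨s, hs, rfl⟩ := mem_orb.mp h
  ext x
  simp only [mem_orb]
  exact ⟨fun ⟨r, hr, e⟩ => ⟨r * s⁻¹, mul_mem hr (inv_mem hs), by rw [mul_smul, inv_smul_smul, e]⟩,
    fun ⟨r, hr, e⟩ => ⟨r * s, mul_mem hr hs, by rw [mul_smul, e]⟩⟩

theorem prod_orbits (f : X → A) (s : Finset X) (h₁ : ∀ r ∈ R, ∀ ω ∈ s, r • ω ∈ s)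
    (h₂ : ∀ ω₀ ∈ s, ∏ ω ∈ orb R ω₀, f ω = 1) : ∏ ω ∈ s, f ω = 1 := by
  classical
  induction s using Finset.strongInduction with | H s ih => ?_
  rcases s.eq_empty_or_nonempty with rfl | ⟨ω₀, h₀⟩
  · simp
  have hO : orb R ω₀ ⊆ s := fun ω hω => by
    obtain ⟨r, hr, rfl⟩ := mem_orb.mp hω
    exact h₁ r hr _ h₀
  rw [← Finset.prod_sdiff hO, h₂ _ h₀, mul_one]
  refine ih _ (Finset.sdiff_ssubset hO ⟨ω₀, mem_orb.mpr ⟨1, one_mem _, one_smul _ _⟩⟩) (fun r hr ω hω => ?_)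
    fun ω hω => h₂ ω (Finset.mem_sdiff.mp hω).1
  rw [Finset.mem_sdiff] at hω ⊢
  exact ⟨h₁ r hr ω hω.1, fun h => hω.2 (by simpa using smul_mem_orb _ (inv_mem hr) _ h)⟩

theorem prod_split (f : X → A) {ω₀ : X} (a₁ : R ⊓ MulAction.stabilizer G ω₀ ≤ R₁) (a₂ : R₁ ≤ R) (a₃ : R ≤ N(R₁))
    {g : G} (hg : g ∈ R) (b₁ : ∀ r ∈ R, ∃ i < p, ∃ s ∈ R₁, r = g ^ i * s) (b₂ : ∀ i, g ^ i ∈ R₁ → p ∣ i) :
    ∏ ω ∈ orb R ω₀, f ω = ∏ i ∈ Finset.range p, ∏ ω ∈ orb R₁ ω₀, f (g ^ i • ω) := by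
  rw [← Finset.prod_product']
  refine (Finset.prod_bij (fun x _ => g ^ x.1 • x.2) ?_ ?_ ?_ fun _ _ => rfl).symm
  · rintro ⟨i, ω⟩ hx
    obtain ⟨r, hr, rfl⟩ := mem_orb.mp (Finset.mem_product.mp hx).2
    exact mem_orb.mpr ⟨_, mul_mem (pow_mem hg i) (a₂ hr), mul_smul _ _ _⟩
  · have aux : ∀ i j, i ≤ j → j < p → ∀ r ∈ R₁, ∀ r' ∈ R₁, g ^ i • r • ω₀ = g ^ j • r' • ω₀ → i = j := by
      intro i j hij hj r hr r' hr' e
      obtain ⟨d, rfl⟩ := Nat.exists_eq_add_of_le hij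
      rw [pow_add, mul_smul, smul_left_cancel_iff] at e
      have : r⁻¹ * g ^ d * r' ∈ R₁ := a₁ (mem_inf.mpr
        ⟨mul_mem (mul_mem (inv_mem (a₂ hr)) (pow_mem hg d)) (a₂ hr'),
        by rw [MulAction.mem_stabilizer_iff, mul_smul, mul_smul, ← e, inv_smul_smul]⟩)
      rw [mul_mem_cancel_right hr', mul_mem_cancel_left (inv_mem hr)] at this
      have := Nat.eq_zero_of_dvd_of_lt (b₂ d this) (by omega)
      omega
    rintro ⟨i, ω⟩ hx ⟨j, ω'⟩ hy e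
    obtain ⟨r, hr, rfl⟩ := mem_orb.mp (Finset.mem_product.mp hx).2
    obtain ⟨r', hr', rfl⟩ := mem_orb.mp (Finset.mem_product.mp hy).2
    have hi := Finset.mem_range.mp (Finset.mem_product.mp hx).1
    have hj := Finset.mem_range.mp (Finset.mem_product.mp hy).1
    obtain rfl : i = j := (le_total i j).elim (fun h => aux i j h hj r hr r' hr' e)
      fun h => (aux j i h hi r' hr' r hr e.symm).symm
    exact Prod.ext rfl (smul_left_cancel _ e)
  · intro ω hω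
    obtain ⟨r, hr, rfl⟩ := mem_orb.mp hω
    obtain ⟨i, hi, s, hs, rfl⟩ := b₁ r hr
    exact ⟨(i, s • ω₀), Finset.mem_product.mpr ⟨Finset.mem_range.mpr hi, mem_orb.mpr ⟨s, hs, rfl⟩⟩,
      (mul_smul _ _ _).symm⟩

theorem prod_smul (f : X → A) {s : Finset X} {g : G} (h : ∀ ω ∈ s, g • ω ∈ s) : ∏ ω ∈ s, f (g • ω) = ∏ ω ∈ s, f ω :=
  Finset.prod_bij (fun ω _ => g • ω) h (fun _ _ _ _ e => smul_left_cancel _ e)
    (fun b hb => (Finset.surj_on_of_inj_on_of_card_le (fun ω _ => g • ω) h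
      (fun _ _ _ _ e => smul_left_cancel _ e) le_rfl b hb).imp fun _ h => h.imp fun _ e => e.symm) fun _ _ => rfl

end Orbits

variable {N : Subgroup G} {A : Type*} [CommGroup A] (φ : N →* A)

/-- the transfer cocycle -/
noncomputable def c (N : Subgroup G) (g : G) (ω : G ⧸ N) : N :=
  ⟨(g • ω).out⁻¹ * (g * ω.out), QuotientGroup.eq.mp (by
    rw [QuotientGroup.out_eq', ← smul_eq_mul, ← MulAction.Quotient.smul_mk, QuotientGroup.out_eq'])⟩

theorem c_mul (g h : G) (ω : G ⧸ N) : c N (g * h) ω = c N g (h • ω) * c N h ω := by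
  ext
  simp [c, mul_smul, mul_assoc]

theorem c_one (ω : G ⧸ N) : c N 1 ω = 1 := by
  ext
  simp [c]

theorem c_pow (g : G) (ω : G ⧸ N) (n : ℕ) : ∏ i ∈ Finset.range n, φ (c N g (g ^ i • ω)) = φ (c N (g ^ n) ω) := by
  induction n with
  | zero => simp [c_one]
  | succ n ih => rw [Finset.prod_range_succ, ih, pow_succ', c_mul, map_mul, mul_comm]

theorem c_fix {g : G} {ω : G ⧸ N} (h : g • ω = ω) {n : ℕ} (hn : g ^ n = 1) : c N g ω ^ n = 1 := by
  refine Subtype.ext ?_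
  change ((g • ω).out⁻¹ * (g * ω.out)) ^ n = 1
  rw [h, ← mul_assoc]
  nth_rewrite 2 [← inv_inv ω.out]
  rw [conj_pow, hn, mul_one, mul_inv_cancel]

variable [Fintype (G ⧸ N)]

theorem prod_mul {s : Finset (G ⧸ N)} (g : G) {h : G} (hs : ∀ ω ∈ s, h • ω ∈ s) :
    ∏ ω ∈ s, φ (c N (g * h) ω) = (∏ ω ∈ s, φ (c N g ω)) * ∏ ω ∈ s, φ (c N h ω) := by
  simp only [c_mul, map_mul, Finset.prod_mul_distrib]
  rw [prod_smul (fun ω => φ (c N g ω)) hs]

theorem prod_conj {s : Finset (G ⧸ N)} {u z : G} (hs : ∀ ω ∈ s, (z⁻¹ * u * z) • ω ∈ s) :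
    ∏ ω ∈ s, φ (c N u (z • ω)) = ∏ ω ∈ s, φ (c N (z⁻¹ * u * z) ω) := by
  have := prod_mul φ z hs
  rw [show z * (z⁻¹ * u * z) = u * z by group] at this
  simp only [c_mul, map_mul, Finset.prod_mul_distrib] at this
  rw [mul_comm] at this
  simpa only [c_mul, map_mul, Finset.prod_mul_distrib] using mul_left_cancel this

variable [Finite G] [hp : Fact p.Prime]

theorem min_step {k : ℕ} (ih : ∀ (h : G) (s : Finset (G ⧸ N)), h ^ p ^ k = 1 → (∀ ω ∈ s, h • ω ∈ s) →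
      ∏ ω ∈ s, φ (c N h ω) = 1) {h : G} {s : Finset (G ⧸ N)} (hk : h ^ p ^ (k + 1) = 1) (hs : ∀ ω ∈ s, h • ω ∈ s)
    (hf : ∀ ω ∈ s, h • ω = ω → φ (c N h ω) = 1) : ∏ ω ∈ s, φ (c N h ω) = 1 := by
  have hs' : ∀ r ∈ zpowers h, ∀ ω ∈ s, r • ω ∈ s := fun r hr => by
    obtain ⟨n, rfl⟩ := mem_powers_iff_mem_zpowers.mpr hr
    induction n with
    | zero => simp
    | succ n ih => exact fun ω hω => by simpa [pow_succ', mul_smul] using hs _ (ih (pow_mem (mem_zpowers h) n) ω hω)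
  refine prod_orbits (R := zpowers h) _ s hs' fun ω₀ h₀ => ?_
  by_cases e : h • ω₀ = ω₀
  · refine Finset.prod_eq_one fun ω hω => ?_
    obtain ⟨r, hr, rfl⟩ := mem_orb.mp hω
    rw [show r • ω₀ = ω₀ from zpowers_le.mpr (show h ∈ MulAction.stabilizer G ω₀ from e) hr]
    exact hf _ h₀ e
  · obtain ⟨R₁, a₁, a₂, a₃, a₄⟩ := exists_max (T := zpowers h ⊓ MulAction.stabilizer G ω₀)
      (IsPGroup.of_card (p := p) ((Nat.card_zpowers h).trans ((Nat.dvd_prime_pow hp.out).mp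
        (orderOf_dvd_of_pow_eq_one hk)).choose_spec.2)) (lt_of_le_of_ne inf_le_left fun e' => e (e'.ge (mem_zpowers h)).2)
    obtain ⟨b₁, b₂⟩ := a₄ h (mem_zpowers h) fun e => a₂.not_ge (zpowers_le.mpr e)
    rw [prod_split _ a₁ a₂.le a₃ (mem_zpowers h) b₁ b₂, Finset.prod_comm]
    simp only [c_pow]
    refine ih _ _ (by rw [← pow_mul, ← pow_succ', hk]) (smul_mem_orb _ ?_)
    obtain ⟨i, hi, t, ht, e⟩ := b₁ _ (pow_mem (mem_zpowers h) p)
    have := Nat.le_of_dvd (by omega) (b₂ (p - i) (by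
      rwa [mul_left_cancel (a := h ^ i) (by rw [← pow_add, Nat.add_sub_cancel' hi.le, e] :
        h ^ i * h ^ (p - i) = h ^ i * t)]))
    rwa [e, show i = 0 by omega, pow_zero, one_mul]

theorem min_order (k : ℕ) (hφ : ∀ n : N, n ^ p ^ k = 1 → φ n = 1) : ∀ (h : G) (s : Finset (G ⧸ N)), h ^ p ^ k = 1 →
    (∀ ω ∈ s, h • ω ∈ s) → ∏ ω ∈ s, φ (c N h ω) = 1 := by
  induction k with
  | zero =>
    rintro h s e -
    simp [show h = 1 by simpa using e, c_one]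
  | succ k ih =>
    exact fun h s hk hs => min_step φ (ih fun n hn => hφ n (by rw [pow_succ, pow_mul, hn, one_pow])) hk hs
      fun ω _ e => hφ _ (c_fix e hk)

omit [Fintype (G ⧸ N)] in
theorem exists_hom {S : Subgroup G} (hS : IsSylowIn p S ⊤) (hSN : S ≤ N) (h : S ⊓ commutator G ≠ S ⊓ ⁅N, N⁆)
    [Fintype (G ⧸ N)] : ∃ φ : N →* Multiplicative (ZMod p), (∃ u : N, (u : G) ∈ S ∧ φ u ≠ 1) ∧
      ∀ u ∈ S, ∏ ω, φ (c N u ω) = 1 := by
  obtain ⟨P, hP⟩ := isSylowIn_top_iff.mp (show IsSylowIn p (S.subgroupOf N) ⊤ by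
    simpa using (hS.of_le hSN le_top).subgroupOf le_rfl)
  obtain ⟨K, _, h₂, h₃, h₄, -, k, hk⟩ := TransferFrobenius.exists_normal_inf_sylow_eq P
  rw [hP] at h₃ h₄
  letI : CommGroup (N ⧸ K) := { (inferInstance : Group (N ⧸ K)) with
    mul_comm := (Normal.quotient_commutative_iff_commutator_le.mpr h₂).is_comm.comm }
  set π := QuotientGroup.mk' K
  let V : G →* N ⧸ K := MonoidHom.mk' (fun g => ∏ ω, π (c N g ω)) fun a b => prod_mul π a fun _ _ => Finset.mem_univ _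
  have hπ : (S.subgroupOf N).map π = ⊤ := by
    rw [← map_top_of_surjective π (QuotientGroup.mk'_surjective K), ← h₄, Subgroup.map_sup,
      (Subgroup.map_eq_bot_iff _).mpr (QuotientGroup.ker_mk' K).ge, bot_sup_eq]
  by_cases e : S.map V = ⊤
  swap
  · obtain ⟨M, hM, hVM⟩ := FrattiniFacts.exists_coatom_ge e
    have h₅ : Nat.card ((N ⧸ K) ⧸ M) = p := by
      have := FrattiniFacts.index_prime_of_isCoatom_normal hM
      refine (Nat.prime_dvd_prime_iff_eq this hp.out).mp (this.dvd_of_dvd_pow (n := k) ?_)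
      rw [← hk, index_eq_card K]
      exact index_dvd_card M
    let e := mulEquivOfPrimeCardEq (G' := Multiplicative (ZMod p)) h₅ (by simp)
    refine ⟨(e.toMonoidHom.comp (QuotientGroup.mk' M)).comp π, ?_, fun u hu => ?_⟩
    · by_contra! hn
      refine hM.1 (top_le_iff.mp (hπ.ge.trans ?_))
      rintro _ ⟨u, hu, rfl⟩
      simpa using hn u hu
    · refine (map_prod (e.toMonoidHom.comp (QuotientGroup.mk' M)) (fun ω => π (c N u ω)) _).symm.trans ?_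
      exact (congrArg e ((QuotientGroup.eq_one_iff _).mpr (hVM (mem_map_of_mem V hu)))).trans (map_one e)
  · refine absurd (le_antisymm ?_ (inf_le_inf_left _ (commutator_mono le_top le_top))) h
    have a₁ : (K ⊓ S.subgroupOf N).map N.subtype ≤ S ⊓ ⁅N, N⁆ := by
      rw [h₃]
      exact le_inf ((map_mono inf_le_right).trans (map_comap_le _ _))
        ((map_mono inf_le_left).trans (TrCtrl.map_top_comm N).le)
    have a₂ : S ⊓ commutator G ≤ V.ker ⊓ S := le_inf (inf_le_right.trans (Abelianization.commutator_subset_ker V))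
      inf_le_left
    have a₃ := card_inf_mul_relIndex V.ker S
    have a₄ := card_inf_mul_relIndex π.ker (S.subgroupOf N)
    rw [relIndex_ker, e] at a₃
    rw [relIndex_ker, hπ, QuotientGroup.ker_mk', Nat.card_congr (subgroupOfEquivOfLe hSN).toEquiv, ← a₃] at a₄
    refine a₂.trans ((eq_of_le_of_card_le (a₁.trans ((inf_le_inf_left _ (commutator_mono le_top le_top)).trans a₂))
      ?_).ge.trans a₁)
    rw [card_map_of_injective N.subtype_injective, Nat.eq_of_mul_eq_mul_right Nat.card_pos a₄]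

omit [Fintype (G ⧸ N)] in
/-- Yoshida's theorem -/
theorem yoshida {S W : Subgroup G} (hS : IsSylowIn p S ⊤) (hSN : S ≤ N) (hW : W ≤ S)
    (hfix : ∀ x, (∀ w ∈ W, x⁻¹ * w * x ∈ N) → x ∈ N) (h : S ⊓ commutator G ≠ S ⊓ ⁅N, N⁆) :
    ∃ (H M : Subgroup G) (ψ : M →* Multiplicative (ZMod p)) (z : G) (v : ℕ → M), W ≤ H ∧ H ≤ S ∧ M < H ∧
      H ≤ N(M) ∧ (∀ g ∈ H, g ∉ M → ∀ r ∈ H, ∃ i : ℕ, ∃ s ∈ M, r = g ^ i * s) ∧ z ∈ W ∧ z ∉ M ∧
      (∀ j, (v j : G) = (fun y => y⁻¹ * z⁻¹ * y * z)^[j] (v 0)) ∧ ψ (v (p - 1)) ≠ 1 := by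
  classical
  haveI : Fintype (G ⧸ N) := Fintype.ofFinite _
  obtain ⟨φ, h₁, h₂⟩ := exists_hom hS hSN h
  have ex : ∃ k, ∃ u : N, (u : G) ∈ S ∧ φ u ≠ 1 ∧ (u : G) ^ p ^ k = 1 := by
    obtain ⟨u, a, b⟩ := h₁
    obtain ⟨k, hk⟩ := isPGroup_iff_forall_mem.mp hS.isPGroup _ a
    exact ⟨k, u, a, b, hk⟩
  obtain ⟨u, hu, hφ, hk⟩ := Nat.find_spec ex
  obtain ⟨k, e⟩ : ∃ k, Nat.find ex = k + 1 := Nat.exists_eq_succ_of_ne_zero fun e => hφ (by
    rw [e, pow_zero, pow_one] at hk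
    rw [show u = 1 from Subtype.ext hk, map_one])
  have hmin := min_order φ k fun n hn => by
    obtain ⟨g, hg, h'⟩ := (hS.of_le hSN le_top).exists_conj_mem n.2 (congrArg Subtype.val hn)
    by_contra hc
    refine Nat.find_min ex (by omega : k < Nat.find ex) ⟨⟨g, hg⟩ * n * ⟨g, hg⟩⁻¹, h', by simpa using hc, ?_⟩
    rw [← coe_pow, conj_pow, hn, mul_one, mul_inv_cancel, coe_one]
  rw [e] at hk
  set H := W ⊔ zpowers (u : G)
  have hH : H ≤ S := sup_le hW (zpowers_le.mpr hu)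
  have fx : ∀ g ∈ N, g • ((1 : G) : G ⧸ N) = (1 : G) := fun g hg => QuotientGroup.eq.mpr (by simpa using hg)
  have inv : ∀ r ∈ H, ∀ ω ∈ Finset.univ.erase ((1 : G) : G ⧸ N), r • ω ∈ Finset.univ.erase ((1 : G) : G ⧸ N) :=
    fun r hr ω hω => Finset.mem_erase.mpr ⟨fun e => (Finset.mem_erase.mp hω).1 (by
      rw [← inv_smul_smul r ω, e, fx _ (inv_mem (hSN (hH hr)))]), Finset.mem_univ _⟩
  obtain ⟨ω₀, h₀, hO⟩ : ∃ ω₀ ∈ Finset.univ.erase ((1 : G) : G ⧸ N), ∏ ω ∈ orb H ω₀, φ (c N u ω) ≠ 1 := by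
    by_contra! hn
    have a := h₂ u hu
    rw [← Finset.mul_prod_erase _ _ (Finset.mem_univ ((1 : G) : G ⧸ N)), prod_orbits _ _ inv hn, mul_one] at a
    have m : ((1 : G) : G ⧸ N).out ∈ N := by simpa using QuotientGroup.eq.mp (QuotientGroup.out_eq' ((1 : G) : G ⧸ N))
    rw [show c N u ((1 : G) : G ⧸ N) = (⟨_, m⟩ : N)⁻¹ * (u * ⟨_, m⟩) from Subtype.ext (by simp [c, fx _ u.2])] at a
    exact hφ (by simpa using a)
  have hu' : (u : G) ∈ H := mem_sup_right (mem_zpowers _)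
  obtain ⟨ω₁, a₀, hf⟩ : ∃ ω ∈ orb H ω₀, (u : G) • ω = ω := by
    by_contra! hn
    exact hO (min_step φ hmin hk (smul_mem_orb _ hu') fun ω hω e => absurd e (hn ω hω))
  rw [orb_eq a₀] at hO
  have hn : ¬ W ≤ MulAction.stabilizer G ω₁ := fun e => by
    obtain ⟨r, hr, rfl⟩ := mem_orb.mp a₀
    refine (Finset.mem_erase.mp (inv r hr _ h₀)).1 ?_
    rw [← (r • ω₀).out_eq']
    refine QuotientGroup.eq.mpr (by
      simpa using hfix _ fun w hw => by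
        have := e hw
        rw [MulAction.mem_stabilizer_iff, ← (r • ω₀).out_eq', MulAction.Quotient.smul_mk, eq_comm] at this
        simpa [mul_assoc] using QuotientGroup.eq.mp this)
  obtain ⟨M, a₁, a₂, a₃, a₄⟩ := exists_max (hS.isPGroup.to_le hH) (T := H ⊓ MulAction.stabilizer G ω₁)
    (lt_of_le_of_ne inf_le_left fun e => hn (le_sup_left.trans (e.ge.trans inf_le_right)))
  have huM : (u : G) ∈ M := a₁ ⟨hu', hf⟩
  obtain ⟨z, hz, hzM⟩ : ∃ z ∈ W, z ∉ M := by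
    by_contra! hn
    exact a₂.not_ge (sup_le hn (zpowers_le.mpr huM))
  have hzH : z ∈ H := mem_sup_left hz
  obtain ⟨b₁, b₂⟩ := a₄ z hzH hzM
  have cj : ∀ i : ℕ, ∀ m ∈ M, (z ^ i)⁻¹ * m * z ^ i ∈ M := fun i m hm => by
    simpa using (mem_normalizer_iff.mp (a₃ (inv_mem (pow_mem hzH i))) m).mp hm
  let ψ : M →* Multiplicative (ZMod p) := MonoidHom.mk' (fun m => ∏ ω ∈ orb M ω₁, φ (c N m ω))
    fun a b => prod_mul φ _ (smul_mem_orb _ b.2)
  have hv : ∀ j, (fun y => y⁻¹ * z⁻¹ * y * z)^[j] u ∈ M := fun j => by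
    induction j with
    | zero => exact huM
    | succ j ih =>
      rw [Function.iterate_succ_apply']
      simpa [mul_assoc] using mul_mem (inv_mem ih) (cj 1 _ ih)
  refine ⟨H, M, ψ, z, fun j => ⟨_, hv j⟩, le_sup_left, hH, a₂, a₃, fun g hg hgM r hr => ?_, hz, hzM, fun _ => rfl,
    fun e => hO ?_⟩
  · obtain ⟨i, -, h⟩ := (a₄ g hg hgM).1 r hr
    exact ⟨i, h⟩
  let a : ℕ → ℕ → ZMod p := fun i j => (ψ ⟨_, cj i _ (hv j)⟩).toAdd
  have ha : ∀ i j, a (i + 1) j = a i j + a i (j + 1) := fun i j => by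
    rw [← toAdd_mul, ← map_mul]
    refine congrArg (fun m => (ψ m).toAdd) (Subtype.ext ?_)
    simp only [Function.iterate_succ_apply', coe_mul]
    group
  have := sum_range_eq a ha p 0
  rw [Finset.sum_eq_zero (s := Finset.range p) (f := fun k => p.choose (k + 1) • a 0 (0 + k))] at this
  · rw [prod_split _ a₁ a₂.le a₃ hzH b₁ b₂, ← toAdd_eq_zero, toAdd_prod, ← this]
    exact Finset.sum_congr rfl fun i _ => congrArg _ (prod_conj φ (smul_mem_orb _ (cj i _ huM)))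
  · intro i hi
    rcases eq_or_lt_of_le (Nat.succ_le_of_lt (Finset.mem_range.mp hi)) with e' | e'
    · rw [show 0 + i = p - 1 by omega, show a 0 (p - 1) = 0 from (congrArg (fun m => (ψ m).toAdd)
        (Subtype.ext (by simp))).trans (toAdd_eq_zero.mpr e), smul_zero]
    · obtain ⟨d, hd⟩ := hp.out.dvd_choose_self (Nat.succ_ne_zero i) e'
      simp [hd]

end Cfsg.Agent.Lib.Yoshida
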