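import Mathlib
import Cfsg.Agent.Lib.FTCf6

/-! Zassenhaus groups: the inequality that follows from the coherence of the exceptional characters. -/

set_option autoImplicit false
set_option linter.unusedSectionVars false

namespace Cfsg.Agent.Lib.ZFeit

open Subgroup Cfsg Cfsg.Agent.Lib.FTDefs Cfsg.Agent.Lib.FTCfDefs
open scoped ComplexConjugate Classical commutatorElement

variable {G : Type*} [Group G] [Finite G] {H L : Subgroup G}

/-- The character theoretic facts on a point stabiliser `L` with kernel `H`. -/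
structure ZD (H L : Subgroup G) : Prop where
  nH : NormalIn H L
  irr : ∀ θ ∈ Irr H, θ ≠ cf1 H → Ind H L θ ∈ Irr L
  ti : ∀ u ∈ H, u ≠ 1 → ∀ g, g * u * g⁻¹ ∈ L → g ∈ L
  der : ⁅L, L⁆ ≤ H
  idx : L.index = Nat.card H + 1
  mu : ∀ μ ∈ IrrK L H, μ ≠ cf1 L → nrm ⊤ (Ind L ⊤ μ) = 1
  cls : H.relIndex L ≤ Nat.card {C : ConjClasses G // ∀ g : G, ConjClasses.mk g = C → g ∉ H}
  lt : 2 * H.relIndex L + 1 < Nat.card H
  one : 1 < H.relIndex L

/-- constant on the non-identity elements of `H` -/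
def Cst (H : Subgroup G) (ψ : G → ℂ) (c : ℂ) : Prop := ∀ u ∈ H, u ≠ 1 → ψ u = c

theorem Cst.ip_cf1 {ψ : G → ℂ} {c : ℂ} (h : Cst H ψ c) :
    Nat.card H * ip H ψ (cf1 H) = ψ 1 + (Nat.card H - 1) * c := by
  rw [ip_cf1_right, mul_inv_cancel_left₀ (cardC_ne_zero H), sum_fs_sharp,
    Finset.sum_congr rfl fun x hx => h x (mem_fs.1 hx).1 (mem_fs.1 hx).2, Finset.sum_const, card_fs,
    ncard_sharp, nsmul_eq_mul, Nat.cast_sub Nat.card_pos, Nat.cast_one]

theorem Cst.ip {ψ γ : G → ℂ} {c : ℂ} (h : Cst H ψ c) (hH : H ≤ L) (hγ : SuppOn (sharp H) γ) :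
    ip L γ ψ = conj c * ip L γ (cf1 L) := by
  rw [← ip_smul_right]
  exact ip_congr_supp hγ fun x hx => by simp [h x hx.1 hx.2, cf1_of_mem (hH hx.1)]

theorem indep {F : Finset (G → ℂ)} (h1 : ∀ χ ∈ F, ip L χ χ ≠ 0)
    (h2 : ∀ χ ∈ F, ∀ ψ ∈ F, χ ≠ ψ → ip L χ ψ = 0) : LinearIndependent ℂ fun χ : F => (χ : G → ℂ) := by
  refine linearIndependent_iff'.2 fun s c e i hi => ?_
  have := congrArg (fun φ => ip L φ i.1) e
  simp only [ip_sum_left, ip_smul_left] at this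
  rw [Finset.sum_eq_single_of_mem i hi fun j _ hj => by
    rw [h2 j j.2 i i.2 (fun e => hj (Subtype.ext e)), mul_zero]] at this
  exact (mul_eq_zero.1 (this.trans (by simp [ip]))).resolve_right (h1 i i.2)

namespace ZD

variable (z : ZD H L)
include z

theorem nti : NormedTI (sharp H) ⊤ L where
  nonempty := by
    have := z.lt
    have := Finite.one_lt_card_iff_nontrivial.1 (show 1 < Nat.card H by omega)
    obtain ⟨x, hx⟩ := exists_ne (1 : H)
    exact ⟨x, x.2, fun e => hx (Subtype.ext e)⟩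
  le := le_top
  conj_mem l hl _ ha := ⟨(mem_normalizer_iff.1 (z.nH.2 hl) _).1 ha.1, fun e => ha.2 (by simpa using e)⟩
  mem_of_conj g _ a ha e := z.ti a ha.1 ha.2 g (z.nH.1 e.1)

theorem sirr {ψ : G → ℂ} (h : ψ ∈ seqInd H L H ⊥) : ψ ∈ Irr L := by
  obtain ⟨θ, h1, h2, rfl⟩ := mem_seqInd.1 h
  exact z.irr θ (irrK_irr h1) (ne_cf1_of_not_inKer le_rfl h2)

theorem classes : H.relIndex L + (seqInd H L H ⊥).card + 1 ≤ (Irr (⊤ : Subgroup G)).card := by
  have h1 : Nat.card (ConjClasses G) ≤ Nat.card (ConjClasses (⊤ : Subgroup G)) :=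
    Nat.card_le_card_of_surjective _ (ConjClasses.map_surjective (f := (⊤ : Subgroup G).subtype)
      fun g => ⟨⟨g, mem_top g⟩, rfl⟩)
  let P : ConjClasses G → Prop := fun C => ∀ g : G, ConjClasses.mk g = C → g ∉ H
  have := Fintype.ofFinite (ConjClasses G)
  have h2 : Nat.card {C // P C} + Nat.card {C // ¬ P C} = Nat.card (ConjClasses G) := by
    simp only [Nat.card_eq_fintype_card, Fintype.card_subtype_compl]
    exact Nat.add_sub_cancel' (Fintype.card_subtype_le _)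
  have h3 : ((Irr H).image (Ind H L)).card ≤ Nat.card {C // ¬ P C} := by
    have rep : ∀ C : {C // ¬ P C}, ∃ g ∈ H, ConjClasses.mk g = C.1 := fun C => by
      have := C.2
      simp only [P, not_forall, not_not] at this
      obtain ⟨g, a, b⟩ := this
      exact ⟨g, b, a⟩
    choose r hr using rep
    let Φ : ({C // ¬ P C} → ℂ) →ₗ[ℂ] (G → ℂ) :=
      { toFun := fun c x => if hx : x ∈ H then c ⟨ConjClasses.mk x, fun e => e x rfl hx⟩ else 0
        map_add' := fun a b => funext fun x => by by_cases hx : x ∈ H <;> simp [hx]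
        map_smul' := fun a b => funext fun x => by by_cases hx : x ∈ H <;> simp [hx] }
    have li : LinearIndependent ℂ (Φ ∘ fun χ : (Irr H).image (Ind H L) => fun C => χ.1 (r C)) := by
      convert indep (L := L) (F := (Irr H).image (Ind H L)) (fun χ hχ => ?_) fun χ hχ ψ hψ e => ?_ using 1
      · funext χ x
        obtain ⟨θ, hθ, e⟩ := Finset.mem_image.1 χ.2
        change (if hx : x ∈ H then χ.1 (r ⟨ConjClasses.mk x, fun e => e x rfl hx⟩) else 0) = χ.1 x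
        split_ifs with hx
        · obtain ⟨a, b⟩ := hr ⟨ConjClasses.mk x, fun e => e x rfl hx⟩
          generalize r _ = y at a b
          obtain ⟨g, rfl⟩ := isConj_iff.1 (ConjClasses.mk_eq_mk_iff_isConj.1 b)
          by_cases y1 : y = 1
          · simp [y1]
          · rw [← e, cf_conj (Ind_cf θ) (z.ti y a y1 g (z.nH.1 hx))]
        · rw [← e, Ind_supp_normal z.nH θ x hx]
      · obtain ⟨θ, hθ, rfl⟩ := Finset.mem_image.1 hχ
        exact ip_self_ne_zero (Ind_supp θ) (Ind_irr_ne_zero hθ z.nH.1)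
      · obtain ⟨θ, hθ, rfl⟩ := Finset.mem_image.1 hχ
        obtain ⟨θ', hθ', rfl⟩ := Finset.mem_image.1 hψ
        exact ip_Ind_ne z.nH hθ hθ' e
    have := (LinearIndependent.of_comp Φ li).fintype_card_le_finrank
    rwa [Module.finrank_fintype_fun_eq_card, Fintype.card_coe, ← Nat.card_eq_fintype_card] at this
  rw [(image_Ind_eq z.nH).1, Finset.card_insert_of_notMem (image_Ind_eq z.nH).2] at h3
  have := z.cls
  rw [card_Irr]
  change _ ≤ Nat.card {C // P C} at this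
  omega

theorem mu_cst {μ : G → ℂ} (h : μ ∈ IrrK L H) : Cst H (Ind L ⊤ μ) 1 := fun u hu u1 => by
  rw [Ind_apply_of_TI le_top (mem_CFon.2 ⟨irr_cf (irrK_irr h), irr_supp (irrK_irr h)⟩) (mem_top u) fun g _ e => z.ti u hu u1 g e,
    irrK_ker h u hu, (lin_of_IrrK h z.der).one]

theorem mu_one {μ : G → ℂ} (h : μ ∈ IrrK L H) : Ind L ⊤ μ 1 = Nat.card H + 1 := by
  rw [Ind_one le_top, relIndex_top_right, z.idx, (lin_of_IrrK h z.der).one]; simp

theorem two : nrm ⊤ (Ind L ⊤ (cf1 L)) = 2 := by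
  have m := cf1_mem_IrrK z.nH.1
  have c : IsChar ⊤ (Ind L ⊤ (cf1 L)) := cf1_char.ind le_top
  obtain ⟨n, hn⟩ := c.ip_nat c
  have h1 := hn
  rw [ip_Ind_right le_top _ c.cf, ← ip_Res_left le_rfl] at h1
  obtain ⟨k, hk⟩ := ((c.res le_top).sub_smul cf1_mem_Irr).ip_nat_of_le' cf1_char z.nH.1
  have h2 : ip H (Ind L ⊤ (cf1 L)) (cf1 H) = 2 := mul_left_cancel₀ (cardC_ne_zero H) (by
    rw [(z.mu_cst m).ip_cf1, z.mu_one m]; ring)
  rw [h1, ip_sub_left, ip_Res_left z.nH.1, h2, ip_smul_left, ip_cf1_of_inKer (inKer_cf1 z.nH.1),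
    cf1_of_mem (one_mem _), mul_one, sub_eq_iff_eq_add] at hk
  have h3 : 2 = k + n := by exact_mod_cast hk
  have o := z.mu_one m
  have h0 := cardC_ne_zero H
  have h4 : n ≠ 1 := by
    rintro rfl
    rw [irr_eq_of_ip (c.irr_of_ip (by simpa using hn)) cf1_mem_Irr (by
      rw [ip_Ind_cf1 le_top, ip_irr_self cf1_mem_Irr]; simp), cf1_of_mem (mem_top _)] at o
    exact h0 (by simpa using o)
  have h5 : n ≠ 0 := by
    rintro rfl
    rw [eq_zero_of_ip_self c.supp (by simpa using hn)] at o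
    exact Nat.cast_add_one_ne_zero (R := ℂ) (Nat.card H) o.symm
  rw [nrm_eq_of_ip_nat hn, show n = 2 by omega]; simp

/-- The Steinberg character. -/
noncomputable def St (L : Subgroup G) : G → ℂ := Ind L ⊤ (cf1 L) - cf1 ⊤

theorem St_one : St L 1 = Nat.card H := by
  rw [St, Pi.sub_apply, z.mu_one (cf1_mem_IrrK z.nH.1), cf1_of_mem (mem_top _)]; simp

theorem St_cst : Cst H (St L) 0 := fun u hu u1 => by
  rw [St, Pi.sub_apply, z.mu_cst (cf1_mem_IrrK z.nH.1) u hu u1, cf1_of_mem (mem_top _)]; simp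

theorem St_irr : St L ∈ Irr ⊤ := by
  refine ((cf1_vchar.ind le_top).sub cf1_vchar).irr_of_nrm ?_ (by
    change 0 ≤ (St L 1).re
    rw [z.St_one]; simp)
  rw [nrm_sub, z.two, nrm_irr cf1_mem_Irr, ip_Ind_cf1 le_top,
    ip_irr_self cf1_mem_Irr]
  norm_num

theorem cases {ψ : G → ℂ} (hψ : ψ ∈ Irr ⊤) (h : ip H (cf1 H) ψ ≠ 0) :
    ψ = St L ∨ ψ = cf1 ⊤ ∨ (Cst H ψ 1 ∧ ψ 1 = Nat.card H + 1) := by
  rw [← ip_Ind_left' z.nH.1 le_top _ (irr_cf hψ), Ind_cf1_eq_sum z.nH, ip_sum_left] at h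
  obtain ⟨μ, hμ, h⟩ := Finset.exists_ne_zero_of_sum_ne_zero h
  rw [ip_smul_left, ← ip_Ind_left le_top _ (irr_cf hψ)] at h
  have h := right_ne_zero_of_mul h
  by_cases e : μ = cf1 L
  · rw [e, show Ind L ⊤ (cf1 L) = St L + cf1 ⊤ by simp [St], ip_add_left] at h
    by_contra! a
    rw [ip_irr_ne z.St_irr hψ a.1.symm, ip_irr_ne cf1_mem_Irr hψ a.2.1.symm] at h
    simp at h
  · have := ((irr_char (irrK_irr hμ)).ind le_top).irr_of_nrm (z.mu μ hμ e)
    rw [← irr_eq_of_ip this hψ h]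
    exact .inr (.inr ⟨z.mu_cst hμ, z.mu_one hμ⟩)

theorem cst1 : Cst H (cf1 ⊤) 1 := fun u _ _ => cf1_of_mem (mem_top u)

theorem deg {ψ : G → ℂ} (hψ : ψ ∈ Irr ⊤) : (Nat.card H + 1 : ℝ) * (ip ⊤ ψ (Ind H ⊤ (cf1 H))).re ≤
    2 * (ψ 1).re + if ψ = cf1 ⊤ then (Nat.card H - 1 : ℝ) else 0 := by
  have h0 : (1 : ℝ) ≤ Nat.card H := by exact_mod_cast Nat.card_pos
  have h1 := cardC_ne_zero H
  rw [ip_Ind_right le_top _ (irr_cf hψ)]
  have one : ∀ c, Cst H ψ c → ∀ n : ℕ, ψ 1 + (Nat.card H - 1) * c = Nat.card H * n →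
      (ip H ψ (cf1 H)).re = n := fun c hc n e => by
    rw [mul_left_cancel₀ h1 (hc.ip_cf1.trans e), Complex.natCast_re]
  by_cases e1 : ψ = cf1 ⊤
  · rw [one 1 (e1 ▸ z.cst1) 1 (by rw [e1, cf1_of_mem (mem_top _)]; simp), if_pos e1, e1,
      cf1_of_mem (mem_top _)]
    simp; linarith
  rw [if_neg e1, add_zero]
  by_cases h : ip H (cf1 H) ψ = 0
  · rw [ip_symm_of_zero h]
    have := irr1_re_pos hψ
    simp; linarith
  rcases z.cases hψ h with e | e | e
  · rw [one 0 (e ▸ z.St_cst) 1 (by rw [e, z.St_one]; simp), e, z.St_one]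
    simp; linarith
  · exact absurd e e1
  · rw [one 1 e.1 2 (by rw [e.2]; push_cast; ring), e.2]
    simp; linarith

theorem last {χ : G → ℂ} (hχ : χ ∈ Irr ⊤) (h1 : χ 1 = H.relIndex L) (h2 : ip H χ χ = H.relIndex L) :
    False := by
  have c := (irr_char hχ).mul (irr_char hχ).star
  have e1 := cf_expand_apply c.cf 1
  have e2 := ip_eq_sum_Irr c.cf (Ind H ⊤ (cf1 H))
  have e3 : ip ⊤ (χ * star χ) (cf1 ⊤) = 1 := by
    rw [ip_mul_left, star_star, cf1_mul (suppOn_top χ), ip_irr_self hχ]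
  rw [ip_Ind_right le_top _ c.cf, ip_mul_left, star_star, ← Res_eq_mul, ip_Res_right le_rfl, h2] at e2
  rw [Pi.mul_apply, (irr_char hχ).star_one, h1] at e1
  have e1 := congrArg Complex.re e1
  have e2 := congrArg Complex.re e2
  rw [Complex.re_sum] at e1 e2
  have : (Nat.card H + 1 : ℝ) * ∑ ψ ∈ Irr ⊤, (ip ⊤ (χ * star χ) ψ * ip ⊤ ψ (Ind H ⊤ (cf1 H))).re ≤
      ∑ ψ ∈ Irr ⊤, (2 * (ip ⊤ (χ * star χ) ψ * ψ 1).re +
        if ψ = cf1 ⊤ then (Nat.card H - 1 : ℝ) else 0) := by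
    rw [Finset.mul_sum]
    refine Finset.sum_le_sum fun ψ hψ => ?_
    obtain ⟨n, hn⟩ := c.ip_nat (irr_char hψ)
    have d := mul_le_mul_of_nonneg_left (z.deg hψ) (Nat.cast_nonneg (α := ℝ) n)
    rw [hn]
    simp only [Complex.mul_re, Complex.natCast_re, Complex.natCast_im, zero_mul, sub_zero]
    split_ifs at d ⊢ with e
    · rw [e, e3] at hn
      obtain rfl : n = 1 := by exact_mod_cast hn.symm
      simpa using d
    · linarith
  rw [← e2, Finset.sum_add_distrib, ← Finset.mul_sum, ← e1, Finset.sum_ite_eq', if_pos cf1_mem_Irr] at this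
  have a : (2 * H.relIndex L + 2 : ℝ) ≤ Nat.card H := by exact_mod_cast z.lt
  have b : (2 : ℝ) ≤ H.relIndex L := by exact_mod_cast z.one
  simp at this
  nlinarith

theorem res_zero {φ : G → ℂ} (hφ : φ ∈ CF L) (h0 : ip H (cf1 H) φ = 0)
    (h1 : ∀ ζ ∈ seqInd H L H ⊥, ip L ζ φ = 0) : ∀ x ∈ H, φ x = 0 := fun x hx => by
  have : Res H φ = 0 := cf_eq_zero (Res_cf hφ z.nH.1) fun θ hθ => by
    rw [ip_Res_left le_rfl, ip_eq_zero_comm]
    by_cases e : θ = cf1 H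
    · rwa [e]
    · rw [← ip_Ind_left z.nH.1 _ hφ]
      exact h1 _ (Ind_mem_seqInd' hθ fun a => e ((irr_inKer_iff hθ).1 a))
  rw [← Res_of_mem φ hx, this]; rfl

theorem main {ζ : G → ℂ} (hζ : ζ ∈ seqInd H L H ⊥) (ζ1 : ζ 1 = H.relIndex L) (f : (G → ℂ) → G → ℂ)
    (f1 : ∀ a ∈ seqInd H L H ⊥, IsDirr ⊤ (f a))
    (f2 : ∀ a ∈ seqInd H L H ⊥, ∀ b ∈ seqInd H L H ⊥, a ≠ b → ip ⊤ (f a) (f b) = 0)
    (f3 : ∀ a ∈ seqInd H L H ⊥, ∀ d : ℕ, a 1 = d * ζ 1 → Ind L ⊤ (a - (d : ℂ) • ζ) = f a - (d : ℂ) • f ζ) :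
    False := by
  set S := seqInd H L H ⊥
  have dg : ∀ a, ∃ d : ℕ, a ∈ S → 0 < d ∧ a 1 = d * ζ 1 := fun a => by
    by_cases ha : a ∈ S
    · obtain ⟨n, h1, h2⟩ := seqInd_one z.nH.1 ha
      exact ⟨n, fun _ => ⟨h1, by rw [h2, ζ1]; push_cast; ring⟩⟩
    · exact ⟨0, fun h => absurd h ha⟩
  choose d hd using dg
  have cf : ∀ a ∈ S, a - (d a : ℂ) • ζ ∈ CFon L (sharp H) := fun a ha => seqInd_cfon z.nH subset_rfl
    (inZS_sub_smul (a := d a) (fun _ => seqInd_suppL) ha hζ (hd a ha).2)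
  have iζ := z.sirr hζ
  have hβ : Ind H L (cf1 H) - ζ ∈ CFon L (sharp H) := mem_CFon.2 ⟨sub_mem (Ind_cf _) (irr_cf iζ),
    suppOn_sharp_iff.2 ⟨(Ind_supp_normal z.nH _).sub (seqInd_supp z.nH hζ), by
      rw [Pi.sub_apply, Ind_one z.nH.1, ζ1, cf1_of_mem (one_mem _)]; simp⟩⟩
  set β := Ind H L (cf1 H) - ζ with eβ
  have vα : IsVChar ⊤ (Ind L ⊤ β) := ((cf1_vchar.ind z.nH.1).sub (irr_vchar iζ)).ind le_top
  have o1 : ∀ a ∈ S, ip L (Ind H L (cf1 H)) a = 0 := fun a ha => ip_symm_of_zero (seqInd_ip_Ind1 z.nH le_rfl ha)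
  have nα : nrm ⊤ (Ind L ⊤ β) = H.relIndex L + 1 := by
    rw [nrm, NormedTI_ip_Ind z.nti hβ hβ, ← nrm, nrm_sub_of_ortho (o1 ζ hζ), nrm_irr iζ,
      nrm_Ind z.nH cf1_mem_Irr, inf_eq_left.2 (z.nH.2.trans normalizer_le_inertia_cf1)]
  have aψ : ∀ ψ ∈ CF (⊤ : Subgroup G), ip ⊤ (Ind L ⊤ β) ψ = ip H (cf1 H) ψ - ip L ζ ψ := fun ψ hψ => by
    rw [ip_Ind_left le_top _ hψ, ip_sub_left, ip_Ind_left' z.nH.1 le_top _ hψ]
  have bψ : ∀ ψ ∈ CF (⊤ : Subgroup G), ∀ a ∈ S, ip L a ψ - d a * ip L ζ ψ = ip ⊤ (f a) ψ - d a * ip ⊤ (f ζ) ψ :=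
    fun ψ hψ a ha => by
      rw [← ip_smul_left, ← ip_smul_left, ← ip_sub_left, ← ip_sub_left, ← f3 a ha _ (hd a ha).2,
        ip_Ind_left le_top _ hψ]
  have cψ : ∀ ψ, Cst H ψ 1 → ψ ∈ CF (⊤ : Subgroup G) → ip ⊤ (Ind L ⊤ β) ψ = 1 := fun ψ c hψ => by
    rw [ip_Ind_left le_top _ hψ, c.ip z.nH.1 (cf_suppOn hβ), ip_sub_left, ip_Ind_cf1 z.nH.1,
      ip_irr_self cf1_mem_Irr, seqInd_ip_cf1 z.nH.1 le_rfl hζ]
    simp
  let Y := (Irr (⊤ : Subgroup G)).filter fun ψ => (∀ a ∈ S, ip ⊤ (f a) ψ = 0) ∧ ψ ≠ St L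
  have Y1 : ∀ ψ ∈ Y, ip ⊤ (Ind L ⊤ β) ψ ≠ 0 := fun ψ hψ e => by
    obtain ⟨i, o, s⟩ := Finset.mem_filter.1 hψ
    by_cases h : ip H (cf1 H) ψ = 0
    · rw [aψ ψ (irr_cf i), h, zero_sub, neg_eq_zero] at e
      have := z.res_zero (Res_cf (irr_cf i) le_top) (by rwa [ip_Res_right z.nH.1]) (fun a ha => by
        have := bψ ψ (irr_cf i) a ha
        rw [ip_Res_right le_rfl]
        simpa [e, o a ha, o ζ hζ] using this) 1 (one_mem _)
      rw [Res_of_mem _ (one_mem _)] at this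
      exact irr1_ne_zero i this
    · rcases z.cases i h with a | a | a
      · exact s a
      · rw [cψ ψ (a ▸ z.cst1) (irr_cf i)] at e; simp at e
      · rw [cψ ψ a.1 (irr_cf i)] at e; simp at e
  have gx : ∀ a, ∃ χ, a ∈ S → χ ∈ Irr ⊤ ∧ ∃ e : ℤ, (e = 1 ∨ e = -1) ∧ f a = (e : ℂ) • χ := fun a => by
    by_cases ha : a ∈ S
    · exact (f1 a ha).exists.imp fun _ h _ => h
    · exact ⟨0, fun h => absurd h ha⟩
  choose g hg using gx
  have Y2 : H.relIndex L ≤ Y.card := by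
    have : Irr ⊤ ⊆ insert (St L) (Y ∪ S.image g) := fun ψ hψ => by
      by_contra c
      simp only [Finset.mem_insert, Finset.mem_union, Finset.mem_image, not_or, not_exists, not_and] at c
      refine c.2.1 (Finset.mem_filter.2 ⟨hψ, fun a ha => ?_, c.1⟩)
      obtain ⟨i, e, -, h⟩ := hg a ha
      rw [h, ip_smul_left, ip_irr_ne i hψ (c.2.2 a ha), mul_zero]
    have := (Finset.card_le_card this).trans ((Finset.card_insert_le _ _).trans (Nat.succ_le_succ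
      ((Finset.card_union_le _ _).trans (Nat.add_le_add_left Finset.card_image_le _))))
    have := z.classes
    change _ + S.card + _ ≤ _ at this
    omega
  have inj : Set.InjOn f S := fun a ha b hb e => by
    by_contra c
    have := f2 a ha b hb c
    rw [e, (f1 b hb).ip_self] at this
    exact one_ne_zero this
  have B : ∑ a ∈ S, ‖ip ⊤ (Ind L ⊤ β) (f a)‖ ^ 2 ≤ 1 := by
    obtain ⟨u1, u2⟩ := (orthonormal_of (H := ⊤) (R := S.image f) (fun a ha => by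
      obtain ⟨a, ha', rfl⟩ := Finset.mem_image.1 ha
      exact (f1 a ha').ip_self) fun a ha b hb e => by
      obtain ⟨a, ha', rfl⟩ := Finset.mem_image.1 ha
      obtain ⟨b, hb', rfl⟩ := Finset.mem_image.1 hb
      exact f2 a ha' b hb' fun c => e (congrArg f c)).union (orthonormal_Irr (S := Y) (Finset.filter_subset _ _))
      fun a ha b hb => by
        obtain ⟨a, ha', rfl⟩ := Finset.mem_image.1 ha
        exact (Finset.mem_filter.1 hb).2.1 a ha'
    have := u1.bessel (Ind L ⊤ β)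
    rw [Finset.sum_union u2, Finset.sum_image inj, nα] at this
    have y : (Y.card : ℝ) ≤ ∑ ψ ∈ Y, ‖ip ⊤ (Ind L ⊤ β) ψ‖ ^ 2 := by
      rw [Finset.card_eq_sum_ones, Nat.cast_sum]
      refine Finset.sum_le_sum fun ψ hψ => ?_
      obtain ⟨m, hm⟩ := vα.ip_int (irr_vchar (Finset.mem_filter.1 hψ).1)
      have : m ≠ 0 := fun e => Y1 ψ hψ (by rw [hm, e, Int.cast_zero])
      rw [hm, Complex.norm_intCast, sq_abs]
      exact_mod_cast (one_le_sq_iff_one_le_abs m).2 (Int.one_le_abs this)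
    have : (H.relIndex L : ℝ) ≤ Y.card := by exact_mod_cast Y2
    linarith
  obtain ⟨x, hx⟩ := vα.ip_int (f1 ζ hζ).vchar
  have X : ∀ a ∈ S, a ≠ ζ → ip ⊤ (Ind L ⊤ β) (f a) = (d a * (x + 1) : ℤ) := fun a ha e => by
    have := NormedTI_ip_Ind z.nti hβ (cf a ha)
    rw [f3 a ha _ (hd a ha).2, ip_sub_right, ip_natCast_smul_right, hx, ip_sub_left, ip_sub_right, ip_sub_right,
      ip_natCast_smul_right, ip_natCast_smul_right, o1 a ha, o1 ζ hζ, ip_irr_self iζ,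
      ip_irr_ne iζ (z.sirr ha) e.symm] at this
    push_cast
    linear_combination this
  have e0 : (0 : ℝ) < H.relIndex L := by have := z.one; positivity
  have lt : (2 * H.relIndex L + 2 : ℝ) ≤ Nat.card H := by exact_mod_cast z.lt
  have T : 1 < ∑ a ∈ S.erase ζ, (d a : ℝ) ^ 2 := by
    have := sum_seqInd_sq z.nH z.nH (NormalIn.bot L) le_rfl bot_le
    rw [sup_bot_eq, relIndex_self, relIndex_bot_left, ← Finset.add_sum_erase _ _ hζ, nrm_irr iζ, ζ1,
      Finset.sum_congr rfl (g := fun a => (H.relIndex L : ℝ) ^ 2 * (d a : ℝ) ^ 2) fun a ha => by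
        have ha := Finset.mem_of_mem_erase ha
        rw [nrm_irr (z.sirr ha), (hd a ha).2, ζ1, ← Nat.cast_mul, Complex.natCast_re]
        push_cast; ring, ← Finset.mul_sum, Complex.natCast_re] at this
    by_contra! c
    have := mul_le_mul_of_nonneg_left c (sq_nonneg (H.relIndex L : ℝ))
    simp only [Nat.cast_one] at *
    nlinarith
  obtain rfl : x = -1 := by
    by_contra c
    have c : (1 : ℝ) ≤ (x + 1 : ℤ) ^ 2 := by
      exact_mod_cast (one_le_sq_iff_one_le_abs _).2 (Int.one_le_abs (by omega))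
    refine absurd (le_trans ?_ B) (not_le.2 T)
    refine le_trans (Finset.sum_le_sum fun a ha => ?_) (Finset.sum_le_sum_of_subset_of_nonneg
      (Finset.erase_subset ζ S) fun _ _ _ => by positivity)
    rw [X a (Finset.mem_of_mem_erase ha) (Finset.ne_of_mem_erase ha), Complex.norm_intCast, sq_abs, Int.cast_mul,
      mul_pow, Int.cast_natCast]
    exact le_mul_of_one_le_right (sq_nonneg _) c
  have fc := (f1 ζ hζ).cf
  have b2 : ∀ a ∈ S, a ≠ ζ → ip L a (f ζ) - d a * ip L ζ (f ζ) = -d a := fun a ha e => by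
    rw [bψ _ fc a ha, f2 a ha ζ hζ e, (f1 ζ hζ).ip_self]; simp
  have p0 : ip H (cf1 H) (f ζ) = 0 := by
    by_contra c
    obtain ⟨a, ha⟩ : (S.erase ζ).Nonempty := Finset.nonempty_iff_ne_empty.2 fun e => by
      rw [e] at T; simp at T; linarith
    obtain ⟨a1, ha⟩ := Finset.mem_erase.1 ha
    obtain ⟨i, e, -, h⟩ := hg ζ hζ
    obtain ⟨k, hk⟩ : ∃ k, Cst H (g ζ) k := by
      rcases z.cases i (fun q => c (by rw [h, ip_intCast_smul_right, q, mul_zero])) with q | q | q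
      exacts [⟨_, q ▸ z.St_cst⟩, ⟨_, q ▸ z.cst1⟩, ⟨_, q.1⟩]
    have := b2 a ha a1
    rw [← ip_smul_left, ← ip_sub_left, h, ip_intCast_smul_right, hk.ip z.nH.1 (cf_suppOn (cf a ha)), ip_sub_left,
      ip_smul_left, seqInd_ip_cf1 z.nH.1 le_rfl ha, seqInd_ip_cf1 z.nH.1 le_rfl hζ] at this
    exact (hd a ha).1.ne' (by simpa using this)
  have p1 : ip L ζ (f ζ) = 1 := by
    rw [aψ _ fc, p0] at hx
    simpa using hx
  have r := z.res_zero (sub_mem (Res_cf fc le_top) (irr_cf iζ)) (by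
    rw [ip_sub_right, ip_Res_right z.nH.1, p0, ← ip_Ind_left z.nH.1 _ (irr_cf iζ), o1 ζ hζ, sub_zero])
    fun a ha => by
      rw [ip_sub_right, ip_Res_right le_rfl]
      by_cases e : a = ζ
      · rw [e, p1, ip_irr_self iζ, sub_self]
      · have := b2 a ha e
        rw [ip_irr_ne (z.sirr ha) iζ e]
        linear_combination this + d a * p1
  replace r : ∀ x ∈ H, f ζ x = ζ x := fun x hx => by
    have := r x hx
    rwa [Pi.sub_apply, Res_of_mem _ (z.nH.1 hx), sub_eq_zero] at this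
  have r1 := (r 1 (one_mem _)).trans ζ1
  exact z.last ((f1 ζ hζ).irr_of_pos (by rw [r1]; simp)) r1 (by
    rw [ip_congr r r, ← ip_of_supp z.nH.1 (seqInd_supp z.nH hζ), ip_irr_self iζ, mul_one])

theorem of_coh (hs : Group.IsSolvable H) (h : Coherent L (seqInd H L H ⊥) (sharp L) (Ind L ⊤)) : False := by
  obtain ⟨ν, h⟩ := h
  obtain ⟨ζ, hζ, ζ1⟩ := exists_seqInd_lin z.nH.1 hs (NormalIn.bot H) fun e => by
    have := z.lt
    rw [← e, card_bot] at this
    omega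
  refine z.main hζ ζ1 ν (fun a ha => h.dirr ha (z.sirr ha))
    (fun a ha b hb e => (h.ip ha hb).trans (ip_irr_ne (z.sirr ha) (z.sirr hb) e)) fun a ha d e => ?_
  have := h.eq _ (inZS_sub_smul (a := d) (fun _ => seqInd_suppL) ha hζ e)
  rw [Int.cast_natCast] at this
  rw [← this, map_sub, map_smul]

end ZD

end Cfsg.Agent.Lib.ZFeit
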