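import Mathlib
import Cfsg.Prelude.Def_LieExceptional

/-! Elementary counting in Zassenhaus groups. -/

set_option autoImplicit false

namespace Cfsg.Agent.Lib.Zassenhaus

open Cfsg MulAction Finset

variable {G Ω : Type*} [Group G] [MulAction G Ω]

theorem exists_smul_eq_two (hZ : IsZassenhausGroup G Ω) {a b c d : Ω} (hab : a ≠ b) (hcd : c ≠ d) :
    ∃ g : G, g • a = c ∧ g • b = d :=
  (MulAction.is_two_pretransitive_iff.mp hZ.2.1) hab hcd

theorem isPretransitive (hZ : IsZassenhausGroup G Ω) : IsPretransitive G Ω := by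
  have := hZ.2.1
  exact MulAction.isPretransitive_of_is_two_pretransitive

theorem eq_one_of_forall (hZ : IsZassenhausGroup G Ω) {g : G} (h : ∀ c : Ω, g • c = c) : g = 1 := by
  have := hZ.1
  exact eq_of_smul_eq_smul (α := Ω) (fun c => by rw [h c, one_smul])

/-- A non-identity element fixing `a` and `b` fixes nothing else. -/
theorem eq_or_eq_of_fix (hZ : IsZassenhausGroup G Ω) {a b : Ω} (hab : a ≠ b) {x : G} (hx : x ≠ 1)
    (ha : x • a = a) (hb : x • b = b) {c : Ω} (hc : x • c = c) : c = a ∨ c = b := by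
  by_contra h
  push Not at h
  exact hx (hZ.2.2.1 x a b c hab (Ne.symm h.2) (Ne.symm h.1) ha hb hc)

theorem exists_ne_one_fix (hZ : IsZassenhausGroup G Ω) {a b : Ω} (hab : a ≠ b) :
    ∃ x : G, x ≠ 1 ∧ x • a = a ∧ x • b = b := by
  obtain ⟨g, hg, c, d, hcd, hc, hd⟩ := hZ.2.2.2.1
  obtain ⟨y, hya, hyb⟩ := exists_smul_eq_two hZ hcd hab
  refine ⟨y * g * y⁻¹, ?_, ?_, ?_⟩
  · intro h
    apply hg
    have : g = y⁻¹ * (y * g * y⁻¹) * y := by group
    rw [this, h]; simp
  · rw [← hya]; simp [mul_smul, hc]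
  · rw [← hyb]; simp [mul_smul, hd]

theorem exists_three (hZ : IsZassenhausGroup G Ω) : ∃ a b c : Ω, a ≠ b ∧ a ≠ c ∧ b ≠ c := by
  obtain ⟨g, hg, a, b, hab, ha, hb⟩ := hZ.2.2.2.1
  by_contra h
  push Not at h
  apply hg
  apply eq_one_of_forall hZ
  intro c
  by_cases hca : a = c
  · rw [← hca, ha]
  · rw [← h a b c hab hca, hb]

theorem three_le_card [Fintype Ω] (hZ : IsZassenhausGroup G Ω) : 3 ≤ Fintype.card Ω := by
  classical
  obtain ⟨a, b, c, hab, hac, hbc⟩ := exists_three hZ
  have : ({a, b, c} : Finset Ω).card = 3 := Finset.card_eq_three.mpr ⟨a, b, c, hab, hac, hbc, rfl⟩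
  rw [← this]
  exact Finset.card_le_univ _

theorem exists_ne (hZ : IsZassenhausGroup G Ω) (a : Ω) : ∃ b : Ω, a ≠ b := by
  obtain ⟨x, y, z, hxy, -, -⟩ := exists_three hZ
  by_cases h : a = x
  · exact ⟨y, h ▸ hxy⟩
  · exact ⟨x, h⟩

theorem mem_stab2 {a b : Ω} {g : G} :
    g ∈ (stabilizer G a ⊓ stabilizer G b : Subgroup G) ↔ g • a = a ∧ g • b = b := by
  simp [Subgroup.mem_inf, mem_stabilizer_iff]

theorem one_lt_card_stab2 [Finite G] (hZ : IsZassenhausGroup G Ω) {a b : Ω} (hab : a ≠ b) :
    1 < Nat.card ↥(stabilizer G a ⊓ stabilizer G b : Subgroup G) := by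
  obtain ⟨x, hx, ha, hb⟩ := exists_ne_one_fix hZ hab
  rw [Finite.one_lt_card_iff_nontrivial]
  exact ⟨⟨⟨x, mem_stab2.mpr ⟨ha, hb⟩⟩, 1, fun h => hx (congrArg Subtype.val h)⟩⟩

section Count

open Classical

variable [Fintype G]

theorem card_filter_mem (H : Subgroup G) : #{g : G | g ∈ H} = Nat.card H := by
  rw [Nat.card_eq_fintype_card, Fintype.card_subtype]

/-- The number of elements sending `(a, b)` to `(c, d)`. -/
theorem card_filter_two (hZ : IsZassenhausGroup G Ω) {a b c d : Ω} (hab : a ≠ b) (hcd : c ≠ d) :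
    #{g : G | g • a = c ∧ g • b = d} =
      Nat.card ↥(stabilizer G a ⊓ stabilizer G b : Subgroup G) := by
  obtain ⟨y, hya, hyb⟩ := exists_smul_eq_two hZ hab hcd
  rw [← card_filter_mem]
  symm
  apply Finset.card_bij (fun g _ => y * g)
  · intro g hg
    simp only [Finset.mem_filter, Finset.mem_univ, true_and, mem_stab2] at hg ⊢
    simp [mul_smul, hg.1, hg.2, hya, hyb]
  · intro g _ g' _ h
    exact mul_left_cancel h
  · intro g hg
    simp only [Finset.mem_filter, Finset.mem_univ, true_and] at hg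
    refine ⟨y⁻¹ * g, ?_, by simp⟩
    simp only [Finset.mem_filter, Finset.mem_univ, true_and, mem_stab2]
    constructor
    · rw [mul_smul, hg.1, ← hya, inv_smul_smul]
    · rw [mul_smul, hg.2, ← hyb, inv_smul_smul]

variable [Fintype Ω]

theorem card_filter_one (hZ : IsZassenhausGroup G Ω) {a b : Ω} (hab : a ≠ b) (c : Ω) :
    #{g : G | g • a = c} =
      (Fintype.card Ω - 1) * Nat.card ↥(stabilizer G a ⊓ stabilizer G b : Subgroup G) := by
  rw [Finset.card_eq_sum_card_fiberwise (f := fun g : G => g • b) (t := Finset.univ.erase c)]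
  · rw [Finset.sum_congr rfl (g := fun _ =>
      Nat.card ↥(stabilizer G a ⊓ stabilizer G b : Subgroup G))]
    · simp
    · intro d hd
      rw [Finset.filter_filter]
      exact card_filter_two hZ hab (Finset.ne_of_mem_erase hd).symm
  · intro g hg
    simp only [Finset.coe_filter, Finset.mem_univ, true_and, Set.mem_ofPred_eq] at hg
    simp only [Finset.coe_erase, Finset.coe_univ, Set.mem_sdiff, Set.mem_univ,
      Set.mem_singleton_iff, true_and]
    rw [← hg]
    intro h
    exact hab (smul_left_cancel g h).symm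

omit [Fintype G] in
theorem card_stab [Finite G] (hZ : IsZassenhausGroup G Ω) {a b : Ω} (hab : a ≠ b) :
    Nat.card (stabilizer G a) =
      (Fintype.card Ω - 1) * Nat.card ↥(stabilizer G a ⊓ stabilizer G b : Subgroup G) := by
  have := Fintype.ofFinite G
  rw [← card_filter_one hZ hab a, ← card_filter_mem]
  simp [mem_stabilizer_iff]

omit [Fintype G] in
theorem card_group [Finite G] (hZ : IsZassenhausGroup G Ω) {a b : Ω} (hab : a ≠ b) :
    Nat.card G = Fintype.card Ω * ((Fintype.card Ω - 1) *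
      Nat.card ↥(stabilizer G a ⊓ stabilizer G b : Subgroup G)) := by
  have := isPretransitive hZ
  rw [← card_stab hZ hab, ← (stabilizer G a).index_mul_card, index_stabilizer_of_transitive,
    Nat.card_eq_fintype_card]

omit [Fintype G] in
theorem card_stab2_eq [Finite G] (hZ : IsZassenhausGroup G Ω) {a b c d : Ω} (hab : a ≠ b)
    (hcd : c ≠ d) : Nat.card ↥(stabilizer G c ⊓ stabilizer G d : Subgroup G) =
      Nat.card ↥(stabilizer G a ⊓ stabilizer G b : Subgroup G) := by
  have h1 := card_group hZ hab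
  have h2 := card_group hZ hcd
  have h3 := three_le_card hZ
  rw [h1] at h2
  have h4 := Nat.eq_of_mul_eq_mul_left (by omega) h2
  exact (Nat.eq_of_mul_eq_mul_left (by omega) h4).symm

/-- Exactly `|Ω| - 2` elements fix `a` and nothing else. -/
theorem card_fix_only (hZ : IsZassenhausGroup G Ω) (a : Ω) :
    #{g : G | g • a = a ∧ ∀ c : Ω, g • c = c → c = a} = Fintype.card Ω - 2 := by
  obtain ⟨b, hab⟩ := exists_ne hZ a
  set e := Nat.card ↥(stabilizer G a ⊓ stabilizer G b : Subgroup G) with he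
  have h3 := three_le_card hZ
  have he1 : 1 < e := one_lt_card_stab2 hZ hab
  -- the elements fixing `a` and something else
  have hB : #{g : G | g ≠ 1 ∧ g • a = a ∧ ¬ ∀ c : Ω, g • c = c → c = a} =
      (Fintype.card Ω - 1) * (e - 1) := by
    have : ({g : G | g ≠ 1 ∧ g • a = a ∧ ¬ ∀ c : Ω, g • c = c → c = a} : Finset G) =
        (Finset.univ.erase a).biUnion
          (fun c => ({g : G | g • a = a ∧ g • c = c} : Finset G).erase 1) := by
      ext g
      simp only [ne_eq, not_forall, Finset.mem_filter, Finset.mem_univ, true_and,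
        Finset.mem_biUnion, Finset.mem_erase, and_true]
      constructor
      · rintro ⟨h1, h2, c, hc, hca⟩
        exact ⟨c, hca, h1, h2, hc⟩
      · rintro ⟨c, hca, h1, h2, hc⟩
        exact ⟨h1, h2, c, hc, hca⟩
    rw [this, Finset.card_biUnion]
    · rw [Finset.sum_congr rfl (g := fun _ => e - 1)]
      · simp
      · intro c hc
        have hac : a ≠ c := (Finset.ne_of_mem_erase hc).symm
        rw [Finset.card_erase_of_mem (by simp), card_filter_two hZ hac hac,
          card_stab2_eq hZ hab hac]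
    · intro c hc d hd hcd
      simp only [Function.onFun]
      rw [Finset.disjoint_left]
      intro g hg1 hg2
      simp only [Finset.mem_erase, ne_eq, Finset.mem_filter, Finset.mem_univ, true_and] at hg1 hg2
      have hac : a ≠ c := (Finset.ne_of_mem_erase hc).symm
      have hda : d ≠ a := Finset.ne_of_mem_erase hd
      rcases eq_or_eq_of_fix hZ hac hg1.1 hg1.2.1 hg1.2.2 hg2.2.2 with h | h
      · exact hda h
      · exact hcd h.symm
  have hA := card_filter_one hZ hab a
  have hsplit : #{g : G | g • a = a} = #{g : G | g • a = a ∧ ∀ c : Ω, g • c = c → c = a} +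
      #{g : G | g ≠ 1 ∧ g • a = a ∧ ¬ ∀ c : Ω, g • c = c → c = a} + 1 := by
    rw [← Finset.card_filter_add_card_filter_not (s := ({g : G | g • a = a} : Finset G))
      (fun g => ∀ c : Ω, g • c = c → c = a), Finset.filter_filter, Finset.filter_filter,
      add_assoc]
    congr 1
    have : ({g : G | g • a = a ∧ ¬ ∀ c : Ω, g • c = c → c = a} : Finset G) =
        insert 1 ({g : G | g ≠ 1 ∧ g • a = a ∧ ¬ ∀ c : Ω, g • c = c → c = a} : Finset G) := by
      ext g
      simp only [Finset.mem_filter, Finset.mem_univ, true_and, Finset.mem_insert]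
      by_cases hg : g = 1
      · subst hg
        simp only [one_smul, true_and, true_or, iff_true]
        intro h
        exact hab (h b trivial).symm
      · simp [hg]
    rw [this, Finset.card_insert_of_notMem (by simp)]
  rw [hA, hB, ← he] at hsplit
  obtain ⟨n, hn⟩ : ∃ n, Fintype.card Ω = n + 2 := ⟨Fintype.card Ω - 2, by omega⟩
  obtain ⟨f, hf⟩ : ∃ f, e = f + 1 := ⟨e - 1, by omega⟩
  rw [hn, hf] at hsplit
  rw [hn]
  simp only [Nat.add_sub_cancel, show n + 2 - 1 = n + 1 from rfl] at hsplit ⊢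
  nlinarith

theorem sum_card_fix (hZ : IsZassenhausGroup G Ω) :
    ∑ g : G, #{c : Ω | g • c = c} = Nat.card G := by
  obtain ⟨a, b, -, hab, -, -⟩ := exists_three hZ
  simp only [Finset.card_filter]
  rw [Finset.sum_comm]
  simp only [← Finset.card_filter]
  rw [Finset.sum_congr rfl (g := fun _ => (Fintype.card Ω - 1) *
    Nat.card ↥(stabilizer G a ⊓ stabilizer G b : Subgroup G))]
  · rw [card_group hZ hab]; simp
  · intro c _
    obtain ⟨d, hcd⟩ := exists_ne hZ c
    rw [card_filter_one hZ hcd c, card_stab2_eq hZ hab hcd]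

theorem sum_card_fix_sq (hZ : IsZassenhausGroup G Ω) :
    ∑ g : G, #{c : Ω | g • c = c} * #{c : Ω | g • c = c} = 2 * Nat.card G := by
  obtain ⟨a, b, -, hab, -, -⟩ := exists_three hZ
  have h1 : ∀ g : G, #{c : Ω | g • c = c} * #{c : Ω | g • c = c} =
      ∑ c : Ω, ∑ d : Ω, if g • c = c ∧ g • d = d then 1 else 0 := by
    intro g
    simp only [Finset.card_filter, Finset.sum_mul_sum]
    refine Finset.sum_congr rfl fun c _ => Finset.sum_congr rfl fun d _ => ?_
    by_cases hc : g • c = c <;> by_cases hd : g • d = d <;> simp [hc, hd]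
  simp only [h1]
  rw [Finset.sum_comm]
  rw [Finset.sum_congr rfl (g := fun _ => 2 * ((Fintype.card Ω - 1) *
    Nat.card ↥(stabilizer G a ⊓ stabilizer G b : Subgroup G)))]
  · rw [card_group hZ hab]; simp; ring
  · intro c _
    rw [Finset.sum_comm]
    simp only [← Finset.card_filter]
    rw [← Finset.add_sum_erase _ _ (Finset.mem_univ c)]
    obtain ⟨d, hcd⟩ := exists_ne hZ c
    rw [Finset.sum_congr rfl (g := fun _ =>
      Nat.card ↥(stabilizer G a ⊓ stabilizer G b : Subgroup G))]
    · simp only [and_self]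
      rw [card_filter_one hZ hcd c, card_stab2_eq hZ hab hcd]
      simp; ring
    · intro x hx
      have hcx : c ≠ x := (Finset.ne_of_mem_erase hx).symm
      rw [card_filter_two hZ hcx hcx, card_stab2_eq hZ hab hcx]

omit [Fintype G] in
theorem card_fix_le_two (hZ : IsZassenhausGroup G Ω) {g : G} (hg : g ≠ 1) :
    #{c : Ω | g • c = c} ≤ 2 := by
  by_contra h
  push Not at h
  obtain ⟨a, b, c, ha, hb, hc, hab, hac, hbc⟩ := Finset.two_lt_card_iff.mp h
  simp only [Finset.mem_filter, Finset.mem_univ, true_and] at ha hb hc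
  exact hg (hZ.2.2.1 g a b c hab hbc hac ha hb hc)

/-- The number of fixed-point-free elements. -/
theorem card_fpf (hZ : IsZassenhausGroup G Ω) :
    2 * #{g : G | ∀ c : Ω, g • c ≠ c} + (Fintype.card Ω - 1) * (Fintype.card Ω - 2) =
      Nat.card G := by
  have h1 := sum_card_fix hZ
  have h2 := sum_card_fix_sq hZ
  have h3 := three_le_card hZ
  have key : ∀ g : G, #{c : Ω | g • c = c} * #{c : Ω | g • c = c} + 2 =
      3 * #{c : Ω | g • c = c} + ((if ∀ c : Ω, g • c ≠ c then 2 else 0) +
        if g = 1 then (Fintype.card Ω - 1) * (Fintype.card Ω - 2) else 0) := by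
    intro g
    by_cases hg : g = 1
    · subst hg
      obtain ⟨a, -⟩ := exists_three hZ
      have : ¬ ∀ c : Ω, (1 : G) • c ≠ c := fun h => h a (one_smul _ _)
      rw [if_neg this, if_pos rfl]
      simp only [one_smul, Finset.filter_true, Finset.card_univ]
      obtain ⟨n, hn⟩ : ∃ n, Fintype.card Ω = n + 2 := ⟨Fintype.card Ω - 2, by omega⟩
      rw [hn]
      simp only [Nat.add_sub_cancel, show n + 2 - 1 = n + 1 from rfl]
      ring
    · rw [if_neg hg]
      have hle := card_fix_le_two hZ hg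
      by_cases h0 : ∀ c : Ω, g • c ≠ c
      · rw [if_pos h0]
        have : #{c : Ω | g • c = c} = 0 := by
          rw [Finset.card_eq_zero, Finset.filter_eq_empty_iff]
          exact fun c _ => h0 c
        rw [this]
      · rw [if_neg h0]
        push Not at h0
        obtain ⟨c, hc⟩ := h0
        have : 0 < #{c : Ω | g • c = c} := Finset.card_pos.mpr ⟨c, by simpa using hc⟩
        generalize #{c : Ω | g • c = c} = m at *
        interval_cases m <;> rfl
  have h4 := Finset.sum_congr (s₁ := Finset.univ) rfl (fun g _ => key g)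
  simp only [Finset.sum_add_distrib, ← Finset.mul_sum, h1, h2, Finset.sum_ite_eq',
    Finset.mem_univ, if_true, Finset.sum_const, Finset.card_univ, smul_eq_mul] at h4
  rw [← Finset.sum_filter, Finset.sum_const, smul_eq_mul, ← Nat.card_eq_fintype_card (α := G)] at h4
  omega

end Count

section Kernel

variable [Finite G] [Fintype Ω]

/-- A subgroup `H` of the point stabiliser as in the statements is the whole Frobenius kernel. -/
theorem mem_kernel_iff (hZ : IsZassenhausGroup G Ω) {a : Ω} {H : Subgroup G}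
    (hHa : H ≤ stabilizer G a) (hHcard : Nat.card H + 1 = Fintype.card Ω)
    (hHfix : ∀ u ∈ H, u ≠ 1 → ∀ c : Ω, u • c = c → c = a) (g : G) :
    g ∈ H ↔ g = 1 ∨ (g • a = a ∧ ∀ c : Ω, g • c = c → c = a) := by
  classical
  have := Fintype.ofFinite G
  have hsub : ({g : G | g ∈ H} : Finset G).erase 1 ⊆
      ({g : G | g • a = a ∧ ∀ c : Ω, g • c = c → c = a} : Finset G) := by
    intro g hg
    simp only [Finset.mem_erase, ne_eq, Finset.mem_filter, Finset.mem_univ, true_and] at hg ⊢
    exact ⟨hHa hg.2, hHfix g hg.2 hg.1⟩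
  have heq := Finset.eq_of_subset_of_card_le hsub (by
    have h1 := card_fix_only hZ a
    have h2 := card_filter_mem H
    rw [Finset.card_erase_of_mem (by simp [H.one_mem])]
    convert (show Fintype.card Ω - 2 ≤ Nat.card H - 1 by omega))
  constructor
  · intro hg
    by_cases h1 : g = 1
    · exact Or.inl h1
    · exact Or.inr ⟨hHa hg, hHfix g hg h1⟩
  · rintro (rfl | h)
    · exact H.one_mem
    · have : g ∈ ({g : G | g ∈ H} : Finset G).erase 1 := by
        rw [heq]; simpa using h
      simp only [Finset.mem_erase, Finset.mem_filter, Finset.mem_univ, true_and] at this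
      exact this.2

omit [Finite G] [Fintype Ω] in
theorem kernel_ti {a : Ω} {H : Subgroup G} (hHa : H ≤ stabilizer G a)
    (hHfix : ∀ u ∈ H, u ≠ 1 → ∀ c : Ω, u • c = c → c = a) {g u : G} (hu : u ∈ H) (hu1 : u ≠ 1)
    (hgu : g * u * g⁻¹ ∈ H) : g • a = a := by
  have h1 : g * u * g⁻¹ ≠ 1 := by
    intro h
    apply hu1
    have : u = g⁻¹ * (g * u * g⁻¹) * g := by group
    rw [this, h]; simp
  apply hHfix _ hgu h1
  have : u • a = a := hHa hu
  simp [mul_smul, this]

theorem conj_mem_kernel (hZ : IsZassenhausGroup G Ω) {a : Ω} {H : Subgroup G}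
    (hHa : H ≤ stabilizer G a) (hHcard : Nat.card H + 1 = Fintype.card Ω)
    (hHfix : ∀ u ∈ H, u ≠ 1 → ∀ c : Ω, u • c = c → c = a) {g u : G} (hg : g • a = a)
    (hu : u ∈ H) : g * u * g⁻¹ ∈ H := by
  rw [mem_kernel_iff hZ hHa hHcard hHfix] at hu ⊢
  rcases hu with rfl | ⟨h1, h2⟩
  · left; simp
  · right
    have hg' : g⁻¹ • a = a := by rw [inv_smul_eq_iff, hg]
    refine ⟨by simp [mul_smul, hg', h1, hg], fun c hc => ?_⟩
    have : u • (g⁻¹ • c) = g⁻¹ • c := by
      rw [mul_smul, mul_smul, smul_eq_iff_eq_inv_smul] at hc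
      exact hc
    have := h2 _ this
    rw [inv_smul_eq_iff, hg] at this
    exact this

theorem normalizer_kernel (hZ : IsZassenhausGroup G Ω) {a : Ω} {H : Subgroup G}
    (hHa : H ≤ stabilizer G a) (hHcard : Nat.card H + 1 = Fintype.card Ω)
    (hHfix : ∀ u ∈ H, u ≠ 1 → ∀ c : Ω, u • c = c → c = a) :
    Subgroup.normalizer (H : Set G) = stabilizer G a := by
  apply le_antisymm
  · intro g hg
    have h3 := three_le_card hZ
    have : Nontrivial H := by
      rw [← Finite.one_lt_card_iff_nontrivial]; omega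
    obtain ⟨u, hu⟩ := _root_.exists_ne (1 : H)
    exact kernel_ti hHa hHfix u.2 (fun h => hu (Subtype.ext h))
      ((Subgroup.mem_normalizer_iff.mp hg u).mp u.2)
  · intro g hg
    have hg1 : g • a = a := hg
    rw [Subgroup.mem_normalizer_iff]
    intro u
    constructor
    · exact conj_mem_kernel hZ hHa hHcard hHfix hg1
    · intro h
      have hg' : g⁻¹ • a = a := by rw [inv_smul_eq_iff, hg1]
      have := conj_mem_kernel hZ hHa hHcard hHfix hg' h
      simpa [mul_assoc] using this

end Kernel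

section TwoPoint

/-- An element conjugating a non-identity element of `E` into `E` stabilises the pair. -/
theorem pair_of_conj_mem (hZ : IsZassenhausGroup G Ω) {a b : Ω} (hab : a ≠ b) {g x : G}
    (hx : x ∈ (stabilizer G a ⊓ stabilizer G b : Subgroup G)) (hx1 : x ≠ 1)
    (hgx : g * x * g⁻¹ ∈ (stabilizer G a ⊓ stabilizer G b : Subgroup G)) :
    (g • a = a ∧ g • b = b) ∨ (g • a = b ∧ g • b = a) := by
  rw [mem_stab2] at hx hgx
  have h1 : g * x * g⁻¹ ≠ 1 := by
    intro h
    apply hx1
    have : x = g⁻¹ * (g * x * g⁻¹) * g := by group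
    rw [this, h]; simp
  have ha := eq_or_eq_of_fix hZ hab h1 hgx.1 hgx.2 (c := g • a) (by simp [mul_smul, hx.1])
  have hb := eq_or_eq_of_fix hZ hab h1 hgx.1 hgx.2 (c := g • b) (by simp [mul_smul, hx.2])
  have hne : g • a ≠ g • b := fun h => hab (smul_left_cancel g h)
  rcases ha with ha | ha <;> rcases hb with hb | hb
  · exact absurd (ha.trans hb.symm) hne
  · exact Or.inl ⟨ha, hb⟩
  · exact Or.inr ⟨ha, hb⟩
  · exact absurd (ha.trans hb.symm) hne

theorem conj_mem_stab2_of_pair {a b : Ω} {g x : G}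
    (hg : (g • a = a ∧ g • b = b) ∨ (g • a = b ∧ g • b = a))
    (hx : x ∈ (stabilizer G a ⊓ stabilizer G b : Subgroup G)) :
    g * x * g⁻¹ ∈ (stabilizer G a ⊓ stabilizer G b : Subgroup G) := by
  rw [mem_stab2] at hx ⊢
  rcases hg with ⟨h1, h2⟩ | ⟨h1, h2⟩
  · have h1' : g⁻¹ • a = a := by rw [inv_smul_eq_iff, h1]
    have h2' : g⁻¹ • b = b := by rw [inv_smul_eq_iff, h2]
    simp [mul_smul, h1, h2, h1', h2', hx.1, hx.2]
  · have h1' : g⁻¹ • a = b := by rw [inv_smul_eq_iff, h2]
    have h2' : g⁻¹ • b = a := by rw [inv_smul_eq_iff, h1]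
    simp [mul_smul, h1, h2, h1', h2', hx.1, hx.2]

theorem mem_normalizer_stab2_iff (hZ : IsZassenhausGroup G Ω) {a b : Ω} (hab : a ≠ b) (g : G) :
    g ∈ Subgroup.normalizer ((stabilizer G a ⊓ stabilizer G b : Subgroup G) : Set G) ↔
      (g • a = a ∧ g • b = b) ∨ (g • a = b ∧ g • b = a) := by
  constructor
  · intro hg
    obtain ⟨x, hx1, ha, hb⟩ := exists_ne_one_fix hZ hab
    have hx := mem_stab2.mpr ⟨ha, hb⟩
    exact pair_of_conj_mem hZ hab hx hx1 ((Subgroup.mem_normalizer_iff.mp hg x).mp hx)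
  · intro hg
    rw [Subgroup.mem_normalizer_iff]
    intro x
    constructor
    · exact conj_mem_stab2_of_pair hg
    · intro h
      have hg' : (g⁻¹ • a = a ∧ g⁻¹ • b = b) ∨ (g⁻¹ • a = b ∧ g⁻¹ • b = a) := by
        rcases hg with ⟨h1, h2⟩ | ⟨h1, h2⟩
        · left; constructor
          · rw [inv_smul_eq_iff, h1]
          · rw [inv_smul_eq_iff, h2]
        · right; constructor
          · rw [inv_smul_eq_iff, h2]
          · rw [inv_smul_eq_iff, h1]
      have := conj_mem_stab2_of_pair hg' h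
      simpa [mul_assoc] using this

theorem index_stab2_normalizer (hZ : IsZassenhausGroup G Ω) {a b : Ω} (hab : a ≠ b) :
    ((stabilizer G a ⊓ stabilizer G b : Subgroup G).subgroupOf
      (Subgroup.normalizer ((stabilizer G a ⊓ stabilizer G b : Subgroup G) : Set G))).index = 2 := by
  obtain ⟨t, hta, htb⟩ := exists_smul_eq_two hZ hab hab.symm
  rw [Subgroup.index_eq_two_iff]
  refine ⟨⟨t, (mem_normalizer_stab2_iff hZ hab t).mpr (Or.inr ⟨hta, htb⟩)⟩, fun g => ?_⟩
  simp only [Subgroup.mem_subgroupOf, mem_stab2, Subgroup.coe_mul, mul_smul, hta, htb]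
  rcases (mem_normalizer_stab2_iff hZ hab g).mp g.2 with ⟨h1, h2⟩ | ⟨h1, h2⟩
  · right
    refine ⟨⟨h1, h2⟩, fun h => hab ?_⟩
    rw [← h.1, h2]
  · left
    refine ⟨⟨h2, h1⟩, fun h => hab ?_⟩
    rw [← h.1, h1]

end TwoPoint

end Cfsg.Agent.Lib.Zassenhaus
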