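import Mathlib
import Cfsg.Agent.Lib.Zassenhaus
import Cfsg.Agent.Lib.ConjCount
import Cfsg.Agent.Lib.CharFrob
import Cfsg.Agent.Lib.CoprimeSylow
import Cfsg.Agent.Lib.LocRank
import Cfsg.Agent.Lib.TransferFrobenius

/-! Zassenhaus groups with two-point stabilisers of odd order: the kernel, the structure of the
two-point stabiliser, the involutions. -/

set_option autoImplicit false

namespace Cfsg.Agent.Lib.ZassSimple

open Cfsg MulAction Finset Cfsg.Agent.Lib.Zassenhaus
open scoped commutatorElement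

variable {G Ω : Type*} [Group G] [MulAction G Ω] [Finite G] [Fintype Ω]

/-- The Frobenius kernel of a point stabiliser. -/
theorem exists_kernel (hZ : IsZassenhausGroup G Ω) (a : Ω) :
    ∃ H : Subgroup G, H ≤ stabilizer G a ∧ Nat.card H + 1 = Fintype.card Ω ∧
      ∀ u ∈ H, u ≠ 1 → ∀ c : Ω, u • c = c → c = a := by
  classical
  have := Fintype.ofFinite G
  obtain ⟨b, hab⟩ := exists_ne hZ a
  obtain ⟨K, -, hK⟩ := CharFrob.exists_frobenius_kernel
    ((stabilizer G b).subgroupOf (stabilizer G a)) (fun g hg h hh hgh => by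
      by_contra h1
      have h1' : (h : G) ≠ 1 := fun h2 => h1 (Subtype.ext h2)
      simp only [Subgroup.mem_subgroupOf, mem_stabilizer_iff] at hg hh hgh
      rcases pair_of_conj_mem hZ hab (g := g) (x := h) (mem_stab2.mpr ⟨h.2, hh⟩) h1'
        (mem_stab2.mpr ⟨(g * h * g⁻¹).2, hgh⟩) with h2 | h2
      · exact hg h2.2
      · exact hab (g.2.symm.trans h2.1))
  have hmem : ∀ g : G, g ∈ K.map (stabilizer G a).subtype ↔
      g = 1 ∨ (g • a = a ∧ ∀ c : Ω, g • c = c → c = a) := by
    intro g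
    constructor
    · rintro ⟨x, hx, rfl⟩
      rcases (hK x).mp hx with rfl | h
      · exact Or.inl rfl
      · refine Or.inr ⟨x.2, fun c hc => ?_⟩
        by_contra hca
        obtain ⟨y, hy1, hy2⟩ := exists_smul_eq_two hZ (Ne.symm hca) hab
        apply h ⟨y, hy1⟩
        simp only [Subgroup.mem_subgroupOf, mem_stabilizer_iff, Subgroup.coe_mul, Subgroup.coe_inv]
        rw [← hy2, mul_smul, mul_smul, inv_smul_smul]
        exact congrArg _ hc
    · rintro (rfl | ⟨h1, h2⟩)
      · exact Subgroup.one_mem _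
      · refine ⟨⟨g, h1⟩, (hK _).mpr (Or.inr fun y hy => ?_), rfl⟩
        simp only [Subgroup.mem_subgroupOf, mem_stabilizer_iff, Subgroup.coe_mul,
          Subgroup.coe_inv] at hy
        rw [mul_smul, mul_smul, smul_eq_iff_eq_inv_smul] at hy
        have h3 := h2 _ hy
        rw [inv_smul_eq_iff] at h3
        exact hab (y.2.symm.trans h3.symm)
  refine ⟨K.map (stabilizer G a).subtype, Subgroup.map_subtype_le _, ?_, fun u hu h1 => ?_⟩
  · have h3 := three_le_card hZ
    rw [← card_filter_mem, show ({g : G | g ∈ K.map (stabilizer G a).subtype} : Finset G) =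
      insert 1 ({g : G | g • a = a ∧ ∀ c : Ω, g • c = c → c = a} : Finset G) by
        ext g; simp only [Finset.mem_filter, Finset.mem_univ, true_and, Finset.mem_insert, hmem],
      Finset.card_insert_of_notMem (by
        simp only [Finset.mem_filter, Finset.mem_univ, true_and, one_smul, not_forall]
        exact ⟨b, trivial, hab.symm⟩)]
    have := card_fix_only hZ a
    convert (show #{g : G | g • a = a ∧ ∀ c : Ω, g • c = c → c = a} + 1 + 1 = Fintype.card Ω by
      omega)
  · exact (((hmem u).mp hu).resolve_left h1).2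

/-- `|Ω| ≡ 2` modulo every prime divisor of the order of a two-point stabiliser. -/
theorem card_modEq_two (hZ : IsZassenhausGroup G Ω) {a b : Ω} (hab : a ≠ b) {p : ℕ}
    (hp : p.Prime) (hd : p ∣ Nat.card ↥(stabilizer G a ⊓ stabilizer G b : Subgroup G)) :
    Fintype.card Ω ≡ 2 [MOD p] := by
  have := Fact.mk hp
  obtain ⟨x, hx⟩ := exists_prime_orderOf_dvd_card' p hd
  have hx' : orderOf (x : G) = p := by rw [Subgroup.orderOf_coe, hx]
  have hx1 : (x : G) ≠ 1 := by
    intro h
    rw [h, orderOf_one] at hx'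
    exact hp.one_lt.ne hx'
  have hP : IsPGroup p (Subgroup.zpowers (x : G)) :=
    IsPGroup.of_card (n := 1) (by rw [Nat.card_zpowers, hx', pow_one])
  have h1 := hP.card_modEq_card_fixedPoints Ω
  have h2 : fixedPoints (Subgroup.zpowers (x : G)) Ω = {a, b} := by
    ext c
    simp only [mem_fixedPoints, Set.mem_insert_iff, Set.mem_singleton_iff]
    constructor
    · intro h
      exact eq_or_eq_of_fix hZ hab hx1 (mem_stab2.mp x.2).1 (mem_stab2.mp x.2).2
        (h ⟨x, Subgroup.mem_zpowers _⟩)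
    · intro h y
      have hy : (y : G) ∈ (stabilizer G a ⊓ stabilizer G b : Subgroup G) :=
        (Subgroup.zpowers_le.mpr x.2) y.2
      rcases h with rfl | rfl
      · exact (mem_stab2.mp hy).1
      · exact (mem_stab2.mp hy).2
  rwa [h2, Nat.card_coe_set_eq, Set.ncard_pair hab, Nat.card_eq_fintype_card] at h1

theorem coprime_card_pred (hZ : IsZassenhausGroup G Ω) {a b : Ω} (hab : a ≠ b) :
    (Nat.card ↥(stabilizer G a ⊓ stabilizer G b : Subgroup G)).Coprime (Fintype.card Ω - 1) := by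
  rw [Nat.coprime_iff_gcd_eq_one, Nat.eq_one_iff_not_exists_prime_dvd]
  intro p hp hd
  have h1 := card_modEq_two hZ hab hp (hd.trans (Nat.gcd_dvd_left _ _))
  have h2 := hd.trans (Nat.gcd_dvd_right _ _)
  have h3 := three_le_card hZ
  have h4 := (Nat.modEq_iff_dvd' (by omega)).mp h1.symm
  have h5 := Nat.dvd_sub h2 h4
  rw [show Fintype.card Ω - 1 - (Fintype.card Ω - 2) = 1 by omega] at h5
  exact hp.one_lt.ne' (Nat.dvd_one.mp h5)

theorem coprime_card (hZ : IsZassenhausGroup G Ω) {a b : Ω} (hab : a ≠ b)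
    (hodd : Odd (Nat.card ↥(stabilizer G a ⊓ stabilizer G b : Subgroup G))) :
    (Nat.card ↥(stabilizer G a ⊓ stabilizer G b : Subgroup G)).Coprime (Fintype.card Ω) := by
  rw [Nat.coprime_iff_gcd_eq_one, Nat.eq_one_iff_not_exists_prime_dvd]
  intro p hp hd
  have h0 := hd.trans (Nat.gcd_dvd_left _ _)
  have h1 := card_modEq_two hZ hab hp h0
  have h2 := hd.trans (Nat.gcd_dvd_right _ _)
  have h3 := three_le_card hZ
  have h4 := (Nat.modEq_iff_dvd' (by omega)).mp h1.symm
  have h5 := Nat.dvd_sub h2 h4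
  rw [show Fintype.card Ω - (Fintype.card Ω - 2) = 2 by omega] at h5
  rw [(Nat.prime_dvd_prime_iff_eq hp Nat.prime_two).mp h5] at h0
  exact (Nat.not_even_iff_odd.mpr hodd) (even_iff_two_dvd.mpr h0)

theorem index_stab2 (hZ : IsZassenhausGroup G Ω) {a b : Ω} (hab : a ≠ b) :
    (stabilizer G a ⊓ stabilizer G b : Subgroup G).index =
      Fintype.card Ω * (Fintype.card Ω - 1) := by
  have h1 := (stabilizer G a ⊓ stabilizer G b : Subgroup G).index_mul_card
  rw [card_group hZ hab, ← mul_assoc] at h1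
  exact Nat.eq_of_mul_eq_mul_right Nat.card_pos h1

theorem coprime_index (hZ : IsZassenhausGroup G Ω) {a b : Ω} (hab : a ≠ b)
    (hodd : Odd (Nat.card ↥(stabilizer G a ⊓ stabilizer G b : Subgroup G))) :
    (Nat.card ↥(stabilizer G a ⊓ stabilizer G b : Subgroup G)).Coprime
      (stabilizer G a ⊓ stabilizer G b : Subgroup G).index := by
  rw [index_stab2 hZ hab]
  exact Nat.Coprime.mul_right (coprime_card hZ hab hodd) (coprime_card_pred hZ hab)

omit [Finite G] [Fintype Ω] in
/-- A non-identity element of `E` centralises no non-identity element of the kernel. -/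
theorem eq_one_of_commute (hZ : IsZassenhausGroup G Ω) {a b : Ω} (hab : a ≠ b) {H : Subgroup G}
    (hHa : H ≤ stabilizer G a) (hHfix : ∀ u ∈ H, u ≠ 1 → ∀ c : Ω, u • c = c → c = a)
    {x k : G} (hxa : x • a = a) (hxb : x • b = b) (hx1 : x ≠ 1) (hk : k ∈ H)
    (h : x * k = k * x) : k = 1 := by
  by_contra hk1
  have h1 : x • k • b = k • b := by rw [← mul_smul, h, mul_smul, hxb]
  rcases eq_or_eq_of_fix hZ hab hx1 hxa hxb h1 with h2 | h2
  · have h3 : k • a = a := hHa hk
    exact hab (MulAction.injective k (h3.trans h2.symm))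
  · exact hab (hHfix k hk hk1 b h2).symm

/-- The centraliser of a non-identity element of the kernel lies in the kernel. -/
theorem centralizer_le_kernel (hZ : IsZassenhausGroup G Ω) {a : Ω} {H : Subgroup G}
    (hHa : H ≤ stabilizer G a) (hHcard : Nat.card H + 1 = Fintype.card Ω)
    (hHfix : ∀ u ∈ H, u ≠ 1 → ∀ c : Ω, u • c = c → c = a) {k : G} (hk : k ∈ H) (hk1 : k ≠ 1) :
    Subgroup.centralizer ({k} : Set G) ≤ H := by
  intro x hx
  rw [Subgroup.mem_centralizer_singleton_iff] at hx
  have hxa : x • a = a := kernel_ti hHa hHfix hk hk1 (by rw [hx]; simpa using hk)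
  rw [mem_kernel_iff hZ hHa hHcard hHfix]
  by_cases hx1 : x = 1
  · exact Or.inl hx1
  · refine Or.inr ⟨hxa, fun c hc => ?_⟩
    by_contra hca
    exact hk1 (eq_one_of_commute hZ (Ne.symm hca) hHa hHfix hxa hc hx1 hk hx)

/-- The `p`-subgroups of a two-point stabiliser are cyclic for odd `p`. -/
theorem isCyclic_of_le_stab2 (hZ : IsZassenhausGroup G Ω) {a b : Ω} (hab : a ≠ b) {p : ℕ}
    [Fact p.Prime] (hp2 : p ≠ 2) {P : Subgroup G} (hP : IsPGroup p P)
    (hPE : P ≤ stabilizer G a ⊓ stabilizer G b) : IsCyclic P := by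
  by_contra hc
  obtain ⟨A, hAP, hA, hcard⟩ := LocRank.exists_noncyclic_of_not_isCyclic hp2 hP hc
  obtain ⟨H, hHa, hHcard, hHfix⟩ := exists_kernel hZ a
  have hAE := hAP.trans hPE
  have h3 := three_le_card hZ
  have hH : H ≤ ⊥ := by
    apply CoprimeSylow.le_of_centralizer_elt_le hA.1 (LocRank.not_isCyclic_of_sq_le hA hcard)
    · rw [normalizer_kernel hZ hHa hHcard hHfix]
      exact hAE.trans inf_le_left
    · rw [show Nat.card H = Fintype.card Ω - 1 by omega]
      exact Nat.Coprime.coprime_dvd_left (Subgroup.card_dvd_of_le hAE) (coprime_card_pred hZ hab)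
    · rintro x hx hx1 k ⟨hk, hkx⟩
      exact eq_one_of_commute hZ hab hHa hHfix (mem_stab2.mp (hAE hx)).1 (mem_stab2.mp (hAE hx)).2
        hx1 hk (Subgroup.mem_centralizer_singleton_iff.mp hkx).symm
  rw [le_bot_iff.mp hH, Subgroup.card_bot] at hHcard
  omega

theorem isZGroup_normalizer (hZ : IsZassenhausGroup G Ω) {a b : Ω} (hab : a ≠ b)
    (hodd : Odd (Nat.card ↥(stabilizer G a ⊓ stabilizer G b : Subgroup G))) :
    IsZGroup (Subgroup.normalizer ((stabilizer G a ⊓ stabilizer G b : Subgroup G) : Set G)) := by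
  have hidx := index_stab2_normalizer hZ hab
  set E : Subgroup G := stabilizer G a ⊓ stabilizer G b with hE
  set M := Subgroup.normalizer (E : Set G) with hM
  have hcard : Nat.card M = 2 * Nat.card E := by
    rw [← (E.subgroupOf M).index_mul_card, hidx,
      Nat.card_congr (Subgroup.subgroupOfEquivOfLe Subgroup.le_normalizer).toEquiv]
  refine ⟨fun p hp P => ?_⟩
  have := Fact.mk hp
  by_cases hp2 : p = 2
  · subst hp2
    obtain ⟨k, hk⟩ := P.isPGroup'.exists_card_eq
    have h1 : Nat.card P ∣ 2 * Nat.card E := hcard ▸ Subgroup.card_subgroup_dvd_card _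
    have h2 : Nat.card P ∣ 2 := by
      refine Nat.Coprime.dvd_of_dvd_mul_right ?_ h1
      rw [hk]
      exact Nat.Coprime.pow_left _ (Nat.coprime_two_left.mpr hodd)
    exact isCyclic_of_card_dvd_prime h2
  · have hle : (P : Subgroup M).map M.subtype ≤ E := by
      rintro _ ⟨x, hx, rfl⟩
      obtain ⟨k, hk⟩ := P.isPGroup' ⟨x, hx⟩
      have hk' : x ^ p ^ k = 1 := congrArg Subtype.val hk
      have hx2 : x ^ 2 ∈ E.subgroupOf M := Subgroup.sq_mem_of_index_two hidx x
      obtain ⟨j, hj⟩ := (hp.odd_of_ne_two hp2).pow (n := k)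
      have : x = (x ^ 2) ^ (j + 1) := by
        rw [← pow_mul, show 2 * (j + 1) = p ^ k + 1 by omega, pow_succ, hk', one_mul]
      change x ∈ E.subgroupOf M
      rw [this]
      exact Subgroup.pow_mem _ hx2 _
    have := isCyclic_of_le_stab2 hZ hab hp2 (P.isPGroup'.map M.subtype) hle
    exact isCyclic_of_surjective _
      (Subgroup.equivMapOfInjective (P : Subgroup M) M.subtype M.subtype_injective).symm.surjective

omit [Finite G] [Fintype Ω] in
theorem commutator_ne_bot (hZ : IsZassenhausGroup G Ω) : commutator G ≠ ⊥ := by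
  intro h
  obtain ⟨a, b, -, hab, -, -⟩ := exists_three hZ
  obtain ⟨x, hx1, hxa, -⟩ := exists_ne_one_fix hZ hab
  apply hx1
  apply eq_one_of_forall hZ
  intro c
  have := isPretransitive hZ
  obtain ⟨g, rfl⟩ := exists_smul_eq G a c
  have h1 : x * g = g * x := by
    rw [commutator_eq_bot_iff_center_eq_top] at h
    exact (Subgroup.mem_center_iff.mp (h ▸ Subgroup.mem_top x) g).symm
  rw [← mul_smul, h1, mul_smul, hxa]

section Simple

variable [IsSimpleGroup G]

theorem stab2_le_focal (hZ : IsZassenhausGroup G Ω) {a b : Ω} (hab : a ≠ b)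
    (hodd : Odd (Nat.card ↥(stabilizer G a ⊓ stabilizer G b : Subgroup G))) :
    (stabilizer G a ⊓ stabilizer G b : Subgroup G) ≤
      (stabilizer G a ⊓ stabilizer G b : Subgroup G).focalSubgroup := by
  obtain ⟨K, hK, h1, h2, -⟩ :=
    TransferFrobenius.exists_normal_inf_eq_focal _ (coprime_index hZ hab hodd)
  rcases hK.eq_bot_or_eq_top with h | h
  · rw [h, le_bot_iff] at h1
    exact absurd h1 (commutator_ne_bot hZ)
  · rw [← h2, h, top_inf_eq]

theorem isCyclic_stab2 (hZ : IsZassenhausGroup G Ω) {a b : Ω} (hab : a ≠ b)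
    (hodd : Odd (Nat.card ↥(stabilizer G a ⊓ stabilizer G b : Subgroup G))) :
    IsCyclic ↥(stabilizer G a ⊓ stabilizer G b : Subgroup G) := by
  have := isZGroup_normalizer hZ hab hodd
  have h1 := stab2_le_focal hZ hab hodd
  set E : Subgroup G := stabilizer G a ⊓ stabilizer G b with hE
  set M := Subgroup.normalizer (E : Set G) with hM
  have h2 : E.focalSubgroup ≤ (commutator M).map M.subtype := by
    rw [TransferFrobenius.focalSubgroup_le_iff]
    intro x hx g hg
    by_cases hx1 : x = 1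
    · simp [hx1]
    · have hgM : g ∈ M :=
        (mem_normalizer_stab2_iff hZ hab g).mpr (pair_of_conj_mem hZ hab hx hx1 hg)
      exact ⟨⁅(⟨g, hgM⟩ : M), ⟨x, Subgroup.le_normalizer hx⟩⁆,
        Subgroup.commutator_mem_commutator (Subgroup.mem_top _) (Subgroup.mem_top _), rfl⟩
  have h3 := IsZGroup.isCyclic_commutator M
  have h4 : IsCyclic ((commutator M).map M.subtype) := isCyclic_of_surjective _
      (Subgroup.equivMapOfInjective (commutator M) M.subtype M.subtype_injective).surjective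
  exact Subgroup.isCyclic_of_le (h1.trans h2)

theorem stab2_comm (hZ : IsZassenhausGroup G Ω) {a b : Ω} (hab : a ≠ b)
    (hodd : Odd (Nat.card ↥(stabilizer G a ⊓ stabilizer G b : Subgroup G))) {x y : G}
    (hx : x ∈ (stabilizer G a ⊓ stabilizer G b : Subgroup G))
    (hy : y ∈ (stabilizer G a ⊓ stabilizer G b : Subgroup G)) : x * y = y * x := by
  have := isCyclic_stab2 hZ hab hodd
  exact congrArg Subtype.val (IsCyclic.isMulCommutative.is_comm.comm
    (⟨x, hx⟩ : ↥(stabilizer G a ⊓ stabilizer G b : Subgroup G)) ⟨y, hy⟩)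

/-- An element interchanging `a` and `b` inverts the two-point stabiliser. -/
theorem swap_inverts (hZ : IsZassenhausGroup G Ω) {a b : Ω} (hab : a ≠ b)
    (hodd : Odd (Nat.card ↥(stabilizer G a ⊓ stabilizer G b : Subgroup G))) {t : G}
    (hta : t • a = b) (htb : t • b = a) {x : G}
    (hx : x ∈ (stabilizer G a ⊓ stabilizer G b : Subgroup G)) : t * x * t⁻¹ = x⁻¹ := by
  have hc := fun x y => stab2_comm hZ hab hodd (x := x) (y := y)
  have h1 := stab2_le_focal hZ hab hodd
  set E : Subgroup G := stabilizer G a ⊓ stabilizer G b with hE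
  let L : Subgroup G :=
    { carrier := {y | y ∈ E ∧ t * y * t⁻¹ = y⁻¹}
      one_mem' := ⟨E.one_mem, by simp⟩
      mul_mem' := by
        rintro y z ⟨hy, hy'⟩ ⟨hz, hz'⟩
        refine ⟨E.mul_mem hy hz, ?_⟩
        rw [hc y z hy hz, mul_inv_rev, ← hy', ← hz', ← hc y z hy hz]
        group
      inv_mem' := by
        rintro y ⟨hy, hy'⟩
        refine ⟨E.inv_mem hy, ?_⟩
        rw [show t * y⁻¹ * t⁻¹ = (t * y * t⁻¹)⁻¹ by group, hy'] }
  have htE : ∀ y ∈ E, t * y * t⁻¹ ∈ E := fun y hy =>
    conj_mem_stab2_of_pair (Or.inr ⟨hta, htb⟩) hy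
  have h2 : E.focalSubgroup ≤ L := by
    rw [TransferFrobenius.focalSubgroup_le_iff]
    intro y hy g hg
    by_cases hy1 : y = 1
    · simp [hy1]
    · rcases pair_of_conj_mem hZ hab hy hy1 hg with h | h
      · rw [hc g y (mem_stab2.mpr h) hy]
        simp
      · have h3 : t⁻¹ * g ∈ E := mem_stab2.mpr
          ⟨by rw [mul_smul, h.1, inv_smul_eq_iff, hta], by rw [mul_smul, h.2, inv_smul_eq_iff, htb]⟩
        have h4 : g * y * g⁻¹ = t * y * t⁻¹ := by
          have := hc _ y h3 hy
          calc g * y * g⁻¹ = t * (t⁻¹ * g * y) * g⁻¹ := by group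
            _ = t * y * t⁻¹ := by rw [this]; group
        have h5 : t * t ∈ E := mem_stab2.mpr
          ⟨by rw [mul_smul, hta, htb], by rw [mul_smul, htb, hta]⟩
        rw [h4]
        refine ⟨E.mul_mem (htE y hy) (E.inv_mem hy), ?_⟩
        have h6 := hc _ y h5 hy
        calc t * (t * y * t⁻¹ * y⁻¹) * t⁻¹ = (t * t * y) * (t * t)⁻¹ * (t * y * t⁻¹)⁻¹ := by group
          _ = (t * y * t⁻¹ * y⁻¹)⁻¹ := by rw [h6]; group
  exact (h2 (h1 hx)).2

/-- An element interchanging `a` and `b` is an involution. -/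
theorem swap_sq (hZ : IsZassenhausGroup G Ω) {a b : Ω} (hab : a ≠ b)
    (hodd : Odd (Nat.card ↥(stabilizer G a ⊓ stabilizer G b : Subgroup G))) {t : G}
    (hta : t • a = b) (htb : t • b = a) : orderOf t = 2 := by
  have h5 : t * t ∈ (stabilizer G a ⊓ stabilizer G b : Subgroup G) := mem_stab2.mpr
    ⟨by rw [mul_smul, hta, htb], by rw [mul_smul, htb, hta]⟩
  have h1 := swap_inverts hZ hab hodd hta htb h5
  have h2 : (t * t) ^ 2 = 1 := by
    rw [sq, ← eq_inv_iff_mul_eq_one, ← h1]
    group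
  obtain ⟨j, hj⟩ := hodd
  have h3 := TransferFrobenius.pow_card_eq_one_of_mem h5
  rw [hj, pow_succ, pow_mul, h2, one_pow, one_mul] at h3
  refine orderOf_eq_prime (by rw [sq, h3]) ?_
  rintro rfl
  exact hab (by simpa using hta)

omit [IsSimpleGroup G] in
/-- An involution fixes at most one point. -/
theorem eq_of_involution_fix (hZ : IsZassenhausGroup G Ω) {a b : Ω} (hab : a ≠ b)
    (hodd : Odd (Nat.card ↥(stabilizer G a ⊓ stabilizer G b : Subgroup G))) {x : G}
    (hx : orderOf x = 2) {c d : Ω} (hc : x • c = c) (hd : x • d = d) : c = d := by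
  by_contra hcd
  have h1 := orderOf_dvd_natCard (⟨x, mem_stab2.mpr ⟨hc, hd⟩⟩ :
    ↥(stabilizer G c ⊓ stabilizer G d : Subgroup G))
  rw [← Subgroup.orderOf_coe, card_stab2_eq hZ hab hcd] at h1
  exact (Nat.not_even_iff_odd.mpr hodd) (even_iff_two_dvd.mpr (hx ▸ h1))

/-- All involutions are conjugate. -/
theorem isConj_of_involution (hZ : IsZassenhausGroup G Ω) {a b : Ω} (hab : a ≠ b)
    (hodd : Odd (Nat.card ↥(stabilizer G a ⊓ stabilizer G b : Subgroup G))) {x y : G}
    (hx : orderOf x = 2) (hy : orderOf y = 2) : IsConj x y := by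
  have key : ∀ z : G, orderOf z = 2 → ∃ z' : G, IsConj z z' ∧ z' • a = b ∧ z' • b = a := by
    intro z hz
    have hz1 : z ≠ 1 := by rintro rfl; simp at hz
    obtain ⟨c, hc⟩ : ∃ c : Ω, z • c ≠ c := by
      by_contra h
      push Not at h
      exact hz1 (eq_one_of_forall hZ h)
    obtain ⟨g, hg1, hg2⟩ := exists_smul_eq_two hZ hc.symm hab
    refine ⟨g * z * g⁻¹, isConj_iff.mpr ⟨g, rfl⟩, ?_, ?_⟩
    · rw [← hg1, mul_smul, mul_smul, inv_smul_smul, hg2]
    · rw [← hg2, mul_smul, mul_smul, inv_smul_smul, ← mul_smul z, ← sq, ← hz, pow_orderOf_eq_one,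
        one_smul, hg1]
  obtain ⟨s, hs, hsa, hsb⟩ := key x hx
  obtain ⟨t, ht, hta, htb⟩ := key y hy
  refine hs.trans (IsConj.trans ?_ ht.symm)
  have h1 : t * s⁻¹ ∈ (stabilizer G a ⊓ stabilizer G b : Subgroup G) := mem_stab2.mpr
    ⟨by rw [mul_smul, ← hsb, inv_smul_smul, hsb, htb],
      by rw [mul_smul, ← hsa, inv_smul_smul, hsa, hta]⟩
  obtain ⟨j, hj⟩ := id hodd
  have h3 := TransferFrobenius.pow_card_eq_one_of_mem h1
  have h4 := swap_inverts hZ hab hodd hsa hsb (Subgroup.pow_mem _ h1 (j + 1))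
  rw [isConj_iff]
  refine ⟨(t * s⁻¹) ^ (j + 1), ?_⟩
  generalize hw : (t * s⁻¹) ^ (j + 1) = w at h4
  have h5 : w * w = t * s⁻¹ := by
    rw [← hw, ← pow_add, show j + 1 + (j + 1) = 2 * j + 1 + 1 by ring, ← hj, pow_succ, h3, one_mul]
  calc w * s * w⁻¹ = w * (s * w * s⁻¹)⁻¹ * s := by group
    _ = t := by rw [h4, inv_inv, h5]; group

open Classical in
/-- Counting involutions by the points they move. -/
theorem sum_card_moved [Fintype G] (hZ : IsZassenhausGroup G Ω) {a b : Ω} (hab : a ≠ b)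
    (hodd : Odd (Nat.card ↥(stabilizer G a ⊓ stabilizer G b : Subgroup G))) :
    ∑ x : G with orderOf x = 2, #{c : Ω | x • c ≠ c} = Nat.card G := by
  have h1 : ∀ x : G, #{c : Ω | x • c ≠ c} =
      ∑ c : Ω, ∑ d ∈ Finset.univ.erase c, if x • c = d then 1 else 0 := by
    intro x
    rw [Finset.card_filter]
    refine Finset.sum_congr rfl fun c _ => ?_
    rw [Finset.sum_ite_eq]
    simp
  simp only [h1]
  rw [Finset.sum_comm, Finset.sum_congr rfl (g := fun _ => (Fintype.card Ω - 1) *
    Nat.card ↥(stabilizer G a ⊓ stabilizer G b : Subgroup G))]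
  · rw [card_group hZ hab]; simp
  · intro c _
    rw [Finset.sum_comm, Finset.sum_congr rfl (g := fun _ =>
      Nat.card ↥(stabilizer G a ⊓ stabilizer G b : Subgroup G))]
    · simp
    · intro d hd
      have hcd : c ≠ d := (Finset.ne_of_mem_erase hd).symm
      rw [← Finset.card_filter, Finset.filter_filter, ← card_stab2_eq hZ hab hcd,
        ← card_filter_two hZ hcd hcd.symm]
      congr 1
      ext x
      simp only [Finset.mem_filter, Finset.mem_univ, true_and]
      constructor
      · rintro ⟨h2, h3⟩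
        refine ⟨h3, ?_⟩
        rw [← h3, ← mul_smul, ← sq, ← h2, pow_orderOf_eq_one, one_smul]
      · rintro ⟨h2, h3⟩
        exact ⟨swap_sq hZ hcd (by rwa [card_stab2_eq hZ hab hcd]) h2 h3, h2⟩

omit [IsSimpleGroup G] in
open Classical in
theorem card_fix_involution (hZ : IsZassenhausGroup G Ω) {a b : Ω} (hab : a ≠ b)
    (hodd : Odd (Nat.card ↥(stabilizer G a ⊓ stabilizer G b : Subgroup G))) {x : G}
    (hx : orderOf x = 2) : #{c : Ω | x • c = c} = Fintype.card Ω % 2 := by
  have hP : IsPGroup 2 (Subgroup.zpowers x) :=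
    IsPGroup.of_card (n := 1) (by rw [Nat.card_zpowers, hx, pow_one])
  have h1 := hP.card_modEq_card_fixedPoints Ω
  have h2 : Nat.card (fixedPoints (Subgroup.zpowers x) Ω) = #{c : Ω | x • c = c} := by
    apply Nat.subtype_card
    intro c
    simp only [Finset.mem_filter, Finset.mem_univ, true_and]
    refine ⟨fun h y => ?_, fun h => h ⟨x, Subgroup.mem_zpowers _⟩⟩
    exact (Subgroup.zpowers_le.mpr (show x ∈ stabilizer G c from h)) y.2
  have h3 : #{c : Ω | x • c = c} ≤ 1 := by
    rw [Finset.card_le_one]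
    intro c hc d hd
    simp only [Finset.mem_filter, Finset.mem_univ, true_and] at hc hd
    exact eq_of_involution_fix hZ hab hodd hx hc hd
  rw [h2, Nat.card_eq_fintype_card, Nat.ModEq] at h1
  omega

open Classical in
/-- The number of involutions. -/
theorem card_involutions [Fintype G] (hZ : IsZassenhausGroup G Ω) {a b : Ω} (hab : a ≠ b)
    {h e : ℕ} (hh : Fintype.card Ω = h + 1)
    (he : Nat.card ↥(stabilizer G a ⊓ stabilizer G b : Subgroup G) = e) (hodd : Odd e) :
    #{x : G | orderOf x = 2} = if Even h then e * (h + 1) else e * h := by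
  have hodd' := he ▸ hodd
  have h1 := sum_card_moved hZ hab hodd'
  have h3 := three_le_card hZ
  rw [Finset.sum_congr rfl (g := fun _ => h + 1 - (h + 1) % 2) (fun x hx => by
    simp only [Finset.mem_filter, Finset.mem_univ, true_and] at hx
    have h2 := Finset.card_filter_add_card_filter_not (s := (Finset.univ : Finset Ω))
      (fun c => x • c = c)
    rw [card_fix_involution hZ hab hodd' hx, Finset.card_univ, hh] at h2
    exact Nat.eq_sub_of_add_eq' h2), Finset.sum_const, smul_eq_mul, card_group hZ hab, hh, he,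
    Nat.add_sub_cancel] at h1
  split_ifs with hev
  · rw [show h + 1 - (h + 1) % 2 = h by obtain ⟨k, rfl⟩ := hev; omega] at h1
    exact Nat.eq_of_mul_eq_mul_right (show 0 < h by omega) (by rw [h1]; ring)
  · rw [show h + 1 - (h + 1) % 2 = h + 1 by
      obtain ⟨k, rfl⟩ := Nat.not_even_iff_odd.mp hev; omega] at h1
    exact Nat.eq_of_mul_eq_mul_right (show 0 < h + 1 by omega) (by rw [h1]; ring)

/-- An involution of the kernel is central in it. -/
theorem centralizer_involution (hZ : IsZassenhausGroup G Ω) {a b : Ω} (hab : a ≠ b)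
    (hodd : Odd (Nat.card ↥(stabilizer G a ⊓ stabilizer G b : Subgroup G))) {H : Subgroup G}
    (hHa : H ≤ stabilizer G a) (hHcard : Nat.card H + 1 = Fintype.card Ω)
    (hHfix : ∀ u ∈ H, u ≠ 1 → ∀ c : Ω, u • c = c → c = a) {x : G} (hxH : x ∈ H)
    (hx : orderOf x = 2) : Subgroup.centralizer ({x} : Set G) = H := by
  classical
  have := Fintype.ofFinite G
  have hx1 : x ≠ 1 := by rintro rfl; simp at hx
  apply Subgroup.eq_of_le_of_card_ge (centralizer_le_kernel hZ hHa hHcard hHfix hxH hx1)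
  have hev : Even (Nat.card H) := by
    have h1 := orderOf_dvd_natCard (⟨x, hxH⟩ : H)
    rw [← Subgroup.orderOf_coe] at h1
    exact even_iff_two_dvd.mpr (hx ▸ h1)
  have h1 := card_involutions hZ hab hHcard.symm rfl hodd
  rw [if_pos hev] at h1
  have h2 := ConjCount.card_filter_isConj_mul x
  rw [show ({y : G | IsConj x y} : Finset G) = ({y : G | orderOf y = 2} : Finset G) by
    ext y
    simp only [Finset.mem_filter, Finset.mem_univ, true_and]
    refine ⟨fun h => ?_, fun h => isConj_of_involution hZ hab hodd hx h⟩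
    obtain ⟨g, rfl⟩ := isConj_iff.mp h
    rw [← hx]
    exact (MulAut.conj g).orderOf_eq x, h1, card_group hZ hab, ← hHcard, Nat.add_sub_cancel] at h2
  have h3 : 0 < Nat.card ↥(stabilizer G a ⊓ stabilizer G b : Subgroup G) * (Nat.card H + 1) :=
    Nat.mul_pos Nat.card_pos (Nat.succ_pos _)
  exact (Nat.eq_of_mul_eq_mul_left h3 (by rw [h2]; ring)).ge

end Simple

end Cfsg.Agent.Lib.ZassSimple
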