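import Mathlib
import Cfsg.Agent.Lib.ZFeit1
import Cfsg.Agent.Lib.FTPF6b
import Cfsg.Agent.Lib.FTInst15
import Cfsg.Agent.Lib.Rk1Two
import Cfsg.Agent.Lib.HigThm
import Cfsg.Agent.S0881
import Cfsg.Agent.S0884

/-! Feit's inequality for Zassenhaus groups whose two-point stabilisers have odd order. -/

set_option autoImplicit false
set_option linter.unusedSectionVars false

namespace Cfsg.Agent.Lib.ZFeit

open Subgroup MulAction Cfsg Cfsg.Agent.Lib.FTDefs Cfsg.Agent.Lib.FTCfDefs Cfsg.Agent.Lib.Zassenhaus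
  Cfsg.Agent.Lib.ZassSimple Cfsg.Agent.Lib.Rk1Base Cfsg.Agent.Lib.Rk1K
open scoped ComplexConjugate Classical commutatorElement

theorem ZD.of_comm {G : Type} [Group G] [Finite G] {H L : Subgroup G} (z : ZD H L) (hc : IsMulCommutative H) :
    False := by
  set S := seqInd H L H ⊥
  have hd {ψ : G → ℂ} (h : ψ ∈ S) : ψ 1 = H.relIndex L :=
    seqInd_one_of_der z.nH.1 (comm_iff_der_eq_bot.1 hc).le h
  have e0 : (0 : ℝ) < H.relIndex L := by have := z.one; positivity
  have hN : 1 < S.card := by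
    have h1 := sum_seqInd_sq z.nH z.nH (NormalIn.bot L) le_rfl bot_le
    rw [sup_bot_eq, relIndex_self, relIndex_bot_left, Finset.sum_congr rfl fun ψ hψ => by
      rw [hd hψ, Complex.natCast_re, nrm_irr (z.sirr hψ), div_one], Finset.sum_const, nsmul_eq_mul] at h1
    have lt : (2 * H.relIndex L + 2 : ℝ) ≤ Nat.card H := by exact_mod_cast z.lt
    by_contra! c
    have c : (S.card : ℝ) ≤ 1 := by exact_mod_cast c
    have := mul_le_mul_of_nonneg_right c (sq_nonneg (H.relIndex L : ℝ))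
    simp only [Nat.cast_one] at h1
    nlinarith
  obtain ⟨μ, ε, hε, h1, h2, h3⟩ := isometry_base (L := ⊤) (τ := Ind L ⊤) (S := S)
    (fun _ => z.sirr) hN (fun a ha b hb => by rw [hd ha, hd hb])
    (fun a b ha hb => NormedTI_ip_Ind z.nti (seqInd_cfon z.nH subset_rfl ha) (seqInd_cfon z.nH subset_rfl hb))
    (fun a ha => ⟨(ZS_vchar (fun _ => seqInd_vchar z.nH.1) ha.mem).ind le_top, by
      rw [Ind_one le_top, ha.one, mul_zero]⟩)
  obtain ⟨ζ, hζ⟩ := Finset.card_pos.1 (zero_lt_one.trans hN)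
  refine z.main hζ (hd hζ) (fun a => (ε : ℂ) • μ a) (fun a ha => (irr_dirr (h1 a ha)).sign_smul hε)
    (fun a ha b hb e => by
      rw [ip_smul_left, ip_intCast_smul_right, ip_irr_ne (h1 a ha) (h1 b hb) fun c => e (h2 ha hb c)]; simp)
    fun a ha d e => ?_
  rw [hd ha, hd hζ] at e
  obtain rfl : d = 1 := by
    have : (d : ℂ) = 1 := mul_right_cancel₀ (relIndexC_ne_zero H L) (by rw [← e, one_mul])
    exact_mod_cast this
  simp only [Nat.cast_one, one_smul, h3 a ha ζ hζ, smul_sub]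

section
variable {G Ω : Type*} [Group G] [Finite G] [MulAction G Ω] [Fintype Ω] (hZ : IsZassenhausGroup G Ω) {a b : Ω}
  (hab : a ≠ b) {H : Subgroup G} (hHa : H ≤ stabilizer G a) (hHcard : Nat.card H + 1 = Fintype.card Ω)
  (hHfix : ∀ u ∈ H, u ≠ 1 → ∀ c : Ω, u • c = c → c = a)
include hZ hab hHa hHcard hHfix

theorem frob : Frob (stabilizer G a) H (stabilizer G a ⊓ stabilizer G b) := by
  have h3 := three_le_card hZ
  refine ⟨SDP.of_card_eq ⟨hHa, (normalizer_kernel hZ hHa hHcard hHfix).ge⟩ inf_le_left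
    (eq_bot_iff.2 fun x hx => by_contra fun e => hab (hHfix x hx.1 e b hx.2.2).symm)
    (by rw [card_stab hZ hab, ← hHcard]; simp), fun e => ?_, fun e => ?_, fun x hx x1 => eq_bot_iff.2 fun k hk =>
      eq_one_of_commute hZ hab hHa hHfix hx.1 hx.2 x1 hk.1 (mem_centralizer_singleton_iff.1 hk.2).symm⟩
  · rw [e, card_bot] at hHcard; omega
  · have := one_lt_card_stab2 hZ hab
    rw [e, card_bot] at this; omega

theorem zd [IsSimpleGroup G] (hodd : Odd (Nat.card ↥(stabilizer G a ⊓ stabilizer G b)))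
    (hlt : 2 * Nat.card ↥(stabilizer G a ⊓ stabilizer G b) + 1 < Nat.card H) : ZD H (stabilizer G a) := by
  have f := frob hZ hab hHa hHcard hHfix
  have := Fintype.ofFinite G
  have der : ⁅stabilizer G a, stabilizer G a⁆ ≤ H := f.sdp.der_le.trans (sup_le le_rfl
    ((comm_iff_der_eq_bot.1 ⟨⟨fun x y => Subtype.ext (stab2_comm hZ hab hodd x.2 y.2)⟩⟩).le.trans bot_le))
  refine ⟨f.sdp.normal, fun θ => f.Ind_irr, fun u hu u1 g e => ?_, der, ?_, fun μ hμ e => ?_, ?_, ?_, ?_⟩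
  · rw [mem_stabilizer_iff, mul_smul, mul_smul, smul_eq_iff_eq_inv_smul] at e
    exact (inv_smul_eq_iff.1 (hHfix u hu u1 _ e)).symm
  · have := isPretransitive hZ
    rw [index_stabilizer_of_transitive, hHcard, Nat.card_eq_fintype_card]
  · have l := lin_of_IrrK hμ der
    have := CharBasic.cinner_irr_self (S0881.result hZ hab hodd (by omega) H hHa hHcard hHfix
      (fun x : stabilizer G a => μ x) ⟨l.char.2, l.one⟩ (fun u hu => (irrK_ker hμ u hu).trans l.one)
      fun c => e (eq_of_dn l.supp cf1_supp (c.trans (funext fun x => (cf1_of_mem x.2).symm)))).1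
    rw [show indFun (stabilizer G a) (fun x : stabilizer G a => μ x) = Ind (stabilizer G a) ⊤ μ from
      funext fun g => by
        rw [Ind_apply_of_supp l.supp (mem_top g), sum_fs_top, indFun, ext0_eq l.supp,
          ← Equiv.sum_comp (Equiv.inv G)]
        simp] at this
    exact nrm_eq_one (by rwa [ip, sum_fs_top, card_top])
  · rw [f.sdp.relIndex_left]
    exact S0884.result hZ hab _ _ hHcard.symm rfl hodd (by omega) H hHa hHcard hHfix
  · rwa [f.sdp.relIndex_left]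
  · rw [f.sdp.relIndex_left]; exact one_lt_card_stab2 hZ hab

end

/-- The conclusion. -/
def Concl {G : Type*} [Group G] (H : Subgroup G) (e : ℕ) : Prop := Nat.card H - 1 ≤ 2 * e ∨
  (IsPGroup 2 H ∧ (∃ u v : H, u * v ≠ v * u) ∧ (commutator H).index ≤ 4 * e ^ 2 + 1)

theorem simple {G : Type} {Ω : Type*} [Group G] [Finite G] [MulAction G Ω] [Fintype Ω] [IsSimpleGroup G]
    (hZ : IsZassenhausGroup G Ω) {a b : Ω} (hab : a ≠ b) {H : Subgroup G} (hHa : H ≤ stabilizer G a)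
    (hHcard : Nat.card H + 1 = Fintype.card Ω) (hHfix : ∀ u ∈ H, u ≠ 1 → ∀ c : Ω, u • c = c → c = a)
    (hodd : Odd (Nat.card ↥(stabilizer G a ⊓ stabilizer G b))) :
    Concl H (Nat.card ↥(stabilizer G a ⊓ stabilizer G b)) := by
  refine or_iff_not_imp_left.2 fun hlt => ?_
  have z := zd hZ hab hHa hHcard hHfix hodd (by omega)
  have f := frob hZ hab hHa hHcard hHfix
  have e1 := one_lt_card_stab2 hZ hab
  rcases Nat.even_or_odd (Nat.card H) with ev | od
  · obtain ⟨t, t1, t2⟩ := exists_smul_eq_two hZ hab hab.symm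
    have o := swap_sq hZ hab hodd t1 t2
    subst t1
    have h := Rk1Sub.rs_of_setup (G := G) (a := a) (t := t) (Q := H) ⟨hZ.2.1, by rw [← sq, ← o, pow_orderOf_eq_one],
      fun e => by simp [e] at o, hab.symm, hHa, fun g hg x hx => conj_mem_kernel hZ hHa hHcard hHfix hg hx,
      eq_bot_iff.2 fun x hx => by_contra fun e => hab (hHfix x hx.1 e _ hx.2).symm, f.sdp.sup, ev, hodd⟩
    have h2 : Two H := by
      obtain ⟨s, s1, s2, s3⟩ := h.exists_inv
      obtain ⟨⟨k, hk⟩, k1⟩ := ne_bot_iff_exists_ne_one.1 f.ne_H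
      refine ⟨s, s1, k * s * k⁻¹, h.norm k hk s s1, s2, by simpa using s2, fun e => s2 ?_, s3, by
        rw [conj_mul, s3]; simp⟩
      exact mem_bot.1 (f.reg k hk (fun c => k1 (Subtype.ext c)) ▸ mem_inf.2
        ⟨s1, mem_centralizer_singleton_iff.2 (eq_mul_inv_iff_mul_eq.1 e)⟩)
    have hp := (Rk1Two.main h h2).1
    have na : ¬ HigCoord.Ab H := fun c => z.of_comm ⟨⟨fun x y => Subtype.ext (c _ x.2 _ y.2)⟩⟩
    refine ⟨hp, by_contra fun c => na fun x hx y hy => by_contra fun e => c ⟨⟨x, hx⟩, ⟨y, hy⟩,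
      fun e' => e (congrArg Subtype.val e')⟩, ?_⟩
    have c1 := (commutator H).index_mul_card
    rw [← card_map_of_injective H.subtype_injective, map_subtype_commutator,
      HigThm.commutator_eq (h.hsetQ h2 hp) na, h.card_E] at c1
    have c2 := Subgroup.card_le_of_le h.K_le_D
    have c3 : (commutator H).index ≤ (Nat.card (KK (stabilizer G a ⊓ stabilizer G (t • a)) t) + 1) ^ 2 := by
      refine Nat.le_of_mul_le_mul_right (c1.le.trans ?_) (Nat.succ_pos _)
      rw [← pow_succ]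
      rcases HigThm.card_eq (h.hsetQ h2 hp) na with e | e <;> rw [e]
      exact Nat.pow_le_pow_right (Nat.succ_pos _) (by decide)
    refine c3.trans ((Nat.pow_le_pow_left (Nat.succ_le_succ c2) 2).trans ?_)
    nlinarith
  · obtain ⟨p, hp, hd⟩ := Nat.exists_prime_and_dvd e1.ne'
    haveI := Fact.mk hp
    obtain ⟨x, hx⟩ := exists_prime_orderOf_dvd_card' p hd
    have x1 : (x : G) ≠ 1 := fun e => hp.ne_one (by rw [← hx, show x = 1 from Subtype.ext e, orderOf_one])
    have nil := thompson (K := H) (R := zpowers (x : G)) ((zpowers_le.2 x.2).trans f.sdp.norm)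
      (by rwa [Nat.card_zpowers, orderOf_coe, hx]) (eq_bot_iff.2 ((inf_le_inf_left _
        (centralizer_le (Set.singleton_subset_iff.2 (mem_zpowers _)))).trans (f.reg x x.2 x1).le))
    exact (z.of_coh inferInstance (FTPF6.sibley (by rw [f.sdp.card]; exact od.mul hodd) nil z.nti (.inl f))).elim

theorem Concl.of_equiv {X G : Type*} [Group X] [Group G] {K : Subgroup X} {H : Subgroup G} {d e : ℕ}
    (h : Concl K d) (φ : K ≃* H) (hd : d ≤ e) : Concl H e := by
  refine h.imp (fun a => ?_) fun ⟨a, ⟨u, v, b⟩, c⟩ => ⟨a.of_equiv φ, ⟨φ u, φ v, fun e => b (φ.injective (by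
    rwa [map_mul, map_mul]))⟩, ?_⟩
  · rw [← Nat.card_congr φ.toEquiv]; omega
  · have : (commutator H).index = (commutator K).index := Nat.card_congr φ.symm.abelianizationCongr.toEquiv
    have := Nat.pow_le_pow_left hd 2
    omega

section
variable {G Ω : Type*} [Group G] [Finite G] [MulAction G Ω] [Fintype Ω] (hZ : IsZassenhausGroup G Ω)
include hZ

theorem trans {N : Subgroup G} (hN : N.Normal) (h1 : N ≠ ⊥) (d e : Ω) : ∃ y ∈ N, y • d = e := by
  by_cases h : d = e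
  · exact ⟨1, one_mem _, by rw [h, one_smul]⟩
  obtain ⟨⟨x, hx⟩, x1⟩ := ne_bot_iff_exists_ne_one.1 h1
  obtain ⟨c, hc⟩ : ∃ c : Ω, x • c ≠ c := by_contra fun a => x1 (Subtype.ext (eq_one_of_forall hZ (by simpa using a)))
  obtain ⟨g, g1, g2⟩ := exists_smul_eq_two hZ hc.symm h
  exact ⟨_, hN.conj_mem x hx g, by rw [← g1, mul_smul, inv_smul_smul, mul_smul, g2]⟩

theorem not_reg {K : Subgroup G} (hK : K.Normal) (h1 : K ≠ ⊥) : ∃ x ∈ K, x ≠ 1 ∧ ∃ c : Ω, x • c = c := by
  obtain ⟨c, hc⟩ := hZ.2.2.2.2 K hK ⟨fun d e => by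
    obtain ⟨y, a, b⟩ := trans hZ hK h1 d e
    exact ⟨⟨y, a⟩, b⟩⟩
  obtain ⟨⟨x, hx⟩, x1⟩ := ne_bot_iff_exists_ne_one.1 hc
  exact ⟨x, x.2, fun e => x1 (Subtype.ext (Subtype.ext e)), c, hx⟩

variable {a b : Ω} (hab : a ≠ b) (hodd : Odd (Nat.card ↥(stabilizer G a ⊓ stabilizer G b)))
include hab hodd

theorem cop : (Fintype.card Ω).Coprime (Nat.card (stabilizer G a)) := by
  have := three_le_card hZ
  rw [card_stab hZ hab]
  exact Nat.Coprime.mul_right ((Nat.coprime_self_sub_right (by omega)).2 (by simp)) (coprime_card hZ hab hodd).symm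

theorem fix_two {N : Subgroup G} (hN : N.Normal) (h1 : N ≠ ⊥) : ∃ x ∈ N, x ≠ 1 ∧ x • a = a ∧ x • b = b := by
  by_contra! c
  have key : ∀ x ∈ N, ∀ d e : Ω, d ≠ e → x • d = d → x • e = e → x = 1 := fun x hx d e de h2 h3 => by
    obtain ⟨g, g1, g2⟩ := exists_smul_eq_two hZ de hab
    by_contra x1
    exact c _ (hN.conj_mem x hx g) (by simpa using x1) (by rw [← g1, mul_smul, inv_smul_smul, mul_smul, h2])
      (by rw [← g2, mul_smul, inv_smul_smul, mul_smul, h3])
  obtain ⟨K, -, hK⟩ := CharFrob.exists_frobenius_kernel (stabilizer N a) fun g hg h hh e => by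
    rw [mem_stabilizer_iff, mul_smul, mul_smul, smul_eq_iff_eq_inv_smul] at e
    exact Subtype.ext (key h h.2 a (g⁻¹ • a) (fun q => hg (eq_inv_smul_iff.1 q)) hh e)
  have mem : ∀ x, x ∈ K.map N.subtype ↔ x ∈ N ∧ (x = 1 ∨ ∀ d : Ω, x • d ≠ d) := fun x => by
    refine ⟨?_, fun ⟨h, e⟩ => ⟨⟨x, h⟩, (hK _).2 (e.imp Subtype.ext fun e g q => ?_), rfl⟩⟩
    · rintro ⟨x, hx, rfl⟩
      refine ⟨x.2, ((hK x).1 hx).imp (congrArg Subtype.val) fun e d q => ?_⟩
      obtain ⟨y, y1, y2⟩ := trans hZ hN h1 d a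
      refine e ⟨y, y1⟩ (show (y * x * y⁻¹) • a = a from ?_)
      rw [← y2, mul_smul, inv_smul_smul, mul_smul]
      exact congrArg _ q
    · rw [mem_stabilizer_iff, mul_smul, mul_smul, smul_eq_iff_eq_inv_smul] at q
      exact e _ q
  obtain ⟨x, hx, x1, d, hd⟩ := not_reg hZ (K := K.map N.subtype) ⟨fun x hx g => (mem _).2
    ⟨hN.conj_mem x ((mem x).1 hx).1 g, ((mem x).1 hx).2.imp (by rintro rfl; simp) fun e d q => by
      rw [mul_smul, mul_smul, smul_eq_iff_eq_inv_smul] at q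
      exact e _ q⟩⟩ fun e => by
    have := three_le_card hZ
    obtain ⟨p, hp, hd⟩ := Nat.exists_prime_and_dvd (show Fintype.card Ω ≠ 1 by omega)
    haveI := Fact.mk hp
    haveI : IsPretransitive N Ω := ⟨fun d e => by
      obtain ⟨y, a, b⟩ := trans hZ hN h1 d e
      exact ⟨⟨y, a⟩, b⟩⟩
    obtain ⟨x, hx⟩ := exists_prime_orderOf_dvd_card' (G := N) p (hd.trans (by
      rw [← Nat.card_eq_fintype_card, ← index_stabilizer_of_transitive N a]; exact index_dvd_card _))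
    rw [← orderOf_coe] at hx
    have : (x : G) ∈ K.map N.subtype := (mem _).2 ⟨x.2, .inr fun d q => by
      obtain ⟨g, g1⟩ := (isPretransitive hZ).exists_smul_eq d a
      have := orderOf_dvd_natCard (⟨g * x * g⁻¹, by
        rw [mem_stabilizer_iff, ← g1, mul_smul, inv_smul_smul, mul_smul, q]⟩ : stabilizer G a)
      rw [orderOf_mk, show g * x * g⁻¹ = MulAut.conj g x from rfl, MulEquiv.orderOf_eq, hx] at this
      exact hp.ne_one (Nat.eq_one_of_dvd_coprimes (cop hZ hab hodd) hd this)⟩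
    rw [e, mem_bot] at this
    exact hp.ne_one (by rw [← hx, this, orderOf_one])
  exact ((mem x).1 hx).2.resolve_left x1 d hd

variable {H : Subgroup G} (hHa : H ≤ stabilizer G a) (hHcard : Nat.card H + 1 = Fintype.card Ω)
  (hHfix : ∀ u ∈ H, u ≠ 1 → ∀ c : Ω, u • c = c → c = a)
include hHa hHcard hHfix

theorem ker_le {N : Subgroup G} (hN : N.Normal) (h1 : N ≠ ⊥) : H ≤ N := fun k hk => by
  obtain ⟨x, hx, x1, xa, xb⟩ := fix_two hZ hab hodd hN h1
  obtain ⟨y, e⟩ := Finite.injective_iff_surjective.1 (show Function.Injective fun y : H =>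
    (⟨y * (x * y⁻¹ * x⁻¹), mul_mem y.2 (conj_mem_kernel hZ hHa hHcard hHfix xa (inv_mem y.2))⟩ : H) from
    fun y w e => Subtype.ext (by
      have e : (y : G) * (x * (y : G)⁻¹ * x⁻¹) = w * (x * (w : G)⁻¹ * x⁻¹) := congrArg Subtype.val e
      refine (inv_mul_eq_one.1 (eq_one_of_commute hZ hab hHa hHfix xa xb x1 (mul_mem (inv_mem w.2) y.2) ?_)).symm
      calc x * ((w : G)⁻¹ * y) = (w : G)⁻¹ * (w * (x * (w : G)⁻¹ * x⁻¹)) * x * y := by group
        _ = _ := by rw [← e]; group)) ⟨k, hk⟩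
  rw [← show (y : G) * (x * (y : G)⁻¹ * x⁻¹) = k from congrArg Subtype.val e, ← mul_assoc, ← mul_assoc]
  exact mul_mem (hN.conj_mem x hx y) (inv_mem hx)

theorem red {X : Type*} [Group X] [Finite X] [MulAction X Ω] (f : X →* G) (hf : Function.Injective f)
    (hs : ∀ (x : X) (c : Ω), x • c = f x • c) (hN : f.range.Normal) (h1 : f.range ≠ ⊥)
    (ih : IsZassenhausGroup X Ω → ∀ K : Subgroup X, K ≤ stabilizer X a → Nat.card K + 1 = Fintype.card Ω →
      (∀ u ∈ K, u ≠ 1 → ∀ c : Ω, u • c = c → c = a) → Odd (Nat.card ↥(stabilizer X a ⊓ stabilizer X b)) →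
      Concl K (Nat.card ↥(stabilizer X a ⊓ stabilizer X b))) :
    Concl H (Nat.card ↥(stabilizer G a ⊓ stabilizer G b)) := by
  have le := ker_le hZ hab hodd hHa hHcard hHfix hN h1
  have one : ∀ {x}, f x = 1 → x = 1 := fun e => hf (e.trans (map_one f).symm)
  have two : ∀ c d : Ω, c ≠ d → ∃ x : X, x • a = c ∧ x • b = d := fun c d e => by
    obtain ⟨_, ⟨y, rfl⟩, y1⟩ := trans hZ hN h1 a c
    obtain ⟨g, g1, g2⟩ := exists_smul_eq_two hZ hab (c := a) (d := (f y)⁻¹ • d) fun q => e (by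
      rw [← y1, q, smul_inv_smul])
    obtain ⟨k, hk, u, hu, rfl⟩ := (frob hZ hab hHa hHcard hHfix).sdp.mem_iff.1 g1
    obtain ⟨k, rfl⟩ := le hk
    rw [mul_smul, hu.2] at g2
    exact ⟨y * k, by rw [hs, map_mul, mul_smul, hHa hk, y1], by rw [hs, map_mul, mul_smul, g2, smul_inv_smul]⟩
  have dv : Nat.card ↥(stabilizer X a ⊓ stabilizer X b) ∣ Nat.card ↥(stabilizer G a ⊓ stabilizer G b) :=
    card_dvd_of_injective ((f.comp (stabilizer X a ⊓ stabilizer X b).subtype).codRestrict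
      (stabilizer G a ⊓ stabilizer G b) fun x => ⟨(hs _ a).symm.trans x.2.1, (hs _ b).symm.trans x.2.2⟩)
      fun x y e => Subtype.ext (hf (congrArg Subtype.val e))
  have φ : H.comap f ≃* H := MulEquiv.ofBijective ((f.comp (H.comap f).subtype).codRestrict H fun x => x.2)
    ⟨fun x y e => Subtype.ext (hf (congrArg Subtype.val e)), fun y => by
      obtain ⟨x, e⟩ := le y.2
      exact ⟨⟨x, show f x ∈ H from e ▸ y.2⟩, Subtype.ext e⟩⟩
  refine (ih ⟨⟨fun {x y} e => hf (hZ.1.eq_of_smul_eq_smul fun c => by rw [← hs, ← hs, e])⟩,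
    is_two_pretransitive_iff.2 fun {c d c' d'} e e' => ?_, fun g c d e h2 h3 h4 g1 g2 g3 =>
      one (hZ.2.2.1 _ c d e h2 h3 h4 (hs g c ▸ g1) (hs g d ▸ g2) (hs g e ▸ g3)), ?_, fun K hK tK => ?_⟩
    (H.comap f) (fun x hx => (hs x a).trans (hHa hx)) (by rwa [Nat.card_congr φ.toEquiv])
    (fun u hu u1 c e => hHfix _ hu (mt one u1) c (hs u c ▸ e)) (hodd.of_dvd_nat dv)).of_equiv φ
    (Nat.le_of_dvd Nat.card_pos dv)
  · obtain ⟨x, x1, x2⟩ := two c d e
    obtain ⟨y, y1, y2⟩ := two c' d' e'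
    exact ⟨y * x⁻¹, by rw [← x1, mul_smul, inv_smul_smul, y1], by rw [← x2, mul_smul, inv_smul_smul, y2]⟩
  · obtain ⟨_, ⟨x, rfl⟩, x1, xa, xb⟩ := fix_two hZ hab hodd hN h1
    exact ⟨x, fun e => x1 (by rw [e, map_one]), a, b, hab, (hs x a).trans xa, (hs x b).trans xb⟩
  by_contra! c
  have cK : Nat.card K = Fintype.card Ω := by
    rw [← Nat.card_eq_fintype_card, ← index_stabilizer_of_transitive K a, c a, index_bot]
  have mem : ∀ x, x ∈ K ↔ x ^ Fintype.card Ω = 1 := fun x => ⟨fun h => by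
    rw [← cK]; exact congrArg Subtype.val (pow_card_eq_one' (x := (⟨x, h⟩ : K))), fun h => by
    obtain ⟨y, hy⟩ := tK.exists_smul_eq a (x • a)
    have w : ((y : X)⁻¹ * x) ^ Nat.card (stabilizer G a) = 1 := one (by
      rw [map_pow]
      exact congrArg Subtype.val (pow_card_eq_one' (x := (⟨f ((y : X)⁻¹ * x), by
        rw [mem_stabilizer_iff, ← hs, mul_smul, inv_smul_eq_iff]; exact hy.symm⟩ : stabilizer G a))))
    rw [← QuotientGroup.eq_one_iff]
    refine (pow_eq_one_iff_of_coprime (cop hZ hab hodd)).1 ⟨by rw [← QuotientGroup.mk_pow, h]; rfl, ?_⟩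
    have := congrArg (QuotientGroup.mk' K) w
    rwa [map_pow, map_mul, map_inv, show QuotientGroup.mk' K y = 1 from (QuotientGroup.eq_one_iff _).2 y.2,
      inv_one, one_mul, map_one] at this⟩
  obtain ⟨_, ⟨x, hx, rfl⟩, x1, d, hd⟩ := not_reg hZ (K := K.map f) ⟨by
    rintro _ ⟨x, hx, rfl⟩ g
    obtain ⟨y, e⟩ := hN.conj_mem _ ⟨x, rfl⟩ g
    exact ⟨y, (mem y).2 (one (by rw [map_pow, e, conj_pow, ← map_pow, (mem x).1 hx]; simp)), e⟩⟩ fun e => by
    have := three_le_card hZ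
    rw [(map_eq_bot_iff_of_injective _ hf).1 e, card_bot] at cK
    omega
  have : (⟨x, hx⟩ : K) ∈ stabilizer K d := (hs x d).trans hd
  rw [c d, mem_bot] at this
  exact x1 (by rw [show x = 1 from congrArg Subtype.val this, map_one])

end

theorem small {Ω : Type*} [Fintype Ω] {a b : Ω} (hab : a ≠ b) (n : ℕ) : ∀ (G : Type) [Group G] [Finite G]
    [MulAction G Ω], Nat.card G = n → IsZassenhausGroup G Ω → ∀ H : Subgroup G, H ≤ stabilizer G a →
    Nat.card H + 1 = Fintype.card Ω → (∀ u ∈ H, u ≠ 1 → ∀ c : Ω, u • c = c → c = a) →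
    Odd (Nat.card ↥(stabilizer G a ⊓ stabilizer G b)) → Concl H (Nat.card ↥(stabilizer G a ⊓ stabilizer G b)) := by
  induction n using Nat.strong_induction_on with | _ n ih =>
  intro G _ _ _ hn hZ H h1 h2 h3 h4
  by_cases hs : IsSimpleGroup G
  · exact simple hZ hab h1 h2 h3 h4
  obtain ⟨g, g1, -⟩ := hZ.2.2.2.1
  haveI : Nontrivial G := ⟨g, 1, g1⟩
  obtain ⟨N, a1, a2, a3⟩ : ∃ N : Subgroup G, N.Normal ∧ N ≠ ⊥ ∧ N ≠ ⊤ := by
    by_contra! c
    exact hs ⟨fun N hN => or_iff_not_imp_left.2 (c N hN)⟩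
  refine red hZ hab h4 h1 h2 h3 N.subtype N.subtype_injective (fun _ _ => rfl) (by rwa [range_subtype])
    (by rwa [range_subtype]) (ih _ ?_ N rfl)
  exact hn ▸ (Subgroup.card_le_card_group N).lt_of_ne fun e => a3 (eq_top_of_card_eq N e)

theorem main {G Ω : Type*} [Group G] [Finite G] [MulAction G Ω] [Fintype Ω]
    (hZ : IsZassenhausGroup G Ω) {a b : Ω} (hab : a ≠ b) {H : Subgroup G} (hHa : H ≤ stabilizer G a)
    (hHcard : Nat.card H + 1 = Fintype.card Ω) (hHfix : ∀ u ∈ H, u ≠ 1 → ∀ c : Ω, u • c = c → c = a)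
    (hodd : Odd (Nat.card ↥(stabilizer G a ⊓ stabilizer G b))) :
    Concl H (Nat.card ↥(stabilizer G a ⊓ stabilizer G b)) := by
  obtain ⟨X, _, _, ⟨e⟩⟩ := Rk1Sub.exists_small G
  letI : MulAction X Ω := MulAction.compHom Ω e.toMonoidHom
  have r : e.toMonoidHom.range = ⊤ := MonoidHom.range_eq_top.2 e.surjective
  obtain ⟨g, g1, -⟩ := hZ.2.2.2.1
  haveI : Nontrivial G := ⟨g, 1, g1⟩
  exact red hZ hab hodd hHa hHcard hHfix e.toMonoidHom e.injective (fun _ _ => rfl) (r ▸ inferInstance)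
    (r ▸ top_ne_bot) (small hab _ X rfl)

end Cfsg.Agent.Lib.ZFeit
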