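import Cfsg.Agent.Lib.FSection
import Cfsg.Agent.Lib.WeakClosed

/-!
Glauberman's sufficient condition for stability: the structure of `N(Z(J(S)))` when `Z(J(S))` does not
control strong fusion.
-/

set_option autoImplicit false

namespace Cfsg.Agent.Lib.ZJFail

open Subgroup Cfsg Cfsg.Agent.Lib.PCoreConj Cfsg.Agent.Lib.PCore Cfsg.Agent.Lib.PCoreResidual
open Cfsg.Agent.Lib.PCoreMod Cfsg.Agent.Lib.ZJ Cfsg.Agent.Lib.Sections Cfsg.Agent.Lib.QuadPair
open Cfsg.Agent.Lib.ThompsonJ Cfsg.Agent.Lib.FusionControl Cfsg.Agent.Lib.FSection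
open Cfsg.Agent.Lib.TransferAlperin (IsExtremal IsCentricRadical InducedBy)
open scoped Pointwise commutatorElement

universe u

local notation "C(" X ")" => centralizer (SetLike.coe (X : Subgroup _))
local notation "N(" X ")" => normalizer (SetLike.coe (X : Subgroup _))

/-- the conclusion -/
def Con (p m : ℕ) [Fact p.Prime] {G : Type*} [Group G] (Y M : Subgroup G) : Prop :=
  (∃ c ∈ Y, c ≠ 1 ∧ ∃ t ∈ M, t * c * t⁻¹ = c ^ m) ∧ Involves (fOver (ZMod p)) M

variable {p m : ℕ} [hp : Fact p.Prime]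

theorem Con.mono {G : Type*} [Group G] {Y M Y' M' : Subgroup G} (h : Con p m Y M) (h1 : Y ≤ Y') (h2 : M ≤ M') :
    Con p m Y' M' :=
  ⟨by obtain ⟨c, hc, c1, t, ht, e⟩ := h.1; exact ⟨c, h1 hc, c1, t, h2 ht, e⟩, involves_of_le h2 h.2⟩

theorem Con.of_subgroupOf {G : Type*} [Group G] {Y M L : Subgroup G}
    (h : Con p m (Y.subgroupOf L) (M.subgroupOf L)) : Con p m Y M :=
  ⟨by
    obtain ⟨c, hc, c1, t, ht, e⟩ := h.1
    exact ⟨c, hc, fun e => c1 (Subtype.ext e), t, ht, congrArg Subtype.val e⟩, involves_subgroupOf h.2⟩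

theorem Con.of_map {G H : Type*} [Group G] [Finite G] [Group H] {Y M : Subgroup G} (f : G →* H)
    (hY : ∀ u ∈ Y, ∀ v ∈ Y, u * v = v * u) (hM : M ≤ N(Y)) (h : Con p m (Y.map f) (M.map f)) :
    Con p m Y M := by
  refine ⟨?_, involves_of_map h.2⟩
  obtain ⟨_, ⟨c, hc, rfl⟩, c1, _, ⟨t, ht, rfl⟩, e⟩ := h.1
  set X := Y ⊓ (zpowers (f c)).comap f
  have k : ∀ u ∈ X, f (t * u * t⁻¹ * (u ^ m)⁻¹) = 1 := by
    rintro u ⟨-, j, hj⟩
    simp only [map_mul, map_inv, map_pow, ← show f c ^ j = f u from hj]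
    rw [← conj_zpow, e, ← zpow_natCast, ← zpow_natCast, ← zpow_mul, ← zpow_mul, mul_comm j, mul_inv_cancel]
  have mY : ∀ u ∈ Y, t * u * t⁻¹ ∈ Y := fun u hu => (mem_normalizer_iff.mp (hM ht) u).mp hu
  let θ : X →* X := MonoidHom.mk' (fun u => ⟨t * u * t⁻¹ * ((u : G) ^ m)⁻¹,
    mem_inf.mpr ⟨mul_mem (mY u u.2.1) (inv_mem (pow_mem u.2.1 m)), by
      rw [mem_comap, k u u.2]; exact one_mem _⟩⟩) fun a b => Subtype.ext (by
    have e1 : Commute (a : G) b := hY _ a.2.1 _ b.2.1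
    have e2 := hY _ (inv_mem (pow_mem a.2.1 m)) _ (mul_mem (mY b b.2.1) (inv_mem (pow_mem b.2.1 m)))
    simp only [coe_mul]
    rw [e1.mul_pow, mul_assoc _ ((a : G) ^ m)⁻¹, e2]; group)
  by_contra hn
  push Not at hn
  obtain ⟨u, hu⟩ := Finite.injective_iff_surjective.mp ((injective_iff_map_eq_one θ).mpr fun u hu => by
    by_contra h1
    exact hn u u.2.1 (fun e => h1 (Subtype.ext e)) t ht (mul_inv_eq_one.mp (congrArg Subtype.val hu)))
    ⟨c, hc, mem_zpowers _⟩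
  exact c1 (by rw [← k u u.2]; exact congrArg (fun x : X => f x) hu.symm)

omit hp in
theorem exists_range {G : Type*} [Group G] [Finite G] {W : Subgroup G} (hW : ∀ u ∈ W, ∀ v ∈ W, u * v = v * u)
    {x : G} (hx : x ∈ N(W)) (hq : Quad W x) : ∃ R : Subgroup G, R ≤ W ⊓ centralizer {x} ∧
      R ≤ ⁅W, zpowers x⁆ ∧ Nat.card W = Nat.card ↥(W ⊓ centralizer {x}) * Nat.card R := by
  have m : ∀ u ∈ W, x * u * x⁻¹ ∈ W := fun u hu => (mem_normalizer_iff.mp hx u).mp hu
  let φ : W →* G := MonoidHom.mk' (fun u => ⁅x, (u : G)⁆) fun a b => by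
    have e2 := hW _ (inv_mem a.2) _ (mul_mem (m b b.2) (inv_mem b.2))
    simp only [coe_mul, commutatorElement_def]
    rw [mul_assoc _ (a : G)⁻¹, e2]; group
  refine ⟨φ.range, ?_, ?_, ?_⟩
  · rintro _ ⟨u, rfl⟩
    exact mem_inf.mpr ⟨mul_mem (m u u.2) (inv_mem u.2), mem_centralizer_singleton_iff.mpr
      (mul_inv_eq_iff_eq_mul.mp (conj_commutator_of_quad hq u.2)).symm⟩
  · rintro _ ⟨u, rfl⟩
    rw [commutator_comm]
    exact commutator_mem_commutator (mem_zpowers x) u.2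
  · rw [← index_ker, ← φ.ker.card_mul_index, inf_comm, ← SolvBasic.card_subgroupOf']
    congr 3
    ext u
    rw [MonoidHom.mem_ker, mem_subgroupOf, mem_centralizer_singleton_iff]
    exact commutatorElement_eq_one_iff_mul_comm.trans eq_comm

omit hp in
theorem le_commutator_pair {G : Type*} [Group G] [Finite G] {W : Subgroup G}
    (hW : ∀ u ∈ W, ∀ v ∈ W, u * v = v * u) {x y : G} (hx : x ∈ N(W)) (hy : y ∈ N(W)) (qx : Quad W x)
    (qy : Quad W y) (h : (W ⊓ centralizer {x}) ⊓ (W ⊓ centralizer {y}) = ⊥) : W ≤ ⁅W, closure {x, y}⁆ := by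
  obtain ⟨R, r1, r2, r3⟩ := exists_range hW hx qx
  obtain ⟨R', s1, s2, s3⟩ := exists_range hW hy qy
  have hWW : ∀ {X Y : Subgroup G}, X ≤ W → Y ≤ W → X ≤ N(Y) := fun hX hY =>
    le_normalizer_of_le_centralizer fun x hx y hy => hW y (hY hy) x (hX hx)
  have c1 := card_sup_mul_card_inf (hWW (inf_le_left : W ⊓ centralizer {x} ≤ W) (inf_le_left : W ⊓ centralizer {y} ≤ W))
  have c2 := card_sup_mul_card_inf (hWW (r1.trans inf_le_left) (s1.trans inf_le_left))
  rw [h, card_bot, mul_one] at c1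
  rw [le_bot_iff.mp ((inf_le_inf r1 s1).trans h.le), card_bot, mul_one] at c2
  have c3 := card_le_of_le (sup_le inf_le_left inf_le_left : (W ⊓ centralizer {x}) ⊔ (W ⊓ centralizer {y}) ≤ W)
  rw [c1, s3, mul_comm] at c3
  have c4 := Nat.le_of_mul_le_mul_left c3 Nat.card_pos
  refine (eq_of_le_of_card_le (sup_le (r1.trans inf_le_left) (s1.trans inf_le_left)) ?_).ge.trans
    (sup_le (r2.trans (commutator_mono le_rfl (zpowers_le.mpr (subset_closure (by simp)))))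
      (s2.trans (commutator_mono le_rfl (zpowers_le.mpr (subset_closure (by simp))))))
  rw [c2, r3, mul_comm]
  exact Nat.mul_le_mul_left _ c4

variable (hp2 : p ≠ 2) (hm : ∀ μ : ZMod p, μ ≠ 0 → ∃ k, (m : ZMod p) ^ k = μ) (hm0 : (m : ZMod p) ≠ 0)
include hp2 hm hm0

theorem pair (G : Type u) [Group G] [Finite G] : ∀ (B Y M : Subgroup G) (x y : G),
    (∀ u ∈ B, ∀ v ∈ B, u * v = v * u) → IsPGroup p B → IsPGroup p (zpowers x) → x ∈ N(B) → y ∈ N(B) →
    Quad B x → Quad B y → (∀ W ≤ B, closure {x, y} ≤ N(W) → W ≤ ⁅W, closure {x, y}⁆) →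
    Y ≤ B ⊓ centralizer {x} → Y ≠ ⊥ → M ≤ N(Y) → B ≤ M →
    (∀ P : Subgroup G, IsPGroup p P → x ∈ P → N(P) ≤ M) → Con p m Y M := by
  refine SolvBasic.card_induction (P := fun G _ _ => ∀ (B Y M : Subgroup G) (x y : G),
    (∀ u ∈ B, ∀ v ∈ B, u * v = v * u) → IsPGroup p B → IsPGroup p (zpowers x) → x ∈ N(B) → y ∈ N(B) →
    Quad B x → Quad B y → (∀ W ≤ B, closure {x, y} ≤ N(W) → W ≤ ⁅W, closure {x, y}⁆) →
    Y ≤ B ⊓ centralizer {x} → Y ≠ ⊥ → M ≤ N(Y) → B ≤ M →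
    (∀ P : Subgroup G, IsPGroup p P → x ∈ P → N(P) ≤ M) → Con p m Y M) ?_ G
  intro G _ _ ih B Y M x y hc hB hxp hx hy qx qy hs hY hY0 hM hBM hN
  set H := closure ({x, y} : Set G) with hH
  have hHB : H ≤ N(B) := (closure_le _).mpr (by rintro g (rfl | rfl); exacts [hx, hy])
  have hYB : Y ≤ B := hY.trans inf_le_left
  by_cases hL : B ⊔ H = ⊤; swap
  · set L := B ⊔ H
    let x' : L := ⟨x, mem_sup_right (subset_closure (by simp))⟩
    let y' : L := ⟨y, mem_sup_right (subset_closure (by simp))⟩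
    have e : (closure {x', y'}).map L.subtype = H := by
      rw [MonoidHom.map_closure, Set.image_pair]; rfl
    refine (ih L (SolvBasic.card_lt_of_ne_top hL) (B.subgroupOf L) (Y.subgroupOf L) (M.subgroupOf L) x' y'
      (fun u hu v hv => Subtype.ext (hc u hu v hv)) (isPGroup_subgroupOf hB L)
      (isPGroup_map_subtype_iff.mp (by rwa [MonoidHom.map_zpowers]))
      (le_normalizer_subgroupOf le_rfl L hx) (le_normalizer_subgroupOf le_rfl L hy) (quad_subgroupOf qx)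
      (quad_subgroupOf qy) (fun W h1 h2 => ?_) (fun u hu => ⟨hYB hu, mem_centralizer_singleton_iff.mpr
        (Subtype.ext (mem_centralizer_singleton_iff.mp (hY hu).2))⟩)
      (fun h => hY0 (by rw [← subgroupOf_map_subtype_of_le (hYB.trans (le_sup_left : B ≤ L)), h, Subgroup.map_bot]))
      (le_normalizer_subgroupOf hM L) (comap_mono hBM) fun P h1 h2 => ?_).of_subgroupOf
    · rw [← map_le_map_iff_of_injective L.subtype_injective, map_commutator, e]
      exact hs _ (map_le_iff_le_comap.mpr h1) (e ▸ le_normalizer_map _ h2)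
    · rw [normalizer_eq_subgroupOf]
      exact comap_mono (hN _ (h1.map _) (mem_map_of_mem _ h2))
  have hBn : B.Normal := normal_iff_top_le.mpr (hL ▸ sup_le le_normalizer hHB)
  obtain ⟨V, hV, hVB⟩ := SolvBasic.exists_minNormal_le B fun e => hY0 (le_bot_iff.mp (e ▸ hYB))
  have := hV.normal
  have hVp : IsPGroup p V := hB.to_le hVB
  by_cases h0 : Y ⊓ V = ⊥
  · set f := QuotientGroup.mk' V
    have hf : Function.Surjective f := QuotientGroup.mk'_surjective V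
    have e : closure {f x, f y} = H.map f := by rw [MonoidHom.map_closure, Set.image_pair]
    refine Con.of_map f (fun u hu v hv => hc u (hYB hu) v (hYB hv)) hM
      (ih _ (SolvBasic.card_quotient_lt hV.ne_bot) (B.map f) (Y.map f) (M.map f) (f x) (f y)
      (by rintro _ ⟨u, hu, rfl⟩ _ ⟨v, hv, rfl⟩; rw [← map_mul, ← map_mul, hc u hu v hv]) (hB.map f)
      (MonoidHom.map_zpowers f x ▸ hxp.map f) (le_normalizer_map f le_rfl (mem_map_of_mem f hx))
      (le_normalizer_map f le_rfl (mem_map_of_mem f hy)) (qx.map f) (qy.map f) (fun W h1 h2 => ?_) ?_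
      (fun h => hY0 (by rw [← h0, inf_eq_left.mpr ((SolvBasic.map_mk_eq_bot_iff V Y).mp h)]))
      (le_normalizer_map f hM) (map_mono hBM) fun P h1 h2 => ?_)
    · rw [e] at h2 ⊢
      rw [← map_comap_eq_self_of_surjective hf W, ← map_commutator]
      refine map_mono (hs _ ((comap_mono h1).trans ?_) ((le_comap_map f H).trans (le_normalizer_comap f h2)))
      rw [SolvBasic.comap_map_mk]; exact sup_le le_rfl hVB
    · rintro _ ⟨u, hu, rfl⟩
      exact ⟨mem_map_of_mem f (hYB hu), mem_centralizer_singleton_iff.mpr (by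
        rw [← map_mul, ← map_mul, mem_centralizer_singleton_iff.mp (hY hu).2])⟩
    · rw [← map_comap_eq_self_of_surjective hf N(P)]
      exact map_mono ((le_normalizer_comap f le_rfl).trans
        (hN _ (h1.comap_of_ker_isPGroup f (by rwa [QuotientGroup.ker_mk'])) h2))
  obtain ⟨⟨t, ht, ht'⟩, h2⟩ := irr hp2 hm hm0 (isMulCommutative_iff_forall.mpr fun u hu v hv =>
    hc u (hVB hu) v (hVB hv)) hVp hxp (qx.mono hVB) (qy.mono hVB) (fun W hW h1 h2 => by
      have : W.Normal := normal_iff_top_le.mpr (hL ▸ sup_le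
        (le_normalizer_of_le_centralizer fun b hb w hw => hc w (hVB (hW hw)) b hb)
        ((closure_le _).mpr (by rintro g (rfl | rfl); exacts [h1, h2])))
      have := hV.inf_eq W
      rw [inf_eq_right.mpr hW] at this
      exact this.imp_right (le_antisymm hW))
    (fun h => hV.ne_bot (le_bot_iff.mp ((hs V hVB le_normalizer_of_normal).trans
      (commutator_eq_bot_iff_le_centralizer'.mpr h).le))) hN (hVB.trans hBM)
  obtain ⟨⟨c, hc⟩, c1⟩ := (ne_bot_iff_exists_ne_one.mp h0)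
  exact ⟨⟨c, hc.1, fun e => c1 (Subtype.ext e), t, ht, ht' c ⟨hc.2, (hY hc.1).2⟩⟩, h2⟩

omit hp2 hm hm0 in
theorem exists_sylow {G : Type*} [Group G] [Finite G] {A M : Subgroup G} (hAp : IsPGroup p A) (hA : A ≤ M)
    (hu : ∀ g, A ≤ M ^ᶜ g → g ∈ M) : ∃ P, IsSylowIn p P ⊤ ∧ A ≤ P ∧ P ≤ M := by
  obtain ⟨P, hP, hAP⟩ := exists_isSylowIn_ge hA hAp
  refine ⟨P, IsSylowIn.of_inf_normalizer (hP.of_le (le_inf le_top le_normalizer) fun g hg => hu g ?_), hAP, hP.le⟩
  exact hAP.trans ((conj_eq_of_mem_normalizer hg.2).ge.trans (conj_mono g hP.le))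

theorem config_min' {G : Type u} [Group G] [Finite G] {V A Y M : Subgroup G} [hVn : V.Normal]
    (hV : ∀ u ∈ V, ∀ v ∈ V, u * v = v * u) (hVp : IsPGroup p V) (hAp : IsPGroup p A)
    (hq : ⁅V, A⁆ ≤ C(A)) (hY : Y ≤ V ⊓ C(A)) (hY0 : Y ≠ ⊥) (hM : M ≤ N(Y)) (hAM : A ⊔ V ≤ M) (hMt : M ≠ ⊤)
    (hu : ∀ g, A ≤ M ^ᶜ g → g ∈ M) (hmin : ∀ K : Subgroup G, A ⊔ V ≤ K → K ≠ ⊤ → K ≤ M)
    (hfix : ∀ w ∈ V, (∀ g, g * w * g⁻¹ = w) → w = 1) : Con p m Y M := by
  obtain ⟨P, hP, hAP, hPM⟩ := exists_sylow hAp (le_sup_left.trans hAM) hu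
  have hVP : V ≤ P := hP.le_of_le_normalizer' le_top hVp le_normalizer_of_normal
  have hYV : Y ≤ V := hY.trans inf_le_left
  obtain ⟨z, hzY, hzP, hz1, -⟩ := exists_mem_centralizer_pow_eq_one hP.isPGroup (hVp.to_le hYV) (hPM.trans hM) hY0
  set W := nclIn (zpowers z) ⊤
  have hWn : W.Normal := normal_iff_top_le.mpr (le_normalizer_nclIn _ _)
  have hWV : W ≤ V := nclIn_le (zpowers_le.mpr (hYV hzY)) le_normalizer_of_normal
  have hzW : z ∈ W := le_nclIn _ _ (mem_zpowers z)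
  have hW : ∀ u ∈ W, ∀ v ∈ W, u * v = v * u := fun u hu v hv => hV u (hWV hu) v (hWV hv)
  have hVW : V ≤ C(W) := fun v hv w hw => hV w (hWV hw) v hv
  have hWp := hVp.to_le hWV
  have hqW : ⁅W, A⁆ ≤ C(A) := (commutator_mono hWV le_rfl).trans hq
  have hfixW : ∀ w ∈ W, (∀ g, g * w * g⁻¹ = w) → w = 1 := fun w hw => hfix w (hWV hw)
  have hcom : W ≤ ⁅W, (⊤ : Subgroup G)⁆ := by
    refine nclIn_le (zpowers_le.mpr ?_) le_normalizer_of_normal
    refine (sup_le (fun w hw => ?_) (commutator_mono le_rfl le_top) : _ ≤ ⁅W, (⊤ : Subgroup G)⁆)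
      (inf_centralizer_le_sup_commutator (isMulCommutative_iff_forall.mpr hW) hWp le_normalizer_of_normal hP
        ⟨hzW, hzP⟩)
    rw [hfixW w hw.1 fun g => mul_inv_eq_iff_eq_mul.mpr (hw.2 g (mem_top g))]
    exact one_mem _
  have gen : ∀ (K : Subgroup G) (l : G), ¬ K ≤ M ^ᶜ l → K ⊔ A ^ᶜ l ⊔ C(W) = ⊤ := fun K l hK => by
    by_contra hn
    have h1 : (A ⊔ V) ^ᶜ l ≤ K ⊔ A ^ᶜ l ⊔ C(W) := by
      rw [conj_sup, conj_eq_of_normal V]
      exact sup_le (le_sup_right.trans le_sup_left) (hVW.trans le_sup_right)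
    have h2 := hmin _ (conj_le_iff_le_conj_inv.mp h1) fun e => hn (conj_eq_top_iff.mp e)
    exact hK (le_sup_left.trans (le_sup_left.trans (le_conj_iff_conj_inv_le.mpr h2)))
  have hgen : ∀ a ∈ A, a ∉ C(W) → ∃ l, zpowers a ⊔ A ^ᶜ l ⊔ C(W) = ⊤ := fun a ha hn => by
    by_contra hc
    push Not at hc
    set K := M.normalCore
    have haN : a ∈ K := fun b => by
      have h1 : zpowers a ≤ M ^ᶜ b⁻¹ := not_not.mp fun e => hc _ (gen _ _ e)
      simpa using mem_conj_iff.mp (h1 (mem_zpowers a))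
    have hPN := hP.inf_normal (N := K) le_top le_normalizer_of_normal
    have hn' : P ≤ N(P ⊓ K) := le_normalizer_inf le_normalizer le_normalizer_of_normal
    have h2 : N(P ⊓ K) = ⊤ := by
      by_contra e
      exact hMt (top_le_iff.mp (hPN.frattini_top.ge.trans (sup_le (normalCore_le _)
        (hmin _ ((sup_le hAP hVP).trans hn') e))))
    have h3 : W ≤ C(P ⊓ K) := nclIn_le_centralizer h2.ge
      (zpowers_le.mpr (centralizer_anti inf_le_left hzP))
    exact hn (le_centralizer_iff.mp h3 ⟨hAP ha, haN⟩)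
  have dis : ∀ l ∉ M, (W ⊓ C(A)) ⊓ C(A ^ᶜ l) = ⊥ := fun l hl =>
    (WeakClosed.split hW hqW hfixW hcom le_rfl (gen A l fun h => hl (hu l h))).2.1
  obtain ⟨l, -, hl⟩ := SetLike.not_le_iff_exists.mp (fun h => hMt (top_le_iff.mp h))
  have hYl : ∀ l, (Y ⊓ W) ^ᶜ l ≤ W ⊓ C(A ^ᶜ l) := fun l => le_inf (conj_le_of_normal inf_le_right l)
    (conj_centralizer A l ▸ conj_mono l (inf_le_left.trans (hY.trans inf_le_right)))
  have hYW : Y ⊓ W ≠ ⊥ := fun h => hz1 (mem_bot.mp (h.le ⟨hzY, hzW⟩))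
  obtain ⟨a, ha, haW⟩ : ∃ a ∈ A, a ∉ C(W) := by
    by_contra hc
    push Not at hc
    refine hYW ((conj_eq_bot_iff (g := l)).mp (le_bot_iff.mp (le_trans ?_ (dis l hl).le)))
    exact le_inf (le_inf ((hYl l).trans inf_le_left) (((hYl l).trans inf_le_left).trans
      (le_centralizer_iff.mp (show A ≤ C(W) from hc)))) ((hYl l).trans inf_le_right)
  obtain ⟨l', hl'⟩ := hgen a ha haW
  have hCa : W ⊓ centralizer {a} ≤ C(A) := by
    have := (WeakClosed.split hW hqW hfixW hcom (zpowers_le.mpr ha) hl').1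
    rwa [zpowers_eq_closure, centralizer_closure] at this
  have hap : IsPGroup p (zpowers a) := hAp.to_le (zpowers_le.mpr ha)
  have hMW : M ≤ N(Y ⊓ W) := le_normalizer_inf hM le_normalizer_of_normal
  have uniq : ∀ g, a ∈ M ^ᶜ g → g ∈ M := fun g hg => by
    by_contra hn
    refine inf_centralizer_ne_bot hap (isPGroup_conj (hWp.to_le inf_le_right) g)
      ((zpowers_le.mpr hg).trans (le_normalizer_conj hMW g)) (fun h => hYW (conj_eq_bot_iff.mp h))
      (le_bot_iff.mp (le_trans ?_ (dis g hn).le))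
    rw [zpowers_eq_closure, centralizer_closure]
    exact le_inf (le_inf (inf_le_left.trans ((hYl g).trans inf_le_left))
      ((inf_le_inf_right _ ((hYl g).trans inf_le_left)).trans hCa)) (inf_le_left.trans ((hYl g).trans inf_le_right))
  have qa : Quad W a := Quad.of_le (commutator_eq_bot_iff_le_centralizer.mpr hqW) ha
  have qb : Quad W (l * a * l⁻¹) := by
    have := qa.map (MulAut.conj l).toMonoidHom
    rwa [conj_eq_of_normal W] at this
  refine (pair hp2 hm hm0 G W (Y ⊓ W) M a (l * a * l⁻¹) hW hWp hap (le_normalizer_of_normal (mem_top _))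
    (le_normalizer_of_normal (mem_top _)) qa qb (fun X hX h => le_commutator_pair
      (fun u hu v hv => hW u (hX hu) v (hX hv)) (h (subset_closure (by simp))) (h (subset_closure (by simp)))
      (qa.mono hX) (qb.mono hX) (le_bot_iff.mp (le_trans ?_ (dis l hl).le)))
    (le_inf inf_le_right fun u hu => mem_centralizer_singleton_iff.mpr ((hY hu.1).2 a ha).symm) hYW hMW
    (hWV.trans (le_sup_right.trans hAM)) fun Q hQ haQ n hn => ?_).mono inf_le_left le_rfl
  · refine le_inf (inf_le_left.trans (le_inf (inf_le_left.trans hX) ((inf_le_inf_right _ hX).trans hCa)))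
      (inf_le_right.trans ((inf_le_inf_right _ hX).trans ?_))
    have := conj_mono l hCa
    rwa [conj_inf, conj_eq_of_normal W, conj_centralizer_singleton, conj_centralizer] at this
  · obtain ⟨g, -, hg⟩ := hP.exists_conj_le le_top hQ
    have h1 : Q ≤ M ^ᶜ g⁻¹ := conj_le_iff_le_conj_inv.mp (hg.trans hPM)
    rw [conj_eq_of_mem (uniq _ (h1 haQ))] at h1
    exact uniq n (conj_mono n h1 ((conj_eq_of_mem_normalizer hn).ge haQ))

theorem config_min {G : Type u} [Group G] [Finite G] {V A Y M : Subgroup G} [hVn : V.Normal]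
    (hV : ∀ u ∈ V, ∀ v ∈ V, u * v = v * u) (hVp : IsPGroup p V) (hAp : IsPGroup p A)
    (hq : ⁅V, A⁆ ≤ C(A)) (hY : Y ≤ V ⊓ C(A)) (hM : M ≤ N(Y)) (hAM : A ⊔ V ≤ M) (hYn : N(Y) ≠ ⊤)
    (hu : ∀ g, A ≤ M ^ᶜ g → g ∈ M) (hmin : ∀ K : Subgroup G, A ⊔ V ≤ K → K ≠ ⊤ → K ≤ M) : Con p m Y M := by
  obtain ⟨P, hP, -, hPM⟩ := exists_sylow hAp (le_sup_left.trans hAM) hu
  set D := V ⊓ C(pResidual p G)
  have hDn : D.Normal := inferInstance
  set π := QuotientGroup.mk' D
  have hπ : Function.Surjective π := QuotientGroup.mk'_surjective D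
  have hDM : D ≤ M := inf_le_left.trans (le_sup_right.trans hAM)
  have cm : ∀ g, (M.map π ^ᶜ π g).comap π = M ^ᶜ g := fun g => by
    rw [← map_conj, SolvBasic.comap_map_mk, sup_eq_left, le_conj_iff_conj_inv_le, conj_eq_of_normal]
    exact hDM
  have := hVn.map π hπ
  refine Con.of_map π (fun u hu v hv => hV u (hY hu).1 v (hY hv).1) hM (config_min' hp2 hm hm0
    (V := V.map π) (A := A.map π)
    (by rintro _ ⟨u, hu, rfl⟩ _ ⟨v, hv, rfl⟩; rw [← map_mul, ← map_mul, hV u hu v hv]) (hVp.map π) (hAp.map π)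
    (by rw [← map_commutator]; exact (map_mono hq).trans (map_centralizer_le π A))
    (le_inf (map_mono (hY.trans inf_le_left)) ((map_mono (hY.trans inf_le_right)).trans (map_centralizer_le π A)))
    (fun h => hYn (top_le_iff.mp ((pResidualOf_sup_of_isSylowIn hP).ge.trans (sup_le ?_ (hPM.trans hM)))))
    (le_normalizer_map π hM) (by rw [← Subgroup.map_sup]; exact map_mono hAM)
    (fun h => hYn (top_le_iff.mp (le_trans ?_ hM))) (fun g hg => ?_) (fun K h1 h2 => ?_) ?_)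
  · rw [pResidualOf_top]
    exact le_normalizer_of_le_centralizer (le_centralizer_iff.mp
      (((SolvBasic.map_mk_eq_bot_iff D Y).mp h).trans inf_le_right))
  · exact ((SolvBasic.map_mk_eq_top_iff D M).mp h).ge.trans (sup_le le_rfl hDM)
  · obtain ⟨g, rfl⟩ := hπ g
    exact mem_map_of_mem π (hu g (cm g ▸ map_le_iff_le_comap.mp hg))
  · rw [← map_comap_eq_self_of_surjective hπ K]
    refine map_mono (hmin _ (map_le_iff_le_comap.mp (by rwa [Subgroup.map_sup])) fun e => h2 ?_)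
    rw [← map_comap_eq_self_of_surjective hπ K, e, map_top_of_surjective _ hπ]
  · rintro _ ⟨w, hw, rfl⟩ hc
    refine (QuotientGroup.eq_one_iff w).mpr ⟨hw, ?_⟩
    have h0 : ⁅D ⊔ zpowers w, pResidualOf p (pResidual p G)⁆ ≤ D := commutator_le.mpr fun u hu g _ => by
      have : D ⊔ zpowers w ≤ (centralizer {π g}).comap π :=
        sup_le (fun d hd => by
          rw [mem_comap, show π d = 1 from (QuotientGroup.eq_one_iff d).mpr hd]; exact one_mem _)
          (zpowers_le.mpr (mem_centralizer_singleton_iff.mpr (mul_inv_eq_iff_eq_mul.mp (hc (π g))).symm))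
      refine (QuotientGroup.eq_one_iff _).mp (show π _ = 1 from ?_)
      rw [map_commutatorElement, commutatorElement_eq_one_iff_mul_comm]
      exact mem_centralizer_singleton_iff.mp (this hu)
    have h1 : pResidualOf p (pResidual p G) ≤ C(D ⊔ zpowers w) := by
      refine pResidualOf_le_centralizer_of_le (N := D) (hVp.to_le (sup_le inf_le_left (zpowers_le.mpr hw)))
        (le_normalizer_of_commutator_le (h0.trans le_sup_left)) h0 ?_
      rw [pResidualOf_pResidual]; exact le_centralizer_iff.mp inf_le_right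
    rw [pResidualOf_pResidual] at h1
    exact le_centralizer_iff.mp h1 (mem_sup_right (mem_zpowers w))

theorem config (G : Type u) [Group G] [Finite G] : ∀ (V A Y : Subgroup G), V.Normal →
    (∀ u ∈ V, ∀ v ∈ V, u * v = v * u) → IsPGroup p V → IsPGroup p A → ⁅V, A⁆ ≤ C(A) → Y ≤ V ⊓ C(A) →
    (∀ g, A ≤ N(Y) ^ᶜ g → g ∈ N(Y)) → N(Y) ≠ ⊤ → Con p m Y N(Y) := by
  refine SolvBasic.card_induction (P := fun G _ _ => ∀ (V A Y : Subgroup G), V.Normal →
    (∀ u ∈ V, ∀ v ∈ V, u * v = v * u) → IsPGroup p V → IsPGroup p A → ⁅V, A⁆ ≤ C(A) → Y ≤ V ⊓ C(A) →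
    (∀ g, A ≤ N(Y) ^ᶜ g → g ∈ N(Y)) → N(Y) ≠ ⊤ → Con p m Y N(Y)) ?_ G
  intro G _ _ ih V A Y hVn hV hVp hAp hq hY hu hYn
  have hYV : Y ≤ V := hY.trans inf_le_left
  have hAM : A ⊔ V ≤ N(Y) := le_normalizer_of_le_centralizer (sup_le
    (le_centralizer_iff.mp (hY.trans inf_le_right)) fun v hv y hy => hV y (hYV hy) v hv)
  by_contra hc
  refine hc (config_min hp2 hm hm0 hV hVp hAp hq hY le_rfl hAM hYn hu fun L hL hLt => ?_)
  by_contra hn
  have hAL : A ≤ L := le_sup_left.trans hL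
  have hVL : V ≤ L := le_sup_right.trans hL
  have e := subgroupOf_normalizer_eq (hYV.trans hVL)
  refine hc (Con.of_subgroupOf (L := L) (e ▸ ih L (SolvBasic.card_lt_of_ne_top hLt) (V.subgroupOf L)
    (A.subgroupOf L) (Y.subgroupOf L) inferInstance
    (fun u hu v hv => Subtype.ext (hV u hu v hv)) (isPGroup_subgroupOf hVp L) (isPGroup_subgroupOf hAp L)
    (by rw [centralizer_subgroupOf hAL]
        exact commutator_le.mpr fun u hu a ha => hq (commutator_mem_commutator hu ha))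
    (by rw [centralizer_subgroupOf hAL]; exact comap_mono hY) (fun g hg => ?_) fun h => hn ?_))
  · rw [← e, conj_subgroupOf] at hg
    rw [← e]
    exact hu g fun a ha => hg (show (⟨a, hAL ha⟩ : L) ∈ A.subgroupOf L from ha)
  · rwa [← e, subgroupOf_eq_top] at h

omit hp2 hm hm0 in
theorem family {G : Type*} [Group G] [Finite G] {S M : Subgroup G} (hS : IsSylowIn p S ⊤) (hN : N(J 0 S) ≤ M)
    (F : Subgroup G → Prop) (F1 : ∀ T, F T → T ≤ S)
    (F2 : ∀ T T', F T → T ≤ T' → T' ≤ S → F T') (F3 : ∀ T g, F T → T ^ᶜ g ≤ S → F (T ^ᶜ g))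
    (step : ∀ T P, F T → T ≤ P → P ≤ S → IsSylowIn p P N(J 0 T) → N(J 0 P) ≤ M → N(J 0 T) ≤ M)
    {T : Subgroup G} (hT : F T) {g : G} (hg : T ^ᶜ g ≤ S) : g ∈ M := by
  have key : ∀ (k : ℕ) (T : Subgroup G), F T → Nat.card S < Nat.card T + k →
      N(J 0 T) ≤ M ∧ ∀ g, T ^ᶜ g ≤ S → g ∈ M := by
    intro k
    induction k with
    | zero => exact fun T hT h => absurd (card_le_of_le (F1 T hT)) (by omega)
    | succ k ihm =>
      intro T hT hc
      rcases (F1 T hT).eq_or_lt with rfl | hlt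
      · exact ⟨hN, fun g hg => hN (normalizer_le_normalizer_J 0 _ (mem_normalizer_of_conj_le hg))⟩
      have big : ∀ T' g, F T' → T ^ᶜ g < T' → N(J 0 T') ≤ M ∧ ∀ g, T' ^ᶜ g ≤ S → g ∈ M := fun T' g h1 h2 =>
        ihm T' h1 (by have := card_lt_of_lt h2; rw [card_conj] at this; omega)
      have l1 := lt_inf_normalizer hS.isPGroup hlt
      obtain ⟨P, hP, hTP⟩ := exists_isSylowIn_ge (inf_le_right.trans (normalizer_le_normalizer_J 0 T) :
        S ⊓ N(T) ≤ _) (hS.isPGroup.to_le inf_le_left)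
      obtain ⟨h, -, hh⟩ := hS.exists_conj_le le_top hP.isPGroup
      have hh1 : h ∈ M :=
        (big _ 1 (F2 _ _ hT l1.le inf_le_left) (by rwa [conj_one])).2 h ((conj_mono h hTP).trans hh)
      have l2 : T ^ᶜ h < P ^ᶜ h := conj_lt_conj_iff.mpr (l1.trans_le hTP)
      have hTh := F3 T h hT (l2.le.trans hh)
      have hP' := hP.conj h
      rw [conj_normalizer, conj_J] at hP'
      have c1 : N(J 0 T) ≤ M := by
        rw [← conj_le_conj_iff (g := h), conj_normalizer, conj_J, conj_eq_of_mem hh1]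
        exact step _ _ hTh l2.le hh hP' (big _ h (F2 _ _ hTh l2.le hh) l2).1
      refine ⟨c1, fun g hg => ?_⟩
      have l3 : T ^ᶜ g < S := lt_of_le_of_ne hg fun e => by
        have := card_lt_of_lt hlt
        rw [← e, card_conj] at this
        exact lt_irrefl _ this
      have l4 := lt_inf_normalizer hS.isPGroup l3
      obtain ⟨l, hl, hl'⟩ := hP.exists_conj_le (Q := (S ⊓ N(T ^ᶜ g)) ^ᶜ g⁻¹) (by
          rw [← conj_normalizer, conj_inf, conj_conj_inv]
          exact inf_le_right.trans (normalizer_le_normalizer_J 0 T))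
        (isPGroup_conj (hS.isPGroup.to_le inf_le_left) _)
      have h3 := (big _ g (F2 _ _ (F3 T g hT hg) l4.le inf_le_left) l4).2 (h * (l * g⁻¹))
        (by rw [← conj_conj, ← conj_conj]; exact (conj_mono h hl').trans hh)
      rwa [mul_mem_cancel_left hh1, mul_mem_cancel_left (c1 hl), inv_mem_iff] at h3
  exact (key (Nat.card S + 1) T hT (by omega)).2 g hg

/-- the local statement -/
def Q (p m : ℕ) [Fact p.Prime] (G : Type*) [Group G] : Prop :=
  ∀ S Y B : Subgroup G, IsSylowIn p S ⊤ → B.Normal → B ≤ S → Y ≤ ZJ 0 S ⊓ B → N(J 0 S) ≤ N(Y) → N(Y) ≠ ⊤ →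
    Con p m Y N(Y)

omit hp2 hm hm0 in
theorem Q.apply {G : Type*} [Group G] {L T Y B : Subgroup G} (h : Q p m L) (hT : IsSylowIn p T L)
    (hB : L ≤ N(B)) (hBT : B ≤ T) (hY : Y ≤ ZJ 0 T ⊓ B) (hN : L ⊓ N(J 0 T) ≤ N(Y)) (hn : ¬ L ≤ N(Y)) :
    Con p m Y N(Y) := by
  have e := subgroupOf_normalizer_eq ((hY.trans inf_le_right).trans (hBT.trans hT.le))
  refine Con.of_subgroupOf (L := L) (e ▸ h (T.subgroupOf L) (Y.subgroupOf L) (B.subgroupOf L)
    (by simpa using hT.subgroupOf le_rfl) (normal_subgroupOf_of_le hB) (comap_mono hBT) ?_ ?_ fun h => hn ?_)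
  · rw [ZJ_subgroupOf hT.le]; exact comap_mono hY
  · rw [J_subgroupOf hT.le, ← subgroupOf_normalizer_eq ((J_le _ _).trans hT.le), ← e]
    exact fun g hg => hN ⟨g.2, hg⟩
  · rwa [← e, subgroupOf_eq_top] at h

theorem q (G : Type u) [Group G] [Finite G] : Q p m G := by
  refine SolvBasic.card_induction (P := fun G _ _ => Q p m G) ?_ G
  intro G _ _ ih S Y₀ B₀ hS hB₀ hB₀S hY₀ hN₀ hn₀
  have ih' : ∀ L : Subgroup G, L ≠ ⊤ → Q p m L := fun L hL => ih L (SolvBasic.card_lt_of_ne_top hL)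
  set Q := pCore p G
  have hQS : Q ≤ S := hS.pCore_le
  by_contra hc₀
  obtain ⟨Y, ⟨hY, hN, hn, hc⟩, hmin⟩ := (Set.toFinite {Y : Subgroup G | Y ≤ ZJ 0 S ⊓ Q ∧ N(J 0 S) ≤ N(Y) ∧
    N(Y) ≠ ⊤ ∧ ¬ Con p m Y N(Y)}).exists_minimal ⟨Y₀, hY₀.trans (inf_le_inf_left _
      (le_pCore hB₀ (hS.isPGroup.to_le hB₀S))), hN₀, hn₀, hc₀⟩
  have sub : ∀ L : Subgroup G, L ≠ ⊤ → S ≤ L → L ≤ N(Y) := fun L h1 h2 => by
    by_contra h
    exact hc ((ih' L h1).apply (hS.of_le h2 le_top) le_normalizer_of_normal hQS hY (inf_le_right.trans hN) h)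
  have hSJ : S ≤ N(J 0 S) := le_normalizer.trans (normalizer_le_normalizer_J 0 S)
  set B := nclIn Y ⊤
  have hBn : B.Normal := normal_iff_top_le.mpr (le_normalizer_nclIn _ _)
  have hBQ : B ≤ Q := nclIn_le (hY.trans inf_le_right) le_normalizer_of_normal
  have hYB : Y ≤ B := le_nclIn _ _
  have hBp := hS.isPGroup.to_le (hBQ.trans hQS)
  have hn1 : (Y ⊓ ⁅B, Q⁆).Normal := by
    have h1 : N(J 0 S) ≤ N(Y ⊓ ⁅B, Q⁆) := le_normalizer_inf hN le_normalizer_of_normal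
    rw [← normalizer_eq_top_iff]
    by_contra h
    have h2 := hmin ⟨inf_le_left.trans hY, h1, h, fun h' => hc (h'.mono inf_le_left (sub _ h (hSJ.trans h1)))⟩
      inf_le_left
    refine (commutator_lt (pCore_isPGroup p G) hBp le_normalizer_of_normal fun e => hn ?_).not_ge
      (nclIn_le (h2.trans inf_le_right) le_normalizer_of_normal)
    rw [le_bot_iff.mp (hYB.trans e.le), normalizer_eq_top_iff]; infer_instance
  have hBY : ⁅B, Q⁆ ≤ Y := by
    refine le_trans ?_ (inf_le_left : Y ⊓ ⁅B, Q⁆ ≤ Y)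
    rw [commutator_comm B Q] at hn1 ⊢
    exact commutator_nclIn_le le_normalizer_of_normal le_normalizer_of_normal le_normalizer_of_normal
      (le_inf (commutator_le_right_of_le_normalizer (hQS.trans (hSJ.trans hN))) (commutator_mono le_rfl hYB))
  have hB' : ⁅B, B⁆ ≤ Y := (commutator_mono le_rfl hBQ).trans hBY
  have hYZ : Y ≤ ZJ 0 S := hY.trans inf_le_left
  have hB2 : ⁅⁅B, B⁆, B⁆ = ⊥ := commutator_eq_bot_iff_le_centralizer'.mpr
    (nclIn_le_centralizer le_normalizer_of_normal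
      (hYZ.trans ((abExp_ZJ 0 S).le_centralizer.trans (centralizer_anti (hB'.trans hYZ)))))
  have hJ : ¬ J 0 S ≤ Q := fun hJ => by
    rw [← J_eq_of_J_le hJ hQS] at hN
    exact hn (top_le_iff.mp (((normal_iff_top_le.mp inferInstance).trans
      (normalizer_le_normalizer_J 0 Q)).trans hN))
  rw [J_le_iff] at hJ
  push Not at hJ
  obtain ⟨A, hA, hAQ⟩ := hJ
  obtain ⟨A, hA, hAQ, hmax⟩ := exists_maxAb_max B (fun A => ¬ A ≤ Q) hA hAQ
  have hBA : B ≤ N(A) := by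
    by_contra h
    obtain ⟨A', s1, s2, s3, -⟩ := hA.glauberman_replacement hp2 hS.isPGroup (hBQ.trans hQS) hB2
      ((hB'.trans hYZ).trans hA.ZJ_le) le_normalizer_of_normal h
    have h1 := not_not.mp (hmax A' s1 s2)
    exact h ((nclIn_le (hYZ.trans (s1.ZJ_le_ZJ h1 hQS)) ((normal_iff_top_le.mp inferInstance).trans
      (normalizer_le_normalizer_ZJ 0 Q))).trans ((s1.of_le h1 hQS).ZJ_le.trans s3))
  have hAp := hS.isPGroup.to_le hA.le
  have hu : ∀ g, A ≤ N(Y) ^ᶜ g → g ∈ N(Y) := fun g hg => by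
    obtain ⟨k, hk, hk'⟩ := (hS.of_le (hSJ.trans hN) le_top).exists_conj_le (le_conj_iff_conj_inv_le.mp hg)
      (isPGroup_conj hAp _)
    have := family hS hN (fun T => T ≤ S ∧ ∃ A, MaxAb 0 S A ∧ ¬ A ≤ Q ∧ A ≤ T) (fun _ h => h.1)
      (fun T T' ⟨_, A, h1, h2, h3⟩ h4 h5 => ⟨h5, A, h1, h2, h3.trans h4⟩)
      (fun T g ⟨_, A, h1, h2, h3⟩ h4 => ⟨h4, A ^ᶜ g, h1.of_card_le ((conj_mono g h3).trans h4)
        (h1.abExp.map _) (card_conj A g).ge,
        fun e => h2 (by simpa only [conj_conj_inv] using conj_le_of_normal e g⁻¹), conj_mono g h3⟩)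
      (fun T P ⟨h0, A, h1, h2, h3⟩ h4 h5 h6 h7 => ?_) (T := A) ⟨hA.le, A, hA, hAQ, le_rfl⟩ (g := k * g⁻¹)
      (by rwa [← conj_conj])
    · rwa [mul_mem_cancel_left hk, inv_mem_iff] at this
    by_contra h
    refine hc ((ih' _ fun e => h2 ((h1.of_le h3 h0).le_J.trans (le_pCore (normalizer_eq_top_iff.mp e)
      (hS.isPGroup.to_le ((J_le _ _).trans h0))))).apply h6 le_rfl ((J_le _ _).trans h4) (le_inf
      (hYZ.trans (h1.ZJ_le_ZJ (h3.trans h4) h5)) ((hYZ.trans h1.ZJ_le).trans (h1.of_le h3 h0).le_J))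
      (inf_le_right.trans h7) h)
  set π := QuotientGroup.mk' ⁅B, B⁆
  have hπ : Function.Surjective π := QuotientGroup.mk'_surjective _
  have e0 : (Y.map π).comap π = Y := by rw [SolvBasic.comap_map_mk, sup_eq_left.mpr hB']
  have e1 : N(Y.map π).comap π = N(Y) := by rw [comap_normalizer_eq_of_surjective _ hπ, e0]
  have e2 : N(Y).map π = N(Y.map π) := by rw [← e1, map_comap_eq_self_of_surjective hπ]
  refine hc (Con.of_map π ((abExp_ZJ 0 S).mono hYZ).1 le_rfl (e2 ▸ config hp2 hm hm0 _ (B.map π) (A.map π)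
    (Y.map π) (hBn.map π hπ) ?_ (hBp.map π) (hAp.map π) ?_ (le_inf (map_mono hYB)
      ((map_mono ((hYZ.trans hA.ZJ_le).trans hA.abExp.le_centralizer)).trans (map_centralizer_le π A)))
      (fun g hg => ?_) fun h => hn (by rw [← e1, h, comap_top])))
  · have := (SolvBasic.map_mk_eq_bot_iff ⁅B, B⁆ _).mpr le_rfl
    rw [map_commutator] at this
    exact fun r hr s hs => commutator_eq_bot_iff_le_centralizer.mp this hs r hr
  · rw [← map_commutator]
    exact (map_mono (commutator_eq_bot_iff_le_centralizer.mp (quadratic_of_le_normalizer hA.abExp.1 hBA))).trans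
      (map_centralizer_le π A)
  · obtain ⟨g, rfl⟩ := hπ g
    rw [← e2] at hg ⊢
    refine mem_map_of_mem π (hu g ((map_le_iff_le_comap.mp hg).trans ?_))
    rw [← map_conj, SolvBasic.comap_map_mk, sup_le_iff, and_iff_right le_rfl, le_conj_iff_conj_inv_le,
      conj_eq_of_normal]
    exact hB'.trans le_normalizer

theorem main (G : Type u) [Group G] [Finite G] : ∀ S : Subgroup G, IsSylowIn p S ⊤ →
    ¬ Ctrl ⊤ N(ZJ 0 S) S → Con p m (ZJ 0 S) N(ZJ 0 S) := by
  refine SolvBasic.card_induction (P := fun G _ _ => ∀ S : Subgroup G, IsSylowIn p S ⊤ →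
    ¬ Ctrl ⊤ N(ZJ 0 S) S → Con p m (ZJ 0 S) N(ZJ 0 S)) ?_ G
  intro G _ _ ih S hS hn
  by_contra hc
  set Z := ZJ 0 S with hZ
  have hZS : Z ≤ S := ZJ_le 0 S
  have hZc : ∀ u ∈ Z, ∀ v ∈ Z, u * v = v * u := (abExp_ZJ 0 S).1
  have hSZ : N(S) ≤ N(Z) := normalizer_le_normalizer_ZJ 0 S
  set Z₀ := Z.normalCore
  have K : ∀ Y ≤ Z, ¬ Y ≤ Z₀ → ∃ P, IsSylowIn p P N(Y) ∧ S ⊓ N(Y) ≤ P ∧ P ≤ N(Z) ∧ Ctrl N(Y) N(Z) P := by
    intro Y hY h0
    obtain ⟨P, hP, hSP⟩ := exists_isSylowIn_ge (inf_le_right : S ⊓ N(Y) ≤ _) (hS.isPGroup.to_le inf_le_left)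
    have hJ : J 0 S ≤ P := le_trans (le_inf (J_le _ _) (le_normalizer_of_le_centralizer
      ((J_le_centralizer_ZJ 0 S).trans (centralizer_anti hY)))) hSP
    obtain ⟨g, -, hg⟩ := hS.exists_conj_le le_top hP.isPGroup
    have e1 := conj_J_eq_of_le ((conj_mono g hJ).trans hg)
    have e2 : ZJ 0 P = Z := by
      rw [← conj_inj (g := g), conj_ZJ, ZJ_eq_of_J_le (e1.ge.trans (conj_mono g hJ)) hg,
        conj_eq_of_mem_normalizer (normalizer_J_le_normalizer_ZJ 0 S (mem_normalizer_iff_conj_eq.mpr e1))]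
    refine ⟨P, hP, hSP, e2 ▸ le_normalizer.trans (normalizer_le_normalizer_ZJ 0 P), ?_⟩
    have e3 : N(ZJ 0 (P.subgroupOf N(Y))) = N(Z).subgroupOf N(Y) := by
      rw [ZJ_subgroupOf hP.le, e2, subgroupOf_normalizer_eq (e2 ▸ (ZJ_le 0 P).trans hP.le)]
    refine (ctrl_of_subgroupOf hP.le ?_).mono le_rfl inf_le_left le_rfl
    by_contra h
    have := ih N(Y) (SolvBasic.card_lt_of_ne_top fun e => h0 ((@normal_le_normalCore _ _ _ Y
      (normalizer_eq_top_iff.mp e)).mpr hY)) _ (by simpa using hP.subgroupOf le_rfl) (e3 ▸ h)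
    rw [e3, ZJ_subgroupOf hP.le, e2] at this
    exact hc this.of_subgroupOf
  have K1 : ∀ Y ≤ Z, ¬ Y ≤ Z₀ → ∀ B ≤ S ⊓ N(Y), N(Y) ⊓ N(B) ≤ N(Z ⊓ B) := fun Y hY h0 B hB l hl => by
    obtain ⟨P, -, h1, -, h2⟩ := K Y hY h0
    obtain ⟨x, hx, e⟩ := h2 B l hl.1 (hB.trans h1) ((conj_eq_of_mem_normalizer hl.2).le.trans (hB.trans h1))
    refine mem_normalizer_of_conj_le (conj_le_iff.mpr fun u hu => ⟨?_, (mem_normalizer_iff.mp hl.2 u).mp hu.2⟩)
    rw [e u hu.2]; exact (mem_normalizer_iff.mp hx u).mp hu.1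
  have K2 : ∀ Y ≤ Z, ¬ Y ≤ Z₀ → ¬ Con p m Y N(Y) := fun Y hY h0 h => by
    obtain ⟨P, hP, h1, h2, h3⟩ := K Y hY h0
    obtain ⟨c, hcY, c1, t, ht, e⟩ := h.1
    have hcP : c ∈ P := h1 ⟨hZS (hY hcY), le_normalizer hcY⟩
    obtain ⟨x, hx, e'⟩ := h3.exists_conj hcP ht (e ▸ pow_mem hcP m)
    exact hc ⟨⟨c, hY hcY, c1, x, hx, e' ▸ e⟩, involves_F_of_ctrl hP h2 h3 h.2⟩
  obtain ⟨R, ⟨hRS, hRe, hRc, hRn⟩, hRmax⟩ := Set.exists_max_image {R : Subgroup G | R < S ∧ IsExtremal p S R ∧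
      IsCentricRadical S R ∧ ¬ N(R) ≤ N(Z ⊓ R)} (fun R => Nat.card R) (Set.toFinite _) (by
    by_contra h
    rw [Set.not_nonempty_iff_eq_empty, Set.eq_empty_iff_forall_notMem] at h
    refine hn fun A g _ hA hg => TransferAlperin.alperin_centric_radical hS.toSylowTop (InducedBy N(Z))
      (fun A B g h1 _ _ h2 => h2.mono h1) (fun A g h _ _ _ h1 h2 => ?_) (fun n hn => ⟨n, hSZ hn, fun _ _ => rfl⟩)
      (fun A _ c hc => ⟨1, one_mem _, fun a ha => by rw [← hc a ha]; group⟩) (fun R h1 h2 h3 n hn => ?_) A g hA hg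
    · obtain ⟨x, hx, e1⟩ := h1
      obtain ⟨y, hy, e2⟩ := h2
      refine ⟨y * x, mul_mem hy hx, fun a ha => ?_⟩
      have := e2 _ (conj_mem_conj h ha)
      rw [show g * h * a * (g * h)⁻¹ = g * (h * a * h⁻¹) * g⁻¹ by group, this, e1 a ha]; group
    have h4 : N(R) ≤ N(Z ⊓ R) := not_not.mp fun e => h R ⟨h1, h2, h3, e⟩
    have h5 : Z ≤ R := le_of_inf_normalizer_le hS.isPGroup h1.le hZS (h1.le.trans (le_normalizer.trans hSZ))
      fun x hx => mem_of_centricRadical hS.isPGroup h2 h3 h4 (hZS hx.1) hx.2 (fun u hu => hZc u hu.1 x hx.1)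
        fun r hr => ⟨commutator_le_right_of_le_normalizer (h1.le.trans (le_normalizer.trans hSZ))
          (commutator_mem_commutator hr hx.1), commutator_le_left_of_le_normalizer (zpowers_le.mpr hx.2)
            (commutator_mem_commutator hr (mem_zpowers x))⟩
    rw [inf_eq_left.mpr h5] at h4
    exact ⟨n, h4 hn, fun _ _ => rfl⟩)
  have big : ∀ (A : Subgroup G) (g : G), A ≤ S → A ^ᶜ g ≤ S → Nat.card R < Nat.card A →
      ∀ z ∈ Z ⊓ A, g * z * g⁻¹ ∈ Z := fun A g hA hg =>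
    TransferAlperin.alperin_centric_radical hS.toSylowTop
      (fun A g => Nat.card R < Nat.card A → ∀ z ∈ Z ⊓ A, g * z * g⁻¹ ∈ Z)
      (fun A B g h1 _ _ h2 h3 z hz => h2 (h3.trans_le (card_le_of_le h1)) z ⟨hz.1, h1 hz.2⟩)
      (fun A g h _ _ _ h1 h2 h3 z hz => by
        rw [show g * h * z * (g * h)⁻¹ = g * (h * z * h⁻¹) * g⁻¹ by group]
        exact h2 (h3.trans_eq (card_conj A h).symm) _ ⟨h1 h3 z hz, conj_mem_conj h hz.2⟩)
      (fun n hn _ z hz => (mem_normalizer_iff.mp (hSZ hn) z).mp hz.1)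
      (fun A _ c hc _ z hz => by rw [← hc z hz.2, mul_inv_cancel_right]; exact hz.1)
      (fun R' h1 h2 h3 n hn h4 z hz => ((mem_normalizer_iff.mp ((not_not.mp fun e =>
        (hRmax R' ⟨h1, h2, h3, e⟩).not_gt h4 : N(R') ≤ N(Z ⊓ R')) hn) z).mp hz).1) A g hA hg
  have hZ₀ : Z₀ ≤ Z := normalCore_le Z
  obtain ⟨B, ⟨h0B, hBS, hBr, hBn⟩, hBmax⟩ := Set.exists_max_image {B : Subgroup G | Z₀ ≤ B ∧ B ≤ S ∧
      Nat.card R < Nat.card ↥(S ⊓ N(B)) ∧ ¬ N(B) ≤ N(Z ⊓ B)} (fun B => Nat.card ↥(S ⊓ N(B))) (Set.toFinite _)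
    ⟨R, le_of_inf_normalizer_le hS.isPGroup hRS.le (hZ₀.trans hZS) le_normalizer_of_normal
      ((le_inf (inf_le_left.trans (hZ₀.trans hZS)) le_rfl).trans (le_of_centricRadical hS.isPGroup hRe hRc
        inf_le_right (le_normalizer_inf le_normalizer_of_normal le_normalizer) (by
          rw [pResidualOf_eq_bot_of_isPGroup (hS.isPGroup.to_le (inf_le_left.trans (hZ₀.trans hZS)))]
          exact bot_le))), hRS.le, card_lt_of_lt (lt_inf_normalizer hS.isPGroup hRS), hRn⟩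
  set T := S ⊓ N(B)
  have hBT : B ≤ T := le_inf hBS le_normalizer
  have hT : IsSylowIn p T N(B) := by
    obtain ⟨P, hP, hTP⟩ := exists_isSylowIn_ge (inf_le_right : T ≤ _) (hS.isPGroup.to_le inf_le_left)
    obtain ⟨g, -, hg⟩ := hS.exists_conj_le le_top hP.isPGroup
    have h1 : T ^ᶜ g ≤ S := (conj_mono g hTP).trans hg
    have h2 : P ^ᶜ g ≤ S ⊓ N(B ^ᶜ g) := le_inf hg (conj_normalizer B g ▸ conj_mono g hP.le)
    have h3 := card_le_of_le h2
    rw [card_conj] at h3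
    have e : (Z ⊓ B) ^ᶜ g = Z ⊓ B ^ᶜ g := by
      refine le_antisymm (le_inf (conj_le_iff.mpr fun z hz => big T g inf_le_left h1 hBr z ⟨hz.1, hBT hz.2⟩)
        (conj_mono g inf_le_right)) fun z hz => mem_conj_iff.mpr ⟨?_, mem_conj_iff.mp hz.2⟩
      simpa using big (T ^ᶜ g) g⁻¹ h1 (by rw [conj_conj_inv]; exact inf_le_left) (by rwa [card_conj]) z
        ⟨hz.1, conj_mono g hBT hz.2⟩
    have h4 := hBmax (B ^ᶜ g) ⟨(conj_eq_of_normal Z₀ g).ge.trans (conj_mono g h0B), (conj_mono g hBT).trans h1,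
      hBr.trans_le ((card_le_of_le hTP).trans h3), fun h => hBn (by
        rwa [← e, ← conj_normalizer, ← conj_normalizer, conj_le_conj_iff] at h)⟩
    rwa [show T = P from eq_of_le_of_card_le hTP (h3.trans h4)]
  have h0 : ¬ Z ⊓ B ≤ Z₀ := fun h => hBn (by
    rw [le_antisymm h (le_inf hZ₀ h0B)]; exact le_normalizer_of_normal)
  rcases (inf_le_left : T ≤ S).eq_or_lt with hTS | hTS
  · rw [show T = S from hTS] at hT
    exact K2 _ inf_le_left h0 ((q hp2 hm hm0 N(B)).apply hT le_rfl hBS le_rfl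
      (le_normalizer_inf (inf_le_right.trans (normalizer_J_le_normalizer_ZJ 0 S)) inf_le_left) hBn)
  set π := QuotientGroup.mk' Z₀
  have hπ : Function.Surjective π := QuotientGroup.mk'_surjective _
  have hT' := hT.map π
  set B₁ := (ZJ 0 (T.map π)).comap π
  have h0B₁ : Z₀ ≤ B₁ := SolvBasic.le_comap_mk _ _
  have hB₁ : B₁ ≤ T := (comap_mono (ZJ_le _ _)).trans (by
    rw [SolvBasic.comap_map_mk]; exact sup_le le_rfl (h0B.trans hBT))
  have hB₁n : N(B₁) ≤ N(Z ⊓ B₁) := by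
    by_contra h
    have h1 : T < S ⊓ N(B₁) := (lt_inf_normalizer hS.isPGroup hTS).trans_le (inf_le_inf_left _
      ((le_comap_map π _).trans (le_normalizer_comap π ((le_normalizer_map π le_rfl).trans
        (normalizer_le_normalizer_ZJ 0 _)))))
    exact (hBmax B₁ ⟨h0B₁, hB₁.trans hTS.le, hBr.trans (card_lt_of_lt h1), h⟩).not_gt (card_lt_of_lt h1)
  set Y := (Z ⊓ B₁) ⊓ B
  have hYZ : Y ≤ Z := inf_le_left.trans inf_le_left
  have h0Y : Z₀ ≤ Y := le_inf (le_inf hZ₀ h0B₁) h0B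
  have hTZ : T ≤ N(Z ⊓ B) := le_normalizer_inf (hTS.le.trans (le_normalizer.trans hSZ)) inf_le_right
  have h1 : ¬ Y ≤ Z₀ := fun h => by
    obtain ⟨_, ⟨y, hy, rfl⟩, h2, h3, -⟩ := exists_mem_centralizer_pow_eq_one hT'.isPGroup
      ((hS.isPGroup.to_le (inf_le_left.trans hZS : Z ⊓ B ≤ S)).map π) (le_normalizer_map π hTZ)
      fun e => h0 ((SolvBasic.map_mk_eq_bot_iff _ _).mp e)
    exact h3 ((QuotientGroup.eq_one_iff y).mpr (h ⟨⟨hy.1, inf_centralizer_le_ZJ _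
      ⟨mem_map_of_mem π (hBT hy.2), h2⟩⟩, hy.2⟩))
  have e0 : (Y.map π).comap π = Y := by rw [SolvBasic.comap_map_mk, sup_eq_left.mpr h0Y]
  have e1 : N(Y.map π).comap π = N(Y) := by rw [comap_normalizer_eq_of_surjective _ hπ, e0]
  have e2 : N(Y).map π = N(Y.map π) := by rw [← e1, map_comap_eq_self_of_surjective hπ]
  refine K2 Y hYZ h1 (Con.of_map π (fun u hu v hv => hZc u (hYZ hu) v (hYZ hv)) le_rfl
    (e2 ▸ (q hp2 hm hm0 (N(B).map π)).apply hT' (le_normalizer_map π le_rfl) (map_mono hBT)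
      (le_inf (map_le_iff_le_comap.mpr (inf_le_left.trans inf_le_right)) (map_mono inf_le_right)) ?_ fun h => hBn ?_))
  · rintro _ ⟨⟨l, hl, rfl⟩, hl'⟩
    refine e2 ▸ mem_map_of_mem π (le_normalizer_inf (L := N(B₁) ⊓ N(B)) (inf_le_left.trans hB₁n) inf_le_right ⟨?_, hl⟩)
    exact le_normalizer_comap π le_rfl (normalizer_J_le_normalizer_ZJ 0 _ hl')
  · have h2 : N(B) ≤ N(Y) := e1 ▸ map_le_iff_le_comap.mp h
    exact (le_inf h2 le_rfl).trans (K1 Y hYZ h1 B (le_inf hBS (le_normalizer.trans h2)))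

end Cfsg.Agent.Lib.ZJFail
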